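import Mathlib
import Cfsg.Agent.Lib.Char.FS2
import Cfsg.Agent.Lib.Solv.PGroup

set_option autoImplicit false
set_option linter.all false

open Cfsg Subgroup
open scoped ComplexConjugate

namespace CfsgLib.Char

universe u

section
variable {G : Type u} [Group G] [Fintype G]

theorem hom_norm_one (l : G →* ℂˣ) (g : G) : ‖((l g : ℂˣ) : ℂ)‖ = 1 := by
  have h : ((l g : ℂˣ) : ℂ) ^ (Nat.card G) = 1 := by
    have h1 : (l g) ^ (Nat.card G) = 1 := by
      rw [← map_pow, pow_card_eq_one', map_one]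
    have h2 := congrArg (fun u : ℂˣ => (u : ℂ)) h1
    simpa using h2
  exact Complex.norm_eq_one_of_pow_eq_one h Nat.card_pos.ne'

theorem hom_mul_conj (l : G →* ℂˣ) (g : G) : ((l g : ℂˣ) : ℂ) * conj ((l g : ℂˣ) : ℂ) = 1 := by
  rw [Complex.mul_conj, Complex.normSq_eq_norm_sq, hom_norm_one]
  simp

theorem isIrr_hom_mul' (l : G →* ℂˣ) {χ : G → ℂ} (hχ : IsIrrCharacter G χ) :
    IsIrrCharacter G (fun g => ((l g : ℂˣ) : ℂ) * χ g) := by
  have h1 : IsCharacter G (fun g => ((l g : ℂˣ) : ℂ)) := (isIrr_of_hom l).isCharacter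
  have h2 := h1.mul hχ.isCharacter
  have h3 : ((fun g => ((l g : ℂˣ) : ℂ)) * χ) = (fun g => ((l g : ℂˣ) : ℂ) * χ g) := rfl
  rw [h3] at h2
  apply h2.isIrr_of_norm
  have h4 := classInner_irr_self hχ
  rw [classInner_def] at h4 ⊢
  rw [← h4]
  congr 1
  refine Finset.sum_congr rfl fun g _ => ?_
  rw [map_mul]
  have := hom_mul_conj l g
  calc ((l g : ℂˣ) : ℂ) * χ g * (conj ((l g : ℂˣ) : ℂ) * conj (χ g))
      = (((l g : ℂˣ) : ℂ) * conj ((l g : ℂˣ) : ℂ)) * (χ g * conj (χ g)) := by ring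
    _ = χ g * conj (χ g) := by rw [this, one_mul]

theorem even_card_of_involution {X : Type*} [Finite X] (f : X → X) (h1 : ∀ x, f (f x) = x)
    (h2 : ∀ x, f x ≠ x) : Even (Nat.card X) := by
  classical
  letI := Fintype.ofFinite X
  have h := Finset.sum_involution (s := (Finset.univ : Finset X)) (f := fun _ => (1 : ZMod 2))
    (fun a _ => f a) (by intro a _; decide) (by intro a _ _; exact h2 a) (by intro a _; exact Finset.mem_univ _)
    (by intro a _; exact h1 a)
  rw [Finset.sum_const, Finset.card_univ] at h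
  simp only [nsmul_eq_mul, mul_one] at h
  rw [Nat.card_eq_fintype_card]
  exact (ZMod.natCast_eq_zero_iff_even).mp h

/-- Homs with square one. -/
def realHoms (G : Type u) [Group G] : Subgroup (G →* ℂˣ) where
  carrier := {l | ∀ g, l g * l g = 1}
  mul_mem' := by
    intro a b ha hb g
    have h1 := ha g
    have h2 := hb g
    simp only [MonoidHom.mul_apply]
    calc a g * b g * (a g * b g) = (a g * a g) * (b g * b g) := by
          rw [mul_mul_mul_comm]
      _ = 1 := by rw [h1, h2, one_mul]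
  one_mem' := by intro g; simp
  inv_mem' := by
    intro a ha g
    have h1 := ha g
    simp only [MonoidHom.inv_apply]
    rw [← mul_inv_rev, h1, inv_one]

theorem realHoms_val (l : realHoms G) (g : G) :
    ((l.1 g : ℂˣ) : ℂ) = 1 ∨ ((l.1 g : ℂˣ) : ℂ) = -1 := by
  have h := l.2 g
  have h2 := congrArg (fun u : ℂˣ => (u : ℂ)) h
  simp only [Units.val_mul, Units.val_one] at h2
  exact mul_self_eq_one_iff.mp h2

theorem im_real_mul (l : realHoms G) (g : G) (z : ℂ) (hz : z.im = 0) :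
    (((l.1 g : ℂˣ) : ℂ) * z).im = 0 := by
  rcases realHoms_val l g with h | h <;> rw [h] <;> simp [hz]

instance finite_homs : Finite (G →* ℂˣ) := by
  classical
  exact Finite.of_equiv _ (linearEquivHom (G := G))

/-- The real degree-two irreducibles. -/
def RealTwo (G : Type u) [Group G] [Fintype G] : Type u :=
  {χ : IrrCharacter G // (∀ g, ((χ : G → ℂ) g).im = 0) ∧ (χ : G → ℂ) 1 = 2}

instance : Finite (RealTwo G) := by
  unfold RealTwo
  infer_instance

noncomputable def realTwoSMul (l : G →* ℂˣ) (χ : RealTwo G)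
    (hre : ∀ g, (((l g : ℂˣ) : ℂ) * (χ.1 : G → ℂ) g).im = 0) : RealTwo G :=
  ⟨⟨fun g => ((l g : ℂˣ) : ℂ) * (χ.1 : G → ℂ) g, isIrr_hom_mul' l χ.1.2⟩, hre, by
    have h := χ.2.2
    show ((l 1 : ℂˣ) : ℂ) * (χ.1 : G → ℂ) 1 = 2
    rw [map_one, h]
    simp⟩

noncomputable instance realTwoAction : MulAction (realHoms G) (RealTwo G) where
  smul l χ := realTwoSMul l.1 χ (fun g => im_real_mul l g _ (χ.2.1 g))
  one_smul := by
    intro χ
    apply Subtype.ext
    apply Subtype.ext
    funext g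
    show (((1 : realHoms G).1 g : ℂˣ) : ℂ) * (χ.1 : G → ℂ) g = (χ.1 : G → ℂ) g
    simp
  mul_smul := by
    intro a b χ
    apply Subtype.ext
    apply Subtype.ext
    funext g
    show (((a * b : realHoms G).1 g : ℂˣ) : ℂ) * (χ.1 : G → ℂ) g =
      ((a.1 g : ℂˣ) : ℂ) * (((b.1 g : ℂˣ) : ℂ) * (χ.1 : G → ℂ) g)
    simp [mul_assoc]

theorem realTwo_smul_apply (l : realHoms G) (χ : RealTwo G) (g : G) :
    ((l • χ).1 : G → ℂ) g = ((l.1 g : ℂˣ) : ℂ) * (χ.1 : G → ℂ) g := rfl

/-- The common kernel of the real homs. -/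
def phiSub (G : Type u) [Group G] : Subgroup G := ⨅ l : realHoms G, (l.1).ker

theorem mem_phiSub {g : G} : g ∈ phiSub G ↔ ∀ l : realHoms G, l.1 g = 1 := by
  simp [phiSub, Subgroup.mem_iInf, MonoidHom.mem_ker]

theorem fixed_vanish {χ : RealTwo G} (hχ : χ ∈ MulAction.fixedPoints (realHoms G) (RealTwo G)) {g : G}
    (hg : g ∉ phiSub G) : (χ.1 : G → ℂ) g = 0 := by
  rw [mem_phiSub] at hg
  push Not at hg
  obtain ⟨l, hl⟩ := hg
  have h1 := hχ l
  have h2 := congrFun (congrArg (fun x : RealTwo G => (x.1 : G → ℂ)) h1) g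
  simp only [realTwo_smul_apply] at h2
  have h3 : ((l.1 g : ℂˣ) : ℂ) ≠ 1 := by
    intro h
    apply hl
    exact Units.ext h
  have h4 : (((l.1 g : ℂˣ) : ℂ) - 1) * (χ.1 : G → ℂ) g = 0 := by
    rw [sub_mul, h2]; ring
  rcases mul_eq_zero.mp h4 with h5 | h5
  · exact absurd (sub_eq_zero.mp h5) h3
  · exact h5

theorem sum_norm_sq_irr {χ : G → ℂ} (hχ : IsIrrCharacter G χ) :
    ∑ g, ‖χ g‖ ^ 2 = (Nat.card G : ℝ) := by
  have h4 := classInner_irr_self hχ
  rw [classInner_def] at h4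
  have hne : (Nat.card G : ℂ) ≠ 0 := card_ne_zero_C G
  have h5 : ∑ g, χ g * conj (χ g) = (Nat.card G : ℂ) := by
    field_simp at h4
    linear_combination h4
  have h6 : ((∑ g, ‖χ g‖ ^ 2 : ℝ) : ℂ) = (Nat.card G : ℂ) := by
    rw [← h5]
    push_cast
    refine Finset.sum_congr rfl fun g _ => ?_
    rw [Complex.mul_conj, Complex.normSq_eq_norm_sq]
    push_cast
    rfl
  exact_mod_cast h6

theorem norm_le_two (χ : RealTwo G) (g : G) : ‖(χ.1 : G → ℂ) g‖ ≤ 2 := by
  have h := χ.1.2.isCharacter.norm_le g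
  rw [χ.2.2] at h
  simpa using h

open scoped Classical in
theorem fixed_index_le {χ : RealTwo G} (hχ : χ ∈ MulAction.fixedPoints (realHoms G) (RealTwo G)) :
    (phiSub G).index ≤ 4 := by
  have h1 := sum_norm_sq_irr χ.1.2
  let S := Finset.univ.filter (fun g : G => g ∈ phiSub G)
  have h2 : ∑ g, ‖(χ.1 : G → ℂ) g‖ ^ 2 = ∑ g ∈ S, ‖(χ.1 : G → ℂ) g‖ ^ 2 := by
    symm
    apply Finset.sum_subset (Finset.subset_univ _)
    intro g _ hg
    have hg' : g ∉ phiSub G := by simpa [S] using hg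
    rw [fixed_vanish hχ hg']
    simp
  have h3 : ∑ g ∈ S, ‖(χ.1 : G → ℂ) g‖ ^ 2 ≤ ∑ g ∈ S, (4 : ℝ) := by
    refine Finset.sum_le_sum fun g _ => ?_
    have := norm_le_two χ g
    have h0 := norm_nonneg ((χ.1 : G → ℂ) g)
    nlinarith
  have hS : S.card = Nat.card (phiSub G) := by
    rw [Nat.card_eq_fintype_card, Fintype.card_subtype]
  rw [Finset.sum_const, nsmul_eq_mul, hS] at h3
  have hcard := (phiSub G).card_mul_index
  have h4 : (Nat.card G : ℝ) ≤ (Nat.card (phiSub G) : ℝ) * 4 := by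
    rw [← h1, h2]; exact h3
  rw [← hcard] at h4
  push_cast at h4
  have hpos : (0 : ℝ) < Nat.card (phiSub G) := by exact_mod_cast Nat.card_pos
  have h5 : ((phiSub G).index : ℝ) ≤ 4 := by
    by_contra hcon
    push Not at hcon
    nlinarith
  exact_mod_cast h5

open scoped Classical in
theorem fixed_norm_eq {χ : RealTwo G} (hχ : χ ∈ MulAction.fixedPoints (realHoms G) (RealTwo G))
    (hidx : (phiSub G).index = 4) {g : G} (hg : g ∈ phiSub G) : (χ.1 : G → ℂ) g ≠ 0 := by
  have h1 := sum_norm_sq_irr χ.1.2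
  let S := Finset.univ.filter (fun g : G => g ∈ phiSub G)
  have h2 : ∑ g, ‖(χ.1 : G → ℂ) g‖ ^ 2 = ∑ g ∈ S, ‖(χ.1 : G → ℂ) g‖ ^ 2 := by
    symm
    apply Finset.sum_subset (Finset.subset_univ _)
    intro g _ hg
    have hg' : g ∉ phiSub G := by simpa [S] using hg
    rw [fixed_vanish hχ hg']
    simp
  have hS : S.card = Nat.card (phiSub G) := by
    rw [Nat.card_eq_fintype_card, Fintype.card_subtype]
  have hcard := (phiSub G).card_mul_index
  rw [hidx] at hcard
  have h3 : ∑ g ∈ S, ‖(χ.1 : G → ℂ) g‖ ^ 2 = ∑ g ∈ S, (4 : ℝ) := by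
    rw [← h2, h1, Finset.sum_const, nsmul_eq_mul, hS, ← hcard]
    push_cast
    ring
  have h4 := (Finset.sum_eq_sum_iff_of_le (s := S) (f := fun g => ‖(χ.1 : G → ℂ) g‖ ^ 2) (g := fun _ => (4 : ℝ))
    (by
      intro g _
      have := norm_le_two χ g
      have h0 := norm_nonneg ((χ.1 : G → ℂ) g)
      show ‖(χ.1 : G → ℂ) g‖ ^ 2 ≤ 4
      nlinarith)).mp h3
  have h5 := h4 g (by simp [S, hg])
  intro h0
  rw [h0] at h5
  simp at h5

end

section Main
variable {G : Type u} [Group G] [Fintype G]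

open scoped Classical in
noncomputable def signHom (M : Subgroup G) (hM : M.index = 2) : G →* ℂˣ :=
  MonoidHom.mk' (fun x => if x ∈ M then 1 else -1) (by
    intro a b
    by_cases ha : a ∈ M <;> by_cases hb : b ∈ M <;>
      simp [ha, hb, Subgroup.mul_mem_iff_of_index_two hM])

open scoped Classical in
theorem signHom_apply (M : Subgroup G) (hM : M.index = 2) (x : G) :
    signHom M hM x = if x ∈ M then 1 else -1 := rfl

theorem signHom_mem (M : Subgroup G) (hM : M.index = 2) : signHom M hM ∈ realHoms G := by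
  intro g
  rw [signHom_apply]
  split_ifs <;> simp

theorem signHom_eq_one_iff (M : Subgroup G) (hM : M.index = 2) (x : G) : signHom M hM x = 1 ↔ x ∈ M := by
  rw [signHom_apply]
  split_ifs with h
  · simp [h]
  · simp only [h, iff_false]
    intro h2
    have h3 := congrArg (fun u : ℂˣ => (u : ℂ)) h2
    norm_num at h3

theorem exists_two_index_two (hG : IsPGroup 2 G) (hc : ¬ IsCyclic G) :
    ∃ M M' : Subgroup G, M.index = 2 ∧ M'.index = 2 ∧ ∃ g, g ∉ M ∧ g ∈ M' := by
  have hnt : Nontrivial G := by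
    by_contra h
    rw [not_nontrivial_iff_subsingleton] at h
    exact hc inferInstance
  obtain ⟨M, hM, -⟩ := (eq_top_or_exists_le_coatom (⊥ : Subgroup G)).resolve_left bot_ne_top
  obtain ⟨g, hg⟩ : ∃ g, g ∉ M := by
    by_contra h
    push Not at h
    exact hM.1 (eq_top_iff.mpr fun x _ => h x)
  have hz : Subgroup.zpowers g ≠ ⊤ := by
    intro h
    exact hc (isCyclic_iff_exists_zpowers_eq_top.mpr ⟨g, h⟩)
  obtain ⟨M', hM', hle⟩ := (eq_top_or_exists_le_coatom (Subgroup.zpowers g)).resolve_left hz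
  haveI : Fact (Nat.Prime 2) := ⟨Nat.prime_two⟩
  exact ⟨M, M', (CfsgLib.Solv.coatom_of_pgroup hG hM).2, (CfsgLib.Solv.coatom_of_pgroup hG hM').2, g, hg,
    hle (Subgroup.mem_zpowers g)⟩

theorem phiSub_le (M : Subgroup G) (hM : M.index = 2) : phiSub G ≤ M := by
  intro x hx
  rw [mem_phiSub] at hx
  exact (signHom_eq_one_iff M hM x).mp (hx ⟨_, signHom_mem M hM⟩)

theorem four_le_index (hG : IsPGroup 2 G) {M M' : Subgroup G} (hM : M.index = 2) (hM' : M'.index = 2)
    {g : G} (hg : g ∉ M) (hg' : g ∈ M') : 4 ≤ (phiSub G).index := by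
  haveI : Fact (Nat.Prime 2) := ⟨Nat.prime_two⟩
  obtain ⟨n, hn⟩ := hG.index (phiSub G)
  have h1 := phiSub_le M hM
  have h2 := phiSub_le M' hM'
  have hn1 : n ≠ 0 := by
    rintro rfl
    have : phiSub G = ⊤ := Subgroup.index_eq_one.mp (by simpa using hn)
    rw [this] at h1
    exact hg (h1 trivial)
  have hn2 : n ≠ 1 := by
    rintro rfl
    have h3 := Subgroup.relIndex_mul_index h1
    have h4 := Subgroup.relIndex_mul_index h2
    rw [hn, hM] at h3
    rw [hn, hM'] at h4
    have h5 : (phiSub G).relIndex M = 1 := by omega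
    have h6 : (phiSub G).relIndex M' = 1 := by omega
    have h7 := Subgroup.relIndex_eq_one.mp h5
    have h8 := Subgroup.relIndex_eq_one.mp h6
    exact hg (h1 (h8 hg'))
  have : 2 ≤ n := by omega
  rw [hn]
  calc 4 = 2 ^ 2 := by norm_num
    _ ≤ 2 ^ n := Nat.pow_le_pow_right (by norm_num) this

theorem realHoms_isPGroup : IsPGroup 2 (realHoms G) := by
  intro l
  refine ⟨1, ?_⟩
  apply Subtype.ext
  ext g
  have h := l.2 g
  simp only [pow_one, sq]
  show ((l.1 * l.1) g : ℂˣ).val = 1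
  rw [MonoidHom.mul_apply, h]
  rfl

theorem four_dvd_card_realHoms {M M' : Subgroup G} (hM : M.index = 2) (hM' : M'.index = 2)
    {g : G} (hg : g ∉ M) (hg' : g ∈ M') : 4 ∣ Nat.card (realHoms G) := by
  classical
  haveI : Fact (Nat.Prime 2) := ⟨Nat.prime_two⟩
  obtain ⟨n, hn⟩ := IsPGroup.iff_card.mp (realHoms_isPGroup (G := G))
  letI : Fintype (realHoms G) := Fintype.ofFinite _
  have h3 : 2 < Nat.card (realHoms G) := by
    rw [Nat.card_eq_fintype_card, Fintype.two_lt_card_iff]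
    refine ⟨1, ⟨_, signHom_mem M hM⟩, ⟨_, signHom_mem M' hM'⟩, ?_, ?_, ?_⟩
    · intro h
      have h1 := congrArg (fun l : realHoms G => l.1 g) h
      simp only at h1
      have h2 : signHom M hM g = 1 := by
        rw [← h1]; rfl
      exact hg ((signHom_eq_one_iff M hM g).mp h2)
    · -- the second could be trivial only if M' = ⊤
      intro h
      have hne : M' ≠ ⊤ := by
        intro h2
        rw [h2, Subgroup.index_top] at hM'
        omega
      obtain ⟨x, hx⟩ : ∃ x, x ∉ M' := by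
        by_contra h3
        push Not at h3
        exact hne (eq_top_iff.mpr fun x _ => h3 x)
      have h1 := congrArg (fun l : realHoms G => l.1 x) h
      simp only at h1
      have h2 : signHom M' hM' x = 1 := by
        rw [← h1]; rfl
      exact hx ((signHom_eq_one_iff M' hM' x).mp h2)
    · intro h
      have h1 := congrArg (fun l : realHoms G => l.1 g) h
      simp only at h1
      have h2 : signHom M hM g = 1 := by
        rw [h1]
        exact (signHom_eq_one_iff M' hM' g).mpr hg'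
      exact hg ((signHom_eq_one_iff M hM g).mp h2)
  rw [hn] at h3 ⊢
  have h5 : 2 ≤ n := by
    by_contra h6
    have : n = 0 ∨ n = 1 := by omega
    rcases this with rfl | rfl <;> norm_num at h3
  calc 4 = 2 ^ 2 := by norm_num
    _ ∣ 2 ^ n := pow_dvd_pow 2 h5

/-- The Frobenius-Schur value. -/
noncomputable def nuVal (ψ : IrrCharacter G) : ℂ := (Nat.card G : ℂ)⁻¹ * ∑ s : G, (ψ : G → ℂ) (s * s)

open scoped Classical in
theorem sum_nu_eq (t : ℕ) (ht : Nat.card {x : G // orderOf x = 2} = t) :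
    ∑ ψ : IrrCharacter G, nuVal ψ * (ψ : G → ℂ) 1 = (t : ℂ) + 1 := by
  have h1 := classFunction_apply (sqRoots_class (G := G)) 1
  have h2 : sqRoots (1 : G) = (t : ℂ) + 1 := by
    unfold sqRoots
    rw [card_sq_eq_one t ht]
    push_cast
    congr!
  rw [h2] at h1
  rw [h1]
  refine Finset.sum_congr rfl fun ψ _ => ?_
  rw [classInner_sqRoots]
  congr 1
  have h3 := (fs_trichotomy ψ.2).1
  change nuVal ψ = 0 ∨ nuVal ψ = 1 ∨ nuVal ψ = -1 at h3
  change nuVal ψ = conj (nuVal ψ)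
  rcases h3 with h | h | h <;> rw [h] <;> simp

open scoped Classical in
/-- The contribution modulo four of one irreducible character. -/
noncomputable def fsG (ψ : IrrCharacter G) : ZMod 4 :=
  (if (∀ s, ((ψ : G → ℂ) s).im = 0) ∧ (ψ : G → ℂ) 1 = 1 then 1 else 0) +
    2 * (if (∀ s, ((ψ : G → ℂ) s).im = 0) ∧ (ψ : G → ℂ) 1 = 2 then 1 else 0)

open scoped Classical in
theorem fs_term (hG : IsPGroup 2 G) (ψ : IrrCharacter G) :
    ∃ a : ℤ, nuVal ψ * (ψ : G → ℂ) 1 = (a : ℂ) ∧ (a : ZMod 4) = fsG ψ := by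
  obtain ⟨d, hd0, hd⟩ := ψ.2.map_one
  have hdvd := degree_dvd_card ψ.2 hd
  obtain ⟨n, hn⟩ := IsPGroup.iff_card.mp hG
  rw [hn] at hdvd
  obtain ⟨k, -, rfl⟩ := (Nat.dvd_prime_pow Nat.prime_two).mp hdvd
  have h10 : (ψ : G → ℂ) 1 ≠ 1 → True := fun _ => trivial
  by_cases hreal : ∀ s, ((ψ : G → ℂ) s).im = 0
  · have hν : nuVal ψ = 1 ∨ nuVal ψ = -1 := by
      have h3 := (fs_trichotomy ψ.2).1
      have h4 := (fs_trichotomy ψ.2).2
      rcases h3 with h | h
      · obtain ⟨s, hs⟩ := h4.mp h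
        exact absurd (hreal s) hs
      · exact h
    rcases k with _ | _ | k
    · refine ⟨1, ?_, ?_⟩
      · have h5 := fs_odd ψ.2 hreal (2 ^ 0) hd (by norm_num)
        rw [hd]
        change nuVal ψ = 1 at h5
        rw [h5]
        simp
      · have h6 : (ψ : G → ℂ) 1 = 1 := by rw [hd]; simp
        have h7 : ¬ ((ψ : G → ℂ) 1 = 2) := by rw [h6]; norm_num
        simp [fsG, hreal, h6]
    · have h6 : (ψ : G → ℂ) 1 = 2 := by rw [hd]; simp
      rcases hν with h | h
      · refine ⟨2, by rw [h, h6]; simp, ?_⟩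
        simp [fsG, hreal, h6]
      · refine ⟨-2, by rw [h, h6]; simp, ?_⟩
        simp [fsG, hreal, h6]
        decide
    · have h6 : (ψ : G → ℂ) 1 = ((2 ^ (k + 2) : ℕ) : ℂ) := hd
      have h7 : ¬ ((ψ : G → ℂ) 1 = 1) := by
        rw [h6]
        have : (2 ^ (k + 2) : ℕ) ≠ 1 := by
          have := Nat.one_lt_two_pow (n := k + 2) (by omega)
          omega
        exact_mod_cast this
      have h8 : ¬ ((ψ : G → ℂ) 1 = 2) := by
        rw [h6]
        have : (2 ^ (k + 2) : ℕ) ≠ 2 := by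
          have h9 : 4 ≤ 2 ^ (k + 2) := by
            calc 4 = 2 ^ 2 := by norm_num
              _ ≤ 2 ^ (k + 2) := Nat.pow_le_pow_right (by norm_num) (by omega)
          omega
        exact_mod_cast this
      have h11 : fsG ψ = 0 := by simp [fsG, h7, h8]
      have h12 : ((2 ^ (k + 2) : ℕ) : ZMod 4) = 0 := by
        have h13 : (4 : ℕ) ∣ 2 ^ (k + 2) := ⟨2 ^ k, by rw [pow_add]; ring⟩
        exact (ZMod.natCast_eq_zero_iff _ 4).mpr h13
      rcases hν with h | h
      · refine ⟨((2 ^ (k + 2) : ℕ) : ℤ), by rw [h, h6]; simp, ?_⟩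
        rw [h11]
        rw [Int.cast_natCast]
        exact h12
      · refine ⟨-((2 ^ (k + 2) : ℕ) : ℤ), by rw [h, h6]; simp, ?_⟩
        rw [h11]
        push_cast
        push_cast at h12
        rw [h12, neg_zero]
  · have h4 := (fs_trichotomy ψ.2).2
    push Not at hreal
    have h5 : nuVal ψ = 0 := h4.mpr hreal
    refine ⟨0, by rw [h5]; simp, ?_⟩
    have h6 : ¬ ∀ s, ((ψ : G → ℂ) s).im = 0 := by
      push Not
      exact hreal
    simp [fsG, h6]

open scoped Classical in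
theorem card_real_linear :
    (Finset.univ.filter (fun ψ : IrrCharacter G => (∀ s, ((ψ : G → ℂ) s).im = 0) ∧ (ψ : G → ℂ) 1 = 1)).card =
      Nat.card (realHoms G) := by
  letI : Fintype (realHoms G) := Fintype.ofFinite _
  rw [Nat.card_eq_fintype_card]
  symm
  let f : realHoms G → IrrCharacter G := fun l => ⟨fun g => ((l.1 g : ℂˣ) : ℂ), isIrr_of_hom l.1⟩
  have hf : Function.Injective f := by
    intro a b h
    apply Subtype.ext
    ext g
    exact congrFun (congrArg (fun x : IrrCharacter G => (x : G → ℂ)) h) g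
  rw [← Finset.card_univ, ← Finset.card_image_of_injective _ hf]
  congr 1
  ext ψ
  simp only [Finset.mem_image, Finset.mem_univ, true_and, Finset.mem_filter]
  constructor
  · rintro ⟨l, rfl⟩
    refine ⟨fun s => ?_, by simp [f]⟩
    rcases realHoms_val l s with h | h <;> simp [f, h]
  · rintro ⟨h1, h2⟩
    obtain ⟨l, hl⟩ := exists_hom_of_degree_one ψ.2.isCharacter h2
    refine ⟨⟨l, ?_⟩, ?_⟩
    · intro g
      have h3 := h1 g
      rw [hl] at h3
      have h4 := hom_mul_conj l g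
      have h5 : conj ((l g : ℂˣ) : ℂ) = ((l g : ℂˣ) : ℂ) := Complex.conj_eq_iff_im.mpr h3
      rw [h5] at h4
      exact Units.ext h4
    · apply Subtype.ext
      exact hl.symm

open scoped Classical in
theorem card_real_two :
    (Finset.univ.filter (fun ψ : IrrCharacter G => (∀ s, ((ψ : G → ℂ) s).im = 0) ∧ (ψ : G → ℂ) 1 = 2)).card =
      Nat.card (RealTwo G) := by
  unfold RealTwo
  rw [Nat.card_eq_fintype_card, Fintype.card_subtype]

open scoped Classical in
/-- The mod-four count. -/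
theorem mod_four_count (hG : IsPGroup 2 G) (t : ℕ) (ht : Nat.card {x : G // orderOf x = 2} = t) :
    ((t + 1 : ℕ) : ZMod 4) = (Nat.card (realHoms G) : ZMod 4) + 2 * (Nat.card (RealTwo G) : ZMod 4) := by
  choose a ha1 ha2 using fs_term hG
  have h1 := sum_nu_eq (G := G) t ht
  have h2 : ((∑ ψ : IrrCharacter G, a ψ : ℤ) : ℂ) = ((t + 1 : ℕ) : ℤ) := by
    push_cast
    rw [← h1]
    exact Finset.sum_congr rfl fun ψ _ => (ha1 ψ).symm
  have h3 : (∑ ψ : IrrCharacter G, a ψ : ℤ) = ((t + 1 : ℕ) : ℤ) := by exact_mod_cast h2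
  have h4 : ((t + 1 : ℕ) : ZMod 4) = ∑ ψ : IrrCharacter G, fsG ψ := by
    have h5 := congrArg (fun z : ℤ => (z : ZMod 4)) h3
    simp only [Int.cast_sum, Int.cast_natCast] at h5
    rw [← h5]
    exact Finset.sum_congr rfl fun ψ _ => ha2 ψ
  rw [h4, ← card_real_linear, ← card_real_two]
  unfold fsG
  rw [Finset.sum_add_distrib, ← Finset.mul_sum]
  simp only [Finset.sum_boole]

theorem exists_mu (hG : IsPGroup 2 G) (Φ : Subgroup G) (l : G →* ℂˣ) {z : G} (hz : z ∈ Φ) (hl : l z ≠ 1) :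
    ∃ μ : G →* ℂˣ, (∃ z ∈ Φ, μ z ≠ 1) ∧ ∀ z ∈ Φ, μ z * μ z = 1 := by
  have key : ∀ (k : ℕ) (l : G →* ℂˣ), (∀ z ∈ Φ, (l z) ^ (2 ^ k) = 1) → (∃ z ∈ Φ, l z ≠ 1) →
      ∃ μ : G →* ℂˣ, (∃ z ∈ Φ, μ z ≠ 1) ∧ ∀ z ∈ Φ, μ z * μ z = 1 := by
    intro k
    induction k with
    | zero =>
      rintro l h1 ⟨z, hz, hl⟩
      exact absurd (by simpa using h1 z hz) hl
    | succ k ih =>
      rintro l h1 h2
      by_cases h : ∀ z ∈ Φ, l z * l z = 1
      · exact ⟨l, h2, h⟩
      · push Not at h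
        obtain ⟨z₁, hz₁, h3⟩ := h
        apply ih (l * l)
        · intro z hz
          rw [MonoidHom.mul_apply, ← sq, ← pow_mul, ← pow_succ']
          exact h1 z hz
        · exact ⟨z₁, hz₁, h3⟩
  obtain ⟨n, hn⟩ := IsPGroup.iff_card.mp hG
  apply key n l
  · intro z _
    rw [← hn, ← map_pow, pow_card_eq_one', map_one]
  · exact ⟨z, hz, hl⟩

theorem commutator_le_phiSub : commutator G ≤ phiSub G := by
  rw [commutator_def, Subgroup.commutator_le]
  intro a _ b _
  rw [mem_phiSub]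
  intro l
  simp only [commutatorElement_def, map_mul, map_inv]
  rw [mul_comm (l.1 a) (l.1 b)]
  group

/-- Alperin–Feit–Thompson. -/
theorem aft_main (hG : IsPGroup 2 G) (ht : Nat.card {x : G // orderOf x = 2} % 4 = 1) :
    IsCyclic G ∨ (commutator G).index = 4 := by
  classical
  by_contra hcon
  push Not at hcon
  obtain ⟨hcyc, hidx⟩ := hcon
  obtain ⟨M, M', hM, hM', g, hg, hg'⟩ := exists_two_index_two hG hcyc
  have h4 := four_dvd_card_realHoms hM hM' hg hg'
  have hcount := mod_four_count hG _ rfl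
  set t := Nat.card {x : G // orderOf x = 2} with htdef
  have h5 : ((t + 1 : ℕ) : ZMod 4) = 2 := by
    have h6 : t + 1 ≡ 2 [MOD 4] := by
      unfold Nat.ModEq
      omega
    have := (ZMod.natCast_eq_natCast_iff (t + 1) 2 4).mpr h6
    rw [this]
    rfl
  have h7 : (Nat.card (realHoms G) : ZMod 4) = 0 := (ZMod.natCast_eq_zero_iff _ 4).mpr h4
  rw [h5, h7, zero_add] at hcount
  have hodd : Odd (Nat.card (RealTwo G)) := by
    by_contra h8
    rw [Nat.not_odd_iff_even] at h8
    obtain ⟨r, hr⟩ := h8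
    rw [hr] at hcount
    push_cast at hcount
    have h9 : (2 : ZMod 4) * ((r : ZMod 4) + r) = 0 := by
      have : (2 : ZMod 4) * ((r : ZMod 4) + r) = (4 : ZMod 4) * r := by ring
      rw [this]
      have h4' : (4 : ZMod 4) = 0 := by decide
      rw [h4', zero_mul]
    rw [h9] at hcount
    exact absurd hcount (by decide)
  have hmod := (realHoms_isPGroup (G := G)).card_modEq_card_fixedPoints (RealTwo G)
  have hoddF : Odd (Nat.card (MulAction.fixedPoints (realHoms G) (RealTwo G))) := by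
    rw [Nat.odd_iff] at hodd ⊢
    unfold Nat.ModEq at hmod
    omega
  have hpos : 0 < Nat.card (MulAction.fixedPoints (realHoms G) (RealTwo G)) := hoddF.pos
  obtain ⟨⟨χ₀, hχ₀⟩⟩ := (Nat.card_pos_iff.mp hpos).1
  have hΦ : (phiSub G).index = 4 :=
    le_antisymm (fixed_index_le hχ₀) (four_le_index hG hM hM' hg hg')
  obtain ⟨z, hz, hz'⟩ : ∃ z ∈ phiSub G, z ∉ commutator G := by
    by_contra h
    push Not at h
    have h10 : phiSub G = commutator G := le_antisymm h commutator_le_phiSub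
    rw [h10] at hΦ
    exact hidx hΦ
  obtain ⟨l₀, hl₀⟩ : ∃ l₀ : G →* ℂˣ, l₀ z ≠ 1 := by
    have ha : (Abelianization.of z : Abelianization G) ≠ 1 := by
      intro h
      apply hz'
      have := (QuotientGroup.eq_one_iff z).mp h
      exact this
    haveI : Finite (Abelianization G) := by
      unfold Abelianization
      infer_instance
    haveI : HasEnoughRootsOfUnity ℂ (Monoid.exponent (Abelianization G)) := inferInstance
    obtain ⟨φ, hφ⟩ := CommGroup.exists_apply_ne_one_of_hasEnoughRootsOfUnity (Abelianization G) ℂ ha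
    exact ⟨φ.comp Abelianization.of, hφ⟩
  obtain ⟨μ, ⟨z₁, hz₁, hμz⟩, hμ⟩ := exists_mu hG (phiSub G) l₀ hz hl₀
  -- the involution
  have hre : ∀ (x : MulAction.fixedPoints (realHoms G) (RealTwo G)) (g : G),
      (((μ g : ℂˣ) : ℂ) * (x.1.1 : G → ℂ) g).im = 0 := by
    intro x g
    by_cases hg : g ∈ phiSub G
    · have h11 := hμ g hg
      have h12 := congrArg (fun u : ℂˣ => (u : ℂ)) h11
      simp only [Units.val_mul, Units.val_one] at h12
      rcases mul_self_eq_one_iff.mp h12 with h | h <;> rw [h] <;> simp [x.1.2.1 g]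
    · rw [fixed_vanish x.2 hg]
      simp
  let f : MulAction.fixedPoints (realHoms G) (RealTwo G) → MulAction.fixedPoints (realHoms G) (RealTwo G) :=
    fun x => ⟨realTwoSMul μ x.1 (hre x), by
      intro l
      apply Subtype.ext
      apply Subtype.ext
      funext g
      have h13 := congrFun (congrArg (fun y : RealTwo G => (y.1 : G → ℂ)) (x.2 l)) g
      simp only [realTwo_smul_apply] at h13
      show ((l.1 g : ℂˣ) : ℂ) * (((μ g : ℂˣ) : ℂ) * (x.1.1 : G → ℂ) g) = ((μ g : ℂˣ) : ℂ) * (x.1.1 : G → ℂ) g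
      rw [mul_left_comm, h13]⟩
  have hf1 : ∀ x, f (f x) = x := by
    intro x
    apply Subtype.ext
    apply Subtype.ext
    apply Subtype.ext
    funext g
    show ((μ g : ℂˣ) : ℂ) * (((μ g : ℂˣ) : ℂ) * (x.1.1 : G → ℂ) g) = (x.1.1 : G → ℂ) g
    by_cases hg : g ∈ phiSub G
    · have h11 := hμ g hg
      have h12 := congrArg (fun u : ℂˣ => (u : ℂ)) h11
      simp only [Units.val_mul, Units.val_one] at h12
      rw [← mul_assoc, h12, one_mul]
    · rw [fixed_vanish x.2 hg]
      simp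
  have hf2 : ∀ x, f x ≠ x := by
    intro x h
    have h13 := congrFun (congrArg (fun y : MulAction.fixedPoints (realHoms G) (RealTwo G) => (y.1.1 : G → ℂ)) h) z₁
    have h14 : ((μ z₁ : ℂˣ) : ℂ) * (x.1.1 : G → ℂ) z₁ = (x.1.1 : G → ℂ) z₁ := h13
    have h15 : ((μ z₁ : ℂˣ) : ℂ) ≠ 1 := fun h => hμz (Units.ext h)
    have h16 : (((μ z₁ : ℂˣ) : ℂ) - 1) * (x.1.1 : G → ℂ) z₁ = 0 := by
      rw [sub_mul, h14]; ring
    rcases mul_eq_zero.mp h16 with h17 | h17
    · exact h15 (sub_eq_zero.mp h17)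
    · exact fixed_norm_eq x.2 hΦ hz₁ h17
  have heven := even_card_of_involution f hf1 hf2
  exact (Nat.not_even_iff_odd.mpr hoddF) heven

end Main

end CfsgLib.Char
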