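import Cfsg.Agent.Lib.Char.Extend2
import Cfsg.Agent.Lib.Char.RelM2
import Cfsg.Agent.Lib.Solv.SZ

set_option autoImplicit false
set_option linter.all false

open Cfsg
open scoped ComplexConjugate

namespace CfsgLib.Char

section Comp

variable {A : Type*} {B : Type*} [Group A] [Group B] [Fintype A] [Fintype B]

/-- A character whose composition with a homomorphism is irreducible is irreducible. -/
theorem isIrr_of_comp (f : A →* B) {χ : B → ℂ} (hχ : IsCharacter B χ) (h : IsIrrCharacter A (χ ∘ f)) :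
    IsIrrCharacter B χ := by
  have h1 : χ 1 ≠ 0 := by
    have := h.map_one_ne_zero
    simpa using this
  obtain ⟨ψ, hψ, hin⟩ := exists_constituent hχ h1
  have hτ := sub_isCharacter_of_classInner_ne_zero hχ hψ hin
  have hψf : IsCharacter A (ψ ∘ f) := hψ.isCharacter.comp f
  have hτf : IsCharacter A ((χ - ψ) ∘ f) := hτ.comp f
  have h2 : (ψ ∘ f) 1 ≠ 0 := by
    have := hψ.map_one_ne_zero
    simpa using this
  obtain ⟨ξ, hξ, hin2⟩ := exists_constituent hψf h2
  have h3 : classInner (χ ∘ f) ξ ≠ 0 := by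
    have e : χ ∘ f = ψ ∘ f + (χ - ψ) ∘ f := by
      funext x
      simp
    rw [e, classInner_add_left]
    obtain ⟨a, ha⟩ := hψf.classInner_nat hξ
    obtain ⟨b, hb⟩ := hτf.classInner_nat hξ
    rw [ha] at hin2
    rw [ha, hb]
    intro h0
    apply hin2
    have h4 : ((a + b : ℕ) : ℂ) = 0 := by push_cast; exact h0
    have h5 : a + b = 0 := by exact_mod_cast h4
    have : a = 0 := by omega
    simp [this]
  have h4 : χ ∘ f = ξ := by
    by_contra hne
    apply h3
    rw [classInner_irr h hξ, if_neg hne]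
  have h5 : classInner (ψ ∘ f) (χ ∘ f) ≠ 0 := by rw [h4]; exact hin2
  have h6 := degree_le_of_classInner_ne_zero hψf h h5
  simp only [Function.comp, map_one] at h6
  obtain ⟨n, hn0, hn⟩ := hψ.map_one
  obtain ⟨m, hm⟩ : ∃ m : ℕ, (χ - ψ) 1 = m := hτ.map_one
  have h7 : χ 1 = ((n + m : ℕ) : ℂ) := by
    have : χ 1 = ψ 1 + (χ - ψ) 1 := by simp
    rw [this, hn, hm]
    push_cast
    rfl
  rw [h7, hn, Complex.norm_natCast, Complex.norm_natCast] at h6
  have h8 : n + m ≤ n := by exact_mod_cast h6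
  have h9 : m = 0 := by omega
  have h10 : χ - ψ = 0 := hτ.eq_zero_of_map_one (by rw [hm, h9]; simp)
  rw [sub_eq_zero.mp h10]
  exact hψ

end Comp

section Main

variable {G : Type*} [Group G] [Fintype G]

/-- Irreducibility passes up from a subgroup. -/
theorem isIrr_restrict_of_le (H L S : Subgroup G) (hLS : L ≤ S) (hSH : S ≤ H) {ϑ : H → ℂ}
    (hϑ : IsCharacter H ϑ) (hL : IsIrrCharacter L (fun x : L => ϑ ⟨(x : G), hSH (hLS x.2)⟩)) :
    IsIrrCharacter S (fun x : S => ϑ ⟨(x : G), hSH x.2⟩) := by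
  classical
  letI := Fintype.ofFinite S
  letI := Fintype.ofFinite L
  refine isIrr_of_comp (Subgroup.inclusion hLS) (hϑ.comp (Subgroup.inclusion hSH)) ?_
  exact hL

/-- The norm of an induced character on a normal subgroup. -/
theorem sum_norm_ind (H Q R : Subgroup G) [hQ : Q.Normal] (hRQ : R ≤ Q) (hRH : R ≤ H)
    (hR : ∀ x ∈ Q, x ∈ H → x ∈ R) (ϑ : H → ℂ) [Fintype Q] [Fintype R] :
    ∑ x : Q, indFun H ϑ x * conj (indFun H ϑ x) =
      (H.index : ℂ) * ∑ x : R, ϑ ⟨(x : G), hRH x.2⟩ * conj (indFun H ϑ x) := by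
  classical
  set E := extendByZero H ϑ with hEdef
  set χ := indFun H ϑ with hχ
  have hcl : IsClassFunction G χ := indFun_isClass H ϑ
  have hE : ∀ x : G, χ x = (Nat.card H : ℂ)⁻¹ * ∑ y, E (y⁻¹ * x * y) := fun x => indFun_def H ϑ x
  have step1 : ∀ y : G, ∑ x : Q, E (y⁻¹ * (x : G) * y) * conj (χ x) = ∑ x : Q, E (x : G) * conj (χ x) := by
    intro y
    let e : Q ≃ Q :=
      { toFun := fun x => ⟨y⁻¹ * x * y, by simpa using hQ.conj_mem x x.2 y⁻¹⟩
        invFun := fun x => ⟨y * x * y⁻¹, hQ.conj_mem x x.2 y⟩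
        left_inv := fun x => Subtype.ext (by simp [mul_assoc])
        right_inv := fun x => Subtype.ext (by simp [mul_assoc]) }
    refine Fintype.sum_equiv e _ _ (fun x => ?_)
    have h1 : χ ((e x : Q) : G) = χ x := by
      have := hcl (x : G) y⁻¹
      simpa [e] using this
    rw [h1]
    rfl
  have step2 : ∑ x : Q, E (x : G) * conj (χ x) = ∑ x : R, ϑ ⟨(x : G), hRH x.2⟩ * conj (χ x) := by
    let F : G → ℂ := fun g => if g ∈ Q then E g * conj (χ g) else 0
    have h1 := sum_eq_sum_subgroup Q F (fun g hg => if_neg hg)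
    have h2 := sum_eq_sum_subgroup R F (fun g hg => by
      show (if g ∈ Q then E g * conj (χ g) else 0) = 0
      by_cases hgQ : g ∈ Q
      · rw [if_pos hgQ]
        have : g ∉ H := fun hh => hg (hR g hgQ hh)
        rw [hEdef, extendByZero_of_not_mem H ϑ this, zero_mul]
      · rw [if_neg hgQ])
    have h3 : ∑ x : Q, F x = ∑ x : Q, E (x : G) * conj (χ x) :=
      Finset.sum_congr rfl fun x _ => if_pos x.2
    have h4 : ∑ x : R, F x = ∑ x : R, ϑ ⟨(x : G), hRH x.2⟩ * conj (χ x) :=
      Finset.sum_congr rfl fun x _ => by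
        show (if (x : G) ∈ Q then E x * conj (χ x) else 0) = _
        rw [if_pos (hRQ x.2), hEdef, extendByZero_of_mem H ϑ (hRH x.2)]
    rw [← h3, ← h1, h2, h4]
  have hidx : (H.index : ℂ) = (Nat.card H : ℂ)⁻¹ * (Fintype.card G : ℂ) := by
    have := H.card_mul_index
    rw [Nat.card_eq_fintype_card (α := G)] at this
    rw [← this]
    push_cast
    have h0 : (Nat.card H : ℂ) ≠ 0 := card_subgroup_ne_zero H
    field_simp
  calc ∑ x : Q, χ x * conj (χ x)
      = (Nat.card H : ℂ)⁻¹ * ∑ y : G, ∑ x : Q, E (y⁻¹ * (x : G) * y) * conj (χ x) := by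
        rw [Finset.sum_comm, Finset.mul_sum]
        refine Finset.sum_congr rfl fun x _ => ?_
        rw [hE, ← Finset.sum_mul, mul_assoc]
    _ = (Nat.card H : ℂ)⁻¹ * ∑ y : G, ∑ x : Q, E (x : G) * conj (χ x) := by
        simp only [step1]
    _ = (H.index : ℂ) * ∑ x : R, ϑ ⟨(x : G), hRH x.2⟩ * conj (χ x) := by
        rw [Finset.sum_const, Finset.card_univ, nsmul_eq_mul, ← mul_assoc, ← hidx, step2]

/-- The bound for the inner product with equality only for a normal subgroup. -/
theorem normal_of_ind_inner (L H R : Subgroup G) [hL : L.Normal] (hLR : L ≤ R) (hRH : R ≤ H)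
    (ϑ : H → ℂ) (hϑ : IsCharacter H ϑ) (hϑL : IsIrrCharacter L (fun x : L => ϑ ⟨(x : G), hRH (hLR x.2)⟩))
    (hR : ∀ x ∈ R, ∀ y : G, y⁻¹ * x * y ∈ H → y⁻¹ * x * y ∈ R) [Fintype R]
    (heq : ∑ x : R, indFun H ϑ x * conj (ϑ ⟨(x : G), hRH x.2⟩) = (H.index : ℂ) * (Nat.card R : ℂ)) :
    R.Normal := by
  classical
  set E := extendByZero H ϑ with hEdef
  -- the subgroups `S y`
  let S : G → Subgroup R := fun y =>
    { carrier := {x | y⁻¹ * (x : G) * y ∈ R}
      one_mem' := by simp [R.one_mem]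
      mul_mem' := by
        intro a b ha hb
        have := R.mul_mem ha hb
        have e : y⁻¹ * ((a * b : R) : G) * y = (y⁻¹ * a * y) * (y⁻¹ * b * y) := by
          simp only [Subgroup.coe_mul]
          group
        show y⁻¹ * ((a * b : R) : G) * y ∈ R
        rw [e]
        exact this
      inv_mem' := by
        intro a ha
        have := R.inv_mem ha
        have e : y⁻¹ * ((a⁻¹ : R) : G) * y = (y⁻¹ * a * y)⁻¹ := by
          simp only [Subgroup.coe_inv]
          group
        show y⁻¹ * ((a⁻¹ : R) : G) * y ∈ R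
        rw [e]
        exact this }
  have hSmem : ∀ y (x : R), x ∈ S y ↔ y⁻¹ * (x : G) * y ∈ R := fun y x => Iff.rfl
  letI : ∀ y, Fintype (S y) := fun y => Fintype.ofFinite _
  have hbound : ∀ y : G, ‖∑ x : R, E (y⁻¹ * (x : G) * y) * conj (ϑ ⟨(x : G), hRH x.2⟩)‖ ≤ (Nat.card (S y) : ℝ) := by
    intro y
    let f : R → ℂ := fun x => E (y⁻¹ * (x : G) * y) * conj (ϑ ⟨(x : G), hRH x.2⟩)
    have h1 := sum_eq_sum_subgroup (S y) f (fun x hx => by
      show E (y⁻¹ * (x : G) * y) * _ = 0
      have : y⁻¹ * (x : G) * y ∉ H := fun hh => hx ((hSmem y x).2 (hR x x.2 y hh))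
      rw [hEdef, extendByZero_of_not_mem H ϑ this, zero_mul])
    -- the two characters of `S y`
    have hLS : ∀ l : L, ((⟨(l : G), hLR l.2⟩ : R)) ∈ S y := by
      intro l
      rw [hSmem]
      apply hLR
      simpa using hL.conj_mem l l.2 y⁻¹
    let inc : L →* S y :=
      { toFun := fun l => ⟨⟨l, hLR l.2⟩, hLS l⟩
        map_one' := rfl
        map_mul' := fun a b => rfl }
    let a : S y → ℂ := fun z => ϑ ⟨((z : R) : G), hRH (z : R).2⟩
    let conjH : S y →* H :=
      { toFun := fun z => ⟨y⁻¹ * ((z : R) : G) * y, hRH z.2⟩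
        map_one' := by
          apply Subtype.ext
          simp
        map_mul' := fun u v => by
          apply Subtype.ext
          simp only [Subgroup.coe_mul]
          group }
    let b : S y → ℂ := ϑ ∘ conjH
    let incH : S y →* H :=
      { toFun := fun z => ⟨((z : R) : G), hRH (z : R).2⟩
        map_one' := rfl
        map_mul' := fun u v => rfl }
    have ha : IsIrrCharacter (S y) a := by
      refine isIrr_of_comp inc (hϑ.comp incH) ?_
      exact hϑL
    have hb : IsIrrCharacter (S y) b := by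
      refine isIrr_of_comp inc (hϑ.comp conjH) ?_
      have := isIrr_conjOn L y⁻¹ hϑL
      convert this using 1
      funext l
      simp only [conjOn_apply]
      show ϑ _ = ϑ _
      congr 1
      apply Subtype.ext
      simp [inc, conjH]
    have h2 : ∑ x : S y, f x = (Nat.card (S y) : ℂ) * classInner b a := by
      rw [classInner_def, ← mul_assoc, mul_inv_cancel₀ (card_ne_zero_C (S y)), one_mul]
      refine Finset.sum_congr rfl fun z _ => ?_
      show E (y⁻¹ * ((z : R) : G) * y) * _ = ϑ _ * _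
      rw [hEdef, extendByZero_of_mem H ϑ (hRH z.2)]
      rfl
    rw [show ∑ x : R, E (y⁻¹ * (x : G) * y) * conj (ϑ ⟨(x : G), hRH x.2⟩) = ∑ x : R, f x from rfl, h1, h2, norm_mul,
      Complex.norm_natCast, classInner_irr hb ha]
    by_cases hba : b = a
    · simp [hba]
    · simp [hba]
  have hcardS : ∀ y, Nat.card (S y) ≤ Nat.card R := fun y => Subgroup.card_le_card_group _
  -- the sum
  have hT : ∑ x : R, indFun H ϑ x * conj (ϑ ⟨(x : G), hRH x.2⟩) =
      (Nat.card H : ℂ)⁻¹ * ∑ y : G, ∑ x : R, E (y⁻¹ * (x : G) * y) * conj (ϑ ⟨(x : G), hRH x.2⟩) := by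
    rw [Finset.sum_comm, Finset.mul_sum]
    refine Finset.sum_congr rfl fun x _ => ?_
    rw [indFun_def, ← Finset.sum_mul, mul_assoc]
  have hnorm : ((H.index : ℝ) * (Nat.card R : ℝ)) * (Nat.card H : ℝ) ≤ ∑ y : G, (Nat.card (S y) : ℝ) := by
    have h1 := congrArg norm heq
    rw [hT, norm_mul, norm_inv, Complex.norm_natCast, norm_mul, Complex.norm_natCast, Complex.norm_natCast] at h1
    have h0 : (0 : ℝ) < (Nat.card H : ℝ) := by exact_mod_cast (Nat.card_pos (α := H))
    have h2 : ‖∑ y : G, ∑ x : R, E (y⁻¹ * (x : G) * y) * conj (ϑ ⟨(x : G), hRH x.2⟩)‖ ≤ ∑ y : G, (Nat.card (S y) : ℝ) :=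
      (norm_sum_le _ _).trans (Finset.sum_le_sum fun y _ => hbound y)
    rw [← h1]
    have h3 : ∀ X : ℝ, ((Nat.card H : ℝ))⁻¹ * X * (Nat.card H : ℝ) = X := fun X => by field_simp
    rw [h3]
    exact h2
  have hG : (H.index : ℝ) * (Nat.card R : ℝ) * (Nat.card H : ℝ) = ∑ y : G, (Nat.card R : ℝ) := by
    rw [Finset.sum_const, Finset.card_univ, nsmul_eq_mul, ← Nat.card_eq_fintype_card, ← H.card_mul_index]
    push_cast
    ring
  rw [hG] at hnorm
  have hall : ∀ y : G, (Nat.card (S y) : ℝ) = Nat.card R := by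
    have h1 : ∀ y ∈ (Finset.univ : Finset G), (Nat.card (S y) : ℝ) ≤ Nat.card R := fun y _ => by
      exact_mod_cast hcardS y
    have h2 := (Finset.sum_eq_sum_iff_of_le h1).1 (le_antisymm (Finset.sum_le_sum h1) hnorm)
    exact fun y => h2 y (Finset.mem_univ y)
  have htop : ∀ y, S y = ⊤ := by
    intro y
    have : Nat.card (S y) = Nat.card R := by exact_mod_cast hall y
    exact Subgroup.eq_top_of_card_eq _ this
  refine ⟨fun n hn g => ?_⟩
  have h1 : (⟨n, hn⟩ : R) ∈ S g⁻¹ := by rw [htop]; trivial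
  rw [hSmem] at h1
  simpa using h1

end Main

end CfsgLib.Char
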