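import Cfsg.Agent.Lib.Char.Berger
import Cfsg.Agent.Lib.Char.Brauer1
import Cfsg.Agent.Lib.Char.Multiplicity
import Cfsg.Agent.Lib.FGS.Chief

set_option autoImplicit false
set_option linter.all false

open Cfsg
open scoped ComplexConjugate commutatorElement

namespace CfsgLib.Char

section Group

variable {G : Type*} [Group G] [Finite G]

/-- A normal subgroup minimal above a proper normal subgroup. -/
theorem exists_chief_above (N : Subgroup G) [hN : N.Normal] (hne : N ≠ ⊤) :
    ∃ M : Subgroup G, M.Normal ∧ N < M ∧ ∀ W : Subgroup G, W.Normal → N ≤ W → W ≤ M → W = N ∨ W = M := by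
  classical
  have hfin : ({M : Subgroup G | M.Normal ∧ N < M}).Finite := Set.toFinite _
  have hnon : ({M : Subgroup G | M.Normal ∧ N < M}).Nonempty :=
    ⟨⊤, inferInstance, lt_top_iff_ne_top.2 hne⟩
  obtain ⟨M, hM⟩ := hfin.exists_minimal hnon
  refine ⟨M, hM.1.1, hM.1.2, fun W hW hNW hWM => ?_⟩
  by_cases h : W = N
  · exact Or.inl h
  · exact Or.inr (le_antisymm hWM (hM.2 ⟨hW, lt_of_le_of_ne hNW (Ne.symm h)⟩ hWM))

/-- A chief factor of a solvable group is elementary abelian. -/
theorem chief_exponent (N M : Subgroup G) [hN : N.Normal] [hM : M.Normal] (hNM : N < M)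
    (hchief : ∀ W : Subgroup G, W.Normal → N ≤ W → W ≤ M → W = N ∨ W = M)
    (hsolv : Group.IsSolvable (G ⧸ N)) :
    ∃ p : ℕ, p.Prime ∧ ∀ m ∈ M, m ^ p ∈ N := by
  haveI := hsolv
  let π := QuotientGroup.mk' N
  let M' : Subgroup (G ⧸ N) := M.map π
  haveI hM' : M'.Normal := Subgroup.Normal.map hM _ (QuotientGroup.mk'_surjective N)
  have hne : M' ≠ ⊥ := by
    intro h0
    apply hNM.not_ge
    intro k hk
    have h1 : π k ∈ M' := ⟨k, hk, rfl⟩
    rw [h0, Subgroup.mem_bot] at h1
    exact (QuotientGroup.eq_one_iff _).mp h1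
  have hmin : ∀ X : Subgroup (G ⧸ N), X.Normal → X ≤ M' → X = ⊥ ∨ X = M' := by
    intro X hX hXM
    have h1 : (X.comap π).Normal := Subgroup.Normal.comap hX _
    have h2 : N ≤ X.comap π := by
      intro n hn
      show π n ∈ X
      have : π n = 1 := (QuotientGroup.eq_one_iff _).mpr hn
      rw [this]
      exact X.one_mem
    have h3 : X.comap π ≤ M := by
      intro x hx
      obtain ⟨m, hm, hmx⟩ := hXM hx
      have : m⁻¹ * x ∈ N := by
        rw [← QuotientGroup.eq_one_iff]
        show π (m⁻¹ * x) = 1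
        rw [map_mul, map_inv, hmx, inv_mul_cancel]
      have h4 : x = m * (m⁻¹ * x) := by group
      rw [h4]
      exact M.mul_mem hm (hNM.le this)
    rcases hchief _ h1 h2 h3 with h | h
    · left
      rw [eq_bot_iff]
      intro y hy
      obtain ⟨x, rfl⟩ := QuotientGroup.mk'_surjective N y
      have : x ∈ X.comap π := hy
      rw [h] at this
      exact (Subgroup.mem_bot).2 ((QuotientGroup.eq_one_iff _).mpr this)
    · right
      show X = M.map π
      rw [← h]
      exact (Subgroup.map_comap_eq_self_of_surjective (QuotientGroup.mk'_surjective N) X).symm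
  obtain ⟨-, p, hp, hpx⟩ := CfsgLib.Solv.minimal_normal_elementary M' hne hmin
  refine ⟨p, hp, fun m hm => ?_⟩
  have := hpx (π m) ⟨m, hm, rfl⟩
  rw [← map_pow] at this
  exact (QuotientGroup.eq_one_iff _).mp this

theorem normal_of_sup_normalizes (H M X : Subgroup G) (hsup : H ⊔ M = ⊤)
    (h1 : ∀ h ∈ H, ∀ x ∈ X, h * x * h⁻¹ ∈ X) (h2 : ∀ m ∈ M, ∀ x ∈ X, m * x * m⁻¹ ∈ X) : X.Normal := by
  have hH : H ≤ Subgroup.normalizer (X : Set G) := fun h hh => mem_normalizer_of_conj_mem X h (h1 h hh)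
  have hM : M ≤ Subgroup.normalizer (X : Set G) := fun h hh => mem_normalizer_of_conj_mem X h (h2 h hh)
  have htop : Subgroup.normalizer (X : Set G) = ⊤ := by
    rw [eq_top_iff, ← hsup]
    exact sup_le hH hM
  exact Subgroup.normalizer_eq_top_iff.1 htop

/-- The order of a normal supplement. -/
theorem card_normal_supp (H Q R : Subgroup G) [hQ : Q.Normal] (hsup : H ⊔ Q = ⊤) (hinf : H ⊓ Q = R) :
    Nat.card Q = H.index * Nat.card R := by
  have h1 : Q.index = Q.relIndex H := by
    rw [← Subgroup.relIndex_sup_right, hsup, Subgroup.relIndex_top_right]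
  have h2 : R.relIndex H = Q.relIndex H := by
    rw [← hinf, Subgroup.inf_relIndex_left]
  have h3 : Nat.card (R.subgroupOf H) * R.relIndex H = Nat.card H := (R.subgroupOf H).card_mul_index
  have hRH : R ≤ H := hinf ▸ inf_le_left
  have h4 : Nat.card (R.subgroupOf H) = Nat.card R := Nat.card_congr (Subgroup.subgroupOfEquivOfLe hRH).toEquiv
  have h5 := H.card_mul_index
  have h6 := Q.card_mul_index
  rw [h4, h2, ← h1] at h3
  have h7 : 0 < Q.index := Nat.pos_of_ne_zero Subgroup.index_ne_zero_of_finite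
  apply Nat.eq_of_mul_eq_mul_right h7
  rw [h6, ← h5, ← h3]
  ring

end Group

section Main

variable {G : Type*} [Group G] [Fintype G]

theorem sum_of_homog {A : Type*} [Group A] [Fintype A] (a η : A → ℂ) (f : ℕ) (hη : IsIrrCharacter A η)
    (h : a = (f : ℂ) • η) : ∑ x, a x * conj (a x) = (Nat.card A : ℂ) * (f : ℂ) ^ 2 := by
  have h1 := classInner_irr_self hη
  rw [classInner_def] at h1
  have h2 : ∑ x, η x * conj (η x) = (Nat.card A : ℂ) := by
    have h0 := card_ne_zero_C A
    field_simp at h1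
    exact h1
  rw [h]
  simp only [Pi.smul_apply, smul_eq_mul, map_mul, Complex.conj_natCast]
  have : ∀ x, (f : ℂ) * η x * ((f : ℂ) * conj (η x)) = (f : ℂ) ^ 2 * (η x * conj (η x)) := fun x => by ring
  simp only [this]
  rw [← Finset.mul_sum, h2]
  ring

/-- S0890 -/
theorem not_homog_of_ind (L H : Subgroup G) [hL : L.Normal] (hLH : L ≤ H) (hmax : IsCoatom H)
    (hsolv : Group.IsSolvable (G ⧸ L)) (ϑ : H → ℂ) (hϑ : IsIrrCharacter H ϑ)
    (hϑL : IsIrrCharacter L (fun x : L => ϑ ⟨(x : G), hLH x.2⟩))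
    (hind : IsIrrCharacter G (indFun H ϑ)) :
    ∃ M : Subgroup G, M.Normal ∧ L ≤ M ∧ ¬ ∃ (φ : M → ℂ) (e : ℕ), IsIrrCharacter M φ ∧
      (fun m : M => indFun H ϑ m) = (e : ℂ) • φ := by
  classical
  by_contra hcon
  push Not at hcon
  set χ := indFun H ϑ with hχdef
  let N : Subgroup G := H.normalCore
  haveI hNn : N.Normal := Subgroup.normalCore_normal H
  have hLN : L ≤ N := Subgroup.normal_le_normalCore.2 hLH
  have hNH : N ≤ H := Subgroup.normalCore_le H
  have hNne : N ≠ ⊤ := fun h => hmax.1 (top_le_iff.1 (h ▸ hNH))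
  have hsolvN : Group.IsSolvable (G ⧸ N) := by
    haveI := hsolv
    refine solvable_of_surjective (f := QuotientGroup.map L N (MonoidHom.id G) (fun x hx => hLN hx)) ?_
    intro y
    obtain ⟨x, rfl⟩ := QuotientGroup.mk_surjective y
    exact ⟨QuotientGroup.mk x, rfl⟩
  -- the chief factor `M / N`
  obtain ⟨M, hMn, hNM, hMchief⟩ := exists_chief_above N hNne
  haveI := hMn
  have hMcomm : ⁅M, M⁆ ≤ N := commutator_le_of_chief M N hNM hsolvN hMchief
  obtain ⟨p, hp, hpM⟩ := chief_exponent N M hNM hMchief hsolvN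
  haveI : Fact p.Prime := ⟨hp⟩
  have hMH : ¬ M ≤ H := fun h => hNM.not_ge (Subgroup.normal_le_normalCore.2 h)
  have hsupM : H ⊔ M = ⊤ := hmax.2 _ (lt_of_le_of_ne le_sup_left (fun h => hMH (h ▸ le_sup_right)))
  have hinfM : H ⊓ M = N := by
    apply le_antisymm
    · haveI hinfn : (H ⊓ M).Normal := by
        refine normal_of_sup_normalizes H M (H ⊓ M) hsupM ?_ ?_
        · intro h hh x hx
          exact ⟨H.mul_mem (H.mul_mem hh hx.1) (H.inv_mem hh), hMn.conj_mem x hx.2 h⟩
        · intro m hm x hx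
          have h1 : ⁅m, x⁆ ∈ N := hMcomm (Subgroup.commutator_mem_commutator hm hx.2)
          have h2 : m * x * m⁻¹ = ⁅m, x⁆ * x := by
            rw [commutatorElement_def]
            group
          rw [h2]
          exact (H ⊓ M).mul_mem ⟨hNH h1, hNM.le h1⟩ hx
      exact Subgroup.normal_le_normalCore.2 inf_le_left
    · exact le_inf hNH hNM.le
  set t := H.index with ht
  have hcardM : Nat.card M = t * Nat.card N := card_normal_supp H M N hsupM hinfM
  have hNpos : 0 < Nat.card N := Nat.card_pos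
  have htpos : 0 < t := Nat.pos_of_ne_zero Subgroup.index_ne_zero_of_finite
  have ht1 : t ≠ 1 := by
    intro h
    rw [h, one_mul] at hcardM
    exact hNM.ne (Subgroup.eq_of_le_of_card_ge hNM.le hcardM.le)
  -- the character `θ`
  let θ : N → ℂ := fun n => ϑ ⟨(n : G), hNH n.2⟩
  have hθ : IsIrrCharacter N θ := isIrr_restrict_of_le H L N hLN hNH hϑ.isCharacter hϑL
  letI : Fintype H := Fintype.ofFinite _
  letI : Fintype N := Fintype.ofFinite _
  letI : Fintype M := Fintype.ofFinite _
  have hχclass : IsClassFunction G χ := indFun_isClass H ϑ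
  have hresH : classInner (fun h : H => χ h) ϑ = 1 := by
    have h1 := frobenius H ϑ hχclass
    rw [classInner_irr_self hind] at h1
    rw [← conj_classInner, ← h1]
    simp
  -- `χ` on `N`
  have hχN : ∀ n : N, χ n = (t : ℂ) * θ n := by
    obtain ⟨θ₀, e₀, hθ₀, hχN₀⟩ := hcon N hNn hLN
    have hsub := sub_isCharacter_of_classInner_ne_zero (hind.isCharacter.restrict H) hϑ (by rw [hresH]; exact one_ne_zero)
    have hsubN : IsCharacter N (fun n : N => χ n - θ n) :=
      IsCharacter.comp hsub (Subgroup.inclusion hNH)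
    have hin : classInner (fun n : N => χ n) θ ≠ 0 := by
      have e : (fun n : N => χ n) = θ + (fun n : N => χ n - θ n) := by
        funext n
        simp
      rw [e, classInner_add_left, classInner_irr_self hθ]
      obtain ⟨b, hb⟩ := hsubN.classInner_nat hθ
      rw [hb]
      intro h0
      have : ((1 + b : ℕ) : ℂ) = 0 := by push_cast; exact h0
      have h1 : 1 + b = 0 := by exact_mod_cast this
      omega
    have hθeq : θ₀ = θ := by
      by_contra hne
      apply hin
      rw [hχN₀, classInner_smul_left, classInner_irr hθ₀ hθ, if_neg hne, mul_zero]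
    rw [hθeq] at hχN₀
    have he₀ : (e₀ : ℂ) ≠ 0 := by
      intro h0
      apply hin
      rw [hχN₀, classInner_smul_left, h0, zero_mul]
    have hinv : ∀ (y : G) (n : N), θ ⟨y⁻¹ * n * y, by simpa using hNn.conj_mem n n.2 y⁻¹⟩ = θ n := by
      intro y n
      have h1 := congrFun hχN₀ ⟨y⁻¹ * n * y, by simpa using hNn.conj_mem n n.2 y⁻¹⟩
      have h2 := congrFun hχN₀ n
      simp only [Pi.smul_apply, smul_eq_mul] at h1 h2
      have h3 : χ (y⁻¹ * n * y) = χ n := by
        have := hχclass (n : G) y⁻¹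
        simpa using this
      rw [h3, h2] at h1
      exact (mul_left_cancel₀ he₀ h1).symm
    intro n
    rw [hχdef, indFun_def]
    have h1 : ∀ y : G, extendByZero H ϑ (y⁻¹ * n * y) = θ n := by
      intro y
      have hmem : y⁻¹ * (n : G) * y ∈ N := by simpa using hNn.conj_mem n n.2 y⁻¹
      rw [extendByZero_of_mem H ϑ (hNH hmem)]
      exact hinv y n
    simp only [h1]
    rw [Finset.sum_const, Finset.card_univ, nsmul_eq_mul, ← mul_assoc]
    congr 1
    have := H.card_mul_index
    rw [Nat.card_eq_fintype_card (α := G)] at this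
    rw [← this]
    push_cast
    have h0 : (Nat.card H : ℂ) ≠ 0 := card_subgroup_ne_zero H
    field_simp
    rfl
  -- the multiplicity `f`
  obtain ⟨η, f, hη, hχM⟩ := hcon M hMn (hLN.trans hNM.le)
  have htC : (t : ℂ) ≠ 0 := by exact_mod_cast htpos.ne'
  have hNC : (Nat.card N : ℂ) ≠ 0 := by exact_mod_cast hNpos.ne'
  have hf2 : f ^ 2 = t := by
    have h1 := sum_norm_ind H M N hNM.le hNH (fun x hx hh => by
      have : x ∈ H ⊓ M := ⟨hh, hx⟩
      rwa [hinfM] at this) ϑ
    have h2 := sum_of_homog (fun m : M => χ m) η f hη hχM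
    have h3 : ∑ x : N, ϑ ⟨(x : G), hNH x.2⟩ * conj (indFun H ϑ x) = (t : ℂ) * (Nat.card N : ℂ) := by
      have h4 := classInner_irr_self hθ
      rw [classInner_def] at h4
      have h5 : ∑ x, θ x * conj (θ x) = (Nat.card N : ℂ) := by
        field_simp at h4
        exact h4
      have h6 : ∀ x : N, ϑ ⟨(x : G), hNH x.2⟩ * conj (indFun H ϑ x) = (t : ℂ) * (θ x * conj (θ x)) := by
        intro x
        rw [show indFun H ϑ x = χ x from rfl, hχN x, map_mul, Complex.conj_natCast]
        show θ x * _ = _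
        ring
      simp only [h6]
      rw [← Finset.mul_sum, h5]
    rw [h3] at h1
    have h7 : ∑ x : M, χ x * conj (χ x) = (Nat.card M : ℂ) * (f : ℂ) ^ 2 := h2
    rw [show ∑ x : M, indFun H ϑ x * conj (indFun H ϑ x) = ∑ x : M, χ x * conj (χ x) from rfl, h7, hcardM] at h1
    push_cast at h1
    have h8 : (f : ℂ) ^ 2 = (t : ℂ) := by
      have h9 : (t : ℂ) * (Nat.card N : ℂ) * ((f : ℂ) ^ 2 - t) = 0 := by
        linear_combination h1
      rcases mul_eq_zero.mp h9 with h | h
      · exact absurd h (mul_ne_zero htC hNC)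
      · exact sub_eq_zero.mp h
    exact_mod_cast h8
  -- `M` is not the whole group
  have hMtop : M ≠ ⊤ := by
    intro h
    have hsum : ∑ x : M, χ x * conj (χ x) = (Nat.card G : ℂ) := by
      have h1 := classInner_irr_self hind
      rw [classInner_def] at h1
      have h2 : ∑ x, χ x * conj (χ x) = (Nat.card G : ℂ) := by
        have h0 := card_ne_zero_C G
        field_simp at h1
        exact h1
      rw [← h2]
      have h3 := sum_eq_sum_subgroup M (fun x => χ x * conj (χ x)) (fun g hg => absurd (by rw [h]; trivial) hg)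
      exact h3.symm
    have h2 := sum_of_homog (fun m : M => χ m) η f hη hχM
    have h3 : (Nat.card M : ℂ) * (f : ℂ) ^ 2 = (Nat.card G : ℂ) := by rw [← hsum]; exact h2.symm
    have h4 : Nat.card M = Nat.card G := by rw [h]; exact Subgroup.card_top
    rw [h4] at h3
    have h5 := card_ne_zero_C G
    have h6 : (f : ℂ) ^ 2 = 1 := mul_left_cancel₀ h5 (by rw [h3, mul_one])
    have h7 : f ^ 2 = 1 := by exact_mod_cast h6
    rw [hf2] at h7
    exact ht1 h7
  -- `t` is a power of `p`
  obtain ⟨a, hta⟩ : ∃ a : ℕ, t = p ^ a := by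
    obtain ⟨a, ha⟩ := relIndex_eq_pow_of_pow_mem (C := N) (H := M) (p := p)
      (by rw [Subgroup.normalizer_eq_top_iff.2 hNn]; exact le_top)
      (fun z hz => ⟨1, by rw [pow_one]; exact hpM z hz⟩)
    refine ⟨a, ?_⟩
    rw [← ha]
    have h1 : Nat.card (N.subgroupOf M) * N.relIndex M = Nat.card M := (N.subgroupOf M).card_mul_index
    rw [CfsgLib.Solv.card_subgroupOf_of_le hNM.le, hcardM, mul_comm] at h1
    exact (Nat.eq_of_mul_eq_mul_right hNpos h1).symm
  -- the next chief factor
  have hsolvM : Group.IsSolvable (G ⧸ M) := by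
    haveI := hsolv
    refine solvable_of_surjective (f := QuotientGroup.map L M (MonoidHom.id G) (fun x hx => hNM.le (hLN hx))) ?_
    intro y
    obtain ⟨x, rfl⟩ := QuotientGroup.mk_surjective y
    exact ⟨QuotientGroup.mk x, rfl⟩
  obtain ⟨Q, hQn, hMQ, hQchief⟩ := exists_chief_above M hMtop
  haveI := hQn
  obtain ⟨q, hq, hqQ⟩ := chief_exponent M Q hMQ hQchief hsolvM
  haveI : Fact q.Prime := ⟨hq⟩
  let R : Subgroup G := H ⊓ Q
  have hRH : R ≤ H := inf_le_left
  have hRQ : R ≤ Q := inf_le_right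
  have hsupQ : H ⊔ Q = ⊤ := top_le_iff.1 (hsupM ▸ sup_le_sup_left hMQ.le H)
  have hcardQ : Nat.card Q = t * Nat.card R := card_normal_supp H Q R hsupQ rfl
  -- if `R` is normal we are done
  have hRcontra : R.Normal → False := by
    intro hRn
    have hRN : R ≤ N := Subgroup.normal_le_normalCore.2 hRH
    apply hMQ.not_ge
    intro x hx
    have hxtop : x ∈ H ⊔ M := by rw [hsupM]; trivial
    obtain ⟨h, hh, m, hm, rfl⟩ := Subgroup.mem_sup_of_normal_right.mp hxtop
    have hh' : h ∈ R := ⟨hh, by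
      have := Q.mul_mem hx (Q.inv_mem (hMQ.le hm))
      simpa using this⟩
    exact M.mul_mem (hNM.le (hRN hh')) hm
  have hNR : L ≤ R := le_inf hLH ((hLN.trans hNM.le).trans hMQ.le)
  by_cases hqp : q = p
  · -- the `p`-case
    subst hqp
    apply hRcontra
    -- `Q / N` is a `p`-group
    let π := QuotientGroup.mk' N
    let Q' : Subgroup (G ⧸ N) := Q.map π
    let M' : Subgroup (G ⧸ N) := M.map π
    haveI hQ'n : Q'.Normal := Subgroup.Normal.map hQn _ (QuotientGroup.mk'_surjective N)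
    haveI hM'n : M'.Normal := Subgroup.Normal.map hMn _ (QuotientGroup.mk'_surjective N)
    have hQ'p : IsPGroup q Q' := by
      rintro ⟨y, x, hx, rfl⟩
      refine ⟨2, ?_⟩
      apply Subtype.ext
      show (π x) ^ (q ^ 2) = 1
      rw [← map_pow, pow_two, pow_mul]
      exact (QuotientGroup.eq_one_iff _).mpr (hpM _ (hqQ x hx))
    have hQ'nil : Group.IsNilpotent Q' := hQ'p.isNilpotent
    have hne : (⊥ : Subgroup (G ⧸ N)) < M' := by
      rw [bot_lt_iff_ne_bot]
      intro h0
      apply hNM.not_ge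
      intro k hk
      have h1 : π k ∈ M' := ⟨k, hk, rfl⟩
      rw [h0, Subgroup.mem_bot] at h1
      exact (QuotientGroup.eq_one_iff _).mp h1
    have hmin : ∀ W : Subgroup (G ⧸ N), W.Normal → ⊥ ≤ W → W ≤ M' → W = ⊥ ∨ W = M' := by
      intro X hX _ hXM
      have h1 : (X.comap π).Normal := Subgroup.Normal.comap hX _
      have h2 : N ≤ X.comap π := by
        intro n hn
        show π n ∈ X
        have : π n = 1 := (QuotientGroup.eq_one_iff _).mpr hn
        rw [this]
        exact X.one_mem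
      have h3 : X.comap π ≤ M := by
        intro x hx
        obtain ⟨m, hm, hmx⟩ := hXM hx
        have : m⁻¹ * x ∈ N := by
          rw [← QuotientGroup.eq_one_iff]
          show π (m⁻¹ * x) = 1
          rw [map_mul, map_inv, hmx, inv_mul_cancel]
        have h4 : x = m * (m⁻¹ * x) := by group
        rw [h4]
        exact M.mul_mem hm (hNM.le this)
      rcases hMchief _ h1 h2 h3 with h | h
      · left
        rw [eq_bot_iff]
        intro y hy
        obtain ⟨x, rfl⟩ := QuotientGroup.mk'_surjective N y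
        have : x ∈ X.comap π := hy
        rw [h] at this
        exact (Subgroup.mem_bot).2 ((QuotientGroup.eq_one_iff _).mpr this)
      · right
        show X = M.map π
        rw [← h]
        exact (Subgroup.map_comap_eq_self_of_surjective (QuotientGroup.mk'_surjective N) X).symm
    have hcent := CfsgLib.FGS.chief_centralized Q' M' ⊥ hQ'nil hne hmin
    refine normal_of_sup_normalizes H M R hsupM ?_ ?_
    · intro h hh x hx
      exact ⟨H.mul_mem (H.mul_mem hh hx.1) (H.inv_mem hh), hQn.conj_mem x hx.2 h⟩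
    · intro m hm x hx
      have h1 : π ⁅m, x⁆ ∈ (⊥ : Subgroup (G ⧸ N)) := by
        apply hcent
        rw [map_commutatorElement]
        exact Subgroup.commutator_mem_commutator ⟨m, hm, rfl⟩ ⟨x, hx.2, rfl⟩
      have h2 : ⁅m, x⁆ ∈ N := (QuotientGroup.eq_one_iff _).mp h1
      have h3 : m * x * m⁻¹ = ⁅m, x⁆ * x := by
        rw [commutatorElement_def]
        group
      rw [h3]
      exact R.mul_mem ⟨hNH h2, hMQ.le (hNM.le h2)⟩ hx
  -- the coprime case
  obtain ⟨ξ, c, hξ, hχQ⟩ := hcon Q hQn (((hLN.trans hNM.le)).trans hMQ.le)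
  letI : Fintype Q := Fintype.ofFinite _
  letI : Fintype R := Fintype.ofFinite _
  let M₁ : Subgroup Q := M.subgroupOf Q
  haveI hM₁ : M₁.Normal := Subgroup.Normal.subgroupOf hMn Q
  letI : Fintype M₁ := Fintype.ofFinite _
  let θ₁ : M₁ → ℂ := fun m => η ⟨((m : Q) : G), m.2⟩
  have hθ₁ : IsIrrCharacter M₁ θ₁ := by
    have := isIrr_comp_equiv (Subgroup.subgroupOfEquivOfLe hMQ.le) hη
    exact this
  let ξ₁ : M₁ → ℂ := fun m => ξ (m : Q)
  have hξ₁ : IsCharacter M₁ ξ₁ := hξ.isCharacter.restrict M₁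
  have hrel : (c : ℂ) • ξ₁ = (f : ℂ) • θ₁ := by
    funext m
    have h1 := congrFun hχQ (m : Q)
    have h2 := congrFun hχM (⟨((m : Q) : G), m.2⟩ : M)
    simp only [Pi.smul_apply, smul_eq_mul] at h1 h2 ⊢
    show (c : ℂ) * ξ (m : Q) = (f : ℂ) * η ⟨((m : Q) : G), m.2⟩
    rw [← h1, ← h2]
  have hfC : (f : ℂ) ≠ 0 := by
    intro h0
    have : f = 0 := by exact_mod_cast h0
    rw [this] at hf2
    simp at hf2
    omega
  have hcC : (c : ℂ) ≠ 0 := by
    intro h0
    have := congrFun hrel 1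
    simp only [Pi.smul_apply, smul_eq_mul, h0, zero_mul] at this
    rcases mul_eq_zero.mp this.symm with h | h
    · exact hfC h
    · exact hθ₁.map_one_ne_zero h
  obtain ⟨f', hf'⟩ := hξ₁.classInner_nat hθ₁
  have hff : (c : ℂ) * (f' : ℂ) = (f : ℂ) := by
    have h1 : classInner ((c : ℂ) • ξ₁) θ₁ = classInner ((f : ℂ) • θ₁) θ₁ := by rw [hrel]
    rw [classInner_smul_left, classInner_smul_left, hf', classInner_irr_self hθ₁, mul_one] at h1
    exact h1
  have hff' : c * f' = f := by exact_mod_cast hff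
  have hξ₁eq : ξ₁ = (f' : ℂ) • θ₁ := by
    funext m
    have := congrFun hrel m
    simp only [Pi.smul_apply, smul_eq_mul] at this ⊢
    apply mul_left_cancel₀ hcC
    rw [this, ← hff]
    ring
  obtain ⟨d, hd0, hd⟩ := hθ₁.map_one
  obtain ⟨c', hc'0, hc'⟩ := hξ.map_one
  have hcon' : classInner (fun n : M₁ => ξ n) θ₁ ≠ 0 := by
    show classInner ξ₁ θ₁ ≠ 0
    rw [hf']
    intro h0
    apply hfC
    rw [← hff, h0, mul_zero]
  obtain ⟨-, hdvd⟩ := degree_ratio_dvd_index (G := Q) (N := M₁) hξ hθ₁ hcon' c' d hc' hd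
  have hc'd : c' = f' * d := by
    have h1 := congrFun hξ₁eq 1
    simp only [Pi.smul_apply, smul_eq_mul] at h1
    have h2 : ξ₁ 1 = c' := hc'
    rw [h2, hd] at h1
    exact_mod_cast h1
  have hf'dvd : f' ∣ M₁.index := by
    rw [hc'd, Nat.mul_div_cancel _ hd0] at hdvd
    exact hdvd
  obtain ⟨b, hb⟩ := relIndex_eq_pow_of_pow_mem (C := M) (H := Q) (p := q)
    (by rw [Subgroup.normalizer_eq_top_iff.2 hMn]; exact le_top)
    (fun z hz => ⟨1, by rw [pow_one]; exact hqQ z hz⟩)
  have hf'1 : f' = 1 := by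
    have h1 : f' ∣ q ^ b := by
      rw [← hb]
      exact hf'dvd
    have h2 : f' ∣ p ^ a := by
      rw [← hta, ← hf2, ← hff']
      exact Dvd.dvd.trans (Dvd.intro_left c rfl) (dvd_pow_self _ (by norm_num))
    have h3 : Nat.Coprime (q ^ b) (p ^ a) := Nat.Coprime.pow _ _ ((Nat.coprime_primes hq hp).2 hqp)
    exact Nat.Coprime.eq_one_of_dvd (Nat.Coprime.coprime_dvd_left h1 h3) h2
  have hcf : c = f := by rw [← hff', hf'1, mul_one]
  -- the final computation
  have h1 := sum_norm_ind H Q R hRQ hRH (fun x hx hh => ⟨hh, hx⟩) ϑ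
  have h2 := sum_of_homog (fun m : Q => χ m) ξ c hξ hχQ
  have h3 : ∑ x : R, ϑ ⟨(x : G), hRH x.2⟩ * conj (χ x) = (t : ℂ) * (Nat.card R : ℂ) := by
    have h4 : (t : ℂ) * ∑ x : R, ϑ ⟨(x : G), hRH x.2⟩ * conj (χ x) = (t : ℂ) * ((t : ℂ) * (Nat.card R : ℂ)) := by
      rw [← show _ = (t : ℂ) * ∑ x : R, ϑ ⟨(x : G), hRH x.2⟩ * conj (χ x) from h1]
      rw [show ∑ x : Q, indFun H ϑ x * conj (indFun H ϑ x) = ∑ x : Q, χ x * conj (χ x) from rfl]
      rw [show ∑ x : Q, χ x * conj (χ x) = (Nat.card Q : ℂ) * (c : ℂ) ^ 2 from h2, hcf, hcardQ]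
      have : (f : ℂ) ^ 2 = (t : ℂ) := by exact_mod_cast hf2
      rw [this]
      push_cast
      ring
    exact mul_left_cancel₀ htC h4
  apply hRcontra
  refine normal_of_ind_inner L H R hNR hRH ϑ hϑ.isCharacter hϑL ?_ ?_
  · intro x hx y hy
    refine ⟨hy, ?_⟩
    simpa using hQn.conj_mem x hx.2 y⁻¹
  · have h4 := congrArg conj h3
    rw [map_sum] at h4
    simp only [map_mul, Complex.conj_conj, Complex.conj_natCast] at h4
    rw [← h4]
    refine Finset.sum_congr rfl fun x _ => ?_
    exact mul_comm _ _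

end Main

end CfsgLib.Char
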