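import Cfsg.Agent.Lib.Block.Infl2
import Cfsg.Agent.Lib.Block.FirstMain
import Cfsg.Agent.Lib.Block.Quick2
import Cfsg.Agent.Lib.Block.Value

set_option autoImplicit false
set_option linter.all false

namespace CfsgLib.Char.BL

open Cfsg CfsgLib.Char CfsgLib.Block
open scoped ComplexConjugate

universe u

theorem exists_lift_pgroup {G : Type u} [Group G] [Finite G] (N : Subgroup G) [N.Normal] {p : ℕ} [hp : Fact p.Prime]
    (D : Subgroup (G ⧸ N)) (hD : IsPGroup p D) :
    ∃ T : Subgroup G, IsPGroup p T ∧ T.map (QuotientGroup.mk' N) = D := by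
  let f := (QuotientGroup.mk' N).subgroupComap D
  have hf : Function.Surjective f :=
    MonoidHom.subgroupComap_surjective_of_surjective _ _ (QuotientGroup.mk'_surjective N)
  have P : Sylow p (D.comap (QuotientGroup.mk' N)) := default
  have hP' : ((P.mapSurjective hf : Sylow p D) : Subgroup D) = ⊤ :=
    ((P.mapSurjective hf).is_maximal' (Q := ⊤) (hD.to_subgroup ⊤) le_top).symm
  refine ⟨(P : Subgroup _).map (D.comap (QuotientGroup.mk' N)).subtype, P.isPGroup'.map _, ?_⟩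
  ext c
  constructor
  · rintro ⟨_, ⟨r, hr, rfl⟩, rfl⟩
    exact r.2
  · intro hc
    have h1 : (⟨c, hc⟩ : D) ∈ ((P.mapSurjective hf : Sylow p D) : Subgroup D) := by
      rw [hP']
      trivial
    obtain ⟨r, hr, hre⟩ := h1
    refine ⟨_, ⟨r, hr, rfl⟩, ?_⟩
    exact congrArg Subtype.val hre

attribute [local instance] quotFT

theorem s4433_main {G : Type u} [Group G] [Finite G] (p : ℕ) [hp : Fact p.Prime] (M : Ideal AlgInt) (hM : IsPModular p M)
    (N : Subgroup G) [hN : N.Normal] (Bbar : Set (IrrCharacter (G ⧸ N))) (hBbar : IsPBlock M Bbar)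
    (B : Set (IrrCharacter G)) (hB : IsPBlock M B)
    (hsub : ∀ χ ∈ Bbar, ∀ ψ : IrrCharacter G, (ψ : G → ℂ) = (χ : G ⧸ N → ℂ) ∘ QuotientGroup.mk → ψ ∈ B)
    (Dbar : Subgroup (G ⧸ N)) (hDbar : IsDefectGroup p M Bbar Dbar) :
    ∃ P : Subgroup G, IsDefectGroup p M B P ∧ Dbar ≤ P.map (QuotientGroup.mk' N) := by
  classical
  letI := Fintype.ofFinite G
  have hPr := hM.isPrime
  obtain ⟨χb, hχb⟩ := IsPBlock.nonempty hPr hBbar
  have hψ : inflIrr N χb ∈ B := hsub χb hχb _ rfl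
  obtain ⟨g, hg⟩ := exists_defectClass hM hB
  have h1 : centralChar (inflIrr N χb : G → ℂ) g ∉ locI hPr := hg.2.2 _ hψ
  rw [inflIrr_coe, centralChar_infl] at h1
  have hm : ¬ p ∣ (Subgroup.centralizer ({g} : Set G)).index / (Subgroup.centralizer ({(g : G ⧸ N)} : Set (G ⧸ N))).index := fun h =>
    h1 (locI_mul_right hPr (centralChar_mem hPr χb.2 _) ((natCast_mem_locI_iff hM _).mpr h))
  have hcb : centralChar (χb : G ⧸ N → ℂ) (g : G ⧸ N) ∉ locI hPr := fun h =>
    h1 (locI_mul_left hPr (natCast_mem _ _) h)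
  obtain ⟨g₀, hg₀, D₀, rfl⟩ := hDbar
  obtain ⟨xb, hxb⟩ := minmax_b hM hBbar hg₀ D₀ hχb hcb
  obtain ⟨T₀, hT₀, hT₀m⟩ := exists_lift_pgroup N _ (isPGroup_map_sylow _ D₀)
  obtain ⟨a, rfl⟩ := QuotientGroup.mk_surjective xb
  let Ct : Subgroup G := (Subgroup.centralizer ({(g : G ⧸ N)} : Set (G ⧸ N))).comap (QuotientGroup.mk' N)
  have hCle : Subgroup.centralizer ({g} : Set G) ≤ Ct := by
    intro c hc
    rw [Subgroup.mem_comap, Subgroup.mem_centralizer_singleton_iff]
    have := Subgroup.mem_centralizer_singleton_iff.1 hc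
    show (c : G ⧸ N) * (g : G ⧸ N) = (g : G ⧸ N) * (c : G ⧸ N)
    rw [← QuotientGroup.mk_mul, this, QuotientGroup.mk_mul]
  let T : Subgroup G := T₀.map (MulAut.conj a).toMonoidHom
  have hTp : IsPGroup p T := hT₀.map _
  have hTC : T ≤ Ct := by
    rintro _ ⟨c, hc, rfl⟩
    have h2 : (c : G ⧸ N) ∈ ((D₀ : Subgroup _).map (Subgroup.centralizer ({g₀} : Set (G ⧸ N))).subtype) := by
      rw [← hT₀m]
      exact ⟨c, hc, rfl⟩
    have h3 := hxb _ h2
    show ((a * c * a⁻¹ : G) : G ⧸ N) ∈ Subgroup.centralizer ({(g : G ⧸ N)} : Set (G ⧸ N))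
    rw [QuotientGroup.mk_mul, QuotientGroup.mk_mul, QuotientGroup.mk_inv]
    exact h3
  have hidx : ¬ p ∣ ((Subgroup.centralizer ({g} : Set G)).subgroupOf Ct).index := by
    have h2 : (Subgroup.centralizer ({g} : Set G)).relIndex Ct * Ct.index = (Subgroup.centralizer ({g} : Set G)).index :=
      Subgroup.relIndex_mul_index hCle
    have h3 : Ct.index = (Subgroup.centralizer ({(g : G ⧸ N)} : Set (G ⧸ N))).index :=
      Subgroup.index_comap_of_surjective _ (QuotientGroup.mk'_surjective N)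
    have h4 : Ct.index ≠ 0 := Subgroup.index_ne_zero_of_finite
    rw [← h2, h3, Nat.mul_div_cancel _ (Nat.pos_of_ne_zero (h3 ▸ h4))] at hm
    exact hm
  letI : Fintype Ct := Fintype.ofFinite _
  obtain ⟨y, hy⟩ := exists_conj_le_of_not_dvd_index (p := p) (P := T.subgroupOf Ct) (hTp.comap_subtype) _ hidx
  let Q : Subgroup G := T.map (MulAut.conj (y : G)⁻¹).toMonoidHom
  have hQp : IsPGroup p Q := hTp.map _
  have hQC : Q ≤ Subgroup.centralizer ({g} : Set G) := by
    rintro _ ⟨c, hc, rfl⟩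
    have h2 := hy ⟨c, hTC hc⟩ (by simpa [Subgroup.mem_subgroupOf] using hc)
    rw [Subgroup.mem_subgroupOf] at h2
    simpa using h2
  obtain ⟨D, hD, hQD⟩ := exists_defectGroup_ge hM hB hg.2.1 hQp hQC
  refine ⟨D.map (MulAut.conj ((y : G)⁻¹ * a)⁻¹).toMonoidHom, isDefectGroup_conj hD _, ?_⟩
  rw [← hT₀m]
  apply Subgroup.map_mono
  intro c hc
  refine ⟨((y : G)⁻¹ * a) * c * ((y : G)⁻¹ * a)⁻¹, ?_, ?_⟩
  · apply hQD
    refine ⟨a * c * a⁻¹, ⟨c, hc, rfl⟩, ?_⟩
    simp only [MulEquiv.coe_toMonoidHom, MulAut.conj_apply]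
    group
  · simp only [MulEquiv.coe_toMonoidHom, MulAut.conj_apply]
    group

section Fib

variable {G : Type u} [Group G] [Fintype G] (N : Subgroup G) [hN : N.Normal]

/-- The image of a block idempotent in the group algebra of the quotient. -/
noncomputable def fibF (B : Set (IrrCharacter G)) : G ⧸ N → ℂ := by
  classical
  exact fun t => ∑ g : G, if (g : G ⧸ N) = t then blockCoeff B g else 0

open Classical in
theorem fibF_apply (B : Set (IrrCharacter G)) (t : G ⧸ N) :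
    fibF N B t = ∑ g : G, if (g : G ⧸ N) = t then blockCoeff B g else 0 := by
  simp only [fibF]

theorem isClass_fibF (B : Set (IrrCharacter G)) : IsClassFunction (G ⧸ N) (fibF N B) := by
  classical
  have hcent := isCent_fB B
  intro t s
  obtain ⟨s', rfl⟩ := QuotientGroup.mk_surjective s
  rw [fibF_apply, fibF_apply]
  refine (Fintype.sum_equiv (MulAut.conj s').toEquiv _ _ fun g => ?_).symm
  show (if (g : G ⧸ N) = t then blockCoeff B g else 0) =
    if ((s' * g * s'⁻¹ : G) : G ⧸ N) = (s' : G ⧸ N) * t * (s' : G ⧸ N)⁻¹ then blockCoeff B (s' * g * s'⁻¹) else 0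
  have h1 : blockCoeff B (s' * g * s'⁻¹) = blockCoeff B g := by
    rw [← coeff_fB, ← coeff_fB]
    exact hcent.conj g s'
  rw [h1]
  have h2 : ((s' * g * s'⁻¹ : G) : G ⧸ N) = (s' : G ⧸ N) * (g : G ⧸ N) * (s' : G ⧸ N)⁻¹ := rfl
  rw [h2]
  by_cases h3 : (g : G ⧸ N) = t
  · rw [if_pos h3, if_pos (by rw [h3])]
  · rw [if_neg h3, if_neg]
    intro h4
    exact h3 (mul_left_cancel (mul_right_cancel h4))

theorem blockCoeff_quot (B : Set (IrrCharacter G)) (A : Set (IrrCharacter (G ⧸ N)))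
    (hA : ∀ θ : IrrCharacter (G ⧸ N), θ ∈ A ↔ inflIrr N θ ∈ B) (t : G ⧸ N) :
    blockCoeff A t = fibF N B t := by
  classical
  have key : fB A = mkA (fibF N B) := by
    refine cent_ext (isCent_fB A) (isCent_mkA (isClass_fibF N B)) fun θ => ?_
    rw [om_fB]
    have h1 := om_fB B (inflIrr N θ)
    have h2 : om (inflIrr N θ : G → ℂ) (fB B) = om (θ : G ⧸ N → ℂ) (mkA (fibF N B)) := by
      rw [om, om, hat, hat, inflIrr_apply, QuotientGroup.mk_one]
      congr 1
      rw [← Finset.sum_fiberwise Finset.univ (fun g : G => (g : G ⧸ N)) (fun g => (fB B).coeff g * (inflIrr N θ : G → ℂ) g)]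
      refine Finset.sum_congr rfl fun s _ => ?_
      rw [coeff_mkA, fibF_apply, Finset.sum_mul, Finset.sum_filter]
      refine Finset.sum_congr rfl fun g _ => ?_
      by_cases h5 : (g : G ⧸ N) = s
      · rw [if_pos h5, if_pos h5, coeff_fB, inflIrr_apply, h5]
      · rw [if_neg h5, if_neg h5, zero_mul]
    rw [← h2, h1]
    by_cases hθ : θ ∈ A
    · rw [if_pos hθ, if_pos ((hA θ).mp hθ)]
    · rw [if_neg hθ, if_neg (fun h => hθ ((hA θ).mpr h))]
  have h3 := congrArg (fun w : GA (G ⧸ N) => w.coeff t) key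
  simpa only [coeff_fB, coeff_mkA] using h3

/-- The idempotent of a union of blocks of a finite group is the sum of the block idempotents. -/
theorem fB_eq_sum_blocks' {H : Type u} [Group H] [Fintype H] {M : Ideal AlgInt} (hP : M.IsPrime) {A : Set (IrrCharacter H)}
    (hA : ∀ θ ∈ A, blockOf M (θ : H → ℂ) ⊆ A) :
    ∃ S : Finset (Set (IrrCharacter H)), (∀ B ∈ S, IsPBlock M B ∧ B ⊆ A) ∧ fB A = ∑ B ∈ S, fB B := by
  classical
  refine ⟨(blockSet M H).filter (· ⊆ A), fun B hB => ⟨mem_blockSet.1 (Finset.mem_filter.1 hB).1, (Finset.mem_filter.1 hB).2⟩, ?_⟩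
  refine cent_ext (isCent_fB A) (isCent_sum _ _ fun B _ => isCent_fB B) fun θ => ?_
  rw [om_fB, om_sum]
  simp only [om_fB]
  by_cases hθ : θ ∈ A
  · rw [if_pos hθ, Finset.sum_eq_single (blockOf M (θ : H → ℂ))]
    · rw [if_pos (self_mem_blockOf hP θ)]
    · intro B hB hne
      rw [if_neg]
      intro hθB
      apply hne
      exact blockOf_eq_of_mem hP (mem_blockSet.1 (Finset.mem_filter.1 hB).1) hθB
    · intro h
      exfalso
      apply h
      exact Finset.mem_filter.2 ⟨mem_blockSet.2 ⟨θ, rfl⟩, hA θ hθ⟩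
  · rw [if_neg hθ]
    symm
    refine Finset.sum_eq_zero fun B hB => ?_
    rw [if_neg]
    intro h
    exact hθ ((Finset.mem_filter.1 hB).2 h)

variable {p : ℕ} [hp : Fact p.Prime] {M : Ideal AlgInt}

theorem fibF_of_defect (hM : IsPModular p M) (hNp : IsPGroup p N) {B : Set (IrrCharacter G)} (hB : IsPBlock M B) {g : G}
    (hg : blockCoeff B g ≠ 0) (hNg : N ≤ Subgroup.centralizer ({g} : Set G)) : fibF N B (g : G ⧸ N) = blockCoeff B g := by
  classical
  have hg1 : ¬ p ∣ orderOf g := fun h => hg (blockCoeff_singular hM hB h)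
  rw [fibF_apply, Finset.sum_eq_single g]
  · rw [if_pos rfl]
  · intro h _ hhg
    by_cases h2 : (h : G ⧸ N) = (g : G ⧸ N)
    · rw [if_pos h2]
      have h3 : g⁻¹ * h ∈ N := QuotientGroup.eq.1 h2.symm
      set n := g⁻¹ * h with hn
      have hn1 : n ≠ 1 := by
        intro h4
        apply hhg
        rw [hn] at h4
        exact (inv_mul_eq_one.1 h4).symm
      have hh : h = g * n := by rw [hn]; group
      have hcomm : Commute g n := (Subgroup.mem_centralizer_singleton_iff.1 (hNg h3)).symm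
      obtain ⟨k, hk⟩ := (IsPGroup.iff_orderOf.1 hNp) ⟨n, h3⟩
      have hk' : orderOf n = p ^ k := by simpa [Subgroup.orderOf_mk] using hk
      have hk0 : k ≠ 0 := by
        rintro rfl
        rw [pow_zero] at hk'
        exact hn1 (orderOf_eq_one_iff.1 hk')
      have hcop : Nat.Coprime (orderOf g) (orderOf n) := by
        rw [hk']
        exact Nat.Coprime.pow_right _ ((Nat.Prime.coprime_iff_not_dvd hp.out).2 hg1).symm
      refine blockCoeff_singular hM hB ?_
      rw [hh, hcomm.orderOf_mul_eq_mul_orderOf_of_coprime hcop, hk']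
      exact Dvd.dvd.mul_left (dvd_pow_self p hk0) _
    · rw [if_neg h2]
  · simp

theorem defect_eq_conj (hM : IsPModular p M) {B : Set (IrrCharacter G)} (hB : IsPBlock M B) {D D' : Subgroup G}
    (hD : IsDefectGroup p M B D) (hD' : IsDefectGroup p M B D') :
    ∃ x : G, D' = D.map (MulAut.conj x).toMonoidHom := by
  obtain ⟨x, hx⟩ := isDefectGroup_conj_le hM hB hD hD'
  refine ⟨x, ?_⟩
  have hcard : Nat.card D' = Nat.card (D.map (MulAut.conj x).toMonoidHom) := by
    rw [Subgroup.card_map_of_injective (MulAut.conj x).injective, card_defectGroup hM hB hD', card_defectGroup hM hB hD]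
  refine Subgroup.eq_of_le_of_card_ge ?_ hcard.ge
  intro c hc
  refine ⟨x⁻¹ * c * x, hx c hc, ?_⟩
  simp only [MulEquiv.coe_toMonoidHom, MulAut.conj_apply]
  group

end Fib

theorem s4434_main {G : Type u} [Group G] [Finite G] (p : ℕ) [hp : Fact p.Prime] (M : Ideal AlgInt) (hM : IsPModular p M)
    (N : Subgroup G) [hN : N.Normal] (hNp : IsPGroup p N) (B : Set (IrrCharacter G)) (hB : IsPBlock M B) :
    ∃ Bbar : Set (IrrCharacter (G ⧸ N)), IsPBlock M Bbar ∧
      (∀ χ ∈ Bbar, ∀ ψ : IrrCharacter G, (ψ : G → ℂ) = (χ : G ⧸ N → ℂ) ∘ QuotientGroup.mk → ψ ∈ B) ∧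
      ∀ Dbar : Subgroup (G ⧸ N), IsDefectGroup p M Bbar Dbar ↔
        ∃ P : Subgroup G, IsDefectGroup p M B P ∧ Dbar = P.map (QuotientGroup.mk' N) := by
  classical
  letI := Fintype.ofFinite G
  have hPr := hM.isPrime
  obtain ⟨g, hg⟩ := exists_defectClass hM hB
  have D₀ : Sylow p (Subgroup.centralizer ({g} : Set G)) := default
  set D : Subgroup G := (D₀ : Subgroup _).map (Subgroup.centralizer ({g} : Set G)).subtype with hDdef
  have hDdefect : IsDefectGroup p M B D := ⟨g, hg, D₀, rfl⟩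
  have hDp : IsPGroup p D := isPGroup_map_sylow _ D₀
  have hNleD : N ≤ D := normal_le_of_defectClass hM hB hg D₀ hN hNp
  have hDC : D ≤ Subgroup.centralizer ({g} : Set G) := map_sylow_le _ D₀
  have hg0 : blockCoeff B g ≠ 0 := by
    intro h0
    apply hg.2.1
    show blockCoeff B g ∈ locI hPr
    rw [h0]
    exact zero_mem _
  let A : Set (IrrCharacter (G ⧸ N)) := {θ | inflIrr N θ ∈ B}
  have hAm : ∀ θ, θ ∈ A ↔ inflIrr N θ ∈ B := fun θ => Iff.rfl
  have hAu : ∀ θ ∈ A, blockOf M (θ : G ⧸ N → ℂ) ⊆ A := by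
    intro θ hθ θ' hθ'
    rw [hAm] at hθ ⊢
    have h1 := sameBlock_infl N hPr (hθ' : SameBlock M (θ : G ⧸ N → ℂ) (θ' : G ⧸ N → ℂ))
    obtain ⟨ψ₀, rfl⟩ := hB
    exact SameBlock.trans hPr hθ h1
  obtain ⟨S, hS, hSsum⟩ := fB_eq_sum_blocks' hPr hAu
  have hAg : blockCoeff A (g : G ⧸ N) = blockCoeff B g := by
    rw [blockCoeff_quot N B A hAm, fibF_of_defect N hM hNp hB hg0 (hNleD.trans hDC)]
  obtain ⟨Bbar, hBbarS, hBbarg⟩ : ∃ Bbar ∈ S, blockCoeff Bbar (g : G ⧸ N) ∉ locI hPr := by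
    by_contra hc
    push Not at hc
    apply hg.2.1
    show blockCoeff B g ∈ locI hPr
    rw [← hAg, ← coeff_fB, hSsum, coeff_sum']
    exact sum_mem fun Bb hBb => by
      rw [coeff_fB]
      exact hc Bb hBb
  obtain ⟨hBbar, hBbarA⟩ := hS Bbar hBbarS
  have hDbp : IsPGroup p (D.map (QuotientGroup.mk' N)) := hDp.map _
  have hDbC : D.map (QuotientGroup.mk' N) ≤ Subgroup.centralizer ({(g : G ⧸ N)} : Set (G ⧸ N)) := by
    rintro _ ⟨c, hc, rfl⟩
    rw [Subgroup.mem_centralizer_singleton_iff]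
    have := Subgroup.mem_centralizer_singleton_iff.1 (hDC hc)
    show (c : G ⧸ N) * (g : G ⧸ N) = (g : G ⧸ N) * (c : G ⧸ N)
    rw [← QuotientGroup.mk_mul, this, QuotientGroup.mk_mul]
  obtain ⟨E, hE, hDE⟩ := exists_defectGroup_ge hM hBbar hBbarg hDbp hDbC
  have hsubB : ∀ χ ∈ Bbar, ∀ ψ : IrrCharacter G, (ψ : G → ℂ) = (χ : G ⧸ N → ℂ) ∘ QuotientGroup.mk → ψ ∈ B := by
    intro χ hχ ψ hψ
    have h1 : ψ = inflIrr N χ := Subtype.ext hψ
    rw [h1]
    exact hBbarA hχ
  obtain ⟨P, hP, hEP⟩ := s4433_main p M hM N Bbar hBbar B hB hsubB E hE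
  -- orders
  have hNleP : N ≤ P := by
    obtain ⟨x, rfl⟩ := defect_eq_conj hM hB hDdefect hP
    intro n hn
    refine ⟨x⁻¹ * n * x, hNleD ?_, ?_⟩
    · have := hN.conj_mem n hn x⁻¹
      simpa using this
    · simp only [MulEquiv.coe_toMonoidHom, MulAut.conj_apply]
      group
  have hcardDP : Nat.card D = Nat.card P := by
    rw [card_defectGroup hM hB hDdefect, card_defectGroup hM hB hP]
  have hidx : ∀ X : Subgroup G, N ≤ X → (X.map (QuotientGroup.mk' N)).index = X.index := by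
    intro X hX
    rw [Subgroup.index_map]
    simp only [QuotientGroup.ker_mk', sup_eq_left.mpr hX, MonoidHom.range_eq_top.mpr (QuotientGroup.mk'_surjective N),
      Subgroup.index_top, mul_one]
  have hDPidx : D.index = P.index := by
    have h1 := Subgroup.card_mul_index D
    have h2 := Subgroup.card_mul_index P
    rw [hcardDP] at h1
    exact Nat.eq_of_mul_eq_mul_left (Nat.card_pos) (h1.trans h2.symm)
  have hDPb : D.map (QuotientGroup.mk' N) = E := by
    have h1 : D.map (QuotientGroup.mk' N) ≤ P.map (QuotientGroup.mk' N) := hDE.trans hEP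
    have h2 : Nat.card (D.map (QuotientGroup.mk' N)) = Nat.card (P.map (QuotientGroup.mk' N)) := by
      have h3 := Subgroup.card_mul_index (D.map (QuotientGroup.mk' N))
      have h4 := Subgroup.card_mul_index (P.map (QuotientGroup.mk' N))
      rw [hidx D hNleD] at h3
      rw [hidx P hNleP, ← hDPidx] at h4
      exact Nat.eq_of_mul_eq_mul_right (Nat.pos_of_ne_zero Subgroup.index_ne_zero_of_finite) (h3.trans h4.symm)
    have h5 := Subgroup.eq_of_le_of_card_ge h1 h2.ge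
    exact le_antisymm hDE (h5 ▸ hEP)
  have hDbdef : IsDefectGroup p M Bbar (D.map (QuotientGroup.mk' N)) := by
    rw [hDPb]
    exact hE
  refine ⟨Bbar, hBbar, hsubB, fun Dbar => ⟨fun hDbar => ?_, ?_⟩⟩
  · obtain ⟨x, hx⟩ := defect_eq_conj hM hBbar hDbdef hDbar
    obtain ⟨a, rfl⟩ := QuotientGroup.mk_surjective x
    refine ⟨D.map (MulAut.conj a).toMonoidHom, isDefectGroup_conj hDdefect a, ?_⟩
    rw [hx]
    clear_value D
    ext c
    constructor
    · rintro ⟨_, ⟨w, hw, rfl⟩, rfl⟩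
      exact ⟨_, ⟨w, hw, rfl⟩, rfl⟩
    · rintro ⟨_, ⟨w, hw, rfl⟩, rfl⟩
      exact ⟨_, ⟨w, hw, rfl⟩, rfl⟩
  · rintro ⟨P', hP', rfl⟩
    obtain ⟨a, rfl⟩ := defect_eq_conj hM hB hDdefect hP'
    have h1 := isDefectGroup_conj hDbdef (a : G ⧸ N)
    convert h1 using 1
    clear_value D
    ext c
    constructor
    · rintro ⟨_, ⟨w, hw, rfl⟩, rfl⟩
      exact ⟨_, ⟨w, hw, rfl⟩, rfl⟩
    · rintro ⟨_, ⟨w, hw, rfl⟩, rfl⟩
      exact ⟨_, ⟨w, hw, rfl⟩, rfl⟩

end CfsgLib.Char.BL
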