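import Cfsg.Agent.Lib.Block.FongRey2
import Cfsg.Agent.Lib.Block.Knorr
import Cfsg.Agent.Lib.Block.Graded2
import Cfsg.Agent.Lib.Block.Transport
import Cfsg.Agent.Lib.Char.BlkQuot
import Cfsg.Agent.Lib.Char.Clifford2

/-!
# Blocks covering a block of a normal subgroup containing a defect group
-/

universe u

open Cfsg CfsgLib.Block

namespace CfsgLib.Char.BL

theorem cover_lemma {X : Type u} [Group X] [Fintype X] {p : ℕ} [hp : Fact p.Prime] {M : Ideal AlgInt}
    (hM : IsPModular p M) (N U : Subgroup X) [hN : N.Normal] [hU : U.Normal] [Fintype N] (hNU : N ≤ U) {k : ℕ}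
    (hk : (N.subgroupOf U).index = p ^ k) {c : Set (IrrCharacter N)} (hc : IsPBlock M c) (hst : IsStable N c)
    {B : Set (IrrCharacter X)} (hB : IsPBlock M B)
    (hcov : ∃ χ ∈ B, ∃ θ ∈ c, classInner (fun n : N => (χ : X → ℂ) n) (θ : N → ℂ) ≠ 0)
    {P : Subgroup X} (hP : IsDefectGroup p M B P) (hPN : P ≤ N) : U ≤ N := by
  classical
  have hPr := hM.isPrime
  letI : Fintype U := Fintype.ofFinite _
  let N₁ : Subgroup U := N.subgroupOf U
  haveI : N₁.Normal := inferInstance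
  letI : Fintype N₁ := Fintype.ofFinite _
  let e : N ≃* N₁ := (Subgroup.subgroupOfEquivOfLe hNU).symm
  have he : ∀ n : N, ((e n : U) : X) = n := fun n => rfl
  have he' : ∀ n : N₁, ((e.symm n : N) : X) = ((n : U) : X) := fun n => rfl
  let c₁ : Set (IrrCharacter N₁) := setT e c
  have hc₁ : IsPBlock M c₁ := isPBlock_setT e hc
  have hst₁ : IsStable N₁ c₁ := by
    intro u θ hθ
    rw [mem_setT] at hθ ⊢
    have h1 := hst (u : X) _ hθ
    convert h1 using 1
    apply Subtype.ext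
    funext n
    rfl
  obtain ⟨E, hE, hfE⟩ := exists_block_of_pIndex N₁ hM hk hc₁ hst₁
  obtain ⟨D, hD⟩ := exists_defectGroup hM hE
  obtain ⟨-, hDidx⟩ := knorr_defect N₁ hM hc₁ hst₁ hE hfE hD
  have hsup : N₁ ⊔ D = ⊤ := by
    have h1 : (N₁ ⊔ D).index ∣ N₁.index := Subgroup.index_dvd_of_le le_sup_left
    rw [show N₁.index = p ^ k from hk] at h1
    obtain ⟨j, -, hj⟩ := (Nat.dvd_prime_pow hp.out).1 h1
    rcases j with _ | j
    · rw [pow_zero] at hj
      exact Subgroup.index_eq_one.1 hj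
    · exact absurd (hj ▸ dvd_pow_self p (Nat.succ_ne_zero j)) hDidx
  have hincl : incl U (fB E) = incl N (fB c) := by
    rw [hfE]
    apply MonoidAlgebra.ext
    ext g
    by_cases hg : g ∈ N
    · have hgU := hNU hg
      rw [coeff_incl_mem U _ hgU, coeff_incl_mem N₁ _ (show (⟨g, hgU⟩ : U) ∈ N₁ from hg), coeff_incl_mem N _ hg,
        coeff_fB, coeff_fB]
      exact blockCoeff_setT' e c ⟨g, hg⟩
    · rw [coeff_incl_not_mem N _ hg]
      by_cases hgU : g ∈ U
      · rw [coeff_incl_mem U _ hgU, coeff_incl_not_mem N₁ _ (show (⟨g, hgU⟩ : U) ∉ N₁ from hg)]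
      · rw [coeff_incl_not_mem U _ hgU]
  have hcovE : ∃ χ ∈ B, ∃ τ ∈ E, classInner (fun u : U => (χ : X → ℂ) u) (τ : U → ℂ) ≠ 0 := by
    apply exists_cover_of_ne U
    obtain ⟨χ, hχ, θ, hθ, hc⟩ := hcov
    rw [hincl]
    intro h0
    have h1 : om (χ : X → ℂ) (fB B * incl N (fB c)) = 1 := by
      rw [om_mul_of_cent χ.2 (isCent_fB B), om_fB, if_pos hχ, om_incl_fB N hst χ.2 hc, if_pos hθ, one_mul]
    rw [h0] at h1
    simp [om, hat] at h1
  have hQ : IsDefectGroup p M E ((D.map U.subtype).subgroupOf U) := by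
    have h1 : (D.map U.subtype).subgroupOf U = D := Subgroup.comap_map_eq_self_of_injective U.subtype_injective D
    rwa [h1]
  obtain ⟨P', hP', hP'U⟩ := knorr_inf U hM hE (Subgroup.map_subtype_le D) hQ hB hcovE
  have hP'N : P' ≤ N := by
    obtain ⟨x, rfl⟩ := defect_eq_conj hM hB hP hP'
    rintro _ ⟨y, hy, rfl⟩
    exact hN.conj_mem y (hPN hy) x
  have hDN : D ≤ N₁ := by
    intro d hd
    have h1 : (d : X) ∈ P' ⊓ U := by
      rw [hP'U]
      exact ⟨d, hd, rfl⟩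
    exact hP'N h1.1
  have hN₁ : N₁ = ⊤ := by
    rw [← hsup]
    exact (sup_eq_left.2 hDN).symm
  intro u hu
  have h1 : (⟨u, hu⟩ : U) ∈ N₁ := by
    rw [hN₁]
    exact Subgroup.mem_top _
  exact h1

theorem s4673_main {G : Type u} [Group G] [Fintype G] (p : ℕ) [hp : Fact p.Prime] (M : Ideal AlgInt) (hM : IsPModular p M)
    (N L : Subgroup G) [hN : N.Normal] [hL : L.Normal] [Fintype N] (hNL : N ≤ L)
    (hLN : ∃ k : ℕ, (N.subgroupOf L).index = p ^ k) (B : Set (IrrCharacter G)) (hB : IsPBlock M B)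
    (c : Set (IrrCharacter N)) (hc : IsPBlock M c)
    (hcov : ∃ χ ∈ B, ∃ θ ∈ c, classInner (fun n : N => (χ : G → ℂ) n) (θ : N → ℂ) ≠ 0)
    (hD : ∃ D : Subgroup G, IsDefectGroup p M B D ∧ D ≤ N) (T : Subgroup G)
    (hT : ∀ x : G, x ∈ T ↔ StabilizesBlock N c x) : T ⊓ L = N := by
  classical
  have hPr := hM.isPrime
  letI : Fintype T := Fintype.ofFinite _
  have hnorm : ∀ x : G, x ∈ Subgroup.normalizer (N : Set G) := by
    intro x
    rw [Subgroup.mem_normalizer_iff]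
    intro h
    constructor
    · intro hh
      exact hN.conj_mem h hh x
    · intro hh
      have := hN.conj_mem _ hh x⁻¹
      simpa [mul_assoc] using this
  have hNT : N ≤ T := by
    intro n hn
    rw [hT]
    refine ⟨hnorm n, fun χ hχ => ⟨χ, hχ, fun k k' hk => ?_⟩⟩
    have h1 := χ.2.isClassFunction k (⟨n, hn⟩ : N)
    rw [← h1]
    refine congrArg (χ : N → ℂ) (Subtype.ext ?_)
    rw [hk]
    rfl
  have hT' : ∀ g : G, g ∈ T ↔ ∀ θ ∈ c, ∀ θ' : IrrCharacter N,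
      (∀ n : N, (θ' : N → ℂ) n = (θ : N → ℂ) ⟨g * n * g⁻¹, hN.conj_mem n n.2 g⟩) → θ' ∈ c := by
    intro g
    rw [← Subgroup.inv_mem_iff, hT]
    constructor
    · rintro ⟨-, h⟩ θ hθ θ' hθ'
      obtain ⟨χ', hχ', hc'⟩ := h θ hθ
      have h1 : θ' = χ' := by
        apply Subtype.ext
        funext n
        rw [hθ' n]
        refine (hc' _ n ?_).symm
        show (n : G) = g⁻¹ * (g * n * g⁻¹) * g⁻¹⁻¹
        group
      rwa [h1]
    · intro h
      refine ⟨hnorm _, fun χ hχ => ⟨conjIrr N g χ, h χ hχ _ fun n => rfl, fun k k' hk => ?_⟩⟩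
      show (χ : N → ℂ) ⟨g * k' * g⁻¹, hN.conj_mem k' k'.2 g⟩ = (χ : N → ℂ) k
      refine congrArg (χ : N → ℂ) (Subtype.ext ?_)
      show g * (k' : G) * g⁻¹ = k
      rw [hk]
      group
  obtain ⟨B', hB', hcov', hind⟩ := (s4435 N hNT hM hc hT').2.2 B hB hcov
  obtain ⟨D', hD'⟩ := exists_defectGroup hM hB'
  obtain ⟨hDD, -⟩ := s4436 N hNT hM hc hT' B' hB' hcov' B hind
  have hDG := hDD D' hD'
  obtain ⟨D, hDdef, hDN⟩ := hD
  have hD'N : D' ≤ N.subgroupOf T := by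
    obtain ⟨x, hx⟩ := defect_eq_conj hM hB hDdef hDG
    intro d hd
    have h1 : (d : G) ∈ D'.map T.subtype := ⟨d, hd, rfl⟩
    rw [hx] at h1
    obtain ⟨y, hy, hyd⟩ := h1
    show (d : G) ∈ N
    rw [← hyd]
    exact hN.conj_mem y (hDN hy) x
  have hidx : ∃ k : ℕ, ((N.subgroupOf T).subgroupOf (L.subgroupOf T)).index = p ^ k := by
    obtain ⟨k, hk⟩ := hLN
    have h1 : (N.subgroupOf T).relIndex (L.subgroupOf T) = N.relIndex ((L.subgroupOf T).map T.subtype) :=
      Subgroup.relIndex_comap N T.subtype (L.subgroupOf T)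
    have h2 : (L.subgroupOf T).map T.subtype = T ⊓ L := by
      ext x
      constructor
      · rintro ⟨y, hy, rfl⟩
        exact ⟨y.2, hy⟩
      · rintro ⟨h1, h2⟩
        exact ⟨⟨x, h1⟩, h2, rfl⟩
    rw [h2] at h1
    have h3 := Subgroup.relIndex_mul_relIndex (H := N) (K := T ⊓ L) (L := L) (le_inf hNT hNL) inf_le_right
    have h4 : N.relIndex L = p ^ k := hk
    rw [h4] at h3
    have h5 : N.relIndex (T ⊓ L) ∣ p ^ k := ⟨_, h3.symm⟩
    obtain ⟨j, -, hj⟩ := (Nat.dvd_prime_pow hp.out).1 h5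
    exact ⟨j, h1.trans hj⟩
  let N' : Subgroup T := N.subgroupOf T
  have : N'.Normal := inferInstance
  letI : Fintype N' := Fintype.ofFinite _
  let U : Subgroup T := L.subgroupOf T
  have : U.Normal := inferInstance
  let e : N ≃* N' := (Subgroup.subgroupOfEquivOfLe hNT).symm
  obtain ⟨k', hk'⟩ := hidx
  have hst : IsStable N' (setT e c) := by
    intro t θ hθ
    rw [mem_setT] at hθ ⊢
    have h1 := (conjIrr_stab_iff N hT' (t : G)).1 t.2 _ hθ
    convert h1 using 1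
    apply Subtype.ext
    funext n
    rfl
  have hcov'' : ∃ χ ∈ B', ∃ θ ∈ setT e c, classInner (fun n : N' => (χ : T → ℂ) n) (θ : N' → ℂ) ≠ 0 := by
    obtain ⟨ψ, hψ, θ, hθ, hne⟩ := hcov'
    refine ⟨ψ, hψ, irrT e θ, (irrT_mem_setT e).2 hθ, ?_⟩
    intro h0
    apply hne
    have h1 := classInner_comp_mulEquiv e (fun n : N' => (ψ : T → ℂ) n) (irrT e θ : N' → ℂ)
    rw [h0] at h1
    rw [← h1]
    refine congrArg₂ classInner ?_ ?_
    · rfl
    · funext n
      show (θ : N → ℂ) n = (θ : N → ℂ) (e.symm (e n))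
      rw [MulEquiv.symm_apply_apply]
  have hUN := cover_lemma hM N' U (fun x hx => hNL hx) hk' (isPBlock_setT e hc) hst hB' hcov'' hD' hD'N
  apply le_antisymm
  · rintro x ⟨hxT, hxL⟩
    exact hUN (show (⟨x, hxT⟩ : T) ∈ U from hxL)
  · exact le_inf hNT hNL

end CfsgLib.Char.BL
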