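import Cfsg.Agent.Lib.Block.Induced

set_option autoImplicit false
set_option linter.all false

namespace CfsgLib.Char.BL

open Cfsg CfsgLib.Char CfsgLib.Block
open scoped ComplexConjugate

universe u

theorem s4725_main {G : Type u} [Group G] [Fintype G] (p : ℕ) [Fact p.Prime] (M : Ideal AlgInt) (hM : IsPModular p M)
    (H : Subgroup G) (b : Set (IrrCharacter ↥H)) (B : Set (IrrCharacter G)) (hind : IsInducedBlock M H b B)
    (hdef : blockDefect p b = blockDefect p B) (ζ : IrrCharacter ↥H) (hζ : ζ ∈ b)
    (hζ0 : blockHeight p b (ζ : ↥H → ℂ) = 0) :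
    ∃ χ ∈ B, blockHeight p B (χ : G → ℂ) = 0 ∧ ∃ a : ℕ, classInner (indFun H (ζ : ↥H → ℂ)) (χ : G → ℂ) = (a : ℂ) ∧ ¬ p ∣ a := by
  classical
  letI : Fintype H := Fintype.ofFinite _
  have hP := hM.isPrime
  have hp := (Fact.out : p.Prime)
  obtain ⟨⟨n, hn, hn0, hnf⟩, -⟩ := nB_factorization hM hind hζ
  obtain ⟨χ₀, hχ₀⟩ := IsPBlock.nonempty hP hind.2.1
  have h1 : minNu p B ≤ (Nat.card G).factorization p := (minNu_le (p := p) hχ₀).trans minNu_le_factorization
  have h2 : minNu p b ≤ (Nat.card H).factorization p := (minNu_le (p := p) hζ).trans minNu_le_factorization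
  have hdef' : (Nat.card H).factorization p - minNu p b = (Nat.card G).factorization p - minNu p B := hdef
  have hζ1 := (blockHeight_eq_zero_iff hζ).mp hζ0
  have hind0 : H.index ≠ 0 := Subgroup.index_ne_zero_of_finite
  have hH0 : Nat.card H ≠ 0 := Nat.card_pos.ne'
  have hcard : (Nat.card G).factorization p = (Nat.card H).factorization p + H.index.factorization p := by
    rw [← Subgroup.card_mul_index H, Nat.factorization_mul hH0 hind0]
    rfl
  have hdegI : charDegree (indFun H (ζ : ↥H → ℂ)) = H.index * charDegree (ζ : ↥H → ℂ) := by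
    have h3 := coe_charDegree (isCharacter_indFun H ζ.2.isCharacter)
    rw [indFun_one, ← coe_charDegree ζ.2.isCharacter] at h3
    exact_mod_cast h3
  have hdeg : n.factorization p = minNu p B := by
    rw [hnf, hdegI, Nat.factorization_mul hind0 (charDegree_ne_zero ζ.2)]
    simp only [Finsupp.add_apply]
    omega
  by_contra hc
  push Not at hc
  have h3 : ∀ χ : IrrCharacter G, ∃ n : ℕ, classInner (indFun H (ζ : ↥H → ℂ)) (χ : G → ℂ) = n :=
    fun χ => (isCharacter_indFun H ζ.2.isCharacter).classInner_nat χ.2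
  choose a ha using h3
  have hn' : n = ∑ χ : IrrCharacter G, if χ ∈ B then a χ * charDegree (χ : G → ℂ) else 0 := by
    have h4 : (n : ℂ) = ((∑ χ : IrrCharacter G, if χ ∈ B then a χ * charDegree (χ : G → ℂ) else 0 : ℕ) : ℂ) := by
      rw [← hn, nB]
      push_cast
      refine Finset.sum_congr rfl fun χ _ => ?_
      split_ifs
      · rw [ha, coe_charDegree χ.2.isCharacter]
      · rfl
    exact_mod_cast h4
  have hdvd : p ^ (minNu p B + 1) ∣ n := by
    rw [hn']
    apply Finset.dvd_sum
    intro χ _
    by_cases hχ : χ ∈ B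
    · rw [if_pos hχ]
      have hd0 : charDegree (χ : G → ℂ) ≠ 0 := charDegree_ne_zero χ.2
      by_cases h5 : blockHeight p B (χ : G → ℂ) = 0
      · have h7 : p ∣ a χ := hc χ hχ h5 (a χ) (ha χ)
        have h8 := (blockHeight_eq_zero_iff hχ).mp h5
        have h9 : p ^ minNu p B ∣ charDegree (χ : G → ℂ) := by
          rw [← h8]
          exact Nat.ordProj_dvd _ _
        rw [pow_succ, mul_comm]
        exact mul_dvd_mul h7 h9
      · have h8 : minNu p B + 1 ≤ (charDegree (χ : G → ℂ)).factorization p := by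
          have h9 := minNu_le (p := p) hχ
          by_contra h10
          apply h5
          rw [blockHeight_eq_zero_iff hχ]
          omega
        exact Dvd.dvd.mul_left ((hp.pow_dvd_iff_le_factorization hd0).mpr h8) _
    · rw [if_neg hχ]
      exact dvd_zero _
  have h5 := (hp.pow_dvd_iff_le_factorization hn0).mp hdvd
  omega

end CfsgLib.Char.BL
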