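import Cfsg.Agent.Lib.Block.Orth
import Cfsg.Agent.Lib.Block.Height
import Cfsg.Agent.Lib.Char.Induce

/-!
# Independence of `p`-blocks of the choice of the maximal ideal
-/

universe u

open Cfsg CfsgLib.Block
open scoped ComplexConjugate

namespace CfsgLib.Char.BL

variable {G : Type u} [Group G] [Fintype G] {p : ℕ} [hp : Fact p.Prime] {M M' : Ideal AlgInt}

/-- The idempotent of a block relative to `M'` is integral at every `M`. -/
theorem sval_fB_of_other (hM : IsPModular p M) (hM' : IsPModular p M') {B : Set (IrrCharacter G)}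
    (hB : IsPBlock M' B) : SVal hM.isPrime (fB B) := by
  classical
  have hPr := hM.isPrime
  intro g
  rw [coeff_fB]
  by_cases hg : p ∣ orderOf g
  · rw [blockCoeff_singular hM' hB hg]
    exact zero_mem _
  · have P : Sylow p G := default
    letI : Fintype (P : Subgroup G) := Fintype.ofFinite _
    set Ψ : G → ℂ := fun y => ∑ θ : IrrCharacter G, if θ ∈ B then (θ : G → ℂ) y * conj ((θ : G → ℂ) g) else 0 with hΨ
    have hΨ0 : ∀ y, p ∣ orderOf y → Ψ y = 0 := by
      intro y hy
      have h1 := weak_orth hM' hB hg hy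
      have h2 := congrArg conj h1
      rw [map_zero, map_sum] at h2
      rw [← h2]
      refine Finset.sum_congr rfl fun θ _ => ?_
      by_cases hθ : θ ∈ B
      · rw [if_pos hθ, if_pos hθ, map_mul, Complex.conj_conj, mul_comm]
      · rw [if_neg hθ, if_neg hθ, map_zero]
    have hsum : ∑ y : (P : Subgroup G), Ψ y = Ψ 1 := by
      rw [Finset.sum_eq_single (1 : (P : Subgroup G))]
      · rfl
      · intro y _ hy
        apply hΨ0
        have h1 := P.2 y
        obtain ⟨k, hk⟩ := (IsPGroup.iff_orderOf.1 P.2) y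
        rw [← Subgroup.orderOf_coe] at hk
        rw [hk]
        refine dvd_pow_self p ?_
        rintro rfl
        rw [pow_zero, Subgroup.orderOf_coe] at hk
        exact hy (orderOf_eq_one_iff.1 hk)
      · intro h0
        exact absurd (Finset.mem_univ _) h0
    choose n hn using fun θ : IrrCharacter G =>
      (θ.2.isCharacter.restrict (P : Subgroup G)).classInner_nat_of_char
        (isCharacter_one (G := (P : Subgroup G)))
    have hPne : (Nat.card (P : Subgroup G) : ℂ) ≠ 0 := by
      exact_mod_cast Nat.card_pos.ne'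
    have hθsum : ∀ θ : IrrCharacter G, ∑ y : (P : Subgroup G), (θ : G → ℂ) y = (Nat.card (P : Subgroup G) : ℂ) * n θ := by
      intro θ
      have h1 := hn θ
      rw [classInner_def] at h1
      simp only [map_one, mul_one] at h1
      rw [← h1]
      field_simp
    have hΨ1 : Ψ 1 = (Nat.card (P : Subgroup G) : ℂ) *
        ∑ θ : IrrCharacter G, if θ ∈ B then (n θ : ℂ) * conj ((θ : G → ℂ) g) else 0 := by
      rw [← hsum, Finset.mul_sum]
      simp only [hΨ]
      rw [Finset.sum_comm]
      refine Finset.sum_congr rfl fun θ _ => ?_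
      by_cases hθ : θ ∈ B
      · simp only [if_pos hθ]
        rw [← Finset.sum_mul, hθsum θ]
        ring
      · simp only [if_neg hθ, Finset.sum_const_zero, mul_zero]
    have hcoef : blockCoeff B g = (Nat.card G : ℂ)⁻¹ * Ψ 1 := by
      rw [blockCoeff_eq, Finset.mul_sum]
      refine Finset.sum_congr rfl fun θ _ => ?_
      by_cases hθ : θ ∈ B
      · rw [if_pos hθ, if_pos hθ, coeff_eChi]
        field_simp
      · rw [if_neg hθ, if_neg hθ, mul_zero]
    have hindex : (Nat.card G : ℂ)⁻¹ * (Nat.card (P : Subgroup G) : ℂ) = ((P : Subgroup G).index : ℂ)⁻¹ := by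
      have h1 := Subgroup.card_mul_index (P : Subgroup G)
      rw [← h1]
      push_cast
      have h2 : ((P : Subgroup G).index : ℂ) ≠ 0 := by
        exact_mod_cast Subgroup.index_ne_zero_of_finite
      field_simp
    rw [hcoef, hΨ1, ← mul_assoc, hindex]
    refine mul_mem (natCast_inv_mem hM (Sylow.not_dvd_index P)) (sum_mem fun θ _ => ?_)
    by_cases hθ : θ ∈ B
    · rw [if_pos hθ]
      exact mul_mem (natCast_mem _ _) (conj_char_mem hPr θ.2.isCharacter _)
    · rw [if_neg hθ]
      exact zero_mem _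

theorem sameBlock_indep (hM : IsPModular p M) (hM' : IsPModular p M') {χ ψ : IrrCharacter G}
    (h : SameBlock M (χ : G → ℂ) (ψ : G → ℂ)) : SameBlock M' (χ : G → ℂ) (ψ : G → ℂ) := by
  classical
  have hPr := hM.isPrime
  have hB : IsPBlock M' (blockOf M' (χ : G → ℂ)) := ⟨χ, rfl⟩
  have h1 := om_sub_mem_of_sameBlock hPr χ.2 ψ.2 h (isCent_fB _) (sval_fB_of_other hM hM' hB)
  rw [om_fB, om_fB, if_pos (self_mem_blockOf hM'.isPrime χ)] at h1
  by_contra hne
  have hψ : ψ ∉ blockOf M' (χ : G → ℂ) := hne
  rw [if_neg hψ, sub_zero] at h1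
  exact one_notMem_locI hPr h1

theorem s0902_main {G : Type u} [Group G] [Finite G] (p : ℕ) [hp : Fact p.Prime] (M : Ideal AlgInt) (hM : IsPModular p M)
    (χ ψ : IrrCharacter G) (h : SameBlock M (χ : G → ℂ) (ψ : G → ℂ)) (M' : Ideal AlgInt) (hM' : IsPModular p M') (g : G) :
    ∃ r : AlgInt, r ∈ M' ∧ (r : ℂ) = centralChar (χ : G → ℂ) g - centralChar (ψ : G → ℂ) g := by
  classical
  letI := Fintype.ofFinite G
  have h1 := sameBlock_indep hM hM' h g
  have hint : IsIntegral ℤ (centralChar (χ : G → ℂ) g - centralChar (ψ : G → ℂ) g) :=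
    (isIntegral_centralChar χ.2 g).sub (isIntegral_centralChar ψ.2 g)
  refine ⟨⟨_, hint⟩, ?_, rfl⟩
  exact mem_of_locI hM'.isPrime h1

end CfsgLib.Char.BL
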