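import Cfsg.Agent.Lib.Block.Orth

set_option autoImplicit false
set_option linter.all false

namespace CfsgLib.Char.BL

open Cfsg CfsgLib.Char CfsgLib.Block
open scoped ComplexConjugate

universe u

theorem deg_eq {G : Type u} [Group G] [Finite G] {χ : G → ℂ} (hχ : IsIrrCharacter G χ) : (charDegree χ : ℂ) = χ 1 := by
  obtain ⟨n, _, hn⟩ := hχ.map_one
  rw [hn]
  simp [charDegree, hn]

theorem s4731_main {G : Type u} [Group G] [Finite G] (p q : ℕ) [Fact p.Prime] [Fact q.Prime] (hpq : p ≠ q)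
    (Mp Mq : Ideal AlgInt) (hMp : IsPModular p Mp) (hMq : IsPModular q Mq) (hno : ∀ g : G, orderOf g ≠ p * q)
    (b : ℕ) (hb : (Nat.card G).factorization q = b) (Bp : Set (IrrCharacter G)) (hBp : IsPBlock Mp Bp)
    (Bq : Set (IrrCharacter G)) (hBq : IsPBlock Mq Bq) (y : G) (hy : p ∣ orderOf y) :
    ∃ ω : AlgInt, ∑ᶠ χ ∈ Bp ∩ Bq, (charDegree (χ : G → ℂ) : ℂ) * (χ : G → ℂ) y = (q : ℂ) ^ b * (ω : ℂ) := by
  classical
  letI := Fintype.ofFinite G
  have hp' := (Fact.out : p.Prime)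
  have hq' := (Fact.out : q.Prime)
  have hreg : ∀ x : G, q ∣ orderOf x → ¬ p ∣ orderOf x := by
    intro x hq hp
    have hpq' : p * q ∣ orderOf x :=
      Nat.Coprime.mul_dvd_of_dvd_of_dvd ((Nat.coprime_primes hp' hq').mpr hpq) hp hq
    exact hno (x ^ (orderOf x / (p * q))) (orderOf_pow_orderOf_div (orderOf_pos x).ne' hpq')
  let v : G → ℂ := fun x => ∑ χ : IrrCharacter G, if χ ∈ Bp then (χ : G → ℂ) x * conj ((χ : G → ℂ) y⁻¹) else 0
  have hy' : p ∣ orderOf y⁻¹ := by rwa [orderOf_inv]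
  have hv0 : ∀ x, q ∣ orderOf x → v x = 0 := fun x hx => weak_orth hMp hBp (hreg x hx) hy'
  have hvs : v = ∑ χ : IrrCharacter G, (if χ ∈ Bp then conj ((χ : G → ℂ) y⁻¹) else 0) • (χ : G → ℂ) := by
    funext x
    rw [Finset.sum_apply]
    refine Finset.sum_congr rfl fun χ _ => ?_
    split_ifs
    · simp [mul_comm]
    · simp
  have hinner : ∀ θ : IrrCharacter G, classInner v (θ : G → ℂ) = if θ ∈ Bp then (θ : G → ℂ) y else 0 := by
    intro θ
    rw [hvs, classInner_sum_coeff]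
    split_ifs
    · rw [θ.2.map_inv]
      simp
    · rfl
  let Θ : G → ℂ := proj Bq v
  have hΘ : ∀ x, Θ x = ∑ θ : IrrCharacter G, (if θ ∈ Bp ∩ Bq then (θ : G → ℂ) y else 0) * (θ : G → ℂ) x := by
    intro x
    show proj Bq v x = _
    rw [proj_apply]
    refine Finset.sum_congr rfl fun θ _ => ?_
    rw [hinner]
    by_cases h1 : θ ∈ Bq <;> by_cases h2 : θ ∈ Bp <;> simp [h1, h2]
  have hΘ0 : ∀ x, q ∣ orderOf x → Θ x = 0 := fun x hx => proj_eq_zero_of_singular hMq hBq hv0 hx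
  obtain ⟨Q⟩ : Nonempty (Sylow q G) := inferInstance
  letI : Fintype (Q : Subgroup G) := Fintype.ofFinite _
  have hQcard : Nat.card (Q : Subgroup G) = q ^ b := by
    rw [← hb]
    exact Sylow.card_eq_multiplicity Q
  have hsum1 : ∑ u : (Q : Subgroup G), Θ (u : G) = Θ 1 := by
    refine Eq.trans (Finset.sum_eq_single (1 : (Q : Subgroup G)) ?_ ?_) ?_
    · intro u _ hu
      apply hΘ0
      obtain ⟨k, hk⟩ := (IsPGroup.iff_orderOf.mp Q.isPGroup') u
      rw [← Subgroup.orderOf_coe] at hk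
      rw [hk]
      apply dvd_pow_self
      rintro rfl
      apply hu
      rw [pow_zero, orderOf_eq_one_iff] at hk
      exact Subtype.ext hk
    · intro h
      exact absurd (Finset.mem_univ _) h
    · rfl
  let n : IrrCharacter G → ℂ := fun θ => classInner (fun u : (Q : Subgroup G) => (θ : G → ℂ) u) (fun _ => (1 : ℂ))
  have hn : ∀ θ : IrrCharacter G, ∃ m : ℕ, n θ = m := by
    intro θ
    exact (θ.2.isCharacter.restrict (Q : Subgroup G)).classInner_nat_of_char isCharacter_one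
  have hcard : ((Nat.card (Q : Subgroup G) : ℕ) : ℂ) ≠ 0 := by
    have := Nat.card_pos (α := (Q : Subgroup G))
    exact_mod_cast this.ne'
  have hnsum : ∀ θ : IrrCharacter G, ∑ u : (Q : Subgroup G), (θ : G → ℂ) u = (Nat.card (Q : Subgroup G) : ℂ) * n θ := by
    intro θ
    simp only [n]
    rw [classInner_def]
    rw [← mul_assoc, mul_inv_cancel₀ hcard, one_mul]
    simp
  let ω₀ : ℂ := ∑ θ : IrrCharacter G, (if θ ∈ Bp ∩ Bq then (θ : G → ℂ) y else 0) * n θ
  have hω₀ : IsIntegral ℤ ω₀ := by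
    apply IsIntegral.sum
    intro θ _
    apply IsIntegral.mul
    · split_ifs
      · exact θ.2.isCharacter.isIntegral y
      · exact isIntegral_zero
    · obtain ⟨m, hm⟩ := hn θ
      rw [hm]
      exact isIntegral_natCast m
  refine ⟨⟨ω₀, (mem_integralClosure_iff ℤ ℂ).mpr hω₀⟩, ?_⟩
  have h1 : ∑ᶠ χ ∈ Bp ∩ Bq, (charDegree (χ : G → ℂ) : ℂ) * (χ : G → ℂ) y = Θ 1 := by
    rw [finsum_mem_eq_sum_ite, hΘ]
    refine Finset.sum_congr rfl fun θ _ => ?_
    rw [deg_eq θ.2]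
    by_cases h : θ ∈ Bp ∩ Bq
    · rw [if_pos h, if_pos h]
      ring
    · rw [if_neg h, if_neg h, zero_mul]
  rw [h1, ← hsum1]
  simp only [hΘ]
  rw [Finset.sum_comm]
  have h2 : ∀ θ : IrrCharacter G, ∑ u : (Q : Subgroup G), (if θ ∈ Bp ∩ Bq then (θ : G → ℂ) y else 0) * (θ : G → ℂ) u =
      (q : ℂ) ^ b * ((if θ ∈ Bp ∩ Bq then (θ : G → ℂ) y else 0) * n θ) := by
    intro θ
    rw [← Finset.mul_sum, hnsum, hQcard]
    push_cast
    ring
  simp only [h2]
  rw [← Finset.mul_sum]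

end CfsgLib.Char.BL
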