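import Mathlib
import Cfsg.Agent.Lib.Char.Coh2

/-!
# Coherence systems
-/

set_option linter.unusedSectionVars false
set_option linter.style.haveILetI false
set_option linter.unusedSimpArgs false
set_option linter.unusedVariables false

namespace CfsgLib.Char

open Module Cfsg
open scoped ComplexConjugate

universe u v

section Sys

variable {L : Type u} [Group L] [Fintype L] {G : Type v} [Group G] [Fintype G]

/-- A subset of an orthonormal set containing the image of a subset sum. -/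
theorem half_lemma {R : Finset (G → ℂ)} (horth : ∀ α ∈ R, ∀ β ∈ R, α ≠ β → classInner α β = 0)
    (hself : ∀ α ∈ R, classInner α α = 1) (hvirt : ∀ α ∈ R, IsGeneralizedCharacter G α) {f : G → ℂ}
    (hf : IsGeneralizedCharacter G f) (h : classInner f (∑ α ∈ R, α) = classInner f f) :
    f = ∑ α ∈ R, classInner f α • α ∧ ∀ α ∈ R, classInner f α = 0 ∨ classInner f α = 1 := by
  classical
  have hb : ∀ α, ∃ n : ℤ, α ∈ R → classInner f α = n := by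
    intro α
    by_cases hα : α ∈ R
    · obtain ⟨n, hn⟩ := gen_inner_int hf (hvirt α hα)
      exact ⟨n, fun _ => hn⟩
    · exact ⟨0, fun h => absurd h hα⟩
  choose b hb using hb
  have hbes := bessel_le₁ R (fun α => α) horth hself f
  have hnormeq : ∀ α ∈ R, ‖classInner f α‖ ^ 2 = ((b α : ℝ)) ^ 2 := by
    intro α hα
    rw [hb α hα, Complex.norm_intCast, sq_abs]
  have hsumeq : (classInner f f).re = ∑ α ∈ R, (b α : ℝ) := by
    rw [← h, classInner_sum_right, Complex.re_sum]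
    refine Finset.sum_congr rfl fun α hα => ?_
    rw [hb α hα]
    simp
  rw [hsumeq, Finset.sum_congr rfl hnormeq] at hbes
  have hnn : ∀ α ∈ R, (0 : ℝ) ≤ (b α : ℝ) ^ 2 - b α := by
    intro α _
    have : (0 : ℤ) ≤ b α ^ 2 - b α := by
      rcases lt_trichotomy (b α) 0 with h | h | h
      · nlinarith
      · simp [h]
      · nlinarith
    exact_mod_cast this
  have hsum0 : ∑ α ∈ R, ((b α : ℝ) ^ 2 - b α) = 0 := by
    apply le_antisymm
    · rw [Finset.sum_sub_distrib]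
      linarith
    · exact Finset.sum_nonneg hnn
  have hzero := (Finset.sum_eq_zero_iff_of_nonneg hnn).mp hsum0
  have h01 : ∀ α ∈ R, b α = 0 ∨ b α = 1 := by
    intro α hα
    have h1 := hzero α hα
    have h2 : b α * (b α - 1) = 0 := by
      have : ((b α ^ 2 - b α : ℤ) : ℝ) = 0 := by
        push_cast
        exact h1
      have h3 : b α ^ 2 - b α = 0 := by exact_mod_cast this
      linarith [h3, sq (b α)]
    rcases mul_eq_zero.mp h2 with h3 | h3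
    · exact Or.inl h3
    · exact Or.inr (by omega)
  constructor
  · have hid := bessel_identity₁ R (fun α => α) horth hself f
    have h5 : ((∑ α ∈ R, ‖classInner f α‖ ^ 2 : ℝ) : ℂ) = classInner f f := by
      rw [classInner_self_eq_re f, hsumeq, Finset.sum_congr rfl hnormeq]
      congr 1
      have : ∑ α ∈ R, ((b α : ℝ) ^ 2 - b α) = ∑ α ∈ R, (b α : ℝ) ^ 2 - ∑ α ∈ R, (b α : ℝ) := Finset.sum_sub_distrib _ _
      linarith
    rw [h5, sub_self] at hid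
    exact sub_eq_zero.mp (classInner_self_zero hid)
  · intro α hα
    rw [hb α hα]
    rcases h01 α hα with h | h <;> simp [h]

theorem conjFun_conjFun (φ : L → ℂ) : conjFun (conjFun φ) = φ := by
  funext x
  simp [conjFun]

theorem classInner_conjFun (a b : G → ℂ) : classInner (conjFun a) (conjFun b) = classInner b a := by
  rw [← conj_classInner a b]
  simp only [classInner_def, conjFun, map_mul, map_sum, Complex.conj_natCast, map_inv₀]

theorem conjFun_sub (a b : G → ℂ) : conjFun (a - b) = conjFun a - conjFun b := by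
  funext x
  simp [conjFun]

variable {S : Set (L → ℂ)} {τ : (L → ℂ) → (G → ℂ)} {R : (L → ℂ) → Finset (G → ℂ)}

theorem sys_ne_zero (hS : IsCoherenceSystem S τ R) {φ : L → ℂ} (hφ : φ ∈ S) : φ ≠ 0 := by
  rintro rfl
  apply hS.conj_ne 0 hφ
  funext x
  simp [conjFun]

theorem sys_one (hS : IsCoherenceSystem S τ R) {φ : L → ℂ} (hφ : φ ∈ S) : φ 1 = (charDegree φ : ℂ) := by
  obtain ⟨d, hd⟩ := (hS.isCharacter φ hφ).map_one
  rw [charDegree_eq hd, hd]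

theorem sys_conj_one (hS : IsCoherenceSystem S τ R) {φ : L → ℂ} (hφ : φ ∈ S) : conjFun φ 1 = φ 1 := by
  rw [sys_one hS hφ]
  simp [conjFun, sys_one hS hφ]

theorem sys_conj_degree (hS : IsCoherenceSystem S τ R) {φ : L → ℂ} (hφ : φ ∈ S) :
    charDegree (conjFun φ) = charDegree φ := by
  apply charDegree_eq
  rw [sys_conj_one hS hφ, sys_one hS hφ]

theorem sys_degree_pos (hS : IsCoherenceSystem S τ R) {φ : L → ℂ} (hφ : φ ∈ S) : 0 < charDegree φ := by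
  rcases Nat.eq_zero_or_pos (charDegree φ) with h | h
  · exfalso
    have h1 := sys_one hS hφ
    rw [h] at h1
    apply sys_ne_zero hS hφ
    exact (hS.isCharacter φ hφ).eq_zero_of_map_one (by simpa using h1)
  · exact h

theorem sys_self_conj (hS : IsCoherenceSystem S τ R) {φ : L → ℂ} (hφ : φ ∈ S) : classInner φ (conjFun φ) = 0 :=
  hS.orthogonal φ hφ _ (hS.conj_mem φ hφ) (Ne.symm (hS.conj_ne φ hφ))

theorem sys_norm (hS : IsCoherenceSystem S τ R) {φ : L → ℂ} (hφ : φ ∈ S) :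
    ∃ n : ℕ, 0 < n ∧ classInner φ φ = n := by
  obtain ⟨n, hn⟩ := (hS.isCharacter φ hφ).classInner_nat_of_char (hS.isCharacter φ hφ)
  refine ⟨n, ?_, hn⟩
  rcases Nat.eq_zero_or_pos n with h | h
  · rw [h] at hn
    exact absurd (classInner_self_zero (by simpa using hn)) (sys_ne_zero hS hφ)
  · exact h

theorem sys_sub_mem (hS : IsCoherenceSystem S τ R) {φ : L → ℂ} (hφ : φ ∈ S) {T : Set (L → ℂ)} (hT : φ ∈ T)
    (hT' : conjFun φ ∈ T) : φ - conjFun φ ∈ zspanOn T ({1}ᶜ : Set L) := by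
  rw [mem_zspanOn_one]
  refine ⟨zs_sub (subset_zspan hT) (subset_zspan hT'), ?_⟩
  simp [sys_conj_one hS hφ]

/-- Members of a coherent conjugation-closed set map into the span of their `R`. -/
theorem coh_half (hS : IsCoherenceSystem S τ R) {S₁ : Set (L → ℂ)} (hS₁ : S₁ ⊆ S)
    (hS₁c : ∀ φ ∈ S₁, conjFun φ ∈ S₁) {τ₁ : (L → ℂ) → (G → ℂ)} (hτ₁ : IsLinearIsometryOn (zspan S₁) τ₁)
    (hτ₁τ : ∀ α ∈ zspanOn S₁ ({1}ᶜ : Set L), τ₁ α = τ α) {φ : L → ℂ} (hφ : φ ∈ S₁) :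
    τ₁ φ = ∑ β ∈ R φ, classInner (τ₁ φ) β • β := by
  classical
  have hφS := hS₁ hφ
  have hmem := sys_sub_mem hS hφS hφ (hS₁c φ hφ)
  have h1 : τ₁ (φ - conjFun φ) = ∑ β ∈ R φ, β := by
    rw [hτ₁τ _ hmem]
    exact hS.sum_eq φ hφS
  have h2 : classInner (τ₁ φ) (∑ β ∈ R φ, β) = classInner (τ₁ φ) (τ₁ φ) := by
    rw [← h1, hτ₁.2.2.1 _ (subset_zspan hφ) _ hmem.1, hτ₁.2.2.1 _ (subset_zspan hφ) _ (subset_zspan hφ),
      classInner_sub_right, sys_self_conj hS hφS, sub_zero]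
  have horth : ∀ α ∈ R φ, ∀ β ∈ R φ, α ≠ β → classInner α β = 0 := by
    intro α hα β hβ hne
    rw [hS.orthonormal φ hφS α hα β hβ, if_neg hne]
  have hself : ∀ α ∈ R φ, classInner α α = 1 := by
    intro α hα
    rw [hS.orthonormal φ hφS α hα α hα, if_pos rfl]
  exact (half_lemma horth hself (hS.virtual φ hφS) (hτ₁.2.2.2 _ (subset_zspan hφ)) h2).1

theorem s1516_main (hS : IsCoherenceSystem S τ R) {n : (L → ℂ) → ℕ} (hn : ∀ φ ∈ S, classInner φ φ = (n φ : ℂ))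
    {S₁ : Finset (L → ℂ)} (hS₁ : (S₁ : Set (L → ℂ)) ⊆ S) (hS₁c : ∀ φ ∈ S₁, conjFun φ ∈ S₁)
    (hcoh : IsCoherent (S₁ : Set (L → ℂ)) ({1}ᶜ : Set L) τ) {χ : L → ℂ} (hχ : χ ∈ S) (hχ₁ : χ ∉ S₁)
    (hχ₂ : conjFun χ ∉ S₁) {χ₁ : L → ℂ} (hχ₁S : χ₁ ∈ S₁) (hdvd : charDegree χ₁ ∣ charDegree χ)
    (hineq : (2 * (charDegree χ : ℝ) * (charDegree χ₁ : ℝ)) <
      ∑ φ ∈ S₁, (((charDegree φ : ℕ) : ℝ) ^ 2 / (n φ : ℝ))) :
    IsCoherent ((S₁ : Set (L → ℂ)) ∪ {χ, conjFun χ}) ({1}ᶜ : Set L) τ := by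
  classical
  obtain ⟨-, τ₁, hτ₁, hτ₁τ⟩ := hcoh
  have hχc := hS.conj_mem χ hχ
  set S₂ : Set (L → ℂ) := (S₁ : Set (L → ℂ)) ∪ {χ, conjFun χ} with hS₂
  have hS₂S : S₂ ⊆ S := by
    apply Set.union_subset hS₁
    rintro x (rfl | rfl)
    · exact hχ
    · exact hχc
  have hsub : (S₁ : Set (L → ℂ)) ⊆ S₂ := Set.subset_union_left
  have hχ₂' : χ ∈ S₂ := Or.inr (Or.inl rfl)
  have hχc₂ : conjFun χ ∈ S₂ := Or.inr (Or.inr rfl)
  have hχ₁' : χ₁ ∈ (S₁ : Set (L → ℂ)) := Finset.mem_coe.mpr hχ₁S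
  have hS₁S : ∀ φ ∈ S₁, φ ∈ S := fun φ hφ => hS₁ (Finset.mem_coe.mpr hφ)
  have hχ₁SS := hS₁S χ₁ hχ₁S
  have hS₁' : ∀ ξ ∈ (S₁ : Set (L → ℂ)), ξ 1 = (charDegree ξ : ℂ) := fun ξ h => sys_one hS (hS₁ h)
  -- degrees
  have hD₁pos := sys_degree_pos hS hχ₁SS
  have hDχpos := sys_degree_pos hS hχ
  obtain ⟨a, ha⟩ := hdvd
  have hapos : 0 < a := by
    rcases Nat.eq_zero_or_pos a with h | h
    · rw [h, mul_zero] at ha
      omega
    · exact h
  set D₁ : ℕ := charDegree χ₁ with hD₁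
  set Dχ : ℕ := charDegree χ with hDχ
  have hχ₁1 : χ₁ 1 = (D₁ : ℂ) := sys_one hS hχ₁SS
  have hχ1 : χ 1 = (Dχ : ℂ) := sys_one hS hχ
  have hχc1 : conjFun χ 1 = (Dχ : ℂ) := by rw [sys_conj_one hS hχ, hχ1]
  have hDχC : (Dχ : ℂ) = (D₁ : ℂ) * (a : ℂ) := by
    rw [ha]
    push_cast
    ring
  have hD₁C : (D₁ : ℂ) ≠ 0 := Nat.cast_ne_zero.mpr hD₁pos.ne'
  -- orthogonality
  have hneχ : ∀ ξ ∈ S₁, ξ ≠ χ := by
    rintro ξ hξ rfl
    exact hχ₁ hξ
  have hneχc : ∀ ξ ∈ S₁, ξ ≠ conjFun χ := by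
    rintro ξ hξ rfl
    exact hχ₂ hξ
  have horχ : ∀ ξ ∈ S₁, classInner ξ χ = 0 := fun ξ hξ => hS.orthogonal ξ (hS₁S ξ hξ) χ hχ (hneχ ξ hξ)
  have horχc : ∀ ξ ∈ S₁, classInner ξ (conjFun χ) = 0 := fun ξ hξ =>
    hS.orthogonal ξ (hS₁S ξ hξ) _ hχc (hneχc ξ hξ)
  have horχ' : ∀ ξ ∈ S₁, classInner χ ξ = 0 := fun ξ hξ => by
    rw [← conj_classInner, horχ ξ hξ, map_zero]
  have horχc' : ∀ ξ ∈ S₁, classInner (conjFun χ) ξ = 0 := fun ξ hξ => by
    rw [← conj_classInner, horχc ξ hξ, map_zero]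
  have hχχc := sys_self_conj hS hχ
  have hχcχ : classInner (conjFun χ) χ = 0 := by
    rw [← conj_classInner, hχχc, map_zero]
  have hnχ := hn χ hχ
  have hn₁ := hn χ₁ hχ₁SS
  have hnpos : ∀ φ ∈ S, 0 < n φ := by
    intro φ hφ
    obtain ⟨m, hm, hm2⟩ := sys_norm hS hφ
    rw [hn φ hφ] at hm2
    have : n φ = m := by exact_mod_cast hm2
    omega
  -- The elements `τ₁ φ` are orthogonal to `R χ`.
  have hhalf : ∀ φ ∈ S₁, ∀ α ∈ R χ, classInner (τ₁ φ) α = 0 := by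
    intro φ hφ α hα
    have hφ' : φ ∈ (S₁ : Set (L → ℂ)) := Finset.mem_coe.mpr hφ
    have h1 := coh_half hS hS₁ (fun ψ hψ => Finset.mem_coe.mpr (hS₁c ψ (Finset.mem_coe.mp hψ))) hτ₁ hτ₁τ hφ'
    rw [h1, classInner_sum_left]
    apply Finset.sum_eq_zero
    intro β hβ
    rw [classInner_smul_left, hS.disjoint χ hχ φ (hS₁S φ hφ) (horχ φ hφ) (horχc φ hφ) β hβ α hα, mul_zero]
  -- The candidates.
  set β₀ : L → ℂ := χ - ((a : ℕ) : ℤ) • χ₁ with hβ₀def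
  have hβ₀eq : β₀ = χ - (a : ℂ) • χ₁ := by
    rw [hβ₀def, int_smul_eq]
    simp
  have hβ₀ : β₀ ∈ zspanOn S₂ ({1}ᶜ : Set L) := by
    rw [mem_zspanOn_one]
    refine ⟨zs_sub (subset_zspan hχ₂') (zs_smul _ (zs_mono hsub (subset_zspan hχ₁'))), ?_⟩
    rw [hβ₀eq]
    simp only [Pi.sub_apply, Pi.smul_apply, smul_eq_mul, hχ1, hχ₁1, hDχC]
    ring
  have hτ₂ : IsLinearIsometryOn (zspanOn S₂ ({1}ᶜ : Set L)) τ :=
    iso_mono hS.isometry (fun x hx => zspanOn_mono hS₂S hx)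
  have hmemcc := sys_sub_mem hS hχ hχ₂' hχc₂
  set s : G → ℂ := τ (χ - conjFun χ) with hs
  have hsR : s = ∑ α ∈ R χ, α := hS.sum_eq χ hχ
  set ν : G → ℂ := τ β₀ + (a : ℂ) • τ₁ χ₁ with hν
  have hgenχ₁ : IsGeneralizedCharacter G (τ₁ χ₁) := hτ₁.2.2.2 _ (subset_zspan hχ₁')
  have hgenν : IsGeneralizedCharacter G ν := by
    have h1 := hgenχ₁.int_smul (a : ℤ)
    simp only [Int.cast_natCast] at h1
    exact (hτ₂.2.2.2 _ hβ₀).add h1
  have hgens : IsGeneralizedCharacter G s := hτ₂.2.2.2 _ hmemcc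
  have hgenτ₁ : ∀ ξ ∈ S₁, IsGeneralizedCharacter G (τ₁ ξ) := fun ξ hξ =>
    hτ₁.2.2.2 _ (subset_zspan (Finset.mem_coe.mpr hξ))
  have hin₁ : ∀ ξ ∈ S₁, ∀ ξ' ∈ S₁, classInner (τ₁ ξ) (τ₁ ξ') = classInner ξ ξ' := fun ξ hξ ξ' hξ' =>
    hτ₁.2.2.1 _ (subset_zspan (Finset.mem_coe.mpr hξ)) _ (subset_zspan (Finset.mem_coe.mpr hξ'))
  have hprop : ∀ ξ ∈ S₁, (D₁ : ℂ) * classInner ν (τ₁ ξ) = (charDegree ξ : ℂ) * classInner ν (τ₁ χ₁) := by
    intro ξ hξ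
    have hξ' : ξ ∈ (S₁ : Set (L → ℂ)) := Finset.mem_coe.mpr hξ
    have hγ : dif ξ χ₁ ∈ zspanOn (S₁ : Set (L → ℂ)) ({1}ᶜ : Set L) := by
      rw [mem_zspanOn_one]
      refine ⟨zs_sub (zs_smul _ (subset_zspan hξ')) (zs_smul _ (subset_zspan hχ₁')), ?_⟩
      rw [dif_apply, hS₁' ξ hξ', hχ₁1]
      ring
    have hγ2 := zspanOn_mono hsub hγ
    have h1 : τ₁ (dif ξ χ₁) = τ (dif ξ χ₁) := hτ₁τ _ hγ
    have h2 : classInner ν (τ₁ (dif ξ χ₁)) = 0 := by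
      rw [hν, classInner_add_left, classInner_smul_left]
      rw [hτ₁.2.2.1 _ (subset_zspan hχ₁') _ hγ.1]
      nth_rewrite 1 [h1]
      rw [hτ₂.2.2.1 _ hβ₀ _ hγ2, hβ₀eq, classInner_sub_left, classInner_smul_left]
      have h3 : classInner χ (dif ξ χ₁) = 0 := by
        rw [dif_eq, classInner_sub_right, classInner_smul_right, classInner_smul_right, horχ' ξ hξ, horχ' χ₁ hχ₁S]
        simp
      rw [h3]
      ring
    rw [iso_dif hτ₁ hξ' hχ₁', classInner_sub_right, classInner_smul_right, classInner_smul_right] at h2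
    simp only [Complex.conj_natCast] at h2
    linear_combination h2
  obtain ⟨Y, hY⟩ := gen_inner_int hgenν hgenχ₁
  -- Norms.
  have hnorm : classInner ν ν = (n χ : ℂ) + 2 * (a : ℂ) * Y := by
    obtain ⟨W, hW⟩ := gen_inner_int (hτ₂.2.2.2 _ hβ₀) hgenχ₁
    have hW' : classInner (τ₁ χ₁) (τ β₀) = (W : ℂ) := by
      rw [← conj_classInner, hW]
      simp
    have h1 : classInner (τ β₀) (τ β₀) = (n χ : ℂ) + (a : ℂ) ^ 2 * (n χ₁ : ℂ) := by
      rw [hτ₂.2.2.1 _ hβ₀ _ hβ₀, hβ₀eq]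
      simp only [classInner_sub_left, classInner_sub_right, classInner_smul_left, classInner_smul_right,
        Complex.conj_natCast]
      rw [hnχ, hn₁, horχ' χ₁ hχ₁S, horχ χ₁ hχ₁S]
      ring
    have h2 : classInner (τ₁ χ₁) (τ₁ χ₁) = (n χ₁ : ℂ) := by rw [hin₁ χ₁ hχ₁S χ₁ hχ₁S, hn₁]
    have h3 : (Y : ℂ) = W + a * n χ₁ := by
      rw [← hY, hν, classInner_add_left, classInner_smul_left, hW, h2]
    rw [hν]
    simp only [classInner_add_left, classInner_add_right, classInner_smul_left, classInner_smul_right,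
      Complex.conj_natCast]
    rw [h1, h2, hW, hW', h3]
    ring
  have hνs : classInner ν s = (n χ : ℂ) := by
    have h1 : classInner (τ₁ χ₁) s = 0 := by
      rw [hsR, classInner_sum_right]
      exact Finset.sum_eq_zero fun α hα => hhalf χ₁ hχ₁S α hα
    rw [hν, classInner_add_left, classInner_smul_left, h1, mul_zero, add_zero, hs, hτ₂.2.2.1 _ hβ₀ _ hmemcc, hβ₀eq]
    simp only [classInner_sub_left, classInner_sub_right, classInner_smul_left]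
    rw [hnχ, hχχc, horχ χ₁ hχ₁S, horχc χ₁ hχ₁S]
    ring
  have hss : classInner s s = 2 * (n χ : ℂ) := by
    rw [hs, hτ₂.2.2.1 _ hmemcc _ hmemcc]
    simp only [classInner_sub_left, classInner_sub_right]
    rw [hnχ, hχχc, hχcχ, classInner_conjFun, hnχ]
    ring
  -- The Bessel step.
  have hnR : ∀ φ ∈ S₁, ((n φ : ℝ)) ≠ 0 := by
    intro φ hφ
    exact_mod_cast (hnpos φ (hS₁S φ hφ)).ne'
  have horth₁ : ∀ ξ ∈ S₁, ∀ ξ' ∈ S₁, ξ ≠ ξ' → classInner (τ₁ ξ) (τ₁ ξ') = 0 := by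
    intro ξ hξ ξ' hξ' hne
    rw [hin₁ ξ hξ ξ' hξ', hS.orthogonal ξ (hS₁S ξ hξ) ξ' (hS₁S ξ' hξ') hne]
  have hself₁ : ∀ ξ ∈ S₁, classInner (τ₁ ξ) (τ₁ ξ) = ((n ξ : ℝ) : ℂ) := by
    intro ξ hξ
    rw [hin₁ ξ hξ ξ hξ, hn ξ (hS₁S ξ hξ)]
    simp
  have hid := bessel_identity S₁ τ₁ (fun φ => (n φ : ℝ)) hnR horth₁ hself₁ ν
  set g : G → ℂ := ν - ∑ i ∈ S₁, (classInner ν (τ₁ i) / (((n i : ℝ)) : ℂ)) • τ₁ i with hg
  have hgα : ∀ α ∈ R χ, classInner g α = classInner ν α := by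
    intro α hα
    rw [hg, classInner_sub_left, classInner_sum_left, Finset.sum_eq_zero, sub_zero]
    intro φ hφ
    rw [classInner_smul_left, hhalf φ hφ α hα, mul_zero]
  have hRorth : ∀ α ∈ R χ, ∀ β ∈ R χ, α ≠ β → classInner α β = 0 := by
    intro α hα β hβ hne
    rw [hS.orthonormal χ hχ α hα β hβ, if_neg hne]
  have hRself : ∀ α ∈ R χ, classInner α α = 1 := by
    intro α hα
    rw [hS.orthonormal χ hχ α hα α hα, if_pos rfl]
  have hbes := bessel_le₁ (R χ) (fun α => α) hRorth hRself g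
  have hlow : (n χ : ℝ) ≤ ∑ α ∈ R χ, ‖classInner g α‖ ^ 2 := by
    have h1 : (n χ : ℝ) = ∑ α ∈ R χ, (classInner ν α).re := by
      have h2 := congrArg Complex.re hνs
      rw [hsR, classInner_sum_right, Complex.re_sum] at h2
      simpa using h2.symm
    rw [h1]
    refine Finset.sum_le_sum fun α hα => ?_
    rw [hgα α hα]
    obtain ⟨b, hb⟩ := gen_inner_int hgenν (hS.virtual χ hχ α hα)
    rw [hb, Complex.norm_intCast, sq_abs]
    simp only [Complex.intCast_re]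
    have : b ≤ b ^ 2 := by
      rcases lt_trichotomy b 0 with h | h | h
      · nlinarith
      · simp [h]
      · nlinarith
    exact_mod_cast this
  have hgg : (classInner g g).re = (n χ : ℝ) + 2 * (a : ℝ) * Y - ∑ φ ∈ S₁, ‖classInner ν (τ₁ φ)‖ ^ 2 / (n φ : ℝ) := by
    rw [hid, Complex.sub_re, Complex.ofReal_re, hnorm]
    simp
  have hsumle : ∑ φ ∈ S₁, ‖classInner ν (τ₁ φ)‖ ^ 2 / (n φ : ℝ) ≤ 2 * (a : ℝ) * Y := by
    linarith
  have hnormsq : ∀ ξ ∈ S₁, (D₁ : ℝ) ^ 2 * ‖classInner ν (τ₁ ξ)‖ ^ 2 = (charDegree ξ : ℝ) ^ 2 * (Y : ℝ) ^ 2 := by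
    intro ξ hξ
    have h1 := congrArg (fun z : ℂ => ‖z‖ ^ 2) (hprop ξ hξ)
    simp only [norm_mul, Complex.norm_natCast, mul_pow, hY, Complex.norm_intCast, sq_abs] at h1
    exact h1
  set Sg : ℝ := ∑ φ ∈ S₁, (((charDegree φ : ℕ) : ℝ) ^ 2 / (n φ : ℝ)) with hSg
  have hD₁R : (0 : ℝ) < (D₁ : ℝ) := by exact_mod_cast hD₁pos
  have haR : (0 : ℝ) < (a : ℝ) := by exact_mod_cast hapos
  have hsumR : (D₁ : ℝ) ^ 2 * ∑ φ ∈ S₁, ‖classInner ν (τ₁ φ)‖ ^ 2 / (n φ : ℝ) = (Y : ℝ) ^ 2 * Sg := by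
    rw [Finset.mul_sum, hSg, Finset.mul_sum]
    refine Finset.sum_congr rfl fun ξ hξ => ?_
    have h1 := hnormsq ξ hξ
    rw [← mul_div_assoc, h1, mul_div_assoc', mul_comm ((charDegree ξ : ℝ) ^ 2)]
  have hineq' : 2 * (a : ℝ) * (D₁ : ℝ) ^ 2 < Sg := by
    have : (2 * (Dχ : ℝ) * (D₁ : ℝ)) = 2 * (a : ℝ) * (D₁ : ℝ) ^ 2 := by
      rw [ha]
      push_cast
      ring
    rw [← this]
    exact hineq
  have hY0 : Y = 0 := by
    by_contra hne
    have hYR : (0 : ℝ) < (Y : ℝ) ^ 2 := by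
      have : (Y : ℝ) ≠ 0 := by exact_mod_cast hne
      positivity
    have h1 : (Y : ℝ) ^ 2 * Sg ≤ (D₁ : ℝ) ^ 2 * (2 * (a : ℝ) * Y) := by
      rw [← hsumR]
      exact mul_le_mul_of_nonneg_left hsumle (by positivity)
    have h2 : (Y : ℝ) ^ 2 * (2 * (a : ℝ) * (D₁ : ℝ) ^ 2) < (Y : ℝ) ^ 2 * Sg :=
      mul_lt_mul_of_pos_left hineq' hYR
    have h3 : (2 * (a : ℝ) * (D₁ : ℝ) ^ 2) * (Y : ℝ) ^ 2 < (2 * (a : ℝ) * (D₁ : ℝ) ^ 2) * Y := by
      nlinarith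
    have h4 : (Y : ℝ) ^ 2 < Y := lt_of_mul_lt_mul_left h3 (by positivity)
    have h5 : Y ^ 2 < Y := by exact_mod_cast h4
    have h6 : Y ≤ Y ^ 2 := by
      rcases lt_trichotomy Y 0 with h | h | h
      · nlinarith
      · simp [h]
      · nlinarith
    omega
  subst hY0
  have hyzero : ∀ ξ ∈ S₁, classInner ν (τ₁ ξ) = 0 := by
    intro ξ hξ
    have h1 := hprop ξ hξ
    rw [hY] at h1
    simp only [Int.cast_zero, mul_zero] at h1
    exact (mul_eq_zero.mp h1).resolve_left hD₁C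
  have hνν : classInner ν ν = (n χ : ℂ) := by
    rw [hnorm]
    simp
  set ν' : G → ℂ := ν - s with hν'
  have hgenν' : IsGeneralizedCharacter G ν' := hgenν.sub hgens
  have hsτ : ∀ ξ ∈ S₁, classInner s (τ₁ ξ) = 0 := by
    intro ξ hξ
    rw [hsR, classInner_sum_left]
    apply Finset.sum_eq_zero
    intro α hα
    rw [← conj_classInner, hhalf ξ hξ α hα, map_zero]
  have hν'τ : ∀ ξ ∈ S₁, classInner ν' (τ₁ ξ) = 0 := by
    intro ξ hξ
    rw [hν', classInner_sub_left, hyzero ξ hξ, hsτ ξ hξ, sub_zero]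
  have hsν : classInner s ν = (n χ : ℂ) := by
    rw [← conj_classInner, hνs]
    simp
  have hνν' : classInner ν ν' = 0 := by
    rw [hν', classInner_sub_right, hνν, hνs, sub_self]
  have hν'ν' : classInner ν' ν' = (n χ : ℂ) := by
    rw [hν']
    simp only [classInner_sub_left, classInner_sub_right]
    rw [hνν, hνs, hsν, hss]
    ring
  -- Construct the extension.
  constructor
  · refine ⟨χ - conjFun χ, hmemcc, ?_⟩
    intro h0
    exact hS.conj_ne χ hχ (sub_eq_zero.mp h0).symm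
  let T : (L → ℂ) → (G → ℂ) := fun ξ => if ξ = χ then ν else if ξ = conjFun χ then ν' else τ₁ ξ
  have hTχ : T χ = ν := if_pos rfl
  have hTχc : T (conjFun χ) = ν' := by
    show (if conjFun χ = χ then ν else if conjFun χ = conjFun χ then ν' else τ₁ (conjFun χ)) = ν'
    rw [if_neg (hS.conj_ne χ hχ), if_pos rfl]
  have hTξ : ∀ ξ ∈ S₁, T ξ = τ₁ ξ := by
    intro ξ hξ
    show (if ξ = χ then ν else if ξ = conjFun χ then ν' else τ₁ ξ) = τ₁ ξ
    rw [if_neg (hneχ ξ hξ), if_neg (hneχc ξ hξ)]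
  have horth : ∀ p ∈ S₂, ∀ q ∈ S₂, p ≠ q → classInner p q = 0 := fun p hp q hq hpq =>
    hS.orthogonal p (hS₂S hp) q (hS₂S hq) hpq
  have hne0 : ∀ p ∈ S₂, p ≠ 0 := fun p hp => sys_ne_zero hS (hS₂S hp)
  have hgen : ∀ p ∈ S₂, IsGeneralizedCharacter G (T p) := by
    rintro p (hp | hp | hp)
    · rw [hTξ p (Finset.mem_coe.mp hp)]
      exact hgenτ₁ p (Finset.mem_coe.mp hp)
    · rw [hp, hTχ]
      exact hgenν
    · have hp' : p = conjFun χ := hp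
      rw [hp', hTχc]
      exact hgenν'
  have hin : ∀ p ∈ S₂, ∀ q ∈ S₂, classInner (T p) (T q) = classInner p q := by
    rintro p (hp | hp | hp) q (hq | hq | hq)
    · have hp' := Finset.mem_coe.mp hp
      have hq' := Finset.mem_coe.mp hq
      rw [hTξ p hp', hTξ q hq', hin₁ p hp' q hq']
    · have hp' := Finset.mem_coe.mp hp
      rw [hq, hTχ, hTξ p hp', ← conj_classInner, hyzero p hp', horχ p hp', map_zero]
    · have hp' := Finset.mem_coe.mp hp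
      have hq' : q = conjFun χ := hq
      rw [hq', hTχc, hTξ p hp', ← conj_classInner, hν'τ p hp', horχc p hp', map_zero]
    · have hq' := Finset.mem_coe.mp hq
      rw [hp, hTχ, hTξ q hq', hyzero q hq', horχ' q hq']
    · rw [hp, hq, hTχ, hνν, hnχ]
    · have hq' : q = conjFun χ := hq
      rw [hp, hq', hTχ, hTχc, hνν', hχχc]
    · have hp' : p = conjFun χ := hp
      have hq' := Finset.mem_coe.mp hq
      rw [hp', hTχc, hTξ q hq', hν'τ q hq', horχc' q hq']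
    · have hp' : p = conjFun χ := hp
      rw [hq, hp', hTχ, hTχc, hχcχ, ← conj_classInner, hνν', map_zero]
    · have hp' : p = conjFun χ := hp
      have hq' : q = conjFun χ := hq
      rw [hp', hq', hTχc, hν'ν', classInner_conjFun, hnχ]
  obtain ⟨τ₃, hτ₃, hτ₃T⟩ := exists_isometry_of_orthogonal horth hne0 hgen hin
  refine ⟨τ₃, hτ₃, ?_⟩
  have hτ₃₁ : ∀ {x : L → ℂ}, x ∈ zspan (S₁ : Set (L → ℂ)) → τ₃ x = τ₁ x := fun {x} hx =>
    iso_eq_on_span (iso_mono hτ₃ (fun y hy => zs_mono hsub hy)) hτ₁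
      (fun ξ h => by rw [hτ₃T ξ (hsub h), hTξ ξ (Finset.mem_coe.mp h)]) hx
  intro β hβ
  rw [mem_zspanOn_one] at hβ
  obtain ⟨hβ1, hβ2⟩ := hβ
  have hS₂eq : S₂ = insert χ (insert (conjFun χ) (S₁ : Set (L → ℂ))) := by
    ext x
    simp only [hS₂, Set.mem_union, Set.mem_insert_iff, Set.mem_singleton_iff]
    tauto
  have hβ3 : β ∈ Submodule.span ℤ (insert χ (insert (conjFun χ) (S₁ : Set (L → ℂ)))) := by
    rw [← hS₂eq]
    exact hβ1
  obtain ⟨m, w, hw, rfl⟩ := Submodule.mem_span_insert.mp hβ3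
  obtain ⟨m', x, hx, rfl⟩ := Submodule.mem_span_insert.mp hw
  have hx' : x ∈ zspan (S₁ : Set (L → ℂ)) := hx
  set z : L → ℂ := x + ((m + m') * (a : ℤ)) • χ₁ with hz
  have hzz : z ∈ zspanOn (S₁ : Set (L → ℂ)) ({1}ᶜ : Set L) := by
    rw [mem_zspanOn_one]
    refine ⟨zs_add hx' (zs_smul _ (subset_zspan hχ₁')), ?_⟩
    simp only [Pi.add_apply, Pi.smul_apply] at hβ2
    simp only [hχ1, hχc1, smul_eq_mul, zsmul_eq_mul, hDχC] at hβ2
    simp only [hz, Pi.add_apply, Pi.smul_apply]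
    simp only [hχ₁1, smul_eq_mul, zsmul_eq_mul]
    push_cast
    linear_combination hβ2
  have hz₂ := zspanOn_mono hsub hzz
  have hβ₀' : β₀ - (χ - conjFun χ) ∈ zspanOn S₂ ({1}ᶜ : Set L) := zspanOn_sub hβ₀ hmemcc
  have hdecomp : m • χ + (m' • conjFun χ + x) = m • β₀ + (m' • (β₀ - (χ - conjFun χ)) + z) := by
    rw [hβ₀def, hz]
    funext g'
    simp only [Pi.add_apply, Pi.sub_apply, Pi.smul_apply]
    simp only [zsmul_eq_mul]
    push_cast
    ring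
  have hτ₃val : τ₃ (m • χ + (m' • conjFun χ + x)) = m • ν + (m' • ν' + τ₁ x) := by
    have hA : m • χ ∈ zspan S₂ := zs_smul _ (subset_zspan hχ₂')
    have hB : m' • conjFun χ ∈ zspan S₂ := zs_smul _ (subset_zspan hχc₂)
    have hC : x ∈ zspan S₂ := zs_mono hsub hx'
    rw [hτ₃.1 _ hA _ (zs_add hB hC), hτ₃.1 _ hB _ hC, hτ₃.2.1 _ (subset_zspan hχ₂'), hτ₃.2.1 _ (subset_zspan hχc₂),
      hτ₃T χ hχ₂', hτ₃T _ hχc₂, hTχ, hTχc, hτ₃₁ hx']
  have hτval : τ (m • β₀ + (m' • (β₀ - (χ - conjFun χ)) + z)) = m • τ β₀ + (m' • (τ β₀ - s) + τ₁ z) := by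
    rw [hτ₂.1 _ (zspanOn_smul _ hβ₀) _ (zspanOn_add (zspanOn_smul _ hβ₀') hz₂), hτ₂.1 _ (zspanOn_smul _ hβ₀') _ hz₂,
      hτ₂.2.1 _ hβ₀, hτ₂.2.1 _ hβ₀', zspanOn_iso_sub hτ₂ hβ₀ hmemcc, ← hτ₁τ _ hzz]
  rw [hτ₃val, hdecomp, hτval, hz, hτ₁.1 _ hx' _ (zs_smul _ (subset_zspan hχ₁')), hτ₁.2.1 _ (subset_zspan hχ₁'), hν', hν]
  funext g'
  simp only [Pi.add_apply, Pi.sub_apply, Pi.smul_apply]
  simp only [zsmul_eq_mul, smul_eq_mul]
  push_cast
  ring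

end Sys

end CfsgLib.Char
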