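import Mathlib
import Cfsg.Agent.Lib.Char.Coh3

/-!
# Coherence systems with equal degrees
-/

set_option linter.unusedSectionVars false
set_option linter.style.haveILetI false
set_option linter.unusedSimpArgs false
set_option linter.unusedVariables false

namespace CfsgLib.Char

open Module Cfsg
open scoped ComplexConjugate

universe u v

section Sys

variable {L : Type u} [Group L] [Fintype L] {G : Type v} [Group G] [Fintype G]

/-- Indexed form of the half lemma. -/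
theorem half_lemma_indexed {ι : Type*} {s : Finset ι} {e : ι → G → ℂ}
    (horth : ∀ i ∈ s, ∀ j ∈ s, i ≠ j → classInner (e i) (e j) = 0)
    (hself : ∀ i ∈ s, classInner (e i) (e i) = 1) (hvirt : ∀ i ∈ s, IsGeneralizedCharacter G (e i)) {f : G → ℂ}
    (hf : IsGeneralizedCharacter G f) (h : classInner f (∑ i ∈ s, e i) = classInner f f) :
    f = ∑ i ∈ s, classInner f (e i) • e i ∧ ∀ i ∈ s, classInner f (e i) = 0 ∨ classInner f (e i) = 1 := by
  classical
  have hb : ∀ i, ∃ n : ℤ, i ∈ s → classInner f (e i) = n := by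
    intro i
    by_cases hi : i ∈ s
    · obtain ⟨n, hn⟩ := gen_inner_int hf (hvirt i hi)
      exact ⟨n, fun _ => hn⟩
    · exact ⟨0, fun h => absurd h hi⟩
  choose b hb using hb
  have hbes := bessel_le₁ s e horth hself f
  have hnormeq : ∀ i ∈ s, ‖classInner f (e i)‖ ^ 2 = ((b i : ℝ)) ^ 2 := by
    intro i hi
    rw [hb i hi, Complex.norm_intCast, sq_abs]
  have hsumeq : (classInner f f).re = ∑ i ∈ s, (b i : ℝ) := by
    rw [← h, classInner_sum_right, Complex.re_sum]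
    refine Finset.sum_congr rfl fun i hi => ?_
    rw [hb i hi]
    simp
  rw [hsumeq, Finset.sum_congr rfl hnormeq] at hbes
  have hnn : ∀ i ∈ s, (0 : ℝ) ≤ (b i : ℝ) ^ 2 - b i := by
    intro i _
    have : (0 : ℤ) ≤ b i ^ 2 - b i := by
      rcases lt_trichotomy (b i) 0 with h | h | h
      · nlinarith
      · simp [h]
      · nlinarith
    exact_mod_cast this
  have hsum0 : ∑ i ∈ s, ((b i : ℝ) ^ 2 - b i) = 0 := by
    apply le_antisymm
    · rw [Finset.sum_sub_distrib]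
      linarith
    · exact Finset.sum_nonneg hnn
  have hzero := (Finset.sum_eq_zero_iff_of_nonneg hnn).mp hsum0
  have h01 : ∀ i ∈ s, b i = 0 ∨ b i = 1 := by
    intro i hi
    have h1 := hzero i hi
    have h2 : b i * (b i - 1) = 0 := by
      have : ((b i ^ 2 - b i : ℤ) : ℝ) = 0 := by
        push_cast
        exact h1
      have h3 : b i ^ 2 - b i = 0 := by exact_mod_cast this
      linarith [h3, sq (b i)]
    rcases mul_eq_zero.mp h2 with h3 | h3
    · exact Or.inl h3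
    · exact Or.inr (by omega)
  constructor
  · have hid := bessel_identity₁ s e horth hself f
    have h5 : ((∑ i ∈ s, ‖classInner f (e i)‖ ^ 2 : ℝ) : ℂ) = classInner f f := by
      rw [classInner_self_eq_re f, hsumeq, Finset.sum_congr rfl hnormeq]
      congr 1
      have : ∑ i ∈ s, ((b i : ℝ) ^ 2 - b i) = ∑ i ∈ s, (b i : ℝ) ^ 2 - ∑ i ∈ s, (b i : ℝ) := Finset.sum_sub_distrib _ _
      linarith
    rw [h5, sub_self] at hid
    exact sub_eq_zero.mp (classInner_self_zero hid)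
  · intro i hi
    rw [hb i hi]
    rcases h01 i hi with h | h <;> simp [h]

variable {S : Set (L → ℂ)} {τ : (L → ℂ) → (G → ℂ)} {R : (L → ℂ) → Finset (G → ℂ)}

/-- The coherence conclusion from a well-behaved map on `S`. -/
theorem coh_of_T (hS : IsCoherenceSystem S τ R) (hdeg : ∀ φ ∈ S, ∀ ψ ∈ S, φ 1 = ψ 1) {T : (L → ℂ) → (G → ℂ)}
    (hgen : ∀ χ ∈ S, IsGeneralizedCharacter G (T χ))
    (hin : ∀ χ ∈ S, ∀ ξ ∈ S, classInner (T χ) (T ξ) = classInner χ ξ)
    (hdiff : ∀ χ ∈ S, ∀ ξ ∈ S, τ (χ - ξ) = T χ - T ξ) : IsCoherent S ({1}ᶜ : Set L) τ := by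
  classical
  obtain ⟨χ₀, hχ₀⟩ := hS.nonempty
  have hsubm : ∀ φ ∈ S, ∀ ψ ∈ S, φ - ψ ∈ zspanOn S ({1}ᶜ : Set L) := by
    intro φ hφ ψ hψ
    rw [mem_zspanOn_one]
    exact ⟨zs_sub (subset_zspan hφ) (subset_zspan hψ), by simp [hdeg φ hφ ψ hψ]⟩
  constructor
  · refine ⟨χ₀ - conjFun χ₀, hsubm _ hχ₀ _ (hS.conj_mem χ₀ hχ₀), ?_⟩
    intro h0
    exact hS.conj_ne χ₀ hχ₀ (sub_eq_zero.mp h0).symm
  obtain ⟨τ₁, hτ₁, hτ₁T⟩ := exists_isometry_of_orthogonal hS.orthogonal (fun χ hχ => sys_ne_zero hS hχ) hgen hin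
  refine ⟨τ₁, hτ₁, ?_⟩
  have hiso := hS.isometry
  have hd0 : χ₀ 1 ≠ 0 := by
    rw [sys_one hS hχ₀]
    exact Nat.cast_ne_zero.mpr (sys_degree_pos hS hχ₀).ne'
  have key : ∀ β ∈ zspan S, ∃ m : ℤ, β 1 = m * χ₀ 1 ∧ β - m • χ₀ ∈ zspanOn S ({1}ᶜ : Set L) ∧
      τ (β - m • χ₀) = τ₁ β - m • τ₁ χ₀ := by
    intro β hβ
    have hβ' : β ∈ Submodule.span ℤ S := hβ
    induction hβ' using Submodule.span_induction with
    | mem x hx =>
      refine ⟨1, by simp [hdeg x hx χ₀ hχ₀], by simpa using hsubm x hx χ₀ hχ₀, ?_⟩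
      rw [one_smul, one_smul, hdiff x hx χ₀ hχ₀, hτ₁T x hx, hτ₁T χ₀ hχ₀]
    | zero =>
      refine ⟨0, by simp, by simpa using zspanOn_zero, ?_⟩
      rw [zero_smul, zero_smul, sub_zero, sub_zero, iso_zero hiso zspanOn_zero, iso_zero hτ₁ zs_zero]
    | add x y hx hy ihx ihy =>
      obtain ⟨m, h1, h2, h3⟩ := ihx hx
      obtain ⟨m', h1', h2', h3'⟩ := ihy hy
      have heq : x + y - (m + m') • χ₀ = (x - m • χ₀) + (y - m' • χ₀) := by
        rw [add_smul]
        abel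
      refine ⟨m + m', by simp [h1, h1']; ring, by rw [heq]; exact zspanOn_add h2 h2', ?_⟩
      rw [heq, hiso.1 _ h2 _ h2', h3, h3', hτ₁.1 _ hx _ hy, add_smul]
      abel
    | smul k x hx ih =>
      obtain ⟨m, h1, h2, h3⟩ := ih hx
      have heq : k • x - (k * m) • χ₀ = k • (x - m • χ₀) := by
        rw [smul_sub, mul_smul]
      refine ⟨k * m, by simp [h1]; ring, by rw [heq]; exact zspanOn_smul k h2, ?_⟩
      rw [heq, hiso.2.1 _ h2, h3, hτ₁.2.1 _ hx, smul_sub, mul_smul]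
  intro β hβ
  rw [mem_zspanOn_one] at hβ
  obtain ⟨m, h1, h2, h3⟩ := key β hβ.1
  have hm : m = 0 := by
    rw [hβ.2] at h1
    have h4 := (mul_eq_zero.mp h1.symm).resolve_right hd0
    exact_mod_cast h4
  rw [hm, zero_smul, zero_smul, sub_zero, sub_zero] at h3
  exact h3.symm

/-- Inner product with a partner. -/
theorem pair_decomp (hS : IsCoherenceSystem S τ R) (hdeg : ∀ φ ∈ S, ∀ ψ ∈ S, φ 1 = ψ 1) {χ ξ : L → ℂ} (hχ : χ ∈ S)
    (hξ : ξ ∈ S) (h1 : ξ ≠ χ) (h2 : ξ ≠ conjFun χ) :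
    τ (χ - ξ) = ∑ γ ∈ R χ, classInner (τ (χ - ξ)) γ • γ + ∑ γ ∈ R ξ, classInner (τ (χ - ξ)) γ • γ ∧
      ∀ γ ∈ R χ, classInner (τ (χ - ξ)) γ = 0 ∨ classInner (τ (χ - ξ)) γ = 1 := by
  classical
  have hχc := hS.conj_mem χ hχ
  have hξc := hS.conj_mem ξ hξ
  have hm : χ - ξ ∈ zspanOn S ({1}ᶜ : Set L) := by
    rw [mem_zspanOn_one]
    exact ⟨zs_sub (subset_zspan hχ) (subset_zspan hξ), by simp [hdeg χ hχ ξ hξ]⟩
  have hmχ := sys_sub_mem hS hχ hχ hχc
  have hmξ := sys_sub_mem hS hξ hξ hξc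
  have hiso := hS.isometry
  have o1 : classInner ξ χ = 0 := hS.orthogonal _ hξ _ hχ h1
  have o2 : classInner ξ (conjFun χ) = 0 := hS.orthogonal _ hξ _ hχc h2
  have hdis : ∀ α ∈ R ξ, ∀ β ∈ R χ, classInner α β = 0 := hS.disjoint χ hχ ξ hξ o1 o2
  have hdis' : ∀ α ∈ R χ, ∀ β ∈ R ξ, classInner α β = 0 := by
    intro α hα β hβ
    rw [← conj_classInner, hdis β hβ α hα, map_zero]
  have hcond : ∀ {φ : L → ℂ}, φ ∈ S → ∀ α ∈ R φ, ∀ β ∈ R φ, α ≠ β → classInner α β = 0 := by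
    intro φ hφ α hα β hβ hne
    rw [hS.orthonormal φ hφ α hα β hβ, if_neg hne]
  have hcond' : ∀ {φ : L → ℂ}, φ ∈ S → ∀ α ∈ R φ, classInner α α = 1 := by
    intro φ hφ α hα
    rw [hS.orthonormal φ hφ α hα α hα, if_pos rfl]
  let e : (G → ℂ) ⊕ (G → ℂ) → G → ℂ := Sum.elim (fun a => a) (fun a => -a)
  have hsum : ∑ i ∈ (R χ).disjSum (R ξ), e i = τ (χ - conjFun χ) - τ (ξ - conjFun ξ) := by
    rw [Finset.sum_disjSum, hS.sum_eq χ hχ, hS.sum_eq ξ hξ]
    simp only [e, Sum.elim_inl, Sum.elim_inr]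
    rw [sub_eq_add_neg]
    congr 1
    exact Finset.sum_neg_distrib (fun x => x)
  have o3 : classInner χ ξ = 0 := by rw [← conj_classInner, o1, map_zero]
  have o4 : classInner χ (conjFun ξ) = 0 := by
    apply hS.orthogonal _ hχ _ hξc
    intro h
    apply h2
    rw [h, conjFun_conjFun]
  have o5 := sys_self_conj hS hχ
  have o6 := sys_self_conj hS hξ
  have hinner : classInner (τ (χ - ξ)) (∑ i ∈ (R χ).disjSum (R ξ), e i) = classInner (τ (χ - ξ)) (τ (χ - ξ)) := by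
    rw [hsum, classInner_sub_right, hiso.2.2.1 _ hm _ hmχ, hiso.2.2.1 _ hm _ hmξ, hiso.2.2.1 _ hm _ hm]
    simp only [classInner_sub_left, classInner_sub_right]
    rw [o1, o2, o3, o4, o5, o6]
    ring
  have horth : ∀ i ∈ (R χ).disjSum (R ξ), ∀ j ∈ (R χ).disjSum (R ξ), i ≠ j → classInner (e i) (e j) = 0 := by
    rintro (a | a) ha (b | b) hb hab
    · simp only [Finset.inl_mem_disjSum] at ha hb
      exact hcond hχ a ha b hb (fun h => hab (by rw [h]))
    · simp only [Finset.inl_mem_disjSum, Finset.inr_mem_disjSum] at ha hb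
      simp only [e, Sum.elim_inl, Sum.elim_inr]
      rw [classInner_neg_right, hdis' a ha b hb, neg_zero]
    · simp only [Finset.inl_mem_disjSum, Finset.inr_mem_disjSum] at ha hb
      simp only [e, Sum.elim_inl, Sum.elim_inr]
      rw [classInner_neg_left, hdis a ha b hb, neg_zero]
    · simp only [Finset.inr_mem_disjSum] at ha hb
      simp only [e, Sum.elim_inr]
      rw [classInner_neg_left, classInner_neg_right, hcond hξ a ha b hb (fun h => hab (by rw [h]))]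
      simp
  have hself : ∀ i ∈ (R χ).disjSum (R ξ), classInner (e i) (e i) = 1 := by
    rintro (a | a) ha
    · simp only [Finset.inl_mem_disjSum] at ha
      exact hcond' hχ a ha
    · simp only [Finset.inr_mem_disjSum] at ha
      simp only [e, Sum.elim_inr]
      rw [classInner_neg_left, classInner_neg_right, hcond' hξ a ha]
      simp
  have hvirt : ∀ i ∈ (R χ).disjSum (R ξ), IsGeneralizedCharacter G (e i) := by
    rintro (a | a) ha
    · simp only [Finset.inl_mem_disjSum] at ha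
      exact hS.virtual χ hχ a ha
    · simp only [Finset.inr_mem_disjSum] at ha
      exact (hS.virtual ξ hξ a ha).neg
  obtain ⟨h3, h4⟩ := half_lemma_indexed horth hself hvirt (hiso.2.2.2 _ hm) hinner
  constructor
  · rw [Finset.sum_disjSum] at h3
    simp only [e, Sum.elim_inl, Sum.elim_inr, classInner_neg_right, smul_neg, neg_smul, neg_neg] at h3
    exact h3
  · intro γ hγ
    exact h4 (Sum.inl γ) (by simpa using hγ)

/-- Orthogonality of difference of partners. -/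
theorem partner_perp (hS : IsCoherenceSystem S τ R) (hdeg : ∀ φ ∈ S, ∀ ψ ∈ S, φ 1 = ψ 1) {χ ξ ξ' : L → ℂ}
    (hχ : χ ∈ S) (hξ : ξ ∈ S) (h1 : ξ ≠ χ) (h2 : ξ ≠ conjFun χ) (hξ' : ξ' ∈ S) (h1' : ξ' ≠ χ)
    (h2' : ξ' ≠ conjFun χ) {γ : G → ℂ} (hγ : γ ∈ R χ) : classInner (τ (ξ' - ξ)) γ = 0 := by
  classical
  have hiso := hS.isometry
  have hdis : ∀ {ζ : L → ℂ}, ζ ∈ S → ζ ≠ χ → ζ ≠ conjFun χ → ∀ α ∈ R ζ, classInner α γ = 0 := by
    intro ζ hζ h3 h4 α hα
    exact hS.disjoint χ hχ ζ hζ (hS.orthogonal _ hζ _ hχ h3) (hS.orthogonal _ hζ _ (hS.conj_mem χ hχ) h4) α hα γ hγ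
  by_cases h3 : ξ' = ξ
  · rw [h3, sub_self, iso_zero hiso zspanOn_zero, classInner_zero_left]
  by_cases h4 : ξ' = conjFun ξ
  · have hm := sys_sub_mem hS hξ hξ (hS.conj_mem ξ hξ)
    have heq : ξ' - ξ = -(ξ - conjFun ξ) := by rw [h4]; abel
    rw [heq, iso_neg hiso hm, classInner_neg_left, hS.sum_eq ξ hξ, classInner_sum_left,
      Finset.sum_eq_zero (fun α hα => hdis hξ h1 h2 α hα), neg_zero]
  · obtain ⟨h5, -⟩ := pair_decomp hS hdeg hξ' hξ (Ne.symm h3) (fun h => h4 (by rw [h, conjFun_conjFun]))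
    rw [h5, classInner_add_left, classInner_sum_left, classInner_sum_left]
    rw [Finset.sum_eq_zero, Finset.sum_eq_zero, add_zero]
    · intro α hα
      rw [classInner_smul_left, hdis hξ h1 h2 α hα, mul_zero]
    · intro α hα
      rw [classInner_smul_left, hdis hξ' h1' h2' α hα, mul_zero]

theorem partner_coeff (hS : IsCoherenceSystem S τ R) (hdeg : ∀ φ ∈ S, ∀ ψ ∈ S, φ 1 = ψ 1) {χ ξ ξ' : L → ℂ}
    (hχ : χ ∈ S) (hξ : ξ ∈ S) (h1 : ξ ≠ χ) (h2 : ξ ≠ conjFun χ) (hξ' : ξ' ∈ S) (h1' : ξ' ≠ χ)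
    (h2' : ξ' ≠ conjFun χ) {γ : G → ℂ} (hγ : γ ∈ R χ) :
    classInner (τ (χ - ξ)) γ = classInner (τ (χ - ξ')) γ := by
  have hiso := hS.isometry
  have hsubm : ∀ φ ∈ S, ∀ ψ ∈ S, φ - ψ ∈ zspanOn S ({1}ᶜ : Set L) := by
    intro φ hφ ψ hψ
    rw [mem_zspanOn_one]
    exact ⟨zs_sub (subset_zspan hφ) (subset_zspan hψ), by simp [hdeg φ hφ ψ hψ]⟩
  have heq : χ - ξ = (χ - ξ') + (ξ' - ξ) := by abel
  rw [heq, hiso.1 _ (hsubm _ hχ _ hξ') _ (hsubm _ hξ' _ hξ), classInner_add_left,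
    partner_perp hS hdeg hχ hξ h1 h2 hξ' h1' h2' hγ, add_zero]

theorem inner_sum_self {A : Finset (G → ℂ)} (hA : ∀ α ∈ A, ∀ β ∈ A, α ≠ β → classInner α β = 0)
    (hA' : ∀ α ∈ A, classInner α α = 1) : classInner (∑ α ∈ A, α) (∑ α ∈ A, α) = (A.card : ℂ) := by
  classical
  rw [classInner_sum_left]
  have : ∀ α ∈ A, classInner α (∑ β ∈ A, β) = 1 := by
    intro α hα
    rw [classInner_sum_right, Finset.sum_eq_single α]
    · exact hA' α hα
    · intro β hβ hne
      exact hA α hα β hβ (Ne.symm hne)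
    · intro h
      exact absurd hα h
  rw [Finset.sum_congr rfl this]
  simp

theorem inner_sum_disj {A B : Finset (G → ℂ)} (h : ∀ α ∈ A, ∀ β ∈ B, classInner α β = 0) :
    classInner (∑ α ∈ A, α) (∑ α ∈ B, α) = 0 := by
  rw [classInner_sum_left]
  apply Finset.sum_eq_zero
  intro α hα
  rw [classInner_sum_right]
  exact Finset.sum_eq_zero fun β hβ => h α hα β hβ

/-- The main theorem about coherence systems with equal degrees. -/
theorem s1517_main (hS : IsCoherenceSystem S τ R) (hdeg : ∀ φ ∈ S, ∀ ψ ∈ S, φ 1 = ψ 1) :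
    IsCoherent S ({1}ᶜ : Set L) τ := by
  classical
  have hiso := hS.isometry
  have hsubm : ∀ φ ∈ S, ∀ ψ ∈ S, φ - ψ ∈ zspanOn S ({1}ᶜ : Set L) := by
    intro φ hφ ψ hψ
    rw [mem_zspanOn_one]
    exact ⟨zs_sub (subset_zspan hφ) (subset_zspan hψ), by simp [hdeg φ hφ ψ hψ]⟩
  have hcond : ∀ {φ : L → ℂ}, φ ∈ S → ∀ α ∈ R φ, ∀ β ∈ R φ, α ≠ β → classInner α β = 0 := by
    intro φ hφ α hα β hβ hne
    rw [hS.orthonormal φ hφ α hα β hβ, if_neg hne]
  have hcond' : ∀ {φ : L → ℂ}, φ ∈ S → ∀ α ∈ R φ, classInner α α = 1 := by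
    intro φ hφ α hα
    rw [hS.orthonormal φ hφ α hα α hα, if_pos rfl]
  have hconj_conj : ∀ {χ : L → ℂ}, χ ∈ S → classInner (conjFun χ) (conjFun χ) = classInner χ χ := by
    intro χ _
    rw [classInner_conjFun]
  by_cases hp : ∃ χ ∈ S, ∃ ξ ∈ S, ξ ≠ χ ∧ ξ ≠ conjFun χ
  · have partner : ∀ φ, φ ∈ S → ∃ q, q ∈ S ∧ q ≠ φ ∧ q ≠ conjFun φ := by
      intro φ hφ
      obtain ⟨χ, hχ, ξ, hξ, h1, h2⟩ := hp
      by_cases h3 : φ = χ
      · exact ⟨ξ, hξ, by rwa [h3], by rwa [h3]⟩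
      by_cases h4 : φ = conjFun χ
      · refine ⟨ξ, hξ, by rwa [h4], ?_⟩
        rw [h4, conjFun_conjFun]
        exact h1
      · refine ⟨χ, hχ, Ne.symm h3, ?_⟩
        intro h5
        apply h4
        rw [h5, conjFun_conjFun]
    choose! p hp1 hp2 hp3 using partner
    set T : (L → ℂ) → (G → ℂ) := fun χ => ∑ γ ∈ R χ, classInner (τ (χ - p χ)) γ • γ with hT
    have hcoefT : ∀ χ ∈ S, ∀ γ ∈ R χ, classInner (T χ) γ = classInner (τ (χ - p χ)) γ := by
      intro χ hχ γ hγ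
      simp only [hT]
      rw [classInner_sum_left, Finset.sum_eq_single γ]
      · rw [classInner_smul_left, hcond' hχ γ hγ, mul_one]
      · intro β hβ hne
        rw [classInner_smul_left, hcond hχ β hβ γ hγ hne, mul_zero]
      · intro h
        exact absurd hγ h
    have hvirt : ∀ χ ∈ S, ∀ ξ ∈ S, IsGeneralizedCharacter G (τ (χ - ξ)) := fun χ hχ ξ hξ =>
      hiso.2.2.2 _ (hsubm χ hχ ξ hξ)
    have hgen : ∀ χ ∈ S, IsGeneralizedCharacter G (T χ) := by
      intro χ hχ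
      refine IsGeneralizedCharacter.sum _ fun γ hγ => ?_
      obtain ⟨n, hn⟩ := gen_inner_int (hvirt χ hχ _ (hp1 χ hχ)) (hS.virtual χ hχ γ hγ)
      rw [hn]
      exact (hS.virtual χ hχ γ hγ).int_smul n
    have hdiffP : ∀ χ ∈ S, ∀ ξ ∈ S, ξ ≠ χ → ξ ≠ conjFun χ → τ (χ - ξ) = T χ - T ξ := by
      intro χ hχ ξ hξ h1 h2
      obtain ⟨h3, -⟩ := pair_decomp hS hdeg hχ hξ h1 h2
      have h4 : T χ = ∑ γ ∈ R χ, classInner (τ (χ - ξ)) γ • γ := by
        simp only [hT]
        refine Finset.sum_congr rfl fun γ hγ => ?_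
        rw [partner_coeff hS hdeg hχ hξ h1 h2 (hp1 χ hχ) (hp2 χ hχ) (hp3 χ hχ) hγ]
      have h5 : T ξ = -∑ γ ∈ R ξ, classInner (τ (χ - ξ)) γ • γ := by
        simp only [hT]
        rw [← Finset.sum_neg_distrib]
        refine Finset.sum_congr rfl fun γ hγ => ?_
        have h6 : χ ≠ ξ := Ne.symm h1
        have h7 : χ ≠ conjFun ξ := by
          intro h
          apply h2
          rw [h, conjFun_conjFun]
        rw [partner_coeff hS hdeg hξ (hp1 ξ hξ) (hp2 ξ hξ) (hp3 ξ hξ) hχ h6 h7 hγ]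
        have h8 : ξ - χ = -(χ - ξ) := by abel
        rw [h8, iso_neg hiso (hsubm χ hχ ξ hξ), classInner_neg_left, neg_smul]
      rw [h4, h5, sub_neg_eq_add]
      exact h3
    have hdiffC : ∀ χ ∈ S, τ (χ - conjFun χ) = T χ - T (conjFun χ) := by
      intro χ hχ
      have hq := hp1 χ hχ
      have hc := hS.conj_mem χ hχ
      have h1 := hdiffP χ hχ _ hq (hp2 χ hχ) (hp3 χ hχ)
      have h2 := hdiffP (p χ) hq (conjFun χ) hc (Ne.symm (hp3 χ hχ)) (by
        intro h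
        apply hp2 χ hχ
        have := congrArg conjFun h
        rw [conjFun_conjFun, conjFun_conjFun] at this
        exact this.symm)
      have heq : χ - conjFun χ = (χ - p χ) + (p χ - conjFun χ) := by abel
      rw [heq, hiso.1 _ (hsubm _ hχ _ hq) _ (hsubm _ hq _ hc), h1, h2]
      abel
    have hdiff : ∀ χ ∈ S, ∀ ξ ∈ S, τ (χ - ξ) = T χ - T ξ := by
      intro χ hχ ξ hξ
      by_cases h1 : ξ = χ
      · rw [h1, sub_self, sub_self, iso_zero hiso zspanOn_zero]
      by_cases h2 : ξ = conjFun χ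
      · rw [h2]
        exact hdiffC χ hχ
      · exact hdiffP χ hχ ξ hξ h1 h2
    have hnorm : ∀ χ ∈ S, classInner (T χ) (T χ) = classInner χ χ := by
      intro χ hχ
      have hq := hp1 χ hχ
      have hc := hS.conj_mem χ hχ
      obtain ⟨-, h01⟩ := pair_decomp hS hdeg hχ hq (hp2 χ hχ) (hp3 χ hχ)
      have h1 : classInner (T χ) (T χ) = ∑ γ ∈ R χ, classInner (τ (χ - p χ)) γ := by
        conv_lhs => rw [show T χ = ∑ γ ∈ R χ, classInner (τ (χ - p χ)) γ • γ from rfl]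
        rw [classInner_sum_right, show (∑ γ ∈ R χ, classInner (τ (χ - p χ)) γ • γ) = T χ from rfl]
        refine Finset.sum_congr rfl fun γ hγ => ?_
        rw [classInner_smul_right, hcoefT χ hχ γ hγ]
        rcases h01 γ hγ with h | h <;> rw [h] <;> simp
      rw [h1, ← classInner_sum_right, ← hS.sum_eq χ hχ, hiso.2.2.1 _ (hsubm _ hχ _ hq) _ (hsubm _ hχ _ hc)]
      simp only [classInner_sub_left, classInner_sub_right]
      rw [sys_self_conj hS hχ, hS.orthogonal _ hq _ hχ (hp2 χ hχ), hS.orthogonal _ hq _ hc (hp3 χ hχ)]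
      ring
    have hcross : ∀ χ ∈ S, ∀ ξ ∈ S, ξ ≠ χ → ξ ≠ conjFun χ → classInner (T χ) (T ξ) = 0 := by
      intro χ hχ ξ hξ h1 h2
      have hdis := hS.disjoint χ hχ ξ hξ (hS.orthogonal _ hξ _ hχ h1) (hS.orthogonal _ hξ _ (hS.conj_mem χ hχ) h2)
      simp only [hT]
      rw [classInner_sum_left]
      apply Finset.sum_eq_zero
      intro γ hγ
      rw [classInner_sum_right]
      apply Finset.sum_eq_zero
      intro β hβ
      rw [classInner_smul_left, classInner_smul_right, ← conj_classInner β γ, hdis β hβ γ hγ]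
      simp
    have hconjT : ∀ χ ∈ S, classInner (T χ) (T (conjFun χ)) = 0 := by
      intro χ hχ
      have hc := hS.conj_mem χ hχ
      have hm := hsubm _ hχ _ hc
      obtain ⟨x, hx⟩ := gen_inner_int (hgen χ hχ) (hgen _ hc)
      have hx' : classInner (T (conjFun χ)) (T χ) = (x : ℂ) := by
        rw [← conj_classInner, hx]
        simp
      have h1 : classInner (τ (χ - conjFun χ)) (τ (χ - conjFun χ)) = classInner (χ - conjFun χ) (χ - conjFun χ) :=
        hiso.2.2.1 _ hm _ hm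
      rw [hdiffC χ hχ] at h1
      simp only [classInner_sub_left, classInner_sub_right] at h1
      rw [hnorm χ hχ, hnorm _ hc, hx, hx', sys_self_conj hS hχ, ← conj_classInner χ (conjFun χ), sys_self_conj hS hχ] at h1
      simp only [map_zero] at h1
      have h2 : (2 : ℂ) * x = 0 := by linear_combination -h1
      rw [hx]
      exact (mul_eq_zero.mp h2).resolve_left two_ne_zero
    have hin : ∀ χ ∈ S, ∀ ξ ∈ S, classInner (T χ) (T ξ) = classInner χ ξ := by
      intro χ hχ ξ hξ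
      by_cases h1 : ξ = χ
      · rw [h1]
        exact hnorm χ hχ
      by_cases h2 : ξ = conjFun χ
      · rw [h2, hconjT χ hχ, sys_self_conj hS hχ]
      · rw [hcross χ hχ ξ hξ h1 h2, hS.orthogonal χ hχ ξ hξ (Ne.symm h1)]
    exact coh_of_T hS hdeg hgen hin hdiff
  · push Not at hp
    obtain ⟨χ₀, hχ₀⟩ := hS.nonempty
    have hc₀ := hS.conj_mem χ₀ hχ₀
    have hcase : ∀ ξ ∈ S, ξ = χ₀ ∨ ξ = conjFun χ₀ := by
      intro ξ hξ
      by_cases h : ξ = χ₀
      · exact Or.inl h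
      · exact Or.inr (hp χ₀ hχ₀ ξ hξ h)
    obtain ⟨n, -, hn⟩ := sys_norm hS hχ₀
    have hm₀ := hsubm _ hχ₀ _ hc₀
    have hcard : (R χ₀).card = 2 * n := by
      have h1 := inner_sum_self (hcond hχ₀) (hcond' hχ₀)
      rw [← hS.sum_eq χ₀ hχ₀, hiso.2.2.1 _ hm₀ _ hm₀] at h1
      simp only [classInner_sub_left, classInner_sub_right] at h1
      rw [hn, classInner_conjFun, hn, sys_self_conj hS hχ₀, ← conj_classInner χ₀ (conjFun χ₀), sys_self_conj hS hχ₀] at h1
      simp only [map_zero] at h1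
      have h2 : ((R χ₀).card : ℂ) = ((2 * n : ℕ) : ℂ) := by
        rw [← h1]
        push_cast
        ring
      exact_mod_cast h2
    obtain ⟨A, hA, hAc⟩ := Finset.exists_subset_card_eq (s := R χ₀) (n := n) (by omega)
    set B := R χ₀ \ A with hB
    have hBs : B ⊆ R χ₀ := Finset.sdiff_subset
    have hBc : B.card = n := by
      rw [hB, Finset.card_sdiff_of_subset hA, hcard, hAc]
      omega
    set a : G → ℂ := ∑ α ∈ A, α with ha
    set b : G → ℂ := -∑ α ∈ B, α with hb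
    have hab : a - b = τ (χ₀ - conjFun χ₀) := by
      rw [hS.sum_eq χ₀ hχ₀, ha, hb, sub_neg_eq_add]
      rw [hB, add_comm]
      exact Finset.sum_sdiff hA
    have hBdis : ∀ α ∈ A, ∀ β ∈ B, classInner α β = 0 := by
      intro α hα β hβ
      apply hcond hχ₀ α (hA hα) β (hBs hβ)
      rintro rfl
      exact (Finset.mem_sdiff.mp hβ).2 hα
    have hAA : classInner a a = (n : ℂ) := by
      rw [ha, inner_sum_self (fun α hα β hβ => hcond hχ₀ α (hA hα) β (hA hβ)) (fun α hα => hcond' hχ₀ α (hA hα)), hAc]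
    have hBB : classInner b b = (n : ℂ) := by
      rw [hb, classInner_neg_left, classInner_neg_right, neg_neg,
        inner_sum_self (fun α hα β hβ => hcond hχ₀ α (hBs hα) β (hBs hβ)) (fun α hα => hcond' hχ₀ α (hBs hα)), hBc]
    have hAB : classInner a b = 0 := by
      rw [hb, classInner_neg_right, ha, inner_sum_disj hBdis, neg_zero]
    have hBA : classInner b a = 0 := by
      rw [← conj_classInner, hAB, map_zero]
    have hgena : IsGeneralizedCharacter G a :=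
      IsGeneralizedCharacter.sum _ fun α hα => hS.virtual χ₀ hχ₀ α (hA hα)
    have hgenb : IsGeneralizedCharacter G b :=
      (IsGeneralizedCharacter.sum _ fun α hα => hS.virtual χ₀ hχ₀ α (hBs hα)).neg
    let T : (L → ℂ) → (G → ℂ) := fun ξ => if ξ = χ₀ then a else b
    have hT₀ : T χ₀ = a := if_pos rfl
    have hT₁ : T (conjFun χ₀) = b := if_neg (hS.conj_ne χ₀ hχ₀)
    have hgen : ∀ χ ∈ S, IsGeneralizedCharacter G (T χ) := by
      intro χ hχ
      rcases hcase χ hχ with h | h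
      · rw [h, hT₀]
        exact hgena
      · rw [h, hT₁]
        exact hgenb
    have h00 := sys_self_conj hS hχ₀
    have h11 : classInner (conjFun χ₀) χ₀ = 0 := by
      rw [← conj_classInner, h00, map_zero]
    have hin : ∀ χ ∈ S, ∀ ξ ∈ S, classInner (T χ) (T ξ) = classInner χ ξ := by
      intro χ hχ ξ hξ
      rcases hcase χ hχ with h | h <;> rcases hcase ξ hξ with h' | h'
      · rw [h, h', hT₀, hAA, hn]
      · rw [h, h', hT₀, hT₁, hAB, h00]
      · rw [h, h', hT₀, hT₁, hBA, h11]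
      · rw [h, h', hT₁, hBB, classInner_conjFun, hn]
    have hdiff : ∀ χ ∈ S, ∀ ξ ∈ S, τ (χ - ξ) = T χ - T ξ := by
      intro χ hχ ξ hξ
      rcases hcase χ hχ with h | h <;> rcases hcase ξ hξ with h' | h'
      · rw [h, h', sub_self, sub_self, iso_zero hiso zspanOn_zero]
      · rw [h, h', hT₀, hT₁, hab]
      · have h2 : conjFun χ₀ - χ₀ = -(χ₀ - conjFun χ₀) := by abel
        rw [h, h', hT₀, hT₁, h2, iso_neg hiso hm₀, ← hab]
        abel
      · rw [h, h', sub_self, sub_self, iso_zero hiso zspanOn_zero]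
    exact coh_of_T hS hdeg hgen hin hdiff

end Sys

end CfsgLib.Char
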