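import Mathlib
import Cfsg.Agent.Lib.Char.Coh4

/-!
# Coherence for induced characters: Dade-type extension
-/

set_option linter.unusedSectionVars false
set_option linter.style.haveILetI false
set_option linter.unusedSimpArgs false
set_option linter.unusedVariables false

namespace CfsgLib.Char

open Module Cfsg
open scoped ComplexConjugate
open scoped commutatorElement

universe u v

section Ind

variable {L : Type u} [Group L] [Fintype L] {G : Type v} [Group G] [Fintype G]
variable (K : Subgroup L)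

theorem above_mono {A B : Subgroup L} (h : A ≤ B) : inducedIrrAbove K B ⊆ inducedIrrAbove K A := by
  rintro φ ⟨θ, h1, h2, h3, rfl⟩
  exact ⟨θ, h1, h2, fun a ha => h3 a (h ha), rfl⟩

theorem conjFun_indFun (θ : K → ℂ) : conjFun (indFun K θ) = indFun K (conjFun θ) := by
  funext g
  simp only [conjFun, indFun_def, map_mul, map_inv₀, Complex.conj_natCast, map_sum]
  congr 1
  refine Finset.sum_congr rfl fun x _ => ?_
  by_cases hx : x⁻¹ * g * x ∈ K
  · rw [extendByZero_of_mem K _ hx, extendByZero_of_mem K _ hx]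
    rfl
  · rw [extendByZero_of_not_mem K _ hx, extendByZero_of_not_mem K _ hx]
    simp

theorem above_conj {A : Subgroup L} {φ : L → ℂ} (h : φ ∈ inducedIrrAbove K A) : conjFun φ ∈ inducedIrrAbove K A := by
  classical
  letI : Fintype K := Fintype.ofFinite _
  obtain ⟨θ, h1, h2, h3, rfl⟩ := h
  refine ⟨conjFun θ, h1.conj, ?_, ?_, conjFun_indFun K θ⟩
  · intro h4
    apply h2
    funext k
    have := congrFun h4 k
    simp only [conjFun] at this
    have h5 := congrArg conj this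
    simpa using h5
  · intro a ha
    simp only [conjFun]
    rw [h3 a ha]

variable {τ : (L → ℂ) → (G → ℂ)} {R : (L → ℂ) → Finset (G → ℂ)}

/-- A subsystem of a coherence system. -/
theorem sub_system {S T : Set (L → ℂ)} (hS : IsCoherenceSystem S τ R) (hT : T ⊆ S) (hne : T.Nonempty)
    (hc : ∀ φ ∈ T, conjFun φ ∈ T) : IsCoherenceSystem T τ R where
  nonempty := hne
  isCharacter := fun χ h => hS.isCharacter χ (hT h)
  conj_mem := hc
  conj_ne := fun χ h => hS.conj_ne χ (hT h)
  isometry := iso_mono hS.isometry (fun x hx => zspanOn_mono hT hx)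
  map_one := fun α h => hS.map_one α (zspanOn_mono hT h)
  orthogonal := fun χ h φ h' => hS.orthogonal χ (hT h) φ (hT h')
  orthonormal := fun χ h => hS.orthonormal χ (hT h)
  virtual := fun χ h => hS.virtual χ (hT h)
  sum_eq := fun χ h => hS.sum_eq χ (hT h)
  disjoint := fun χ h φ h' => hS.disjoint χ (hT h) φ (hT h')

/-- Coherence passes to subsets. -/
theorem coherent_mono {S T : Set (L → ℂ)} (hT : T ⊆ S) (hco : IsCoherent S ({1}ᶜ : Set L) τ)
    (hne : ∃ α ∈ zspanOn T ({1}ᶜ : Set L), α ≠ 0) : IsCoherent T ({1}ᶜ : Set L) τ := by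
  obtain ⟨-, τ₁, h1, h2⟩ := hco
  exact ⟨hne, τ₁, iso_mono h1 (fun x hx => zs_mono hT hx), fun α hα => h2 α (zspanOn_mono hT hα)⟩

theorem sys_nonzero_of_mem {S T : Set (L → ℂ)} (hS : IsCoherenceSystem S τ R) (hT : T ⊆ S)
    (hc : ∀ φ ∈ T, conjFun φ ∈ T) {χ : L → ℂ} (hχ : χ ∈ T) : ∃ α ∈ zspanOn T ({1}ᶜ : Set L), α ≠ 0 := by
  refine ⟨χ - conjFun χ, sys_sub_mem hS (hT hχ) hχ (hc χ hχ), ?_⟩
  intro h0
  exact hS.conj_ne χ (hT hχ) (sub_eq_zero.mp h0).symm

variable [hK : K.Normal] [Fintype K]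

/-- The trivial character. -/
noncomputable def trivIrr : IrrCharacter K := ⟨fun _ => 1, isIrrCharacter_one⟩

theorem ind_degree {θ : K → ℂ} (hθ : IsIrrCharacter K θ) :
    charDegree (indFun K θ) = K.index * charDegree θ := by
  apply charDegree_eq
  rw [indFun_one, irr_one_eq hθ]
  push_cast
  ring

variable {A : Subgroup L} [hA : A.Normal]

/-- The index set of irreducible characters. -/
noncomputable def thetaSet (K A : Subgroup L) [K.Normal] [Fintype K] : Finset (IrrCharacter K) := by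
  classical
  exact Finset.univ.filter (fun θ : IrrCharacter K => (θ : K → ℂ) ≠ (fun _ => 1) ∧
    ∀ a : K, (a : L) ∈ A → (θ : K → ℂ) a = (θ : K → ℂ) 1)

theorem mem_thetaSet {θ : IrrCharacter K} : θ ∈ thetaSet K A ↔ (θ : K → ℂ) ≠ (fun _ => 1) ∧
    ∀ a : K, (a : L) ∈ A → (θ : K → ℂ) a = (θ : K → ℂ) 1 := by
  classical
  simp [thetaSet]

theorem conj_trivial {θ θ' : K → ℂ} (h3 : ∀ a : K, (a : L) ∈ A → θ a = θ 1) (g : L) (h : θ' = conjOn K g θ) :
    ∀ a : K, (a : L) ∈ A → θ' a = θ' 1 := by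
  intro a ha
  rw [h]
  simp only [conjOn_apply]
  rw [h3 _ (hA.conj_mem _ ha g)]
  congr 1
  apply Subtype.ext
  simp

theorem sum_deg_theta : (∑ θ ∈ thetaSet K A, (charDegree (θ : K → ℂ)) ^ 2) + 1 = (A.subgroupOf K).index := by
  classical
  haveI : (A.subgroupOf K).Normal := inferInstance
  have h1 := sum_deg_sq_trivial (G := K) (A.subgroupOf K)
  have hmem : ∀ θ : IrrCharacter K, (∀ m ∈ A.subgroupOf K, (θ : K → ℂ) m = (θ : K → ℂ) 1) ↔
      ∀ a : K, (a : L) ∈ A → (θ : K → ℂ) a = (θ : K → ℂ) 1 := by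
    intro θ
    constructor
    · intro h a ha
      exact h a (Subgroup.mem_subgroupOf.mpr ha)
    · intro h a ha
      exact h a (Subgroup.mem_subgroupOf.mp ha)
  have ht : trivIrr K ∈ Finset.univ.filter (fun ψ : IrrCharacter K =>
      ∀ m ∈ A.subgroupOf K, (ψ : K → ℂ) m = (ψ : K → ℂ) 1) := by
    simp [trivIrr]
  rw [← Finset.add_sum_erase _ _ ht] at h1
  have hdt : charDegree ((trivIrr K : IrrCharacter K) : K → ℂ) = 1 := charDegree_eq (d := 1) (by simp [trivIrr])
  rw [hdt] at h1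
  have herase : (Finset.univ.filter (fun ψ : IrrCharacter K =>
      ∀ m ∈ A.subgroupOf K, (ψ : K → ℂ) m = (ψ : K → ℂ) 1)).erase (trivIrr K) = thetaSet K A := by
    ext θ
    rw [mem_thetaSet, Finset.mem_erase, Finset.mem_filter, hmem]
    constructor
    · rintro ⟨h1, -, h3⟩
      exact ⟨fun h => h1 (Subtype.ext h), h3⟩
    · rintro ⟨h1, h3⟩
      exact ⟨fun h => h1 (congrArg Subtype.val h), Finset.mem_univ _, h3⟩
  rw [herase] at h1
  rw [Subgroup.index_eq_card, ← h1]
  ring

variable (hS : IsCoherenceSystem (inducedIrrAbove K ⊥) τ R)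
include hS

theorem ind_mem_bot {θ : K → ℂ} (hθ : IsIrrCharacter K θ) (h1 : θ ≠ fun _ => 1) :
    indFun K θ ∈ inducedIrrAbove K (⊥ : Subgroup L) := by
  refine ⟨θ, hθ, h1, fun a ha => ?_, rfl⟩
  have : a = 1 := by
    apply Subtype.ext
    simpa using ha
  rw [this]

/-- The multiplicity formula. -/
theorem fiber_formula {θ₀ : IrrCharacter K} (hθ₀ : θ₀ ∈ thetaSet K A) {m : ℕ}
    (hm : classInner (indFun K (θ₀ : K → ℂ)) (indFun K (θ₀ : K → ℂ)) = (m : ℂ)) :
    charDegree (indFun K (θ₀ : K → ℂ)) = m *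
      ∑ θ ∈ (thetaSet K A).filter (fun θ : IrrCharacter K => indFun K (θ : K → ℂ) = indFun K (θ₀ : K → ℂ)),
        charDegree (θ : K → ℂ) := by
  classical
  set φ := indFun K (θ₀ : K → ℂ) with hφ
  have hm' := (mem_thetaSet K).mp hθ₀
  have hφS : φ ∈ inducedIrrAbove K (⊥ : Subgroup L) := ind_mem_bot K hS θ₀.2 hm'.1
  have hφcl : IsClassFunction L φ := indFun_isClass K _
  have hres : IsClassFunction K (fun k : K => φ k) := by
    intro g c
    have := hφcl (g : L) (c : L)
    simp only [Subgroup.coe_mul, Subgroup.coe_inv]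
    exact this
  have h1 := classFunction_apply hres (1 : K)
  have hφ1 : φ ((1 : K) : L) = (charDegree φ : ℂ) := by
    have := sys_one hS hφS
    simpa using this
  rw [hφ1] at h1
  have hterm : ∀ θ' : IrrCharacter K, θ' ∉ (thetaSet K A).filter (fun θ : IrrCharacter K => indFun K (θ : K → ℂ) = φ) →
      classInner (fun k : K => φ k) (θ' : K → ℂ) * (θ' : K → ℂ) 1 = 0 := by
    intro θ' hθ'
    have h2 : classInner (fun k : K => φ k) (θ' : K → ℂ) = classInner φ (indFun K (θ' : K → ℂ)) :=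
      (frobenius' K _ hφcl).symm
    rw [h2]
    have h3 : classInner φ (indFun K (θ' : K → ℂ)) = 0 := by
      by_cases ht : (θ' : K → ℂ) = fun _ => 1
      · rw [ht, hφ]
        apply classInner_indFun_indFun_eq_zero K isIrrCharacter_one θ₀.2
        rintro ⟨g, hg⟩
        apply hm'.1
        rw [hg]
        rfl
      · by_cases he : indFun K (θ' : K → ℂ) = φ
        · exfalso
          apply hθ'
          rw [Finset.mem_filter, mem_thetaSet]
          refine ⟨⟨ht, ?_⟩, he⟩
          have h4 : classInner (indFun K (θ' : K → ℂ)) (indFun K (θ₀ : K → ℂ)) ≠ 0 := by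
            rw [← hφ, he]
            intro h0
            exact sys_ne_zero hS hφS (classInner_self_zero h0)
          have h5 : ∃ g : L, (θ' : K → ℂ) = conjOn K g (θ₀ : K → ℂ) := by
            by_contra hc
            exact h4 (classInner_indFun_indFun_eq_zero K θ₀.2 θ'.2 hc)
          obtain ⟨g, hg⟩ := h5
          exact conj_trivial K hm'.2 g hg
        · exact hS.orthogonal φ hφS _ (ind_mem_bot K hS θ'.2 ht) (Ne.symm he)
    rw [h3, zero_mul]
  rw [← Finset.sum_subset (Finset.subset_univ _) (fun θ' _ h => hterm θ' h)] at h1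
  have h6 : ∀ θ' ∈ (thetaSet K A).filter (fun θ : IrrCharacter K => indFun K (θ : K → ℂ) = φ),
      classInner (fun k : K => φ k) (θ' : K → ℂ) * (θ' : K → ℂ) 1 = (m : ℂ) * (charDegree (θ' : K → ℂ) : ℂ) := by
    intro θ' hθ'
    have h7 := (Finset.mem_filter.mp hθ').2
    have h2 : classInner (fun k : K => φ k) (θ' : K → ℂ) = classInner φ (indFun K (θ' : K → ℂ)) :=
      (frobenius' K _ hφcl).symm
    rw [h2, h7, hm, irr_one_eq θ'.2]
  rw [Finset.sum_congr rfl h6, ← Finset.mul_sum] at h1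
  exact_mod_cast h1

/-- The sum over induced characters. -/
theorem sum_formula {F : Finset (L → ℂ)} (hF : (F : Set (L → ℂ)) = inducedIrrAbove K A) {n : (L → ℂ) → ℕ}
    (hn : ∀ φ ∈ inducedIrrAbove K (⊥ : Subgroup L), classInner φ φ = (n φ : ℂ)) :
    ∑ φ ∈ F, ((charDegree φ : ℝ) ^ 2 / (n φ : ℝ)) = (K.index : ℝ) * (((A.subgroupOf K).index : ℝ) - 1) := by
  classical
  have hFmem : ∀ {φ : L → ℂ}, φ ∈ F ↔ φ ∈ inducedIrrAbove K A := by
    intro φ
    rw [← hF]
    rfl
  have hsumd := sum_deg_theta (A := A) K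
  have hsumd' : ((A.subgroupOf K).index : ℝ) - 1 = ∑ θ ∈ thetaSet K A, ((charDegree (θ : K → ℂ) : ℕ) : ℝ) ^ 2 := by
    rw [← hsumd]
    push_cast
    ring
  rw [hsumd']
  have hmaps : ∀ θ ∈ thetaSet K A, indFun K (θ : K → ℂ) ∈ F := by
    intro θ hθ
    obtain ⟨h1, h2⟩ := (mem_thetaSet K).mp hθ
    exact hFmem.mpr ⟨θ, θ.2, h1, h2, rfl⟩
  rw [← Finset.sum_fiberwise_of_maps_to hmaps, Finset.mul_sum]
  refine Finset.sum_congr rfl fun φ hφ => ?_
  obtain ⟨θ₀', h1, h2, h3, rfl⟩ := hFmem.mp hφ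
  set θ₀ : IrrCharacter K := ⟨θ₀', h1⟩ with hθ₀
  have hθ₀m : θ₀ ∈ thetaSet K A := (mem_thetaSet K).mpr ⟨h2, h3⟩
  have hφS := above_mono K (bot_le : (⊥ : Subgroup L) ≤ A) (hFmem.mp hφ)
  have hform := fiber_formula K hS hθ₀m (hn _ hφS)
  have hnpos : 0 < n (indFun K θ₀') := by
    obtain ⟨m, hm, hm2⟩ := sys_norm hS hφS
    rw [hn _ hφS] at hm2
    have : n (indFun K θ₀') = m := by exact_mod_cast hm2
    omega
  have hnR : ((n (indFun K θ₀') : ℕ) : ℝ) ≠ 0 := by exact_mod_cast hnpos.ne'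
  have hform' : ((charDegree (indFun K θ₀') : ℕ) : ℝ) = (n (indFun K θ₀') : ℝ) *
      ∑ θ ∈ (thetaSet K A).filter (fun θ : IrrCharacter K => indFun K (θ : K → ℂ) = indFun K θ₀'), ((charDegree (θ : K → ℂ) : ℕ) : ℝ) := by
    exact_mod_cast hform
  have hterm : ∀ θ ∈ (thetaSet K A).filter (fun θ : IrrCharacter K => indFun K (θ : K → ℂ) = indFun K θ₀'),
      (K.index : ℝ) * ((charDegree (θ : K → ℂ) : ℕ) : ℝ) ^ 2 =
        ((charDegree (indFun K θ₀') : ℕ) : ℝ) * ((charDegree (θ : K → ℂ) : ℕ) : ℝ) := by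
    intro θ hθ
    have h4 := (Finset.mem_filter.mp hθ).2
    rw [← h4, ind_degree K θ.2]
    push_cast
    ring
  rw [Finset.mul_sum, Finset.sum_congr rfl hterm, ← Finset.mul_sum]
  field_simp
  rw [pow_two]
  nth_rewrite 2 [hform']
  ring

omit hS in
/-- A nontrivial linear character above a proper normal subgroup, for `K` solvable. -/
theorem exists_linear_above (hsolv : Group.IsSolvable K) (hAK : A < K) :
    ∃ θ : IrrCharacter K, θ ∈ thetaSet K A ∧ (θ : K → ℂ) 1 = 1 := by
  classical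
  set A' := A.subgroupOf K with hA'
  haveI : A'.Normal := inferInstance
  have hne : A' ≠ ⊤ := by
    intro h
    apply hAK.ne
    apply le_antisymm hAK.le
    intro k hk
    have : (⟨k, hk⟩ : K) ∈ A' := by
      rw [h]
      exact Subgroup.mem_top _
    exact Subgroup.mem_subgroupOf.mp this
  haveI := hsolv
  haveI hs : Group.IsSolvable (K ⧸ A') := inferInstance
  haveI hnt : Nontrivial (K ⧸ A') := QuotientGroup.nontrivial_iff.mpr hne
  have hlt : commutator (K ⧸ A') < ⊤ := by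
    have := Group.IsSolvable.commutator_lt_of_ne_bot (G := K ⧸ A') (H := ⊤) top_ne_bot
    exact this
  obtain ⟨q, -, hq⟩ := SetLike.exists_of_lt hlt
  obtain ⟨l, hl⟩ := exists_hom_ne_of_not_mem_commutator hq
  obtain ⟨k, rfl⟩ := QuotientGroup.mk_surjective q
  set l' : K →* ℂˣ := l.comp (QuotientGroup.mk' A') with hl'
  have hirr : IsIrrCharacter K (fun g => ((l' g : ℂˣ) : ℂ)) := isIrr_of_hom l'
  refine ⟨⟨_, hirr⟩, (mem_thetaSet K).mpr ⟨?_, ?_⟩, by simp⟩
  · intro h
    have h2 := congrFun h k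
    apply hl
    apply Units.ext
    simpa [hl'] using h2
  · intro a ha
    have h1 : (QuotientGroup.mk' A') a = 1 := by
      rw [QuotientGroup.mk'_apply, QuotientGroup.eq_one_iff]
      exact Subgroup.mem_subgroupOf.mpr ha
    have h2 : l' a = 1 := by
      simp only [hl', MonoidHom.comp_apply, h1, map_one]
    show ((l' a : ℂˣ) : ℂ) = ((l' 1 : ℂˣ) : ℂ)
    rw [h2, map_one]

omit hS in
/-- The degree bound from a central section. -/
theorem degree_bound {B C D : Subgroup L} (hBD : B ≤ D) (hDC : D ≤ C) (hCK : C ≤ K)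
    (hcent : ∀ x ∈ D, ∀ y ∈ C, x * y * x⁻¹ * y⁻¹ ∈ B) {θ : K → ℂ} (hθ : IsIrrCharacter K θ)
    (hker : ∀ b : K, (b : L) ∈ B → θ b = θ 1) :
    charDegree θ ^ 2 ≤ D.relIndex C * C.relIndex K ^ 2 := by
  classical
  have h1 := degree_sq_mul_le θ hθ (B.subgroupOf K) (C.subgroupOf K) (D.subgroupOf K)
    (fun x hx => Subgroup.mem_subgroupOf.mpr (hBD (Subgroup.mem_subgroupOf.mp hx)))
    (fun x hx => Subgroup.mem_subgroupOf.mpr (hDC (Subgroup.mem_subgroupOf.mp hx)))
    (fun d hd c hc => Subgroup.mem_subgroupOf.mpr (by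
      have := hcent _ (Subgroup.mem_subgroupOf.mp hd) _ (Subgroup.mem_subgroupOf.mp hc)
      simpa using this))
    (fun b hb => hker b (Subgroup.mem_subgroupOf.mp hb))
  rw [irr_one_eq hθ, Complex.norm_natCast] at h1
  have hDK : D ≤ K := hDC.trans hCK
  have hcC : Nat.card (C.subgroupOf K) = Nat.card C := Nat.card_congr (Subgroup.subgroupOfEquivOfLe hCK).toEquiv
  have hcD : Nat.card (D.subgroupOf K) = Nat.card D := Nat.card_congr (Subgroup.subgroupOfEquivOfLe hDK).toEquiv
  have hcD' : Nat.card (D.subgroupOf C) = Nat.card D := Nat.card_congr (Subgroup.subgroupOfEquivOfLe hDC).toEquiv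
  have hK : Nat.card K = Nat.card C * C.relIndex K := by
    rw [← hcC]
    exact (Subgroup.card_mul_index (C.subgroupOf K)).symm
  have hC : Nat.card C = Nat.card D * D.relIndex C := by
    rw [← hcD']
    exact (Subgroup.card_mul_index (D.subgroupOf C)).symm
  rw [hcC, hcD, hK] at h1
  have h2 : (charDegree θ) ^ 2 * Nat.card C * Nat.card D ≤ (Nat.card C * C.relIndex K) ^ 2 := by
    exact_mod_cast h1
  have hCpos : 0 < Nat.card C := Nat.card_pos
  have hDpos : 0 < Nat.card D := Nat.card_pos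
  have h3 : (charDegree θ) ^ 2 * Nat.card D ≤ Nat.card C * C.relIndex K ^ 2 := by
    apply Nat.le_of_mul_le_mul_left _ hCpos
    calc Nat.card C * ((charDegree θ) ^ 2 * Nat.card D) = (charDegree θ) ^ 2 * Nat.card C * Nat.card D := by ring
      _ ≤ (Nat.card C * C.relIndex K) ^ 2 := h2
      _ = Nat.card C * (Nat.card C * C.relIndex K ^ 2) := by ring
  rw [hC] at h3
  apply Nat.le_of_mul_le_mul_left _ hDpos
  calc Nat.card D * (charDegree θ) ^ 2 = (charDegree θ) ^ 2 * Nat.card D := by ring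
    _ ≤ Nat.card D * D.relIndex C * C.relIndex K ^ 2 := h3
    _ = Nat.card D * (D.relIndex C * C.relIndex K ^ 2) := by ring

/-- The extension theorem. -/
theorem s1519_main (hsolv : Group.IsSolvable K) {B C D : Subgroup L} [hB : B.Normal]
    (hAK : A < K) (hBK : B < K) (hBD : B ≤ D) (hDC : D ≤ C) (hCK : C ≤ K)
    (hcent : ∀ x ∈ D, ∀ y ∈ C, x * y * x⁻¹ * y⁻¹ ∈ B)
    (hAc : IsCoherent (inducedIrrAbove K A) ({1}ᶜ : Set L) τ)
    (hlt : 4 * C.index ^ 2 * D.relIndex C < (A.relIndex K - 1) ^ 2) :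
    IsCoherent (inducedIrrAbove K B) ({1}ᶜ : Set L) τ := by
  classical
  set S₀ := inducedIrrAbove K (⊥ : Subgroup L) with hS₀
  have hfin : S₀.Finite := orth_finite hS.orthogonal (fun χ hχ => sys_ne_zero hS hχ)
  have hsub : ∀ {X : Subgroup L}, inducedIrrAbove K X ⊆ S₀ := fun {X} => above_mono K bot_le
  set F₀ := hfin.toFinset with hF₀
  have hF₀mem : ∀ {φ : L → ℂ}, φ ∈ F₀ ↔ φ ∈ S₀ := fun {φ} => hfin.mem_toFinset
  have hfinA : (inducedIrrAbove K A).Finite := hfin.subset hsub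
  set FA := hfinA.toFinset with hFA
  have hFAcoe : (FA : Set (L → ℂ)) = inducedIrrAbove K A := hfinA.coe_toFinset
  have hnex : ∀ φ : L → ℂ, ∃ m : ℕ, φ ∈ S₀ → classInner φ φ = (m : ℂ) := by
    intro φ
    by_cases hφ : φ ∈ S₀
    · obtain ⟨m, -, hm⟩ := sys_norm hS hφ
      exact ⟨m, fun _ => hm⟩
    · exact ⟨0, fun h => absurd h hφ⟩
  choose n hn using hnex
  have hnpos : ∀ φ ∈ S₀, 0 < n φ := by
    intro φ hφ
    obtain ⟨m, hm, hm2⟩ := sys_norm hS hφ
    rw [hn φ hφ] at hm2
    have : n φ = m := by exact_mod_cast hm2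
    omega
  have hsumA := sum_formula K hS hFAcoe hn
  obtain ⟨θ₁, hθ₁, hθ₁1⟩ := exists_linear_above K hsolv hAK
  obtain ⟨hθ₁a, hθ₁b⟩ := (mem_thetaSet K).mp hθ₁
  have hχ₁mem : indFun K (θ₁ : K → ℂ) ∈ inducedIrrAbove K A := ⟨θ₁, θ₁.2, hθ₁a, hθ₁b, rfl⟩
  have hdθ₁ : charDegree (θ₁ : K → ℂ) = 1 := charDegree_eq (d := 1) (by simpa using hθ₁1)
  have hdχ₁ : charDegree (indFun K (θ₁ : K → ℂ)) = K.index := by
    rw [ind_degree K θ₁.2, hdθ₁, mul_one]
  -- the family of candidates
  let P : Finset (L → ℂ) → Prop := fun T => T ⊆ F₀ ∧ (∀ φ ∈ T, conjFun φ ∈ T) ∧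
    IsCoherent (T : Set (L → ℂ)) ({1}ᶜ : Set L) τ ∧ FA ⊆ T
  have hPA : P FA := by
    refine ⟨?_, ?_, ?_, Finset.Subset.refl _⟩
    · intro φ hφ
      exact hF₀mem.mpr (hsub (hfinA.mem_toFinset.mp hφ))
    · intro φ hφ
      exact hfinA.mem_toFinset.mpr (above_conj K (hfinA.mem_toFinset.mp hφ))
    · rw [hFAcoe]
      exact hAc
  let cands := F₀.powerset.filter P
  have hcne : cands.Nonempty := ⟨FA, Finset.mem_filter.mpr ⟨Finset.mem_powerset.mpr hPA.1, hPA⟩⟩
  obtain ⟨T, hTm, hTmax⟩ := Finset.exists_max_image cands Finset.card hcne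
  obtain ⟨hT1, hT2, hT3, hT4⟩ := (Finset.mem_filter.mp hTm).2
  have hTS : (T : Set (L → ℂ)) ⊆ S₀ := fun φ hφ => hF₀mem.mp (hT1 (Finset.mem_coe.mp hφ))
  have hBsub : inducedIrrAbove K B ⊆ (T : Set (L → ℂ)) := by
    intro χ hχ
    by_contra hχT
    have hχT' : χ ∉ T := fun h => hχT (Finset.mem_coe.mpr h)
    have hχc : conjFun χ ∉ T := by
      intro h
      apply hχT'
      have := hT2 _ h
      rwa [conjFun_conjFun] at this
    have hχS := hsub hχ
    have hχc' := hS.conj_mem χ hχS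
    obtain ⟨θ, hθ, hθ1, hθB, rfl⟩ := hχ
    have hdeg := ind_degree K hθ
    have hbound := degree_bound K hBD hDC hCK hcent hθ hθB
    have hidx : C.index = C.relIndex K * K.index := (Subgroup.relIndex_mul_index hCK).symm
    have hfinal : 2 * K.index * charDegree θ < A.relIndex K - 1 := by
      apply lt_of_pow_lt_pow_left₀ 2 (Nat.zero_le _)
      refine lt_of_le_of_lt ?_ hlt
      rw [hidx]
      calc (2 * K.index * charDegree θ) ^ 2 = 4 * K.index ^ 2 * charDegree θ ^ 2 := by ring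
        _ ≤ 4 * K.index ^ 2 * (D.relIndex C * C.relIndex K ^ 2) := Nat.mul_le_mul_left _ hbound
        _ = 4 * (C.relIndex K * K.index) ^ 2 * D.relIndex C := by ring
    have hχ₁T : indFun K (θ₁ : K → ℂ) ∈ T := hT4 (hfinA.mem_toFinset.mpr hχ₁mem)
    have hepos : 0 < K.index := Nat.pos_of_ne_zero Subgroup.index_ne_zero_of_finite
    have hrge : 1 ≤ A.relIndex K := Nat.pos_of_ne_zero Subgroup.index_ne_zero_of_finite
    have hineq : (2 * (charDegree (indFun K θ) : ℝ) * (charDegree (indFun K (θ₁ : K → ℂ)) : ℝ)) <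
        ∑ φ ∈ T, (((charDegree φ : ℕ) : ℝ) ^ 2 / (n φ : ℝ)) := by
      have h1 : ∑ φ ∈ FA, (((charDegree φ : ℕ) : ℝ) ^ 2 / (n φ : ℝ)) ≤ ∑ φ ∈ T, (((charDegree φ : ℕ) : ℝ) ^ 2 / (n φ : ℝ)) :=
        Finset.sum_le_sum_of_subset_of_nonneg hT4 (fun _ _ _ => by positivity)
      rw [hsumA] at h1
      refine lt_of_lt_of_le ?_ h1
      rw [hdeg, hdχ₁]
      have h2 : ((2 * K.index * charDegree θ : ℕ) : ℝ) < ((A.relIndex K - 1 : ℕ) : ℝ) := by exact_mod_cast hfinal
      rw [Nat.cast_sub hrge] at h2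
      push_cast at h2 ⊢
      have h3 : (0 : ℝ) < (K.index : ℝ) := by exact_mod_cast hepos
      have h4 : ((A.subgroupOf K).index : ℝ) = (A.relIndex K : ℝ) := rfl
      rw [h4]
      nlinarith
    have hnew := s1516_main hS hn hTS hT2 hT3 hχS hχT' hχc hχ₁T (by
      rw [hdeg, hdχ₁]
      exact Dvd.intro _ rfl) hineq
    set T' : Finset (L → ℂ) := T ∪ {indFun K θ, conjFun (indFun K θ)} with hT'
    have hcoe : (T' : Set (L → ℂ)) = (T : Set (L → ℂ)) ∪ {indFun K θ, conjFun (indFun K θ)} := by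
      simp [hT']
    have hPT' : P T' := by
      refine ⟨?_, ?_, ?_, ?_⟩
      · intro φ hφ
        rcases Finset.mem_union.mp hφ with h | h
        · exact hT1 h
        · simp only [Finset.mem_insert, Finset.mem_singleton] at h
          rcases h with h | h
          · rw [h]
            exact hF₀mem.mpr hχS
          · rw [h]
            exact hF₀mem.mpr hχc'
      · intro φ hφ
        rcases Finset.mem_union.mp hφ with h | h
        · exact Finset.mem_union_left _ (hT2 φ h)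
        · simp only [Finset.mem_insert, Finset.mem_singleton] at h
          rcases h with h | h
          · rw [h]
            exact Finset.mem_union_right _ (by simp)
          · rw [h, conjFun_conjFun]
            exact Finset.mem_union_right _ (by simp)
      · rw [hcoe]
        exact hnew
      · exact hT4.trans Finset.subset_union_left
    have hT'm : T' ∈ cands := Finset.mem_filter.mpr ⟨Finset.mem_powerset.mpr hPT'.1, hPT'⟩
    have hcard := hTmax T' hT'm
    have hss : T ⊂ T' := by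
      refine ⟨Finset.subset_union_left, fun h => hχT' (h (Finset.mem_union_right _ (by simp)))⟩
    exact absurd (Finset.card_lt_card hss) (not_lt.mpr hcard)
  have hBc : ∀ φ ∈ inducedIrrAbove K B, conjFun φ ∈ inducedIrrAbove K B := fun φ hφ => above_conj K hφ
  obtain ⟨θB, hθB, -⟩ := exists_linear_above K hsolv hBK
  obtain ⟨hθBa, hθBb⟩ := (mem_thetaSet K).mp hθB
  have hχB : indFun K (θB : K → ℂ) ∈ inducedIrrAbove K B := ⟨θB, θB.2, hθBa, hθBb, rfl⟩
  exact coherent_mono hBsub hT3 (sys_nonzero_of_mem hS hsub hBc hχB)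

end Ind

/-- The chain used to pass down a nilpotent section. -/
noncomputable def lcsChain {L : Type u} [Group L] (H M H₁ : Subgroup L) : ℕ → Subgroup L
  | 0 => H₁
  | i + 1 => ⁅H, lcsChain H M H₁ i⁆ ⊔ M

theorem arith_bound {u v e : ℕ} (hu : 1 ≤ u) (hv : 4 * e ^ 2 + 1 < v) :
    4 * (u * e) ^ 2 * v < (v * u - 1) ^ 2 := by
  obtain ⟨w, rfl⟩ : ∃ w, v = w + 1 := ⟨v - 1, by omega⟩
  have hw : 4 * e ^ 2 + 1 ≤ w := by omega
  have h1 : u * w ≤ (w + 1) * u - 1 := by
    have : (w + 1) * u = u * w + u := by ring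
    omega
  have h2 : (u * w) ^ 2 ≤ ((w + 1) * u - 1) ^ 2 := Nat.pow_le_pow_left h1 2
  refine lt_of_lt_of_le ?_ h2
  have h3 : 4 * e ^ 2 * (w + 1) < w ^ 2 := by nlinarith
  have hu2 : 0 < u ^ 2 := by positivity
  calc 4 * (u * e) ^ 2 * (w + 1) = u ^ 2 * (4 * e ^ 2 * (w + 1)) := by ring
    _ < u ^ 2 * w ^ 2 := Nat.mul_lt_mul_of_pos_left h3 hu2
    _ = (u * w) ^ 2 := by ring

section Desc

variable {L : Type u} [Group L] [Fintype L] {G : Type v} [Group G] [Fintype G]
variable (K : Subgroup L) [hK : K.Normal]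

variable {τ : (L → ℂ) → (G → ℂ)} {R : (L → ℂ) → Finset (G → ℂ)}

theorem s1520_main [Fintype K] (hS : IsCoherenceSystem (inducedIrrAbove K ⊥) τ R) (hsolv : Group.IsSolvable K)
    {M H₁ H : Subgroup L} [hM : M.Normal] [hH₁ : H₁.Normal] [hH : H.Normal] (hMH₁ : M ≤ H₁) (hH₁H : H₁ ≤ H)
    (hHK : H ≤ K) [(M.subgroupOf H).Normal] (hnil : Group.IsNilpotent (↥H ⧸ M.subgroupOf H))
    (hcoh : IsCoherent (inducedIrrAbove K H₁) ({1}ᶜ : Set L) τ) (hbig : 4 * K.index ^ 2 + 1 < H₁.relIndex H) :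
    IsCoherent (inducedIrrAbove K M) ({1}ᶜ : Set L) τ := by
  classical
  set chain := lcsChain H M H₁ with hchain
  have hnorm : ∀ i, (chain i).Normal := by
    intro i
    induction i with
    | zero => exact hH₁
    | succ i ih =>
      haveI := ih
      show (⁅H, chain i⁆ ⊔ M).Normal
      infer_instance
  have hle : ∀ i, chain i ≤ H₁ := by
    intro i
    induction i with
    | zero => exact le_rfl
    | succ i ih =>
      haveI := hnorm i
      refine sup_le ?_ hMH₁
      exact (Subgroup.commutator_le_right H (chain i)).trans ih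
  have hge : ∀ i, M ≤ chain i := by
    intro i
    cases i with
    | zero => exact hMH₁
    | succ i => exact le_sup_right
  have hH₁K : H₁ < K := by
    refine lt_of_le_of_ne (hH₁H.trans hHK) ?_
    intro h
    have h1 : H = H₁ := le_antisymm (hHK.trans h.ge) hH₁H
    rw [h1, Subgroup.relIndex_self] at hbig
    omega
  have hstep : ∀ i, IsCoherent (inducedIrrAbove K (chain i)) ({1}ᶜ : Set L) τ := by
    intro i
    induction i with
    | zero => exact hcoh
    | succ i ih =>
      haveI := hnorm i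
      haveI := hnorm (i + 1)
      have hiH : chain i ≤ H := (hle i).trans hH₁H
      have hBD : chain (i + 1) ≤ chain i := sup_le (Subgroup.commutator_le_right H (chain i)) (hge i)
      have hcent : ∀ x ∈ chain i, ∀ y ∈ H, x * y * x⁻¹ * y⁻¹ ∈ chain (i + 1) := by
        intro x hx y hy
        have h1 : ⁅y, x⁆ ∈ ⁅H, chain i⁆ := Subgroup.commutator_mem_commutator hy hx
        have h2 : x * y * x⁻¹ * y⁻¹ = ⁅y, x⁆⁻¹ := by
          simp only [commutatorElement_def]
          group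
        rw [h2]
        exact (le_sup_left : ⁅H, chain i⁆ ≤ _) (Subgroup.inv_mem _ h1)
      have hlt : 4 * H.index ^ 2 * (chain i).relIndex H < ((chain i).relIndex K - 1) ^ 2 := by
        have h1 : (chain i).relIndex K = (chain i).relIndex H * H.relIndex K :=
          (Subgroup.relIndex_mul_relIndex _ _ _ hiH hHK).symm
        have h2 : H.index = H.relIndex K * K.index := (Subgroup.relIndex_mul_index hHK).symm
        have h3 : (chain i).relIndex H = (chain i).relIndex H₁ * H₁.relIndex H :=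
          (Subgroup.relIndex_mul_relIndex _ _ _ (hle i) hH₁H).symm
        have hpos : 0 < (chain i).relIndex H₁ := Nat.pos_of_ne_zero Subgroup.index_ne_zero_of_finite
        have h4 : 4 * K.index ^ 2 + 1 < (chain i).relIndex H := by
          rw [h3]
          exact lt_of_lt_of_le hbig (Nat.le_mul_of_pos_left _ hpos)
        have hu : 1 ≤ H.relIndex K := Nat.pos_of_ne_zero Subgroup.index_ne_zero_of_finite
        rw [h1, h2]
        exact arith_bound hu h4
      exact s1519_main K hS hsolv (lt_of_le_of_lt (hle i) hH₁K) (lt_of_le_of_lt (hBD.trans (hle i)) hH₁K) hBD hiH hHK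
        hcent ih hlt
  -- Nilpotency: the chain reaches `M`.
  haveI hnil' := hnil
  obtain ⟨n, hn⟩ := (Subgroup.nilpotent_iff_lowerCentralSeries (G := ↥H ⧸ M.subgroupOf H)).mp hnil
  have himg : ∀ i, ∀ x : H, (x : L) ∈ chain i → ((x : H) : ↥H ⧸ M.subgroupOf H) ∈ (⊤ : Subgroup (↥H ⧸ M.subgroupOf H)).lowerCentralSeries i := by
    intro i
    induction i with
    | zero =>
      intro x _
      simp
    | succ i ih =>
      intro x hx
      have hsub : ⁅H, chain i⁆ ⊔ M ≤ (((⊤ : Subgroup (↥H ⧸ M.subgroupOf H)).lowerCentralSeries (i + 1)).comap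
          (QuotientGroup.mk' (M.subgroupOf H))).map H.subtype := by
        refine sup_le ?_ ?_
        · rw [Subgroup.commutator_le]
          intro g hg h hh
          have hhH : h ∈ H := (hle i).trans hH₁H hh
          refine ⟨⁅(⟨g, hg⟩ : H), (⟨h, hhH⟩ : H)⁆, Subgroup.mem_comap.mpr ?_, rfl⟩
          rw [QuotientGroup.mk'_apply]
          have h1 := ih ⟨h, hhH⟩ hh
          have h2 : ((⁅(⟨g, hg⟩ : H), (⟨h, hhH⟩ : H)⁆ : H) : ↥H ⧸ M.subgroupOf H) =
              ⁅((⟨h, hhH⟩ : H) : ↥H ⧸ M.subgroupOf H), ((⟨g, hg⟩ : H) : ↥H ⧸ M.subgroupOf H)⁆⁻¹ := by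
            rw [commutatorElement_inv]
            rfl
          rw [h2]
          apply Subgroup.inv_mem
          rw [Subgroup.lowerCentralSeries_succ]
          exact Subgroup.commutator_mem_commutator h1 (Subgroup.mem_top _)
        · intro m hm
          refine ⟨⟨m, (hMH₁.trans hH₁H) hm⟩, Subgroup.mem_comap.mpr ?_, rfl⟩
          rw [QuotientGroup.mk'_apply]
          have : (((⟨m, (hMH₁.trans hH₁H) hm⟩ : H)) : ↥H ⧸ M.subgroupOf H) = 1 :=
            (QuotientGroup.eq_one_iff _).mpr (Subgroup.mem_subgroupOf.mpr hm)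
          rw [this]
          exact Subgroup.one_mem _
      obtain ⟨y, hy, hyx⟩ := hsub hx
      have hxy : y = x := Subtype.ext hyx
      rw [← hxy]
      exact hy
  have hend : chain n = M := by
    apply le_antisymm _ (hge n)
    intro x hx
    have hxH : x ∈ H := (hle n).trans hH₁H hx
    have h1 := himg n ⟨x, hxH⟩ hx
    rw [hn, Subgroup.mem_bot] at h1
    exact Subgroup.mem_subgroupOf.mp ((QuotientGroup.eq_one_iff _).mp h1)
  rw [← hend]
  exact hstep n

end Desc

end CfsgLib.Char
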