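import Mathlib
import Cfsg.Agent.Lib.Char.Coh5

/-!
# Coherence for Frobenius sections
-/

set_option linter.unusedSectionVars false
set_option linter.style.haveILetI false
set_option linter.unusedSimpArgs false
set_option linter.unusedVariables false

namespace CfsgLib.Char

open Module Cfsg
open scoped ComplexConjugate
open scoped commutatorElement

universe u v

section Frob

variable {L : Type u} [Group L] [Fintype L]

/-- Counting in a Frobenius section. -/
theorem frob_count {K H₁ X : Subgroup L} [hH₁ : H₁.Normal] [hX : X.Normal] (hK1 : ⁅K, K⁆ ≤ H₁) (hH₁K : H₁ ≤ K)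
    (hH₁X : H₁ ≤ X) (hXK : X ≤ K)
    (hfrob : ∀ k ∈ K, k ∉ H₁ → ∀ x : L, x * k * x⁻¹ * k⁻¹ ∈ H₁ → x ∈ K) :
    K.index ∣ H₁.relIndex X - 1 := by
  classical
  set π := QuotientGroup.mk' H₁ with hπ
  have hsurj : Function.Surjective π := QuotientGroup.mk'_surjective H₁
  set X' := X.map π with hX'
  set D' := K.map π with hD'
  haveI hXn : X'.Normal := hX.map π hsurj
  have hker : π.ker = H₁ := QuotientGroup.ker_mk' H₁
  have hD'i : D'.index = K.index := by
    apply Subgroup.index_map_eq _ hsurj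
    rw [hker]
    exact hH₁K
  have hX'i : X'.index = X.index := by
    apply Subgroup.index_map_eq _ hsurj
    rw [hker]
    exact hH₁X
  have hcard : Nat.card X' = H₁.relIndex X := by
    have h1 : Nat.card (L ⧸ H₁) = Nat.card X' * X'.index := (Subgroup.card_mul_index X').symm
    have h2 : Nat.card (L ⧸ H₁) = H₁.index := (Subgroup.index_eq_card H₁).symm
    have h3 : H₁.index = H₁.relIndex X * X.index := (Subgroup.relIndex_mul_index hH₁X).symm
    rw [h2, h3, hX'i] at h1
    have h4 : X.index ≠ 0 := Subgroup.index_ne_zero_of_finite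
    exact (Nat.eq_of_mul_eq_mul_right (Nat.pos_of_ne_zero h4) h1).symm
  have hmain := relIndex_dvd_card_sub_one X' ⊤ D' (by
      rw [Subgroup.normalizer_eq_top_iff.mpr hXn]) (by
    rintro k' ⟨k, hk, rfl⟩ hk1 h' -
    obtain ⟨h, rfl⟩ := hsurj h'
    have hkH : k ∉ H₁ := by
      intro hk2
      apply hk1
      rw [← hker] at hk2
      exact hk2
    constructor
    · intro heq
      have h1 : π (h * k * h⁻¹ * k⁻¹) = 1 := by
        simp only [map_mul, map_inv] at heq ⊢
        rw [heq]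
        simp
      have h2 : h * k * h⁻¹ * k⁻¹ ∈ H₁ := by
        rw [← hker]
        exact h1
      exact ⟨h, hfrob k (hXK hk) hkH h h2, rfl⟩
    · rintro ⟨h₀, hh₀, heq⟩
      rw [← heq]
      have h1 : h₀ * k * h₀⁻¹ * k⁻¹ ∈ H₁ := hK1 (Subgroup.commutator_mem_commutator hh₀ (hXK hk))
      have h2 : π (h₀ * k * h₀⁻¹ * k⁻¹) = 1 := by
        rw [← hker] at h1
        exact h1
      simp only [map_mul, map_inv] at h2 ⊢
      exact mul_inv_eq_one.mp h2)
  rw [hcard] at hmain
  have h5 : (D'.subgroupOf ⊤).index = K.index := by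
    have := Subgroup.relIndex_top_right (H := D')
    rw [← hD'i, ← this]
    rfl
  rwa [h5] at hmain

/-- Oddness improves the bound. -/
theorem odd_bound {e r : ℕ} (he : Odd e) (hr : Odd r) (hr1 : r ≠ 1) (hd : e ∣ r - 1) : 2 * e + 1 ≤ r := by
  have hr0 : 0 < r := hr.pos
  have h1 : 2 ∣ r - 1 := by
    obtain ⟨k, hk⟩ := hr
    omega
  have hcop : Nat.Coprime 2 e := Nat.coprime_two_left.mpr he
  have h2 : 2 * e ∣ r - 1 := Nat.Coprime.mul_dvd_of_dvd_of_dvd hcop h1 hd
  have h3 : 0 < r - 1 := by omega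
  have := Nat.le_of_dvd h3 h2
  omega

theorem odd_of_dvd_card (hodd : Odd (Nat.card L)) {d : ℕ} (h : d ∣ Nat.card L) : Odd d := Odd.of_dvd_nat hodd h

theorem odd_index (hodd : Odd (Nat.card L)) (H : Subgroup L) : Odd H.index :=
  odd_of_dvd_card hodd (Subgroup.index_dvd_card H)

theorem odd_relIndex (hodd : Odd (Nat.card L)) (H K : Subgroup L) : Odd (H.relIndex K) := by
  apply odd_of_dvd_card hodd
  have h1 : H.relIndex K ∣ Nat.card K := Subgroup.index_dvd_card _
  exact h1.trans (Subgroup.card_subgroup_dvd_card K)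

theorem sub_mul_aux {a b : ℕ} (ha : 0 < a) (hb : 0 < b) : a * b - 1 = a * (b - 1) + (a - 1) := by
  obtain ⟨a', rfl⟩ : ∃ a', a = a' + 1 := ⟨a - 1, by omega⟩
  obtain ⟨b', rfl⟩ : ∃ b', b = b' + 1 := ⟨b - 1, by omega⟩
  simp only [Nat.add_sub_cancel]
  have : (a' + 1) * (b' + 1) = (a' + 1) * b' + a' + 1 := by ring
  omega

/-- Intermediate normal subgroups force large index. -/
theorem large_of_intermediate {K H₁ N : Subgroup L} [hH₁ : H₁.Normal] [hN : N.Normal] [hKn : K.Normal]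
    (hodd : Odd (Nat.card L)) (hK1 : ⁅K, K⁆ ≤ H₁) (hH₁N : H₁ < N) (hNK : N < K)
    (hfrob : ∀ k ∈ K, k ∉ H₁ → ∀ x : L, x * k * x⁻¹ * k⁻¹ ∈ H₁ → x ∈ K) :
    4 * K.index ^ 2 + 1 < H₁.relIndex K := by
  have hH₁K : H₁ ≤ K := hH₁N.le.trans hNK.le
  have h1 := frob_count hK1 hH₁K hH₁N.le hNK.le hfrob
  have h2 := frob_count hK1 hH₁K hH₁K le_rfl hfrob
  have hprod : H₁.relIndex K = H₁.relIndex N * N.relIndex K := (Subgroup.relIndex_mul_relIndex _ _ _ hH₁N.le hNK.le).symm
  have he := odd_index hodd K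
  have hr₁ := odd_relIndex hodd H₁ N
  have hr₂ := odd_relIndex hodd N K
  have hr₁ne : H₁.relIndex N ≠ 1 := by
    intro h
    exact absurd (Subgroup.relIndex_eq_one.mp h) (not_le_of_gt hH₁N)
  have hr₂ne : N.relIndex K ≠ 1 := by
    intro h
    exact absurd (Subgroup.relIndex_eq_one.mp h) (not_le_of_gt hNK)
  have hb₁ := odd_bound he hr₁ hr₁ne h1
  set a := H₁.relIndex N with ha
  set b := N.relIndex K with hb
  set e := K.index with hee
  have hapos : 0 < a := hr₁.pos
  have hbpos : 0 < b := hr₂.pos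
  have hdvd : e ∣ b - 1 := by
    have h3 : e ∣ a * b - 1 := by
      rw [← hprod]
      exact h2
    have h4 : a * b - 1 = a * (b - 1) + (a - 1) := sub_mul_aux hapos hbpos
    rw [h4] at h3
    have h5 : e ∣ a * (b - 1) := (Nat.dvd_add_left h1).mp h3
    have hcop : Nat.Coprime e a := by
      obtain ⟨c, hc⟩ := h1
      have h6 : a = e * c + 1 := by omega
      rw [h6]
      simp
    exact hcop.dvd_of_dvd_mul_left h5
  have hb₂ := odd_bound he hr₂ hr₂ne hdvd
  rw [hprod]
  have hepos : 0 < e := he.pos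
  nlinarith

/-- Non prime-power sections have intermediate normal subgroups. -/
theorem exists_intermediate {K H₁ : Subgroup L} [hH₁ : H₁.Normal] [hKn : K.Normal] (hK1 : ⁅K, K⁆ ≤ H₁) (hH₁K : H₁ < K)
    (h : ¬ ∃ p a : ℕ, p.Prime ∧ H₁.relIndex K = p ^ a) : ∃ N : Subgroup L, N.Normal ∧ H₁ < N ∧ N < K := by
  classical
  set H' := H₁.subgroupOf K with hH'
  haveI : H'.Normal := inferInstance
  set r := H₁.relIndex K with hr
  have hr1 : r ≠ 1 := by
    intro h1
    exact absurd (Subgroup.relIndex_eq_one.mp h1) (not_le_of_gt hH₁K)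
  have hrpos : r ≠ 0 := Subgroup.index_ne_zero_of_finite
  have hcard : Nat.card (K ⧸ H') = r := (Subgroup.index_eq_card H').symm
  obtain ⟨p, hp, hpr⟩ := Nat.exists_prime_and_dvd hr1
  obtain ⟨q, hq, hqr, hqp⟩ : ∃ q, q.Prime ∧ q ∣ r ∧ q ≠ p := by
    by_contra hcon
    push Not at hcon
    exact h ⟨p, _, hp, Nat.eq_prime_pow_of_unique_prime_dvd hrpos (fun {d} hd hdr => hcon d hd hdr)⟩
  have hcomm : ∀ a b : K ⧸ H', a * b = b * a := by
    intro a b
    obtain ⟨a, rfl⟩ := QuotientGroup.mk_surjective a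
    obtain ⟨b, rfl⟩ := QuotientGroup.mk_surjective b
    have h1 : (a : L) * b * (a : L)⁻¹ * (b : L)⁻¹ ∈ H₁ := hK1 (Subgroup.commutator_mem_commutator a.2 b.2)
    have h2 : ((a * b * a⁻¹ * b⁻¹ : K) : K ⧸ H') = 1 := by
      rw [QuotientGroup.eq_one_iff]
      exact Subgroup.mem_subgroupOf.mpr (by simpa using h1)
    have h3 : ((a : K ⧸ H')) * b * (a : K ⧸ H')⁻¹ * (b : K ⧸ H')⁻¹ = 1 := h2
    have h4 : (a : K ⧸ H') * b = ((a : K ⧸ H')) * b * (a : K ⧸ H')⁻¹ * (b : K ⧸ H')⁻¹ * (b * a) := by group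
    rw [h4, h3, one_mul]
  set n := p ^ r with hn
  -- membership reformulated
  have hmem : ∀ k : K, (k : L) ^ n ∈ H₁ ↔ ((k : K ⧸ H')) ^ n = 1 := by
    intro k
    rw [← QuotientGroup.mk_pow, QuotientGroup.eq_one_iff, Subgroup.mem_subgroupOf]
    simp
  let N : Subgroup L :=
    { carrier := {k | k ∈ K ∧ k ^ n ∈ H₁}
      mul_mem' := by
        rintro a b ⟨ha, ha'⟩ ⟨hb, hb'⟩
        refine ⟨K.mul_mem ha hb, ?_⟩
        have h1 := (hmem ⟨a, ha⟩).mp ha'
        have h2 := (hmem ⟨b, hb⟩).mp hb'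
        have h3 : (((⟨a, ha⟩ : K) * (⟨b, hb⟩ : K) : K) : K ⧸ H') ^ n = 1 := by
          rw [QuotientGroup.mk_mul, (show Commute _ _ from hcomm _ _).mul_pow, h1, h2, one_mul]
        exact (hmem ((⟨a, ha⟩ : K) * (⟨b, hb⟩ : K))).mpr h3
      one_mem' := ⟨K.one_mem, by simp [H₁.one_mem]⟩
      inv_mem' := by
        rintro a ⟨ha, ha'⟩
        refine ⟨K.inv_mem ha, ?_⟩
        rw [inv_pow]
        exact H₁.inv_mem ha' }
  have hNmem : ∀ {x : L}, x ∈ N ↔ x ∈ K ∧ x ^ n ∈ H₁ := Iff.rfl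
  have hNnorm : N.Normal := by
    constructor
    intro x hx g
    obtain ⟨h1, h2⟩ := hNmem.mp hx
    refine hNmem.mpr ⟨hKn.conj_mem _ h1 g, ?_⟩
    rw [conj_pow]
    exact hH₁.conj_mem _ h2 g
  have hNK : N ≤ K := fun x hx => (hNmem.mp hx).1
  have hH₁N : H₁ ≤ N := fun x hx => hNmem.mpr ⟨hH₁K.le hx, H₁.pow_mem hx n⟩
  refine ⟨N, hNnorm, lt_of_le_of_ne hH₁N ?_, lt_of_le_of_ne hNK ?_⟩
  · -- an element of order `p`
    haveI : Fact p.Prime := ⟨hp⟩
    obtain ⟨x, hx⟩ := exists_prime_orderOf_dvd_card' (G := K ⧸ H') p (by rw [hcard]; exact hpr)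
    obtain ⟨k, rfl⟩ := QuotientGroup.mk_surjective x
    intro heq
    have hk : (k : L) ∈ N := by
      refine hNmem.mpr ⟨k.2, (hmem k).mpr ?_⟩
      have hr0 : r ≠ 0 := hrpos
      obtain ⟨r', hr'⟩ : ∃ r', r = r' + 1 := ⟨r - 1, by omega⟩
      rw [hn, hr', pow_succ, mul_comm, pow_mul, ← hx, pow_orderOf_eq_one, one_pow]
    rw [← heq] at hk
    have h1 : (k : K ⧸ H') = 1 := (QuotientGroup.eq_one_iff k).mpr (Subgroup.mem_subgroupOf.mpr hk)
    rw [h1, orderOf_one] at hx
    exact hp.one_lt.ne hx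
  · -- an element of order `q`
    haveI : Fact q.Prime := ⟨hq⟩
    obtain ⟨x, hx⟩ := exists_prime_orderOf_dvd_card' (G := K ⧸ H') q (by rw [hcard]; exact hqr)
    obtain ⟨k, rfl⟩ := QuotientGroup.mk_surjective x
    intro heq
    have hk : (k : L) ∈ N := by
      rw [heq]
      exact k.2
    have h1 := (hmem k).mp (hNmem.mp hk).2
    have h2 : q ∣ n := by
      rw [← hx]
      exact orderOf_dvd_of_pow_eq_one h1
    have h3 : q ∣ p := hq.dvd_of_dvd_pow h2
    exact hqp ((Nat.prime_dvd_prime_iff_eq hq hp).mp h3)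

/-- A maximal-index argument in a nilpotent quotient. -/
theorem nil_index_aux {Q : Type*} [Group Q] [Finite Q] (hnil : Group.IsNilpotent Q) {X : Subgroup Q} (hX : X.Normal)
    (hne : X ≠ ⊤) : ∃ W : Subgroup Q, X ≤ W ∧ W ≠ ⊤ ∧ commutator Q ≤ W := by
  classical
  haveI := hX
  haveI hsol : Group.IsSolvable (Q ⧸ X) := inferInstance
  haveI hnt : Nontrivial (Q ⧸ X) := QuotientGroup.nontrivial_iff.mpr hne
  have hlt : commutator (Q ⧸ X) < ⊤ := Group.IsSolvable.commutator_lt_of_ne_bot (G := Q ⧸ X) (H := ⊤) top_ne_bot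
  refine ⟨(commutator (Q ⧸ X)).comap (QuotientGroup.mk' X), ?_, ?_, ?_⟩
  · intro x hx
    rw [Subgroup.mem_comap]
    have : (QuotientGroup.mk' X) x = 1 := (QuotientGroup.eq_one_iff x).mpr hx
    rw [this]
    exact Subgroup.one_mem _
  · intro h
    apply hlt.ne
    rw [eq_top_iff]
    intro y _
    obtain ⟨x, rfl⟩ := QuotientGroup.mk_surjective y
    have : x ∈ (commutator (Q ⧸ X)).comap (QuotientGroup.mk' X) := by
      rw [h]
      exact Subgroup.mem_top _
    exact this
  · rw [_root_.commutator_def, Subgroup.commutator_le]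
    intro a _ b _
    rw [Subgroup.mem_comap, map_commutatorElement]
    exact Subgroup.commutator_mem_commutator (Subgroup.mem_top _) (Subgroup.mem_top _)

/-- If the abelianization of a section is a `p`-group, so is the nilpotent section. -/
theorem prime_power_of_abelianization {K H₁ M : Subgroup L} [hM : M.Normal] (hMK : M ≤ K) [(M.subgroupOf K).Normal]
    (hnil : Group.IsNilpotent (↥K ⧸ M.subgroupOf K)) (hH₁ : H₁ = ⁅K, K⁆ ⊔ M) {p a : ℕ} (hp : p.Prime)
    (hr : H₁.relIndex K = p ^ a) : ∃ m : ℕ, M.relIndex K = p ^ m := by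
  classical
  haveI : Fact p.Prime := ⟨hp⟩
  set Q := ↥K ⧸ M.subgroupOf K with hQ
  -- the Sylow subgroup
  obtain T : Sylow p Q := default
  haveI hTn : (T : Subgroup Q).Normal := by
    have := (Group.isNilpotent_of_finite_tfae (G := Q)).out 0 3
    exact this.mp hnil p inferInstance T
  have hTtop : (T : Subgroup Q) = ⊤ := by
    by_contra hne
    obtain ⟨W, hTW, hWne, hcW⟩ := nil_index_aux hnil hTn hne
    set WK : Subgroup K := W.comap (QuotientGroup.mk' (M.subgroupOf K)) with hWK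
    have hWKi : WK.index = W.index := Subgroup.index_comap_of_surjective _ (QuotientGroup.mk'_surjective _)
    have h1 : H₁.subgroupOf K ≤ WK := by
      intro x hx
      have hx' : (x : L) ∈ ⁅K, K⁆ ⊔ M := by
        rw [← hH₁]
        exact Subgroup.mem_subgroupOf.mp hx
      have hsub : ⁅K, K⁆ ⊔ M ≤ WK.map K.subtype := by
        refine sup_le ?_ ?_
        · rw [Subgroup.commutator_le]
          intro g hg h hh
          refine ⟨⁅(⟨g, hg⟩ : K), (⟨h, hh⟩ : K)⁆, ?_, rfl⟩
          show ⁅(⟨g, hg⟩ : K), (⟨h, hh⟩ : K)⁆ ∈ WK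
          rw [hWK, Subgroup.mem_comap, map_commutatorElement]
          apply hcW
          exact Subgroup.commutator_mem_commutator (Subgroup.mem_top _) (Subgroup.mem_top _)
        · intro m hm
          refine ⟨⟨m, hMK hm⟩, ?_, rfl⟩
          show (⟨m, hMK hm⟩ : K) ∈ WK
          rw [hWK, Subgroup.mem_comap]
          have : (QuotientGroup.mk' (M.subgroupOf K)) ⟨m, hMK hm⟩ = 1 :=
            (QuotientGroup.eq_one_iff _).mpr (Subgroup.mem_subgroupOf.mpr hm)
          rw [this]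
          exact Subgroup.one_mem _
      obtain ⟨y, hy, hyx⟩ := hsub hx'
      have : y = x := Subtype.ext hyx
      rwa [← this]
    have h2 : WK.index ∣ p ^ a := by
      rw [← hr]
      exact Subgroup.index_dvd_of_le h1
    obtain ⟨c, -, hc⟩ := (Nat.dvd_prime_pow hp).mp h2
    have hW1 : W.index ≠ 1 := by
      intro h
      exact hWne (Subgroup.index_eq_one.mp h)
    have hc0 : c ≠ 0 := by
      rintro rfl
      rw [pow_zero, hWKi] at hc
      exact hW1 hc
    have h3 : p ∣ W.index := by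
      rw [← hWKi, hc]
      exact dvd_pow_self p hc0
    have h4 : W.index ∣ (T : Subgroup Q).index := Subgroup.index_dvd_of_le hTW
    exact T.not_dvd_index (h3.trans h4)
  have hcardQ : Nat.card Q = M.relIndex K := (Subgroup.index_eq_card _).symm
  obtain ⟨m, hm⟩ := IsPGroup.iff_card.mp T.isPGroup'
  refine ⟨m, ?_⟩
  rw [← hcardQ, ← hm, hTtop]
  exact (Subgroup.card_top).symm

/-- Cyclic abelianization of a nilpotent section forces commutativity. -/
theorem comm_of_prime_index {K H₁ M : Subgroup L} [hM : M.Normal] (hMK : M ≤ K) [(M.subgroupOf K).Normal]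
    (hnil : Group.IsNilpotent (↥K ⧸ M.subgroupOf K)) (hH₁ : H₁ = ⁅K, K⁆ ⊔ M) {p : ℕ} (hp : p.Prime)
    (hr : H₁.relIndex K = p) : ⁅K, K⁆ ≤ M := by
  classical
  set Q := ↥K ⧸ M.subgroupOf K with hQ
  have hr1 : H₁.relIndex K ≠ 1 := by
    rw [hr]
    exact hp.one_lt.ne'
  have hnotle : ¬ K ≤ H₁ := fun h => hr1 (Subgroup.relIndex_eq_one.mpr h)
  obtain ⟨x, hxK, hxH⟩ := Set.not_subset.mp hnotle
  set x' : K := ⟨x, hxK⟩ with hx'
  -- Every proper normal subgroup containing the image of `x` is excluded.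
  have hkey : ∀ W : Subgroup Q, commutator Q ≤ W → ((x' : K) : Q) ∈ W → W = ⊤ := by
    intro W hcW hxW
    set WK : Subgroup K := W.comap (QuotientGroup.mk' (M.subgroupOf K)) with hWK
    have hWKi : WK.index = W.index := Subgroup.index_comap_of_surjective _ (QuotientGroup.mk'_surjective _)
    have h1 : H₁.subgroupOf K ≤ WK := by
      intro y hy
      have hy' : (y : L) ∈ ⁅K, K⁆ ⊔ M := by
        rw [← hH₁]
        exact Subgroup.mem_subgroupOf.mp hy
      have hsub : ⁅K, K⁆ ⊔ M ≤ WK.map K.subtype := by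
        refine sup_le ?_ ?_
        · rw [Subgroup.commutator_le]
          intro g hg h hh
          refine ⟨⁅(⟨g, hg⟩ : K), (⟨h, hh⟩ : K)⁆, ?_, rfl⟩
          show ⁅(⟨g, hg⟩ : K), (⟨h, hh⟩ : K)⁆ ∈ WK
          rw [hWK, Subgroup.mem_comap, map_commutatorElement]
          apply hcW
          exact Subgroup.commutator_mem_commutator (Subgroup.mem_top _) (Subgroup.mem_top _)
        · intro m hm
          refine ⟨⟨m, hMK hm⟩, ?_, rfl⟩
          show (⟨m, hMK hm⟩ : K) ∈ WK
          rw [hWK, Subgroup.mem_comap]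
          have : (QuotientGroup.mk' (M.subgroupOf K)) ⟨m, hMK hm⟩ = 1 :=
            (QuotientGroup.eq_one_iff _).mpr (Subgroup.mem_subgroupOf.mpr hm)
          rw [this]
          exact Subgroup.one_mem _
      obtain ⟨z, hz, hzy⟩ := hsub hy'
      have : z = y := Subtype.ext hzy
      rwa [← this]
    have h2 : WK.index ∣ p := by
      rw [← hr]
      exact Subgroup.index_dvd_of_le h1
    rcases (Nat.dvd_prime hp).mp h2 with h3 | h3
    · rw [hWKi] at h3
      exact Subgroup.index_eq_one.mp h3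
    · exfalso
      -- `WK` has the same index as `H₁.subgroupOf K`, hence they coincide.
      have h4 : WK = H₁.subgroupOf K := by
        symm
        apply Subgroup.eq_of_le_of_card_ge h1
        have h5 := Subgroup.card_mul_index WK
        have h6 := Subgroup.card_mul_index (H₁.subgroupOf K)
        have h7 : (H₁.subgroupOf K).index = p := hr
        rw [h3] at h5
        rw [h7] at h6
        have h8 : Nat.card WK * p = Nat.card (H₁.subgroupOf K) * p := h5.trans h6.symm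
        exact (Nat.eq_of_mul_eq_mul_right hp.pos h8).le
      have h9 : x' ∈ WK := by
        rw [hWK, Subgroup.mem_comap]
        exact hxW
      rw [h4] at h9
      exact hxH (Subgroup.mem_subgroupOf.mp h9)
  -- `Q` is generated by the image of `x`.
  have hgen : Subgroup.zpowers ((x' : K) : Q) = ⊤ := by
    by_contra hne
    haveI := hnil
    have hnc : NormalizerCondition Q := Group.normalizerCondition_of_isNilpotent
    obtain h | ⟨Y, hY, hle⟩ := eq_top_or_exists_le_coatom (Subgroup.zpowers ((x' : K) : Q))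
    · exact hne h
    · have hYnorm : Y.Normal := by
        have h1 : Y < Subgroup.normalizer (Y : Set Q) := hnc Y (lt_top_iff_ne_top.mpr hY.1)
        have h2 := hY.2 _ h1
        exact Subgroup.normalizer_eq_top_iff.mp h2
      obtain ⟨W, hYW, hWne, hcW⟩ := nil_index_aux hnil hYnorm hY.1
      exact hWne (hkey W hcW (hYW (hle (Subgroup.mem_zpowers _))))
  -- conclusion
  have hcomm : ∀ a b : Q, a * b = b * a := by
    intro a b
    have ha : a ∈ Subgroup.zpowers ((x' : K) : Q) := by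
      rw [hgen]
      exact Subgroup.mem_top _
    have hb : b ∈ Subgroup.zpowers ((x' : K) : Q) := by
      rw [hgen]
      exact Subgroup.mem_top _
    obtain ⟨i, rfl⟩ := ha
    obtain ⟨j, rfl⟩ := hb
    exact (Commute.zpow_zpow_self _ i j)
  rw [Subgroup.commutator_le]
  intro g hg h hh
  have h1 : ((⁅(⟨g, hg⟩ : K), (⟨h, hh⟩ : K)⁆ : K) : Q) = 1 := by
    have h2 := hcomm ((⟨g, hg⟩ : K) : Q) ((⟨h, hh⟩ : K) : Q)
    rw [commutatorElement_def]
    show ((⟨g, hg⟩ : K) : Q) * ((⟨h, hh⟩ : K) : Q) * ((⟨g, hg⟩ : K) : Q)⁻¹ * ((⟨h, hh⟩ : K) : Q)⁻¹ = 1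
    rw [h2]
    group
  have h2 := Subgroup.mem_subgroupOf.mp ((QuotientGroup.eq_one_iff _).mp h1)
  rw [commutatorElement_def] at h2 ⊢
  simpa using h2

end Frob

section Main

variable {L : Type u} [Group L] [Fintype L] {G : Type v} [Group G] [Fintype G]
variable (K : Subgroup L) [hK : K.Normal] [Fintype K]
variable {τ : (L → ℂ) → (G → ℂ)} {R : (L → ℂ) → Finset (G → ℂ)}

/-- The induced characters from linear characters form a coherent family. -/
theorem linear_coherent (hS : IsCoherenceSystem (inducedIrrAbove K ⊥) τ R) (hsolv : Group.IsSolvable K)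
    {H₁ : Subgroup L} [H₁.Normal] (hK1 : ⁅K, K⁆ ≤ H₁) (hH₁K : H₁ < K) :
    IsCoherent (inducedIrrAbove K H₁) ({1}ᶜ : Set L) τ := by
  classical
  have hsub : inducedIrrAbove K H₁ ⊆ inducedIrrAbove K ⊥ := above_mono K bot_le
  obtain ⟨θ₀, hθ₀, -⟩ := exists_linear_above K hsolv hH₁K
  obtain ⟨ha, hb⟩ := (mem_thetaSet K).mp hθ₀
  have hne : (inducedIrrAbove K H₁).Nonempty := ⟨_, θ₀, θ₀.2, ha, hb, rfl⟩
  have hsys := sub_system hS hsub hne (fun φ hφ => above_conj K hφ)
  have hval : ∀ φ ∈ inducedIrrAbove K H₁, φ 1 = (K.index : ℂ) := by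
    rintro φ ⟨θ, h1, h2, h3, rfl⟩
    rw [indFun_one]
    have h4 : θ 1 = 1 := by
      have := linear_of_trivial_on_commutator (⟨θ, h1⟩ : IrrCharacter K) (by
        intro m hm
        apply h3
        apply hK1
        have h5 : (commutator K).map K.subtype = ⁅K, K⁆ := by
          rw [_root_.commutator_def, Subgroup.map_commutator, ← MonoidHom.range_eq_map, K.range_subtype]
        rw [← h5]
        exact ⟨m, hm, rfl⟩)
      exact this
    rw [h4, mul_one]
  exact s1517_main hsys (fun φ hφ ψ hψ => by rw [hval φ hφ, hval ψ hψ])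

theorem s1521_main (hS : IsCoherenceSystem (inducedIrrAbove K ⊥) τ R) (hsolv : Group.IsSolvable K)
    (hodd : Odd (Nat.card L)) {M : Subgroup L} [hM : M.Normal] (hMK : M ≤ K) [(M.subgroupOf K).Normal]
    (hnil : Group.IsNilpotent (↥K ⧸ M.subgroupOf K)) {H₁ : Subgroup L} (hH₁ : H₁ = ⁅K, K⁆ ⊔ M) (hH₁K : H₁ < K)
    (hKL : K < ⊤) (hfrob : ∀ k ∈ K, k ∉ H₁ → ∀ x : L, x * k * x⁻¹ * k⁻¹ ∈ H₁ → x ∈ K)
    (hgood : (∃ N : Subgroup L, N.Normal ∧ H₁ < N ∧ N < K) ∨ 4 * K.index ^ 2 + 1 < H₁.relIndex K ∨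
      (¬ ∃ p m : ℕ, p.Prime ∧ M.relIndex K = p ^ m) ∨ ⁅K, K⁆ ≤ M ∨
      (∃ p m : ℕ, p.Prime ∧ M.relIndex K = p ^ m ∧ K.index ∣ p - 1)) :
    IsCoherent (inducedIrrAbove K M) ({1}ᶜ : Set L) τ := by
  classical
  haveI hH₁n : H₁.Normal := by
    rw [hH₁]
    infer_instance
  have hK1 : ⁅K, K⁆ ≤ H₁ := by
    rw [hH₁]
    exact le_sup_left
  have hMH₁ : M ≤ H₁ := by
    rw [hH₁]
    exact le_sup_right
  have hbase := linear_coherent K hS hsolv hK1 hH₁K
  have hb : 4 * K.index ^ 2 + 1 < H₁.relIndex K → IsCoherent (inducedIrrAbove K M) ({1}ᶜ : Set L) τ :=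
    fun h => s1520_main K hS hsolv hMH₁ hH₁K.le le_rfl hnil hbase h
  have hd : ⁅K, K⁆ ≤ M → IsCoherent (inducedIrrAbove K M) ({1}ᶜ : Set L) τ := by
    intro h
    have : H₁ = M := by
      rw [hH₁]
      exact sup_eq_right.mpr h
    rw [← this]
    exact hbase
  have ha : (∃ N : Subgroup L, N.Normal ∧ H₁ < N ∧ N < K) → IsCoherent (inducedIrrAbove K M) ({1}ᶜ : Set L) τ := by
    rintro ⟨N, hN, h1, h2⟩
    haveI := hN
    exact hb (large_of_intermediate hodd hK1 h1 h2 hfrob)
  rcases hgood with h | h | h | h | h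
  · exact ha h
  · exact hb h
  · apply ha
    apply exists_intermediate hK1 hH₁K
    rintro ⟨p, a, hp, hr⟩
    obtain ⟨m, hm⟩ := prime_power_of_abelianization hMK hnil hH₁ hp hr
    exact h ⟨p, m, hp, hm⟩
  · exact hd h
  · obtain ⟨p, m, hp, hm, hdv⟩ := h
    have hr1 : H₁.relIndex K ≠ 1 := by
      intro h
      exact absurd (Subgroup.relIndex_eq_one.mp h) (not_le_of_gt hH₁K)
    have hdvd : H₁.relIndex K ∣ p ^ m := by
      rw [← hm, ← Subgroup.relIndex_mul_relIndex _ _ _ hMH₁ hH₁K.le]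
      exact Dvd.intro_left _ rfl
    obtain ⟨j, -, hj⟩ := (Nat.dvd_prime_pow hp).mp hdvd
    have hoddr := odd_relIndex hodd H₁ K
    have hj0 : j ≠ 0 := by
      rintro rfl
      exact hr1 (by simpa using hj)
    have hpodd : Odd p := by
      rw [hj] at hoddr
      exact (Nat.odd_pow_iff hj0).mp hoddr
    have he := odd_index hodd K
    by_cases hj1 : j = 1
    · rw [hj1, pow_one] at hj
      exact hd (comm_of_prime_index hMK hnil hH₁ hp hj)
    · apply hb
      have hp1 : p ≠ 1 := hp.one_lt.ne'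
      have hb1 := odd_bound he hpodd hp1 hdv
      have hj2 : 2 ≤ j := by omega
      rw [hj]
      have h3 : p ^ 2 ≤ p ^ j := Nat.pow_le_pow_right hp.pos hj2
      have hepos := he.pos
      nlinarith

end Main

end CfsgLib.Char
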