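import Mathlib
import Cfsg.Agent.Lib.Char.Coh6
import Cfsg.Agent.Lib.Char.RealChar

/-!
# General lemmas for the character theory of CA groups
-/

set_option linter.unusedSectionVars false
set_option linter.style.haveILetI false
set_option linter.unusedSimpArgs false
set_option linter.unusedVariables false

namespace CfsgLib.Char

open Module Cfsg Finset
open scoped ComplexConjugate

universe u

/-- The numerical contradiction. -/
theorem ca_numeric {ι : Type*} [Fintype ι] [Nonempty ι] [DecidableEq ι]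
    (e t h : ι → ℕ) (v : ι → ι → ℤ) (Q c : ι → ℝ) (W : ℝ)
    (he : ∀ i, 2 ≤ e i) (ht : ∀ i, 2 ≤ t i) (hh : ∀ i, h i = e i * t i + 1)
    (hinj : Function.Injective h) (hQ : ∀ i, Q i ≤ e i) (hc : ∀ i, W ≤ c i)
    (hcount : 1 = W + ∑ i, (t i : ℝ) / h i)
    (hrow : ∀ j, ∑ k ∈ univ.erase j, ((t k : ℝ) / h k) * (v j k : ℝ) ^ 2 + c j = Q j / h j)
    (hcol : ∀ j, ∑ k ∈ univ.erase j, (t k : ℝ) * (v k j : ℝ) ^ 2 ≤ Q j - 1)
    (hnz : ∀ j k, j ≠ k → v j k ≠ 0 ∨ v k j ≠ 0) : False := by
  obtain ⟨j, -, hj⟩ := Finset.exists_min_image (univ : Finset ι) e ⟨Classical.arbitrary ι, mem_univ _⟩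
  have hE : (2 : ℝ) ≤ e j := by exact_mod_cast he j
  have hT : (2 : ℝ) ≤ t j := by exact_mod_cast ht j
  have hH : (h j : ℝ) = (e j : ℝ) * t j + 1 := by
    rw [hh j]
    push_cast
    ring
  generalize hEd : (e j : ℝ) = E at hE hH
  generalize hTd : (t j : ℝ) = T at hT hH
  have hHpos : 0 < (h j : ℝ) := by
    rw [hH]
    positivity
  have hlow : ∀ k, k ≠ j → 2 * e j + 1 ≤ h k := by
    intro k hk
    rw [hh k]
    nlinarith [he k, ht k, hj k (mem_univ k)]
  obtain ⟨B, hBpos, hB, hfin⟩ : ∃ B : ℝ, 0 < B ∧ (∀ k, k ≠ j → B ≤ h k) ∧ (T + E) / h j + (E - 1) / B < 1 := by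
    by_cases h2 : t j = 2
    · refine ⟨2 * E + 2, by positivity, ?_, ?_⟩
      · intro k hk
        have h3 : h k ≠ h j := fun h' => hk (hinj h')
        have h6 : h j = 2 * e j + 1 := by
          rw [hh j, h2]
          ring
        have h5 : 2 * e j + 2 ≤ h k := by
          have := hlow k hk
          omega
        have h7 : ((2 * e j + 2 : ℕ) : ℝ) ≤ h k := by exact_mod_cast h5
        push_cast at h7
        rw [hEd] at h7
        exact h7
      · have hT2 : T = 2 := by
          rw [← hTd, h2]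
          norm_num
        rw [hH, hT2, div_add_div _ _ (by positivity) (by positivity), div_lt_one (by positivity)]
        nlinarith
    · have h3 : 3 ≤ t j := by
        have := ht j
        omega
      have hT3 : (3 : ℝ) ≤ T := by
        rw [← hTd]
        exact_mod_cast h3
      refine ⟨2 * E + 1, by positivity, ?_, ?_⟩
      · intro k hk
        have h7 : ((2 * e j + 1 : ℕ) : ℝ) ≤ h k := by exact_mod_cast hlow k hk
        push_cast at h7
        rw [hEd] at h7
        exact h7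
      · rw [hH, div_add_div _ _ (by positivity) (by positivity), div_lt_one (by positivity)]
        have h8 : 0 < (E ^ 2 - 1) * (T - 2) := by
          apply mul_pos
          · nlinarith
          · linarith
        nlinarith
  have h1 : ∑ k ∈ univ.erase j, (t k : ℝ) / h k ≤ ∑ k ∈ univ.erase j, ((t k : ℝ) / h k) * (v j k : ℝ) ^ 2 +
      ∑ k ∈ univ.erase j, ((t k : ℝ) / h k) * (v k j : ℝ) ^ 2 := by
    rw [← Finset.sum_add_distrib]
    refine Finset.sum_le_sum fun k hk => ?_
    have hk' : k ≠ j := (Finset.mem_erase.mp hk).1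
    have h2 : (0 : ℝ) ≤ (t k : ℝ) / h k := by positivity
    have h3 : (1 : ℝ) ≤ (v j k : ℝ) ^ 2 + (v k j : ℝ) ^ 2 := by
      have h4 : 1 ≤ (v j k) ^ 2 + (v k j) ^ 2 := by
        rcases hnz j k hk'.symm with h5 | h5
        · have := Int.one_le_abs h5
          nlinarith [sq_nonneg (v k j), sq_abs (v j k), abs_nonneg (v j k)]
        · have := Int.one_le_abs h5
          nlinarith [sq_nonneg (v j k), sq_abs (v k j), abs_nonneg (v k j)]
      exact_mod_cast h4
    nlinarith
  have h2 : ∑ k ∈ univ.erase j, ((t k : ℝ) / h k) * (v k j : ℝ) ^ 2 ≤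
      (∑ k ∈ univ.erase j, (t k : ℝ) * (v k j : ℝ) ^ 2) / B := by
    rw [Finset.sum_div]
    refine Finset.sum_le_sum fun k hk => ?_
    have hk' : k ≠ j := (Finset.mem_erase.mp hk).1
    have h3 := hB k hk'
    have h4 : (0 : ℝ) ≤ (t k : ℝ) * (v k j : ℝ) ^ 2 := by positivity
    have h5 : ((t k : ℝ) / h k) * (v k j : ℝ) ^ 2 = ((t k : ℝ) * (v k j : ℝ) ^ 2) / h k := by ring
    rw [h5]
    exact div_le_div_of_nonneg_left h4 hBpos h3
  have h3 : (∑ k ∈ univ.erase j, (t k : ℝ) * (v k j : ℝ) ^ 2) / B ≤ (E - 1) / B := by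
    apply div_le_div_of_nonneg_right _ hBpos.le
    have := hcol j
    have h4 := hQ j
    rw [hEd] at h4
    linarith
  have h4 : ∑ i, (t i : ℝ) / h i = T / h j + ∑ k ∈ univ.erase j, (t k : ℝ) / h k := by
    rw [← hTd]
    exact (Finset.add_sum_erase univ (fun i => (t i : ℝ) / h i) (mem_univ j)).symm
  have h5 := hrow j
  have h6 : Q j / h j ≤ E / h j := by
    apply div_le_div_of_nonneg_right _ hHpos.le
    have h4 := hQ j
    rw [hEd] at h4
    exact h4
  have h7 := hc j
  have h8 : (T + E) / h j = T / h j + E / h j := add_div _ _ _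
  rw [h8] at hfin
  rw [h4] at hcount
  linarith

/-- Bessel's inequality at one column. -/
theorem bessel_col {G : Type*} [Group G] [Fintype G] {α : Type*} (s : Finset α) (f : α → G → ℂ)
    (hcl : ∀ a ∈ s, IsClassFunction G (f a))
    (he : ∀ a ∈ s, ∀ b ∈ s, a ≠ b → classInner (f a) (f b) = 0) (hee : ∀ a ∈ s, classInner (f a) (f a) = 1) (x : G) :
    ∑ a ∈ s, ‖f a x‖ ^ 2 ≤ Nat.card (Subgroup.centralizer ({x} : Set G)) := by
  classical
  set F : G → ℂ := classInd x with hF
  set c := Nat.card (Subgroup.centralizer ({x} : Set G)) with hc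
  have hcard := card_class_mul_card_centralizer x
  have hcpos : 0 < c := Nat.card_pos
  have hcne : (c : ℂ) ≠ 0 := by exact_mod_cast hcpos.ne'
  have hcl0 : (Nat.card {y // IsConj x y} : ℂ) ≠ 0 := by
    have : 0 < Nat.card {y // IsConj x y} := Nat.pos_of_ne_zero (by
      intro h0
      rw [h0, zero_mul] at hcard
      exact (Nat.card_pos (α := G)).ne' hcard.symm)
    exact_mod_cast this.ne'
  have key : ∀ φ : G → ℂ, IsClassFunction G φ → classInner F φ = conj (φ x) / c := by
    intro φ hφ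
    rw [classInner_def]
    have hcj : IsClassFunction G (fun g => conj (φ g)) := fun g h => by simp only [hφ g h]
    rw [sum_class_eq x hcj, ← hcard]
    push_cast
    field_simp
    rw [mul_comm]
  have h1 := bessel_le₁ s f he hee F
  have h2 : classInner F F = (1 : ℂ) / c := by
    rw [key F (classInd_isClass x)]
    have : F x = 1 := by
      rw [hF, classInd, if_pos (IsConj.refl x)]
    rw [this, map_one]
  have h3 : (classInner F F).re = 1 / (c : ℝ) := by
    rw [h2]
    have : (1 : ℂ) / c = ((1 / (c : ℝ) : ℝ) : ℂ) := by push_cast; rfl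
    rw [this, Complex.ofReal_re]
  have h4 : ∀ a ∈ s, ‖classInner F (f a)‖ ^ 2 = ‖f a x‖ ^ 2 / (c : ℝ) ^ 2 := by
    intro a ha
    rw [key _ (hcl a ha), norm_div, RCLike.norm_conj, div_pow]
    simp
  rw [Finset.sum_congr rfl h4, h3, ← Finset.sum_div] at h1
  have hc' : (0 : ℝ) < c := by exact_mod_cast hcpos
  rw [div_le_div_iff₀ (by positivity) hc'] at h1
  have h5 : (∑ a ∈ s, ‖f a x‖ ^ 2) * c ≤ c * c := by nlinarith
  exact le_of_mul_le_mul_right h5 hc'

/-- A sum over a set with an involution fixing a unique point, of an odd value there, does not vanish. -/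
theorem sum_invol_ne_zero {α : Type*} [Fintype α] [DecidableEq α] (i : α → α) (hi : ∀ a, i (i a) = a) (a₀ : α) (hfix₀ : i a₀ = a₀)
    (hfix : ∀ a, i a = a → a = a₀) (n : α → ℤ) (hn : ∀ a, n (i a) = n a) (h₀ : Odd (n a₀)) : ∑ a, n a ≠ 0 := by
  intro h0
  have h1 : ((∑ a, n a : ℤ) : ZMod 2) = 0 := by
    rw [h0]
    simp
  rw [Int.cast_sum, ← Finset.add_sum_erase _ _ (mem_univ a₀)] at h1
  have h2 : ∑ a ∈ univ.erase a₀, ((n a : ℤ) : ZMod 2) = 0 := by
    refine Finset.sum_involution (fun a _ => i a) ?_ ?_ ?_ ?_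
    · intro a _
      rw [hn]
      exact CharTwo.add_self_eq_zero _
    · intro a ha _ h
      exact (Finset.mem_erase.mp ha).1 (hfix a h)
    · intro a ha
      refine Finset.mem_erase.mpr ⟨?_, mem_univ _⟩
      intro h
      apply (Finset.mem_erase.mp ha).1
      have h3 : i (i a) = i a₀ := by rw [h]
      rw [hi] at h3
      rw [h3, hfix₀]
    · intro a _
      exact hi a
  rw [h2, add_zero] at h1
  obtain ⟨m, hm⟩ := h₀
  rw [hm] at h1
  have h3 : ((2 * m + 1 : ℤ) : ZMod 2) = 1 := by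
    push_cast
    have : (2 : ZMod 2) = 0 := rfl
    rw [this]
    simp
  rw [h3] at h1
  exact one_ne_zero h1

/-- A character constant on the non-identity elements of a nontrivial subgroup takes an integer value there. -/
theorem const_int {G : Type*} [Group G] [Fintype G] {K : Subgroup G} (hK : K ≠ ⊥) {ψ : G → ℂ} (hψ : IsCharacter G ψ)
    (hconst : ∀ a ∈ K, ∀ b ∈ K, a ≠ 1 → b ≠ 1 → ψ a = ψ b) : ∃ n : ℤ, ∀ k ∈ K, k ≠ 1 → ψ k = n := by
  classical
  letI : Fintype K := Fintype.ofFinite _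
  obtain ⟨⟨k₀, hk₀⟩, hk₀1'⟩ := Subgroup.ne_bot_iff_exists_ne_one.mp hK
  have hk₀1 : k₀ ≠ 1 := fun h => hk₀1' (Subtype.ext h)
  obtain ⟨n, hn⟩ := (hψ.restrict K).classInner_nat (isIrrCharacter_one (G := K))
  obtain ⟨d, hd⟩ := hψ.map_one
  rw [classInner_def] at hn
  have hcard : (Nat.card K : ℂ) ≠ 0 := card_ne_zero_C _
  have h1 : ∑ k : K, ψ k = (Nat.card K : ℂ) * n := by
    rw [← hn]
    simp only [map_one, mul_one]
    field_simp
  have hval : ∀ k : K, ψ k = ψ k₀ + if k = 1 then ψ 1 - ψ k₀ else 0 := by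
    intro k
    by_cases hk : k = 1
    · subst hk
      simp
    · rw [if_neg hk, add_zero]
      exact hconst _ k.2 _ hk₀ (fun h => hk (Subtype.ext h)) hk₀1
  have h2 : ∑ k : K, ψ k = (Nat.card K : ℂ) * ψ k₀ + (ψ 1 - ψ k₀) := by
    rw [Finset.sum_congr rfl (fun k _ => hval k), Finset.sum_add_distrib, Finset.sum_const,
      Finset.sum_ite_eq' Finset.univ (1 : K)]
    simp [Nat.card_eq_fintype_card]
  have hgt : 1 < Nat.card K := by
    haveI : Nontrivial K := ⟨⟨⟨k₀, hk₀⟩, 1, fun h => hk₀1 (congrArg Subtype.val h)⟩⟩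
    exact Finite.one_lt_card
  have hq : ((Nat.card K : ℂ) - 1) * ψ k₀ = (Nat.card K : ℂ) * n - d := by
    rw [hd] at h2
    rw [h1] at h2
    linear_combination -h2
  have hne : ((Nat.card K : ℂ) - 1) ≠ 0 := by
    have : (((Nat.card K : ℤ) - 1 : ℤ) : ℂ) ≠ 0 := Int.cast_ne_zero.mpr (by omega)
    push_cast at this
    exact this
  have h3 : ψ k₀ = ((((Nat.card K : ℚ) * n - d) / ((Nat.card K : ℚ) - 1) : ℚ) : ℂ) := by
    push_cast
    rw [eq_div_iff hne, ← hq]
    ring
  have hint := hψ.isIntegral k₀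
  rw [h3] at hint
  obtain ⟨z, hz⟩ := exists_int_of_isIntegral_rat _ hint
  refine ⟨z, fun k hk hk1 => ?_⟩
  rw [hconst k hk k₀ hk₀ hk1 hk₀1, h3, hz]
  simp

end CfsgLib.Char
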