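import Mathlib
import Cfsg.Agent.Lib.Char.CA1

/-!
# Character theory of a T.I. abelian subgroup with Frobenius normalizer
-/

set_option linter.unusedSectionVars false
set_option linter.style.haveILetI false
set_option linter.unusedSimpArgs false
set_option linter.unusedVariables false

namespace CfsgLib.Char

open Module Cfsg Finset
open scoped ComplexConjugate

universe u

variable {G : Type u} [Group G] [Fintype G]

/-- Elements conjugate to a non-identity element of `K`. -/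
def PartOf (K : Subgroup G) (g : G) : Prop := ∃ c : G, c⁻¹ * g * c ∈ K ∧ c⁻¹ * g * c ≠ 1

theorem partOf_self {K : Subgroup G} {g : G} (hg : g ∈ K) (hg1 : g ≠ 1) : PartOf K g :=
  ⟨1, by simpa using hg, by simpa using hg1⟩

theorem not_partOf_one (K : Subgroup G) : ¬ PartOf K (1 : G) := by
  rintro ⟨c, -, h⟩
  apply h
  group

/-- Induced functions vanish off the conjugates of `K \ 1`. -/
theorem ind_ne_zero_part (K : Subgroup G) [Fintype (NK K)] (f : NK K → ℂ) (hf1 : f 1 = 0)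
    (hfK : ∀ x : NK K, (x : G) ∉ K → f x = 0) {g : G}
    (h : indFun (Subgroup.normalizer (K : Set G)) f g ≠ 0) : PartOf K g := by
  by_contra hcon
  apply h
  rw [indFun_def]
  apply mul_eq_zero_of_right
  apply Finset.sum_eq_zero
  intro y _
  by_cases hy : y⁻¹ * g * y ∈ Subgroup.normalizer (K : Set G)
  · rw [extendByZero_of_mem _ _ hy]
    by_cases hyK : y⁻¹ * g * y ∈ K
    · have h1 : y⁻¹ * g * y = 1 := by
        by_contra h1
        exact hcon ⟨y, hyK, h1⟩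
      have h2 : (⟨y⁻¹ * g * y, hy⟩ : NK K) = 1 := Subtype.ext h1
      rw [h2, hf1]
    · exact hfK _ hyK
  · exact extendByZero_of_not_mem _ _ hy

/-- The irreducible characters of `N(K)` nontrivial on `K`. -/
def SK (K : Subgroup G) [Fintype (NK K)] : Set (NK K → ℂ) :=
  {χ | IsIrrCharacter (NK K) χ ∧ ∃ k : NK K, (k : G) ∈ K ∧ χ k ≠ χ 1}

/-- The hypotheses on each member of the family. -/
structure CAK (K : Subgroup G) [Fintype (NK K)] : Prop where
  hodd : Odd (Nat.card G)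
  hcomm : ∀ a ∈ K, ∀ b ∈ K, a * b = b * a
  hK1 : K ≠ ⊥
  hTI : ∀ g : G, g ∉ Subgroup.normalizer (K : Set G) → ∀ k ∈ K, g * k * g⁻¹ ∈ K → k = 1
  hlt : K < Subgroup.normalizer (K : Set G)
  hC : ∀ k ∈ K, k ≠ 1 → Subgroup.centralizer ({k} : Set G) ≤ K

variable {K : Subgroup G} [Fintype (NK K)]

namespace CAK

variable (T : CAK K)
include T

theorem hle : K ≤ Subgroup.normalizer (K : Set G) := T.hlt.le

theorem exists_ne_one : ∃ k : NK K, (k : G) ∈ K ∧ k ≠ 1 := by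
  obtain ⟨⟨k, hk⟩, hk1⟩ := Subgroup.ne_bot_iff_exists_ne_one.mp T.hK1
  refine ⟨⟨k, T.hle hk⟩, hk, fun h => hk1 (Subtype.ext ?_)⟩
  have h7 := congrArg Subtype.val h
  exact h7

theorem oddN : Odd (Nat.card (NK K)) := Odd.of_dvd_nat T.hodd (Subgroup.card_subgroup_dvd_card _)

theorem comm' : ∀ a b : K.subgroupOf (Subgroup.normalizer (K : Set G)), a * b = b * a := by
  intro a b
  apply Subtype.ext
  apply Subtype.ext
  exact T.hcomm _ (Subgroup.mem_subgroupOf.mp a.2) _ (Subgroup.mem_subgroupOf.mp b.2)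

theorem deg {χ : NK K → ℂ} (hχ : χ ∈ SK K) : χ 1 = ((K.subgroupOf (Subgroup.normalizer (K : Set G))).index : ℂ) := by
  classical
  letI : Fintype (K.subgroupOf (Subgroup.normalizer (K : Set G))) := Fintype.ofFinite _
  haveI hK' : (K.subgroupOf (Subgroup.normalizer (K : Set G))).Normal := Subgroup.normal_in_normalizer
  obtain ⟨k, hk, hne⟩ := hχ.2
  obtain ⟨φ, hφ, hφ1, rfl⟩ := frob_relevant (K.subgroupOf (Subgroup.normalizer (K : Set G)))
    (centralizer_subgroupOf_le K T.hC) hχ.1 ⟨k, Subgroup.mem_subgroupOf.mpr hk, hne⟩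
  rw [indFun_one, isIrr_degree_one_of_comm T.comm' hφ, mul_one]

theorem vanish {χ : NK K → ℂ} (hχ : χ ∈ SK K) {x : NK K} (hx : (x : G) ∉ K) : χ x = 0 := by
  classical
  letI : Fintype (K.subgroupOf (Subgroup.normalizer (K : Set G))) := Fintype.ofFinite _
  haveI hK' : (K.subgroupOf (Subgroup.normalizer (K : Set G))).Normal := Subgroup.normal_in_normalizer
  obtain ⟨k, hk, hne⟩ := hχ.2
  exact relevant_vanish _ (centralizer_subgroupOf_le K T.hC) hχ.1 ⟨k, Subgroup.mem_subgroupOf.mpr hk, hne⟩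
    (fun h => hx (Subgroup.mem_subgroupOf.mp h))

theorem conj_mem {χ : NK K → ℂ} (hχ : χ ∈ SK K) : conjFun χ ∈ SK K := by
  obtain ⟨k, hk, hne⟩ := hχ.2
  refine ⟨hχ.1.conjFun, k, hk, fun h => hne ?_⟩
  have h2 : conj (χ k) = conj (χ 1) := h
  exact (RingHom.injective _) h2

theorem conj_ne {χ : NK K → ℂ} (hχ : χ ∈ SK K) : conjFun χ ≠ χ := by
  intro h
  obtain ⟨k, hk, hne⟩ := hχ.2
  have h1 : χ = fun _ => 1 := by
    apply real_irr_eq_one T.oddN hχ.1
    intro g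
    have h2 : conj (χ g) = χ g := congrFun h g
    exact Complex.conj_eq_iff_im.mp h2
  apply hne
  rw [h1]

theorem nonempty : (SK K).Nonempty := by
  classical
  obtain ⟨k, hk, hk1⟩ := T.exists_ne_one
  have h1 : ¬ IsConj k (1 : NK K) := by
    rw [isConj_one_left]
    exact hk1
  rw [isConj_iff_irr] at h1
  push Not at h1
  obtain ⟨ψ, hψ⟩ := h1
  exact ⟨ψ, ψ.2, k, hk, hψ⟩

theorem zspan_prop {α : NK K → ℂ} (hα : α ∈ zspan (SK K)) :
    IsGeneralizedCharacter (NK K) α ∧ ∀ x : NK K, (x : G) ∉ K → α x = 0 := by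
  have h : α ∈ Submodule.span ℤ (SK K) := hα
  induction h using Submodule.span_induction with
  | mem x hx => exact ⟨hx.1.isCharacter.isGeneralized, fun y hy => T.vanish hx hy⟩
  | zero => exact ⟨isGeneralized_zero, fun _ _ => rfl⟩
  | add x y hx hy ihx ihy =>
    refine ⟨(ihx hx).1.add (ihy hy).1, fun z hz => ?_⟩
    simp [(ihx hx).2 z hz, (ihy hy).2 z hz]
  | smul n x hx ih =>
    refine ⟨?_, fun z hz => ?_⟩
    · rw [int_smul_eq]
      exact (ih hx).1.int_smul n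
    · simp [(ih hx).2 z hz]

/-- Existence of the coherent isometry. -/
theorem exists_FC : ∃ star : (NK K → ℂ) → (G → ℂ), FC K (SK K) star := by
  classical
  set N := Subgroup.normalizer (K : Set G) with hN
  set τ : (NK K → ℂ) → (G → ℂ) := fun α => indFun N α with hτdef
  have hiso : IsLinearIsometryOn (zspanOn (SK K) ({1}ᶜ : Set (NK K))) τ := by
    refine ⟨fun α _ β _ => indFun_add N α β, fun α _ n => ?_, fun α hα β hβ => ?_, fun α hα => ?_⟩
    · simp only [hτdef]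
      rw [int_smul_eq, indFun_smul, int_smul_eq]
    · have h1 := T.zspan_prop (mem_zspanOn_one.mp hα).1
      have h2 := T.zspan_prop (mem_zspanOn_one.mp hβ).1
      exact classInner_indFun_of_TI N (K : Set G) T.hTI α β h1.1.isClassFunction h1.2 h2.2 (mem_zspanOn_one.mp hα).2
    · obtain ⟨χ, ψ, hχ, hψ, rfl⟩ := (T.zspan_prop (mem_zspanOn_one.mp hα).1).1
      refine ⟨_, _, isCharacter_indFun N hχ, isCharacter_indFun N hψ, ?_⟩
      exact indFun_sub N χ ψ
  have hiso1 : ∀ α ∈ zspanOn (SK K) ({1}ᶜ : Set (NK K)), τ α 1 = 0 := by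
    intro α hα
    simp only [hτdef]
    rw [indFun_one, (mem_zspanOn_one.mp hα).2, mul_zero]
  obtain ⟨R, hR⟩ := exists_coherence_system (SK K) T.nonempty (fun χ hχ => hχ.1)
    (fun χ hχ => ⟨T.conj_mem hχ, T.conj_ne hχ⟩) τ hiso hiso1
  obtain ⟨-, τ₁, hτ₁, hext⟩ := s1517_main hR (fun φ hφ ψ hψ => by rw [T.deg hφ, T.deg hψ])
  obtain ⟨χ, hχ⟩ := T.nonempty
  exact ⟨τ₁, T.hTI, T.hlt, T.hC, rfl, ⟨χ, hχ, _, T.conj_mem hχ, (T.conj_ne hχ).symm⟩, hτ₁, hext⟩

end CAK

section star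

variable {star : (NK K → ℂ) → (G → ℂ)} (T₀ : CAK K) (T : FC K (SK K) star)
include T₀ T

theorem star_sub {χ ξ : NK K → ℂ} (hχ : χ ∈ SK K) (hξ : ξ ∈ SK K) :
    star χ - star ξ = indFun (Subgroup.normalizer (K : Set G)) (χ - ξ) := by
  have h1 : χ - ξ ∈ zspanOn (SK K) ({1}ᶜ : Set (NK K)) :=
    mem_zspanOn_one.mpr ⟨zs_sub (T.mem_span hχ) (T.mem_span hξ), by simp [T₀.deg hχ, T₀.deg hξ]⟩
  rw [← T.hext _ h1, zspan_iso_sub T.hstar (T.mem_span hχ) (T.mem_span hξ)]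

theorem star_eq_off {χ ξ : NK K → ℂ} (hχ : χ ∈ SK K) (hξ : ξ ∈ SK K) {g : G} (hg : ¬ PartOf K g) :
    star χ g = star ξ g := by
  by_contra hne
  apply hg
  have h1 := congrFun (star_sub T₀ T hχ hξ) g
  simp only [Pi.sub_apply] at h1
  apply ind_ne_zero_part K (χ - ξ) (by simp [T₀.deg hχ, T₀.deg hξ])
  · intro x hx
    simp [T₀.vanish hχ hx, T₀.vanish hξ hx]
  · rw [← h1]
    exact sub_ne_zero.mpr hne

theorem exists_A : ∃ A : ℤ, ∀ χ ∈ SK K, ∀ k : NK K, (k : G) ∈ K → k ≠ 1 → star χ k = χ k + A := by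
  obtain ⟨m, hm⟩ := T.s0853_main
  refine ⟨m, fun χ hχ k hk hk1 => ?_⟩
  have h1 := hm χ hχ k hk hk1
  rw [T₀.deg hχ, mul_div_assoc, div_self, mul_one] at h1
  · linear_combination h1
  · have h2 := T₀.deg hχ
    rw [← h2]
    exact hχ.1.map_one_ne_zero

theorem sign_pair {χ : NK K → ℂ} (hχ : χ ∈ SK K) : ∃ ε : ℂ, (ε = 1 ∨ ε = -1) ∧ ∃ a₁ a₂ : G → ℂ,
    IsIrrCharacter G a₁ ∧ IsIrrCharacter G a₂ ∧ a₁ ≠ a₂ ∧ star χ = ε • a₁ ∧ star (conjFun χ) = ε • a₂ := by
  have hχ' := T₀.conj_mem hχ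
  have h1 : star χ 1 = star (conjFun χ) 1 := star_eq_off T₀ T hχ hχ' (not_partOf_one K)
  have h2 : classInner (star χ) (star (conjFun χ)) = 0 := by
    rw [T.star_inner hχ hχ']
    exact classInner_irr_ne hχ.1 hχ'.1 (T₀.conj_ne hχ).symm
  rcases T.star_irr hχ with h3 | h3 <;> rcases T.star_irr hχ' with h4 | h4
  · refine ⟨1, Or.inl rfl, _, _, h3, h4, ?_, by simp, by simp⟩
    intro h
    rw [← h, classInner_irr_self h3] at h2
    exact one_ne_zero h2
  · exfalso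
    obtain ⟨n, hn, hn1⟩ := h3.map_one
    obtain ⟨m, hm, hm1⟩ := h4.map_one
    simp only [Pi.neg_apply] at hm1
    rw [h1, ] at hn1
    have h5 : ((n : ℂ)) = -(m : ℂ) := by
      rw [← hn1]
      linear_combination -hm1
    have h6 : ((n + m : ℕ) : ℂ) = 0 := by
      push_cast
      linear_combination h5
    have h7 : n + m = 0 := by exact_mod_cast h6
    omega
  · exfalso
    obtain ⟨n, hn, hn1⟩ := h3.map_one
    obtain ⟨m, hm, hm1⟩ := h4.map_one
    simp only [Pi.neg_apply] at hn1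
    rw [h1] at hn1
    have h5 : ((n : ℂ)) = -(m : ℂ) := by
      rw [← hn1]
      linear_combination -hm1
    have h6 : ((n + m : ℕ) : ℂ) = 0 := by
      push_cast
      linear_combination h5
    have h7 : n + m = 0 := by exact_mod_cast h6
    omega
  · refine ⟨-1, Or.inr rfl, _, _, h3, h4, ?_, by simp, by simp⟩
    intro h
    have h5 : star χ = star (conjFun χ) := neg_injective h
    rw [← h5] at h2
    rw [T.star_inner hχ hχ, classInner_irr_self hχ.1] at h2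
    exact one_ne_zero h2

end star

/-- Characters in different families are orthogonal. -/
theorem inter_orth {K₁ K₂ : Subgroup G} [Fintype (NK K₁)] [Fintype (NK K₂)]
    {star₁ : (NK K₁ → ℂ) → (G → ℂ)} {star₂ : (NK K₂ → ℂ) → (G → ℂ)} (T₁ : CAK K₁) (T₂ : CAK K₂)
    (F₁ : FC K₁ (SK K₁) star₁) (F₂ : FC K₂ (SK K₂) star₂) (hdis : ∀ g, PartOf K₁ g → PartOf K₂ g → False)
    {χ : NK K₁ → ℂ} (hχ : χ ∈ SK K₁) {ξ : NK K₂ → ℂ} (hξ : ξ ∈ SK K₂) : classInner (star₁ χ) (star₂ ξ) = 0 := by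
  obtain ⟨ε, hε, a₁, a₂, ha₁, ha₂, ha, h1, h2⟩ := sign_pair T₁ F₁ hχ
  obtain ⟨δ, hδ, b₁, b₂, hb₁, hb₂, hb, h3, h4⟩ := sign_pair T₂ F₂ hξ
  have hχ' := T₁.conj_mem hχ
  have hξ' := T₂.conj_mem hξ
  have hε0 : ε ≠ 0 := by
    rcases hε with rfl | rfl <;> norm_num
  have hδ0 : δ ≠ 0 := by
    rcases hδ with rfl | rfl <;> norm_num
  have h5 := star_sub T₁ F₁ hχ hχ'
  have h6 := star_sub T₂ F₂ hξ hξ'
  have hA : ∀ g, ¬ PartOf K₁ g → (star₁ χ - star₁ (conjFun χ)) g = 0 := by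
    intro g hg
    simp only [Pi.sub_apply]
    rw [star_eq_off T₁ F₁ hχ hχ' hg, sub_self]
  have hB : ∀ g, ¬ PartOf K₂ g → (star₂ ξ - star₂ (conjFun ξ)) g = 0 := by
    intro g hg
    simp only [Pi.sub_apply]
    rw [star_eq_off T₂ F₂ hξ hξ' hg, sub_self]
  have h7 : classInner (star₁ χ - star₁ (conjFun χ)) (star₂ ξ - star₂ (conjFun ξ)) = 0 := by
    rw [classInner_def]
    apply mul_eq_zero_of_right
    apply Finset.sum_eq_zero
    intro g _
    by_cases hg : PartOf K₁ g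
    · have : ¬ PartOf K₂ g := fun h => hdis g hg h
      rw [hB g this, map_zero, mul_zero]
    · rw [hA g hg, zero_mul]
  have h8 : star₁ χ - star₁ (conjFun χ) = ε • (a₁ - a₂) := by
    rw [h1, h2, smul_sub]
  have h9 : star₂ ξ - star₂ (conjFun ξ) = δ • (b₁ - b₂) := by
    rw [h3, h4, smul_sub]
  rw [h8, h9, classInner_smul_left, classInner_smul_right] at h7
  have h10 : classInner (a₁ - a₂) (b₁ - b₂) = 0 := by
    have hcδ : conj δ ≠ 0 := by simpa using hδ0
    exact (mul_eq_zero.mp ((mul_eq_zero.mp h7).resolve_left hε0)).resolve_left hcδ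
  obtain ⟨h11, -, -, -⟩ := diff_orth ha₁ ha₂ hb₁ hb₂ ha hb h10
  rw [h1, h3, classInner_smul_left, classInner_smul_right, classInner_irr_ne ha₁ hb₁ h11]
  simp

/-- Characters of one family are constant on the other members. -/
theorem family_const {K₁ K₂ : Subgroup G} [Fintype (NK K₁)] [Fintype (NK K₂)]
    {star₁ : (NK K₁ → ℂ) → (G → ℂ)} {star₂ : (NK K₂ → ℂ) → (G → ℂ)} (T₁ : CAK K₁) (T₂ : CAK K₂)
    (F₁ : FC K₁ (SK K₁) star₁) (F₂ : FC K₂ (SK K₂) star₂) (hdis : ∀ g, PartOf K₁ g → PartOf K₂ g → False)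
    {χ : NK K₁ → ℂ} (hχ : χ ∈ SK K₁) : ∃ n : ℤ, ∀ y ∈ K₂, y ≠ 1 → star₁ χ y = n := by
  have hnorm : classInner (star₁ χ) (star₁ χ) = 1 := by
    rw [F₁.star_inner hχ hχ, classInner_irr_self hχ.1]
  have key : ∀ ψ : G → ℂ, IsIrrCharacter G ψ → (ψ = star₁ χ ∨ ψ = -star₁ χ) → ∃ n : ℤ, ∀ y ∈ K₂, y ≠ 1 → ψ y = n := by
    intro ψ hψ hcase
    apply const_int T₂.hK1 hψ.isCharacter
    have h1 := F₂.s0852_main hψ
    have h2 : ¬ ∃ ξ ∈ SK K₂, ψ = star₂ ξ ∨ ψ = -star₂ ξ := by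
      rintro ⟨ξ, hξ, h3⟩
      have h4 := inter_orth T₁ T₂ F₁ F₂ hdis hχ hξ
      have h5 : star₂ ξ = star₁ χ ∨ star₂ ξ = -star₁ χ := by
        rcases hcase with rfl | rfl <;> rcases h3 with h3 | h3
        · exact Or.inl h3.symm
        · exact Or.inr (by rw [h3, neg_neg])
        · exact Or.inr h3.symm
        · exact Or.inl (neg_injective h3).symm
      rcases h5 with h5 | h5
      · rw [h5, hnorm] at h4
        exact one_ne_zero h4
      · rw [h5, classInner_neg_right, hnorm] at h4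
        norm_num at h4
    rw [h1] at h2
    push Not at h2
    intro a ha b hb ha1 hb1
    exact h2 a ha b hb ha1 hb1
  rcases F₁.star_irr hχ with h | h
  · exact key _ h (Or.inl rfl)
  · obtain ⟨n, hn⟩ := key _ h (Or.inr rfl)
    refine ⟨-n, fun y hy hy1 => ?_⟩
    have := hn y hy hy1
    simp only [Pi.neg_apply] at this
    push_cast
    linear_combination -this

end CfsgLib.Char
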