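import Mathlib
import Cfsg.Agent.Lib.Char.CA2

/-!
# Sums of the relevant characters of the normalizer
-/

set_option linter.unusedSectionVars false
set_option linter.style.haveILetI false
set_option linter.unusedSimpArgs false
set_option linter.unusedVariables false

namespace CfsgLib.Char

open Module Cfsg Finset
open scoped ComplexConjugate

universe u

variable {G : Type u} [Group G] [Fintype G] {K : Subgroup G} [Fintype (NK K)]

open Classical in
/-- The finite set of relevant irreducible characters. -/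
noncomputable def SSK (K : Subgroup G) [Fintype (NK K)] : Finset (IrrCharacter (NK K)) :=
  univ.filter (fun ψ => (ψ : NK K → ℂ) ∈ SK K)

theorem mem_SSK {ψ : IrrCharacter (NK K)} : ψ ∈ SSK K ↔ (ψ : NK K → ℂ) ∈ SK K := by
  classical
  simp [SSK]

/-- The index of `K` in its normalizer. -/
noncomputable abbrev eK (K : Subgroup G) : ℕ := (K.subgroupOf (Subgroup.normalizer (K : Set G))).index

open Classical in
/-- The indicator of `K \ 1` on the normalizer. -/
noncomputable def indK (K : Subgroup G) (x : NK K) : ℂ := if (x : G) ∈ K ∧ x ≠ 1 then 1 else 0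

theorem indK_pos {x : NK K} (hx : (x : G) ∈ K) (hx1 : x ≠ 1) : indK K x = 1 := by
  classical
  rw [indK, if_pos ⟨hx, hx1⟩]

theorem indK_neg {x : NK K} (h : ¬ ((x : G) ∈ K ∧ x ≠ 1)) : indK K x = 0 := by
  classical
  rw [indK, if_neg h]

theorem indK_class (hle : K ≤ Subgroup.normalizer (K : Set G)) : IsClassFunction (NK K) (indK K) := by
  classical
  intro g c
  by_cases h : (g : G) ∈ K ∧ g ≠ 1
  · rw [indK_pos h.1 h.2, indK_pos ?_ ?_]
    · have h1 := (Subgroup.mem_normalizer_iff.mp c.2 g).mp h.1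
      exact h1
    · intro h2
      apply h.2
      have h3 : c * g * c⁻¹ = 1 := h2
      have h4 : g = c⁻¹ * (c * g * c⁻¹) * c := by group
      rw [h4, h3]
      group
  · rw [indK_neg h, indK_neg]
    rintro ⟨h1, h2⟩
    apply h
    refine ⟨?_, ?_⟩
    · have h3 := (Subgroup.mem_normalizer_iff.mp c.2 g).mpr h1
      exact h3
    · rintro rfl
      apply h2
      simp

theorem card_K' (hle : K ≤ Subgroup.normalizer (K : Set G)) :
    Nat.card (K.subgroupOf (Subgroup.normalizer (K : Set G))) = Nat.card K :=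
  Nat.card_congr (Subgroup.subgroupOfEquivOfLe hle).toEquiv

namespace CAK

variable (T : CAK K)
include T

theorem val_of_not_mem {ψ : IrrCharacter (NK K)} (hψ : ψ ∉ SSK K) {k : NK K} (hk : (k : G) ∈ K) :
    (ψ : NK K → ℂ) k = (ψ : NK K → ℂ) 1 := by
  by_contra hne
  exact hψ (mem_SSK.mpr ⟨ψ.2, k, hk, hne⟩)

theorem deg_nat {ψ : IrrCharacter (NK K)} (hψ : ψ ∈ SSK K) : charDegree (ψ : NK K → ℂ) = eK K := by
  have h1 := T.deg (mem_SSK.mp hψ)
  rw [irr_one_eq ψ.2] at h1
  exact_mod_cast h1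

theorem nonS_sum : ∑ ψ ∈ (SSK K)ᶜ, (ψ : NK K → ℂ) 1 * conj ((ψ : NK K → ℂ) 1) = (eK K : ℂ) := by
  classical
  haveI hK' : (K.subgroupOf (Subgroup.normalizer (K : Set G))).Normal := Subgroup.normal_in_normalizer
  have h1 := sum_deg_sq_trivial (K.subgroupOf (Subgroup.normalizer (K : Set G)))
  have h2 : (SSK K)ᶜ = univ.filter (fun ψ : IrrCharacter (NK K) => ∀ m ∈ K.subgroupOf (Subgroup.normalizer (K : Set G)),
      (ψ : NK K → ℂ) m = (ψ : NK K → ℂ) 1) := by
    ext ψ
    simp only [Finset.mem_compl, Finset.mem_filter, Finset.mem_univ, true_and]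
    constructor
    · intro h m hm
      exact T.val_of_not_mem h (Subgroup.mem_subgroupOf.mp hm)
    · intro h h2
      obtain ⟨k, hk, hne⟩ := (mem_SSK.mp h2).2
      exact hne (h k (Subgroup.mem_subgroupOf.mpr hk))
  have h3 : ((∑ ψ ∈ (SSK K)ᶜ, (charDegree (ψ : NK K → ℂ)) ^ 2 : ℕ) : ℂ) = (eK K : ℂ) := by
    rw [h2]
    have h4 := congrArg (Nat.cast : ℕ → ℂ) h1
    convert h4 using 2
    rfl
  rw [← h3]
  push_cast
  refine Finset.sum_congr rfl fun ψ _ => ?_
  rw [irr_one_eq ψ.2]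
  simp [pow_two]

theorem e_ne_zero : (eK K : ℂ) ≠ 0 := by
  have : eK K ≠ 0 := Subgroup.index_ne_zero_of_finite
  exact_mod_cast this

theorem sum_SS_one {x : NK K} (hx : (x : G) ∈ K) (hx1 : x ≠ 1) : ∑ χ ∈ SSK K, (χ : NK K → ℂ) x = -1 := by
  classical
  have hcol := column_orthogonality x (1 : NK K)
  rw [if_neg (by
    rw [isConj_one_left]
    exact hx1), ← Finset.sum_add_sum_compl (SSK K)] at hcol
  have h1 : ∀ ψ ∈ SSK K, (ψ : NK K → ℂ) x * conj ((ψ : NK K → ℂ) 1) = (eK K : ℂ) * (ψ : NK K → ℂ) x := by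
    intro ψ hψ
    rw [T.deg (mem_SSK.mp hψ)]
    simp [mul_comm]
  have h2 : ∀ ψ ∈ (SSK K)ᶜ, (ψ : NK K → ℂ) x * conj ((ψ : NK K → ℂ) 1) =
      (ψ : NK K → ℂ) 1 * conj ((ψ : NK K → ℂ) 1) := by
    intro ψ hψ
    rw [T.val_of_not_mem (Finset.mem_compl.mp hψ) hx]
  rw [Finset.sum_congr rfl h1, Finset.sum_congr rfl h2, T.nonS_sum, ← Finset.mul_sum] at hcol
  have h3 := T.e_ne_zero
  have h4 : (eK K : ℂ) * (∑ χ ∈ SSK K, (χ : NK K → ℂ) x + 1) = 0 := by
    linear_combination hcol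
  have h5 := (mul_eq_zero.mp h4).resolve_left h3
  linear_combination h5

theorem card_centralizer {x : NK K} (hx : (x : G) ∈ K) (hx1 : x ≠ 1) :
    Nat.card (Subgroup.centralizer ({x} : Set (NK K))) = Nat.card K := by
  have h1 : Subgroup.centralizer ({x} : Set (NK K)) = K.subgroupOf (Subgroup.normalizer (K : Set G)) := by
    apply le_antisymm
    · exact centralizer_subgroupOf_le K T.hC x (Subgroup.mem_subgroupOf.mpr hx) hx1
    · intro y hy
      rw [Subgroup.mem_centralizer_singleton_iff]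
      apply Subtype.ext
      exact T.hcomm _ (Subgroup.mem_subgroupOf.mp hy) _ hx
  rw [h1, card_K' T.hle]

theorem sum_SS_sq {x : NK K} (hx : (x : G) ∈ K) (hx1 : x ≠ 1) :
    ∑ χ ∈ SSK K, (χ : NK K → ℂ) x * conj ((χ : NK K → ℂ) x) = (Nat.card K : ℂ) - eK K := by
  classical
  have hcol := column_orthogonality x x
  rw [if_pos (IsConj.refl x), T.card_centralizer hx hx1, ← Finset.sum_add_sum_compl (SSK K)] at hcol
  have h2 : ∀ ψ ∈ (SSK K)ᶜ, (ψ : NK K → ℂ) x * conj ((ψ : NK K → ℂ) x) =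
      (ψ : NK K → ℂ) 1 * conj ((ψ : NK K → ℂ) 1) := by
    intro ψ hψ
    rw [T.val_of_not_mem (Finset.mem_compl.mp hψ) hx]
  rw [Finset.sum_congr rfl h2, T.nonS_sum] at hcol
  linear_combination hcol

theorem card_N : Nat.card (NK K) = eK K * Nat.card K := by
  rw [← card_K' T.hle, mul_comm]
  exact (Subgroup.card_mul_index _).symm

theorem e_t_h : eK K * (SSK K).card + 1 = Nat.card K := by
  classical
  have h1 := sum_deg_sq (G := NK K)
  rw [← Finset.sum_add_sum_compl (SSK K), T.card_N] at h1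
  have h2 : ∑ ψ ∈ SSK K, (charDegree (ψ : NK K → ℂ)) ^ 2 = (SSK K).card * (eK K) ^ 2 := by
    rw [Finset.sum_congr rfl (fun ψ hψ => by rw [T.deg_nat hψ]), Finset.sum_const, smul_eq_mul]
  have h3 : ∑ ψ ∈ (SSK K)ᶜ, (charDegree (ψ : NK K → ℂ)) ^ 2 = eK K := by
    have h4 := T.nonS_sum
    have h5 : ((∑ ψ ∈ (SSK K)ᶜ, (charDegree (ψ : NK K → ℂ)) ^ 2 : ℕ) : ℂ) = (eK K : ℂ) := by
      rw [← h4]
      push_cast
      refine Finset.sum_congr rfl fun ψ _ => ?_
      rw [irr_one_eq ψ.2]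
      simp [pow_two]
    exact_mod_cast h5
  rw [h2, h3] at h1
  have hepos : 0 < eK K := Nat.pos_of_ne_zero Subgroup.index_ne_zero_of_finite
  apply Nat.eq_of_mul_eq_mul_left hepos
  rw [← h1]
  ring

theorem t_two : 2 ≤ (SSK K).card := by
  classical
  obtain ⟨χ, hχ⟩ := T.nonempty
  have h1 : 1 < (SSK K).card := by
    apply Finset.one_lt_card.mpr
    refine ⟨⟨χ, hχ.1⟩, mem_SSK.mpr hχ, ⟨conjFun χ, (T.conj_mem hχ).1⟩, mem_SSK.mpr (T.conj_mem hχ), ?_⟩
    intro h
    exact T.conj_ne hχ (congrArg Subtype.val h).symm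
  exact h1

theorem e_two : 2 ≤ eK K := by
  have h1 : eK K ≠ 0 := Subgroup.index_ne_zero_of_finite
  have h2 : eK K ≠ 1 := by
    intro h
    have h3 := Subgroup.index_eq_one.mp h
    obtain ⟨n, hn, hnK⟩ := SetLike.exists_of_lt T.hlt
    apply hnK
    have h4 : (⟨n, hn⟩ : NK K) ∈ K.subgroupOf (Subgroup.normalizer (K : Set G)) := by
      rw [h3]
      exact Subgroup.mem_top _
    exact Subgroup.mem_subgroupOf.mp h4
  omega

theorem sum_ind : ∑ x : NK K, indK K x = (Nat.card K : ℂ) - 1 := by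
  classical
  letI : Fintype (K.subgroupOf (Subgroup.normalizer (K : Set G))) := Fintype.ofFinite _
  rw [sum_eq_sum_subgroup (K.subgroupOf (Subgroup.normalizer (K : Set G))) (indK K)]
  · have h1 : ∀ k : K.subgroupOf (Subgroup.normalizer (K : Set G)), indK K k = 1 - if k = 1 then 1 else 0 := by
      intro k
      by_cases hk : k = 1
      · subst hk
        rw [if_pos rfl, indK_neg]
        · simp
        · simp
      · rw [if_neg hk, sub_zero, indK_pos (Subgroup.mem_subgroupOf.mp k.2)]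
        intro h
        exact hk (Subtype.ext h)
    rw [Finset.sum_congr rfl (fun k _ => h1 k), Finset.sum_sub_distrib, Finset.sum_const,
      Finset.sum_ite_eq' Finset.univ (1 : K.subgroupOf (Subgroup.normalizer (K : Set G)))]
    simp only [Finset.card_univ, Finset.mem_univ, if_true, nsmul_eq_mul, mul_one]
    rw [← Nat.card_eq_fintype_card, card_K' T.hle]
  · intro g hg
    apply indK_neg
    rintro ⟨h1, -⟩
    exact hg (Subgroup.mem_subgroupOf.mpr h1)

/-- The non-identity part of a function vanishing off `K`. -/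
theorem sum_mul_ind {f : NK K → ℂ} (hf : ∀ x : NK K, (x : G) ∉ K → f x = 0) :
    ∑ x : NK K, f x * indK K x = ∑ x : NK K, f x - f 1 := by
  classical
  have h1 : ∀ x : NK K, f x * indK K x = f x - if x = 1 then f 1 else 0 := by
    intro x
    by_cases hx : x = 1
    · subst hx
      rw [if_pos rfl, indK_neg (by simp)]
      ring
    · rw [if_neg hx, sub_zero]
      by_cases hxK : (x : G) ∈ K
      · rw [indK_pos hxK hx, mul_one]
      · rw [hf x hxK, zero_mul]
  rw [Finset.sum_congr rfl (fun x _ => h1 x), Finset.sum_sub_distrib, Finset.sum_ite_eq' Finset.univ (1 : NK K)]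
  simp

theorem sum_χ_ind {χ : NK K → ℂ} (hχ : χ ∈ SK K) : ∑ x : NK K, χ x * indK K x = -(eK K : ℂ) := by
  rw [T.sum_mul_ind (fun x hx => T.vanish hχ hx), T.deg hχ]
  have h1 : classInner χ (fun _ => (1 : ℂ)) = 0 := by
    apply classInner_irr_ne hχ.1 isIrrCharacter_one
    rintro rfl
    obtain ⟨k, -, hne⟩ := hχ.2
    exact hne rfl
  rw [classInner_def] at h1
  have h2 := (mul_eq_zero.mp h1).resolve_left (inv_ne_zero (card_ne_zero_C _))
  simp only [map_one, mul_one] at h2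
  rw [h2]
  ring

theorem sum_sq_ind {χ : NK K → ℂ} (hχ : χ ∈ SK K) :
    ∑ x : NK K, (χ x * conj (χ x)) * indK K x = (eK K : ℂ) * Nat.card K - (eK K : ℂ) ^ 2 := by
  rw [T.sum_mul_ind (fun x hx => by rw [T.vanish hχ hx, zero_mul]), T.deg hχ]
  have h1 : classInner χ χ = 1 := classInner_irr_self hχ.1
  rw [classInner_def] at h1
  have hc := card_ne_zero_C (NK K)
  have h2 : ∑ x : NK K, χ x * conj (χ x) = (Nat.card (NK K) : ℂ) := by
    field_simp at h1
    exact h1
  rw [h2, T.card_N]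
  push_cast
  simp [pow_two]

end CAK

section star

variable {star : (NK K → ℂ) → (G → ℂ)} (T : CAK K)
include T

/-- The column sum of the star characters. -/
theorem star_sum_col {A : ℤ} (hA : ∀ χ ∈ SK K, ∀ k : NK K, (k : G) ∈ K → k ≠ 1 → star χ k = χ k + A)
    {x : NK K} (hx : (x : G) ∈ K) (hx1 : x ≠ 1) :
    ∑ χ ∈ SSK K, star (χ : NK K → ℂ) x * conj (star (χ : NK K → ℂ) x) =
      (Nat.card K : ℂ) - eK K - 2 * A + ((SSK K).card : ℂ) * A ^ 2 := by
  have h1 : ∀ χ ∈ SSK K, star (χ : NK K → ℂ) x * conj (star (χ : NK K → ℂ) x) =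
      (χ : NK K → ℂ) x * conj ((χ : NK K → ℂ) x) + (A : ℂ) * (χ : NK K → ℂ) x + (A : ℂ) * conj ((χ : NK K → ℂ) x) + (A : ℂ) ^ 2 := by
    intro χ hχ
    rw [hA _ (mem_SSK.mp hχ) x hx hx1, map_add, map_intCast]
    ring
  have h2 : ∑ χ ∈ SSK K, conj ((χ : NK K → ℂ) x) = -1 := by
    rw [← map_sum, T.sum_SS_one hx hx1]
    simp
  rw [Finset.sum_congr rfl h1, Finset.sum_add_distrib, Finset.sum_add_distrib, Finset.sum_add_distrib,
    T.sum_SS_sq hx hx1, ← Finset.mul_sum, ← Finset.mul_sum, h2, T.sum_SS_one hx hx1, Finset.sum_const, nsmul_eq_mul]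
  ring

/-- The row sum of a star character. -/
theorem star_sum_row {A : ℤ} (hA : ∀ χ ∈ SK K, ∀ k : NK K, (k : G) ∈ K → k ≠ 1 → star χ k = χ k + A)
    {ξ : NK K → ℂ} (hξ : ξ ∈ SK K) :
    ∑ x : NK K, (star ξ x * conj (star ξ x)) * indK K x =
      (eK K : ℂ) * ((Nat.card K : ℂ) - eK K - 2 * A + ((SSK K).card : ℂ) * A ^ 2) := by
  classical
  have h1 : ∀ x : NK K, (star ξ x * conj (star ξ x)) * indK K x =
      (ξ x * conj (ξ x)) * indK K x + (A : ℂ) * (ξ x * indK K x) + (A : ℂ) * (conj (ξ x) * indK K x) + (A : ℂ) ^ 2 * indK K x := by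
    intro x
    by_cases hx : (x : G) ∈ K ∧ x ≠ 1
    · rw [hA ξ hξ x hx.1 hx.2, map_add, map_intCast]
      ring
    · rw [indK_neg hx]
      ring
  have h2 : ∑ x : NK K, conj (ξ x) * indK K x = -(eK K : ℂ) := by
    have h3 : ∀ x : NK K, conj (ξ x) * indK K x = conj (ξ x * indK K x) := by
      intro x
      by_cases hx : (x : G) ∈ K ∧ x ≠ 1
      · rw [indK_pos hx.1 hx.2]
        simp
      · rw [indK_neg hx]
        simp
    rw [Finset.sum_congr rfl (fun x _ => h3 x), ← map_sum, T.sum_χ_ind hξ]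
    simp
  rw [Finset.sum_congr rfl (fun x _ => h1 x), Finset.sum_add_distrib, Finset.sum_add_distrib, Finset.sum_add_distrib,
    T.sum_sq_ind hξ, ← Finset.mul_sum, ← Finset.mul_sum, ← Finset.mul_sum, h2, T.sum_χ_ind hξ, T.sum_ind]
  have h4 : (Nat.card K : ℂ) - 1 = (eK K : ℂ) * (SSK K).card := by
    have := T.e_t_h
    rw [← this]
    push_cast
    ring
  rw [h4]
  ring

end star

end CfsgLib.Char
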