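import Mathlib
import Cfsg.Agent.Lib.Char.CA3

/-!
# The counting argument for families of T.I. abelian subgroups
-/

set_option linter.unusedSectionVars false
set_option linter.style.haveILetI false
set_option linter.unusedSimpArgs false
set_option linter.unusedVariables false

namespace CfsgLib.Char

open Module Cfsg Finset
open scoped ComplexConjugate

universe u

variable {G : Type u} [Group G] [Fintype G]

section single

variable {K : Subgroup G} [Fintype (NK K)] (T : CAK K)
include T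

theorem ind_indK_pos {g : G} (hg : PartOf K g) : indFun (Subgroup.normalizer (K : Set G)) (indK K) g = 1 := by
  obtain ⟨c, hc, hc1⟩ := hg
  have h1 := indFun_isClass (Subgroup.normalizer (K : Set G)) (indK K) g c⁻¹
  rw [inv_inv] at h1
  rw [← h1]
  have hmem : c⁻¹ * g * c ∈ Subgroup.normalizer (K : Set G) := T.hle hc
  have h2 := indFun_eq_of_TI (Subgroup.normalizer (K : Set G)) (K : Set G) T.hTI (indK K) (indK_class T.hle)
    (fun x hx => indK_neg (fun h => hx h.1)) ⟨c⁻¹ * g * c, hmem⟩ hc (fun h => hc1 (congrArg Subtype.val h))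
  have h3 : indK K ⟨c⁻¹ * g * c, hmem⟩ = 1 := indK_pos hc (fun h => hc1 (congrArg Subtype.val h))
  rw [h3] at h2
  exact h2

theorem ind_indK_neg {g : G} (hg : ¬ PartOf K g) : indFun (Subgroup.normalizer (K : Set G)) (indK K) g = 0 := by
  by_contra h
  exact hg (ind_ne_zero_part K (indK K) (indK_neg (by simp)) (fun x hx => indK_neg (fun h => hx h.1)) h)

theorem conj_ind_indK (g : G) : conj (indFun (Subgroup.normalizer (K : Set G)) (indK K) g) =
    indFun (Subgroup.normalizer (K : Set G)) (indK K) g := by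
  by_cases hg : PartOf K g
  · rw [ind_indK_pos T hg, map_one]
  · rw [ind_indK_neg T hg, map_zero]

theorem conj_indK (x : NK K) : conj (indK K x) = indK K x := by
  by_cases hx : (x : G) ∈ K ∧ x ≠ 1
  · rw [indK_pos hx.1 hx.2, map_one]
  · rw [indK_neg hx, map_zero]

theorem sum_mul_indicator {f : G → ℂ} (hf : IsClassFunction G f) :
    ∑ g, f g * indFun (Subgroup.normalizer (K : Set G)) (indK K) g =
      (Nat.card G : ℂ) / (Nat.card (NK K) : ℂ) * ∑ x : NK K, f x * indK K x := by
  have h1 := frobenius' (Subgroup.normalizer (K : Set G)) (indK K) hf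
  rw [classInner_def, classInner_def] at h1
  simp only [conj_ind_indK T, conj_indK T] at h1
  have hG := card_ne_zero_C G
  have hN := card_ne_zero_C (NK K)
  field_simp at h1 ⊢
  linear_combination h1

theorem star_perp_one {star : (NK K → ℂ) → (G → ℂ)} (F : FC K (SK K) star) {χ : NK K → ℂ} (hχ : χ ∈ SK K) :
    classInner (star χ) (fun _ => 1) = 0 := by
  obtain ⟨ε, hε, a₁, a₂, ha₁, ha₂, ha, h1, h2⟩ := sign_pair T F hχ
  have hχ' := T.conj_mem hχ
  have hε0 : ε ≠ 0 := by
    rcases hε with rfl | rfl <;> norm_num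
  have h3 := star_sub T F hχ hχ'
  have hne1 : ∀ φ ∈ SK K, classInner φ (fun _ => (1 : ℂ)) = 0 := by
    intro φ hφ
    apply classInner_irr_ne hφ.1 isIrrCharacter_one
    rintro rfl
    obtain ⟨k, -, hne⟩ := hφ.2
    exact hne rfl
  have h4 : classInner (star χ - star (conjFun χ)) (fun _ => (1 : ℂ)) = 0 := by
    rw [h3, frobenius (Subgroup.normalizer (K : Set G)) _ (fun g h => rfl), classInner_sub_left, hne1 χ hχ,
      hne1 _ hχ', sub_zero]
  rw [h1, h2, ← smul_sub, classInner_smul_left, classInner_sub_left] at h4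
  have h5 := (mul_eq_zero.mp h4).resolve_left hε0
  rw [h1, classInner_smul_left]
  have h6 : classInner a₁ (fun _ => (1 : ℂ)) = 0 := by
    apply classInner_irr_ne ha₁ isIrrCharacter_one
    rintro rfl
    have h7 : classInner a₂ (fun _ => (1 : ℂ)) = 0 := classInner_irr_ne ha₂ isIrrCharacter_one (Ne.symm ha)
    rw [h7, sub_zero, classInner_irr_self ha₁] at h5
    exact one_ne_zero h5
  rw [h6, mul_zero]

theorem card_centralizer_G {x : G} (hx : x ∈ K) (hx1 : x ≠ 1) :
    Nat.card (Subgroup.centralizer ({x} : Set G)) = Nat.card K := by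
  have h1 : Subgroup.centralizer ({x} : Set G) = K := by
    apply le_antisymm (T.hC x hx hx1)
    intro y hy
    rw [Subgroup.mem_centralizer_singleton_iff]
    exact T.hcomm _ hy _ hx
  rw [h1]

end single

/-- A family of T.I. abelian subgroups partitioning the group. -/
structure CAFam {ι : Type*} (H : ι → Subgroup G) [∀ i, Fintype (NK (H i))] : Prop where
  hT : ∀ i, CAK (H i)
  hcover : ∀ g : G, g ≠ 1 → ∃ i, PartOf (H i) g
  hdis : ∀ i j, i ≠ j → ∀ g, PartOf (H i) g → PartOf (H j) g → False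
  hdist : ∀ i j, i ≠ j → Nat.card (H i) ≠ Nat.card (H j)

variable {ι : Type*} [Fintype ι] {H : ι → Subgroup G} [∀ i, Fintype (NK (H i))] (D : CAFam H)
include D

open Classical in
theorem sum_indicators (g : G) :
    ∑ i, indFun (Subgroup.normalizer (H i : Set G)) (indK (H i)) g = if g = 1 then 0 else 1 := by
  classical
  by_cases hg : g = 1
  · subst hg
    rw [if_pos rfl]
    apply Finset.sum_eq_zero
    intro i _
    exact ind_indK_neg (D.hT i) (not_partOf_one _)
  · rw [if_neg hg]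
    obtain ⟨i, hi⟩ := D.hcover g hg
    rw [Finset.sum_eq_single i]
    · exact ind_indK_pos (D.hT i) hi
    · intro j _ hj
      exact ind_indK_neg (D.hT j) (fun h => D.hdis j i hj g h hi)
    · intro h
      exact absurd (Finset.mem_univ _) h

theorem part_sum {f : G → ℂ} (hf : IsClassFunction G f) :
    ∑ g, f g = f 1 + ∑ i, (Nat.card G : ℂ) / (Nat.card (NK (H i)) : ℂ) * ∑ x : NK (H i), f x * indK (H i) x := by
  classical
  have h1 : ∑ i, (Nat.card G : ℂ) / (Nat.card (NK (H i)) : ℂ) * ∑ x : NK (H i), f x * indK (H i) x =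
      ∑ g, f g * if g = 1 then 0 else 1 := by
    rw [Finset.sum_congr rfl (fun i _ => (sum_mul_indicator (D.hT i) hf).symm), Finset.sum_comm]
    refine Finset.sum_congr rfl fun g _ => ?_
    rw [← Finset.mul_sum, sum_indicators D]
  rw [h1]
  have h2 : ∀ g, f g * (if g = 1 then (0 : ℂ) else 1) = f g - if g = 1 then f 1 else 0 := by
    intro g
    by_cases hg : g = 1
    · subst hg
      simp
    · simp [hg]
  rw [Finset.sum_congr rfl (fun g _ => h2 g), Finset.sum_sub_distrib, Finset.sum_ite_eq' Finset.univ (1 : G)]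
  simp

/-- The count of elements of `G`. -/
theorem count_eq : (1 : ℝ) = 1 / (Nat.card G : ℝ) + ∑ i, ((SSK (H i)).card : ℝ) / (Nat.card (H i) : ℝ) := by
  classical
  have h1 := part_sum D (f := fun _ => (1 : ℂ)) (fun _ _ => rfl)
  simp only [one_mul, Finset.sum_const, Finset.card_univ, nsmul_eq_mul, mul_one] at h1
  have hG : (Nat.card G : ℂ) ≠ 0 := card_ne_zero_C G
  have h2 : ∀ i, (Nat.card G : ℂ) / (Nat.card (NK (H i)) : ℂ) * ∑ x : NK (H i), indK (H i) x =
      (Nat.card G : ℂ) * (((SSK (H i)).card : ℂ) / (Nat.card (H i) : ℂ)) := by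
    intro i
    have T := D.hT i
    rw [T.sum_ind, T.card_N]
    have h3 := T.e_t_h
    have h4 : (Nat.card (H i) : ℂ) = (eK (H i) : ℂ) * (SSK (H i)).card + 1 := by
      rw [← h3]
      push_cast
      ring
    have h5 := T.e_ne_zero
    have h6 : (Nat.card (H i) : ℂ) ≠ 0 := card_ne_zero_C _
    push_cast
    have h7 : (Nat.card (H i) : ℂ) - 1 = (eK (H i) : ℂ) * (SSK (H i)).card := by
      rw [h4]
      ring
    rw [h7]
    field_simp
  rw [Finset.sum_congr rfl (fun i _ => h2 i), ← Finset.mul_sum] at h1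
  have h3 : (Fintype.card G : ℂ) = (Nat.card G : ℂ) := by
    rw [Nat.card_eq_fintype_card]
  rw [h3] at h1
  have h4 : (1 : ℂ) = 1 / (Nat.card G : ℂ) + ∑ i, ((SSK (H i)).card : ℂ) / (Nat.card (H i) : ℂ) := by
    field_simp
    field_simp at h1
    linear_combination h1
  have h5 : (((1 : ℝ) : ℂ)) = ((1 / (Nat.card G : ℝ) + ∑ i, ((SSK (H i)).card : ℝ) / (Nat.card (H i) : ℝ) : ℝ) : ℂ) := by
    push_cast
    exact h4
  exact Complex.ofReal_injective h5

variable {star : ∀ i, (NK (H i) → ℂ) → (G → ℂ)} (F : ∀ i, FC (H i) (SK (H i)) (star i))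
  {A : ι → ℤ} (hA : ∀ i, ∀ χ ∈ SK (H i), ∀ k : NK (H i), (k : G) ∈ H i → k ≠ 1 → star i χ k = χ k + A i)
  {v : ι → ι → ℤ} (hv : ∀ j k, j ≠ k → ∀ χ ∈ SK (H j), ∀ y ∈ H k, y ≠ 1 → star j χ y = v j k)
include F hA hv

/-- The row equation. -/
theorem row_eq (j : ι) [DecidableEq ι] {χ : NK (H j) → ℂ} (hχ : χ ∈ SK (H j)) {d : ℤ} (hd : star j χ 1 = d) :
    ∑ k ∈ univ.erase j, (((SSK (H k)).card : ℝ) / (Nat.card (H k) : ℝ)) * (v j k : ℝ) ^ 2 + (d : ℝ) ^ 2 * (1 / (Nat.card G : ℝ)) =
      ((eK (H j) : ℝ) + 2 * A j - ((SSK (H j)).card : ℝ) * (A j : ℝ) ^ 2) / (Nat.card (H j) : ℝ) := by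
  classical
  have hcl : IsClassFunction G (fun g => star j χ g * conj (star j χ g)) := by
    intro g c
    have h1 := ((F j).star_gen hχ).isClassFunction g c
    simp only [h1]
  have h1 := part_sum D hcl
  have hG : (Nat.card G : ℂ) ≠ 0 := card_ne_zero_C G
  have h2 : ∑ g, star j χ g * conj (star j χ g) = (Nat.card G : ℂ) := by
    have h3 := (F j).star_inner hχ hχ
    rw [classInner_irr_self hχ.1, classInner_def] at h3
    field_simp at h3
    exact h3
  rw [h2, ← Finset.add_sum_erase _ _ (Finset.mem_univ j)] at h1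
  have T := D.hT j
  have h3 : ∑ x : NK (H j), (star j χ x * conj (star j χ x)) * indK (H j) x = _ := star_sum_row T (hA j) hχ
  rw [h3] at h1
  have h4 : ∀ k ∈ univ.erase j, (Nat.card G : ℂ) / (Nat.card (NK (H k)) : ℂ) *
      ∑ x : NK (H k), (star j χ x * conj (star j χ x)) * indK (H k) x =
      (Nat.card G : ℂ) * ((((SSK (H k)).card : ℂ) / (Nat.card (H k) : ℂ)) * (v j k : ℂ) ^ 2) := by
    intro k hk
    have hk' : j ≠ k := (Finset.mem_erase.mp hk).1.symm
    have Tk := D.hT k
    have h5 : ∀ x : NK (H k), (star j χ x * conj (star j χ x)) * indK (H k) x = (v j k : ℂ) ^ 2 * indK (H k) x := by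
      intro x
      by_cases hx : (x : G) ∈ H k ∧ x ≠ 1
      · rw [hv j k hk' χ hχ x hx.1 (fun h => hx.2 (Subtype.ext h)), map_intCast]
        ring
      · rw [indK_neg hx]
        ring
    rw [Finset.sum_congr rfl (fun x _ => h5 x), ← Finset.mul_sum, Tk.sum_ind, Tk.card_N]
    have h6 : (Nat.card (H k) : ℂ) - 1 = (eK (H k) : ℂ) * (SSK (H k)).card := by
      have h3 := Tk.e_t_h
      rw [← h3]
      push_cast
      ring
    have h7 := Tk.e_ne_zero
    have h8 : (Nat.card (H k) : ℂ) ≠ 0 := card_ne_zero_C _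
    rw [h6]
    push_cast
    field_simp
  rw [Finset.sum_congr rfl h4, ← Finset.mul_sum, hd, map_intCast, T.card_N] at h1
  have h5 := T.e_ne_zero
  have h6 : (Nat.card (H j) : ℂ) ≠ 0 := card_ne_zero_C _
  push_cast at h1
  have h7 : ∑ k ∈ univ.erase j, (((SSK (H k)).card : ℂ) / (Nat.card (H k) : ℂ)) * (v j k : ℂ) ^ 2 + (d : ℂ) ^ 2 * (1 / (Nat.card G : ℂ)) =
      ((eK (H j) : ℂ) + 2 * A j - ((SSK (H j)).card : ℂ) * (A j : ℂ) ^ 2) / (Nat.card (H j) : ℂ) := by
    generalize (∑ k ∈ univ.erase j, (((SSK (H k)).card : ℂ) / (Nat.card (H k) : ℂ)) * (v j k : ℂ) ^ 2) = Y at h1 ⊢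
    field_simp at h1 ⊢
    linear_combination -h1
  apply Complex.ofReal_injective
  push_cast
  exact h7

end CfsgLib.Char
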