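import Mathlib
import Cfsg.Agent.Lib.Char.CA4

/-!
# No family of T.I. abelian subgroups partitions a group of odd order
-/

set_option linter.unusedSectionVars false
set_option linter.style.haveILetI false
set_option linter.unusedSimpArgs false
set_option linter.unusedVariables false

namespace CfsgLib.Char

open Module Cfsg Finset
open scoped ComplexConjugate

universe u

variable {G : Type u} [Group G] [Fintype G]

variable {ι : Type*} [Fintype ι] {H : ι → Subgroup G} [∀ i, Fintype (NK (H i))] (D : CAFam H)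
variable {star : ∀ i, (NK (H i) → ℂ) → (G → ℂ)} (F : ∀ i, FC (H i) (SK (H i)) (star i))
  {A : ι → ℤ} (hA : ∀ i, ∀ χ ∈ SK (H i), ∀ k : NK (H i), (k : G) ∈ H i → k ≠ 1 → star i χ k = χ k + A i)
  {v : ι → ι → ℤ} (hv : ∀ j k, j ≠ k → ∀ χ ∈ SK (H j), ∀ y ∈ H k, y ≠ 1 → star j χ y = v j k)
include D F hA hv

/-- The column inequality. -/
theorem col_le (j : ι) [DecidableEq ι] {x : G} (hx : x ∈ H j) (hx1 : x ≠ 1) :
    ∑ k ∈ univ.erase j, ((SSK (H k)).card : ℝ) * (v k j : ℝ) ^ 2 ≤
      (eK (H j) : ℝ) + 2 * A j - ((SSK (H j)).card : ℝ) * (A j : ℝ) ^ 2 - 1 := by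
  classical
  have hT := D.hT
  let s : Finset (Option (Σ k, IrrCharacter (NK (H k)))) :=
    Finset.insertNone ((Finset.univ : Finset ι).sigma (fun k => SSK (H k)))
  let f : Option (Σ k, IrrCharacter (NK (H k))) → G → ℂ :=
    fun a => a.elim (fun _ => 1) (fun p => star p.1 (p.2 : NK (H p.1) → ℂ))
  have hmem : ∀ p : (Σ k, IrrCharacter (NK (H k))), some p ∈ s → ((p.2 : NK (H p.1) → ℂ)) ∈ SK (H p.1) := by
    intro p hp
    have h1 : p ∈ (Finset.univ : Finset ι).sigma (fun k => SSK (H k)) := Finset.some_mem_insertNone.mp hp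
    exact mem_SSK.mp (Finset.mem_sigma.mp h1).2
  have hcl : ∀ a ∈ s, IsClassFunction G (f a) := by
    intro a ha
    cases a with
    | none => exact fun _ _ => rfl
    | some p => exact ((F p.1).star_gen (hmem p ha)).isClassFunction
  have he : ∀ a ∈ s, ∀ b ∈ s, a ≠ b → classInner (f a) (f b) = 0 := by
    intro a ha b hb hab
    cases a with
    | none =>
      cases b with
      | none => exact absurd rfl hab
      | some q =>
        show classInner (fun _ => (1 : ℂ)) (star q.1 (q.2 : NK (H q.1) → ℂ)) = 0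
        rw [← conj_classInner, star_perp_one (hT q.1) (F q.1) (hmem q hb), map_zero]
    | some p =>
      cases b with
      | none => exact star_perp_one (hT p.1) (F p.1) (hmem p ha)
      | some q =>
        show classInner (star p.1 (p.2 : NK (H p.1) → ℂ)) (star q.1 (q.2 : NK (H q.1) → ℂ)) = 0
        have hp := hmem p ha
        have hq := hmem q hb
        obtain ⟨k, χ⟩ := p
        obtain ⟨l, ξ⟩ := q
        by_cases hkl : k = l
        · subst hkl
          rw [(F k).star_inner hp hq]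
          apply classInner_irr_ne hp.1 hq.1
          intro h
          apply hab
          have h2 : χ = ξ := Subtype.ext h
          rw [h2]
        · exact inter_orth (hT k) (hT l) (F k) (F l) (D.hdis k l hkl) hp hq
  have hee : ∀ a ∈ s, classInner (f a) (f a) = 1 := by
    intro a ha
    cases a with
    | none => exact classInner_irr_self isIrrCharacter_one
    | some p =>
      show classInner (star p.1 (p.2 : NK (H p.1) → ℂ)) (star p.1 (p.2 : NK (H p.1) → ℂ)) = 1
      rw [(F p.1).star_inner (hmem p ha) (hmem p ha), classInner_irr_self (hmem p ha).1]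
  have hb := bessel_col s f hcl he hee x
  rw [card_centralizer_G (hT j) hx hx1] at hb
  have h1 : ∑ a ∈ s, ‖f a x‖ ^ 2 = 1 + ∑ k, ∑ χ ∈ SSK (H k), ‖star k (χ : NK (H k) → ℂ) x‖ ^ 2 := by
    rw [Finset.sum_insertNone, Finset.sum_sigma]
    simp [f]
  rw [h1, ← Finset.add_sum_erase _ _ (Finset.mem_univ j)] at hb
  have hxN : x ∈ Subgroup.normalizer (H j : Set G) := (hT j).hle hx
  have h2 : ∑ χ ∈ SSK (H j), ‖star j (χ : NK (H j) → ℂ) x‖ ^ 2 =
      (Nat.card (H j) : ℝ) - eK (H j) - 2 * A j + ((SSK (H j)).card : ℝ) * (A j : ℝ) ^ 2 := by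
    have h3 := star_sum_col (hT j) (hA j) (x := ⟨x, hxN⟩) hx (fun h => hx1 (congrArg Subtype.val h))
    apply Complex.ofReal_injective
    push_cast
    rw [← h3]
    refine Finset.sum_congr rfl fun χ _ => ?_
    rw [Complex.mul_conj, Complex.normSq_eq_norm_sq]
    push_cast
    rfl
  have h3 : ∀ k ∈ univ.erase j, ∑ χ ∈ SSK (H k), ‖star k (χ : NK (H k) → ℂ) x‖ ^ 2 =
      ((SSK (H k)).card : ℝ) * (v k j : ℝ) ^ 2 := by
    intro k hk
    have hk' : k ≠ j := (Finset.mem_erase.mp hk).1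
    have h4 : ∀ χ ∈ SSK (H k), ‖star k (χ : NK (H k) → ℂ) x‖ ^ 2 = (v k j : ℝ) ^ 2 := by
      intro χ hχ
      rw [hv k j hk' _ (mem_SSK.mp hχ) x hx hx1, Complex.norm_intCast, sq_abs]
    rw [Finset.sum_congr rfl h4, Finset.sum_const, nsmul_eq_mul]
  rw [h2, Finset.sum_congr rfl h3] at hb
  linarith

/-- Two families cannot be simultaneously orthogonal on each other. -/
theorem nonzero_v (j k : ι) (hjk : j ≠ k) : v j k ≠ 0 ∨ v k j ≠ 0 := by
  classical
  have hT := D.hT
  by_contra hcon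
  push Not at hcon
  obtain ⟨h1, h2⟩ := hcon
  obtain ⟨⟨x, hx⟩, hx1'⟩ := Subgroup.ne_bot_iff_exists_ne_one.mp (hT j).hK1
  obtain ⟨⟨y, hy⟩, hy1'⟩ := Subgroup.ne_bot_iff_exists_ne_one.mp (hT k).hK1
  have hx1 : x ≠ 1 := fun h => hx1' (Subtype.ext h)
  have hy1 : y ≠ 1 := fun h => hy1' (Subtype.ext h)
  have hnc : ¬ IsConj x y := by
    intro h
    obtain ⟨c, hc⟩ := isConj_iff.mp h.symm
    apply D.hdis j k hjk y _ (partOf_self hy hy1)
    refine ⟨c⁻¹, ?_, ?_⟩
    · rw [inv_inv, hc]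
      exact hx
    · rw [inv_inv, hc]
      exact hx1
  have hcol := column_orthogonality x y
  rw [if_neg hnc] at hcol
  have hint : ∀ ψ : IrrCharacter G, ∃ n : ℤ, (ψ : G → ℂ) x * conj ((ψ : G → ℂ) y) = n := by
    intro ψ
    by_cases c1 : ∃ χ ∈ SK (H j), (ψ : G → ℂ) = star j χ ∨ (ψ : G → ℂ) = -star j χ
    · obtain ⟨χ, hχ, h3⟩ := c1
      have h4 : star j χ y = 0 := by
        rw [hv j k hjk χ hχ y hy hy1, h1]
        simp
      have h5 : (ψ : G → ℂ) y = 0 := by
        rcases h3 with h3 | h3 <;> rw [h3]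
        · exact h4
        · simp [h4]
      exact ⟨0, by simp [h5]⟩
    by_cases c2 : ∃ χ ∈ SK (H k), (ψ : G → ℂ) = star k χ ∨ (ψ : G → ℂ) = -star k χ
    · obtain ⟨χ, hχ, h3⟩ := c2
      have h4 : star k χ x = 0 := by
        rw [hv k j hjk.symm χ hχ x hx hx1, h2]
        simp
      have h5 : (ψ : G → ℂ) x = 0 := by
        rcases h3 with h3 | h3 <;> rw [h3]
        · exact h4
        · simp [h4]
      exact ⟨0, by simp [h5]⟩
    · rw [(F j).s0852_main ψ.2] at c1
      rw [(F k).s0852_main ψ.2] at c2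
      push Not at c1 c2
      obtain ⟨n₁, hn₁⟩ := const_int (hT j).hK1 ψ.2.isCharacter (fun a ha b hb ha1 hb1 => c1 a ha b hb ha1 hb1)
      obtain ⟨n₂, hn₂⟩ := const_int (hT k).hK1 ψ.2.isCharacter (fun a ha b hb ha1 hb1 => c2 a ha b hb ha1 hb1)
      refine ⟨n₁ * n₂, ?_⟩
      rw [hn₁ x hx hx1, hn₂ y hy hy1, map_intCast]
      push_cast
      ring
  choose n hn using hint
  have hsum : ∑ ψ, n ψ = 0 := by
    have h3 : ((∑ ψ, n ψ : ℤ) : ℂ) = 0 := by
      push_cast
      rw [← hcol]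
      exact Finset.sum_congr rfl fun ψ _ => (hn ψ).symm
    exact_mod_cast h3
  let cj : IrrCharacter G → IrrCharacter G := fun ψ => ⟨conjFun (ψ : G → ℂ), ψ.2.conjFun⟩
  let triv : IrrCharacter G := ⟨fun _ => 1, isIrrCharacter_one⟩
  refine sum_invol_ne_zero cj ?_ triv ?_ ?_ n ?_ ?_ hsum
  · intro ψ
    exact Subtype.ext (conjFun_conjFun _)
  · apply Subtype.ext
    funext g
    simp [cj, triv, conjFun]
  · intro ψ hψ
    apply Subtype.ext
    have hoddG : Odd (Nat.card G) := (D.hT j).hodd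
    apply real_irr_eq_one hoddG ψ.2
    intro g
    have h3 : conj ((ψ : G → ℂ) g) = (ψ : G → ℂ) g := congrFun (congrArg Subtype.val hψ) g
    exact Complex.conj_eq_iff_im.mp h3
  · intro ψ
    have h3 : ((n (cj ψ) : ℤ) : ℂ) = n ψ := by
      rw [← hn (cj ψ)]
      have h4 : conj ((n ψ : ℤ) : ℂ) = ((n ψ : ℤ) : ℂ) := map_intCast _ _
      rw [← h4, ← hn ψ]
      simp [cj, conjFun]
    exact_mod_cast h3
  · have h3 : ((n triv : ℤ) : ℂ) = 1 := by
      rw [← hn triv]
      simp [triv]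
    have h4 : n triv = 1 := by exact_mod_cast h3
    rw [h4]
    exact odd_one

omit hA hv F

/-- The main theorem on partitions into T.I. abelian subgroups. -/
theorem ca_core [Nonempty ι] : False := by
  classical
  have hT := D.hT
  choose star F using fun i => (hT i).exists_FC
  choose A hA using fun i => exists_A (hT i) (F i)
  have hv0 : ∀ j k, ∃ n : ℤ, j ≠ k → ∀ χ ∈ SK (H j), ∀ y ∈ H k, y ≠ 1 → star j χ y = n := by
    intro j k
    by_cases hjk : j = k
    · exact ⟨0, fun h => absurd hjk h⟩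
    · obtain ⟨χ₀, hχ₀⟩ := (hT j).nonempty
      obtain ⟨n, hn⟩ := family_const (hT j) (hT k) (F j) (F k) (D.hdis j k hjk) hχ₀
      refine ⟨n, fun _ χ hχ y hy hy1 => ?_⟩
      rw [star_eq_off (hT j) (F j) hχ hχ₀ (fun h => D.hdis j k hjk y h (partOf_self hy hy1))]
      exact hn y hy hy1
  choose v hv using hv0
  choose χ₀ hχ₀ using fun j => (hT j).nonempty
  choose d hd using fun j => gen_one_int ((F j).star_gen (hχ₀ j))
  have hW : (0 : ℝ) < 1 / (Nat.card G : ℝ) := by
    have : (0 : ℝ) < Nat.card G := by exact_mod_cast (Nat.card_pos (α := G))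
    positivity
  refine ca_numeric (fun i => eK (H i)) (fun i => (SSK (H i)).card) (fun i => Nat.card (H i)) v
    (fun j => (eK (H j) : ℝ) + 2 * A j - ((SSK (H j)).card : ℝ) * (A j : ℝ) ^ 2)
    (fun j => (d j : ℝ) ^ 2 * (1 / (Nat.card G : ℝ))) (1 / (Nat.card G : ℝ))
    (fun i => (hT i).e_two) (fun i => (hT i).t_two) (fun i => ((hT i).e_t_h).symm) ?_ ?_ ?_ (count_eq D) ?_ ?_ ?_
  · intro i j hij
    by_contra h
    exact D.hdist i j h hij
  · intro j
    have h1 : (2 : ℝ) ≤ (SSK (H j)).card := by exact_mod_cast (hT j).t_two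
    have h2 : (A j : ℝ) ≤ (A j : ℝ) ^ 2 := by
      have h3 : A j ≤ (A j) ^ 2 := by
        rcases le_or_gt (A j) 0 with h | h
        · nlinarith [sq_nonneg (A j)]
        · nlinarith
      exact_mod_cast h3
    have h4 : (0 : ℝ) ≤ (A j : ℝ) ^ 2 := sq_nonneg _
    show (eK (H j) : ℝ) + 2 * A j - ((SSK (H j)).card : ℝ) * (A j : ℝ) ^ 2 ≤ (eK (H j) : ℝ)
    nlinarith
  · intro j
    show 1 / (Nat.card G : ℝ) ≤ (d j : ℝ) ^ 2 * (1 / (Nat.card G : ℝ))
    have h1 : d j ≠ 0 := by
      intro h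
      have h2 := gen_norm_one_ne ((F j).star_gen (hχ₀ j)) (by
        rw [(F j).star_inner (hχ₀ j) (hχ₀ j), classInner_irr_self (hχ₀ j).1])
      apply h2
      rw [hd j, h]
      simp
    have h2 : (1 : ℝ) ≤ (d j : ℝ) ^ 2 := by
      have h3 : 1 ≤ (d j) ^ 2 := by
        have := Int.one_le_abs h1
        nlinarith [sq_abs (d j), abs_nonneg (d j)]
      exact_mod_cast h3
    nlinarith
  · intro j
    exact row_eq D F hA hv j (hχ₀ j) (hd j)
  · intro j
    obtain ⟨⟨x, hx⟩, hx1'⟩ := Subgroup.ne_bot_iff_exists_ne_one.mp (hT j).hK1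
    exact col_le D F hA hv j hx (fun h => hx1' (Subtype.ext h))
  · intro j k hjk
    exact nonzero_v D F hA hv j k hjk

end CfsgLib.Char
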