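import Mathlib
import Cfsg.Agent.Lib.Char.CA5
import Cfsg.Agent.Lib.FGS.FrobThm
import Cfsg.Agent.Lib.Solv.SZ

/-!
# The CA theorem for groups of odd order
-/

set_option linter.unusedSectionVars false
set_option linter.style.haveILetI false
set_option linter.unusedSimpArgs false
set_option linter.unusedVariables false

namespace CfsgLib.Char

open Module Cfsg

universe u

/-- Every non-identity element has an abelian centralizer. -/
def IsCAGroup (G : Type u) [Group G] : Prop :=
  ∀ x : G, x ≠ 1 → ∀ a ∈ Subgroup.centralizer ({x} : Set G), ∀ b ∈ Subgroup.centralizer ({x} : Set G), a * b = b * a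

variable {G : Type u} [Group G]

/-- The centralizer of an element. -/
abbrev cent (x : G) : Subgroup G := Subgroup.centralizer ({x} : Set G)

theorem mem_cent {x y : G} : y ∈ cent x ↔ y * x = x * y := Subgroup.mem_centralizer_singleton_iff

theorem IsCAGroup.subgroup (hG : IsCAGroup G) (H : Subgroup G) : IsCAGroup H := by
  intro x hx a ha b hb
  apply Subtype.ext
  have hx' : (x : G) ≠ 1 := fun h => hx (Subtype.ext h)
  have ha' : (a : G) ∈ cent (x : G) := by
    rw [mem_cent]
    have h1 := mem_cent.mp ha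
    exact congrArg Subtype.val h1
  have hb' : (b : G) ∈ cent (x : G) := by
    rw [mem_cent]
    have h1 := mem_cent.mp hb
    exact congrArg Subtype.val h1
  exact hG x hx' a ha' b hb'

theorem IsCAGroup.cent_eq (hG : IsCAGroup G) {x a : G} (hx : x ≠ 1) (ha : a ∈ cent x) (ha1 : a ≠ 1) :
    cent a = cent x := by
  apply le_antisymm
  · intro b hb
    have hxa : x ∈ cent a := by
      rw [mem_cent]
      exact (mem_cent.mp ha).symm
    rw [mem_cent]
    exact hG a ha1 b hb x hxa
  · intro b hb
    rw [mem_cent]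
    exact hG x hx b hb a ha

theorem mem_cent_conj {a w : G} (c : G) : w ∈ cent a ↔ c * w * c⁻¹ ∈ cent (c * a * c⁻¹) := by
  rw [mem_cent, mem_cent]
  constructor
  · intro h
    calc c * w * c⁻¹ * (c * a * c⁻¹) = c * (w * a) * c⁻¹ := by group
      _ = c * (a * w) * c⁻¹ := by rw [h]
      _ = c * a * c⁻¹ * (c * w * c⁻¹) := by group
  · intro h
    have h1 : c * (w * a) * c⁻¹ = c * (a * w) * c⁻¹ := by
      calc c * (w * a) * c⁻¹ = c * w * c⁻¹ * (c * a * c⁻¹) := by group
        _ = c * a * c⁻¹ * (c * w * c⁻¹) := h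
        _ = c * (a * w) * c⁻¹ := by group
    exact mul_left_cancel (mul_right_cancel h1)

theorem conj_ne_one {a : G} (c : G) (ha : a ≠ 1) : c * a * c⁻¹ ≠ 1 := by
  intro h
  apply ha
  have h1 : a = c⁻¹ * (c * a * c⁻¹) * c := by group
  rw [h1, h]
  group

/-- An abelian normal subgroup reduces the problem to the proper subgroups. -/
theorem solvable_of_abelian_normal [Finite G] (hCA : IsCAGroup G) (M : Subgroup G) [hMn : M.Normal] (hM1 : M ≠ ⊥)
    (hMab : ∀ a ∈ M, ∀ b ∈ M, a * b = b * a) (IH : ∀ H : Subgroup G, H ≠ ⊤ → Group.IsSolvable H) : Group.IsSolvable G := by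
  classical
  obtain ⟨⟨x, hxM⟩, hx1'⟩ := Subgroup.ne_bot_iff_exists_ne_one.mp hM1
  have hx1 : x ≠ 1 := fun h => hx1' (Subtype.ext h)
  set A := cent x with hA
  have hMA : M ≤ A := fun b hb => mem_cent.mpr (hMab b hb x hxM)
  have hxA : x ∈ A := hMA hxM
  have hAab : ∀ a ∈ A, ∀ b ∈ A, a * b = b * a := hCA x hx1
  have hAeq : ∀ a ∈ A, a ≠ 1 → cent a = A := fun a ha ha1 => hCA.cent_eq hx1 ha ha1
  haveI hAn : A.Normal := by
    constructor
    intro a ha g
    have h1 : g * x * g⁻¹ ∈ M := hMn.conj_mem x hxM g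
    have h2 : cent (g * x * g⁻¹) = A := hAeq _ (hMA h1) (conj_ne_one g hx1)
    rw [← h2]
    exact (mem_cent_conj g).mp ha
  by_cases hAtop : A = ⊤
  · have h1 : ∀ a b : G, a * b = b * a := by
      intro a b
      exact hAab a (by rw [hAtop]; trivial) b (by rw [hAtop]; trivial)
    exact Group.isSolvable_of_comm h1
  have hcop : Nat.Coprime (Nat.card A) A.index := by
    by_contra hcop
    obtain ⟨p, hp, hpA, hpi⟩ := Nat.Prime.not_coprime_iff_dvd.mp hcop
    haveI : Fact p.Prime := ⟨hp⟩
    obtain ⟨P⟩ : Nonempty (Sylow p G) := inferInstance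
    letI act : MulAction (P : Subgroup G) A :=
      { smul := fun g a => ⟨(g : G) * a * (g : G)⁻¹, hAn.conj_mem _ a.2 _⟩
        one_smul := fun a => Subtype.ext (by
          show ((1 : (P : Subgroup G)) : G) * a * ((1 : (P : Subgroup G)) : G)⁻¹ = a
          simp)
        mul_smul := fun g h a => Subtype.ext (by
          show ((g * h : (P : Subgroup G)) : G) * a * ((g * h : (P : Subgroup G)) : G)⁻¹ =
            (g : G) * ((h : G) * a * (h : G)⁻¹) * (g : G)⁻¹
          push_cast
          group) }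
    have hfix1 : (1 : A) ∈ MulAction.fixedPoints (P : Subgroup G) A := by
      intro g
      apply Subtype.ext
      show (g : G) * ((1 : A) : G) * (g : G)⁻¹ = ((1 : A) : G)
      simp
    obtain ⟨z, hz, hz1⟩ := P.isPGroup'.exists_fixed_point_of_prime_dvd_card_of_fixed_point A hpA hfix1
    have hz1' : (z : G) ≠ 1 := fun h => hz1 (Subtype.ext h.symm)
    have hPle : (P : Subgroup G) ≤ A := by
      rw [← hAeq z z.2 hz1']
      intro g hg
      rw [mem_cent]
      have h1 : (⟨g, hg⟩ : (P : Subgroup G)) • z = z := hz ⟨g, hg⟩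
      have h2 : g * (z : G) * g⁻¹ = z := congrArg Subtype.val h1
      calc g * (z : G) = g * (z : G) * g⁻¹ * g := by group
        _ = z * g := by rw [h2]
    have h3 : A.index ∣ (P : Subgroup G).index := Subgroup.index_dvd_of_le hPle
    exact P.not_dvd_index (hpi.trans h3)
  obtain ⟨H, hH⟩ := Subgroup.exists_right_complement'_of_coprime hcop
  have hHtop : H ≠ ⊤ := by
    rintro rfl
    have h1 := hH.disjoint
    have h2 : A = ⊥ := by
      rw [disjoint_top] at h1
      exact h1
    apply hx1
    have h3 : x ∈ (⊥ : Subgroup G) := h2 ▸ hxA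
    exact (Subgroup.mem_bot.mp h3)
  haveI hsH : Group.IsSolvable H := IH H hHtop
  haveI hAsolv : Group.IsSolvable A := Group.isSolvable_of_comm (fun a b => Subtype.ext (hAab a a.2 b b.2))
  have hsurj : Function.Surjective ((QuotientGroup.mk' A).comp H.subtype) := by
    intro q
    obtain ⟨g, rfl⟩ := QuotientGroup.mk'_surjective A q
    have h1 : g ∈ A ⊔ H := by
      rw [hH.sup_eq_top]
      trivial
    rw [Subgroup.mem_sup_of_normal_left] at h1
    obtain ⟨a, ha, h, hh, rfl⟩ := h1
    refine ⟨⟨h, hh⟩, ?_⟩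
    simp only [MonoidHom.coe_comp, Function.comp_apply, Subgroup.coe_subtype]
    have h2 : QuotientGroup.mk' A a = 1 := (QuotientGroup.eq_one_iff a).mpr ha
    rw [map_mul, h2, one_mul]
  haveI hq : Group.IsSolvable (G ⧸ A) := Group.isSolvable_of_surjective hsurj
  refine Group.isSolvable_of_ker_le_range A.subtype (QuotientGroup.mk' A) ?_
  rw [QuotientGroup.ker_mk', Subgroup.range_subtype]

end CfsgLib.Char
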