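import Mathlib
import Cfsg.Agent.Lib.Char.CA6

/-!
# The CA theorem for groups of odd order: the simple case
-/

set_option linter.unusedSectionVars false
set_option linter.style.haveILetI false
set_option linter.unusedSimpArgs false
set_option linter.unusedVariables false

namespace CfsgLib.Char

open Module Cfsg
open Pointwise

universe u

variable {G : Type u} [Group G]

/-- The centralizers of a simple CA group are members of a family. -/
theorem cent_CAK [Fintype G] (hodd : Odd (Nat.card G)) (hCA : IsCAGroup G) (hna : ∃ a b : G, a * b ≠ b * a)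
    (hsimple : ∀ N : Subgroup G, N.Normal → N = ⊥ ∨ N = ⊤) (x : G) (hx : x ≠ 1) [Fintype (NK (cent x))] :
    CAK (cent x) := by
  classical
  have hxA : x ∈ cent x := mem_cent.mpr rfl
  have hTI : ∀ g : G, g ∉ Subgroup.normalizer (cent x : Set G) → ∀ k ∈ cent x, g * k * g⁻¹ ∈ cent x → k = 1 := by
    intro g hg k hk hgk
    by_contra hk1
    apply hg
    have h1 : cent k = cent x := hCA.cent_eq hx hk hk1
    have h2 : cent (g * k * g⁻¹) = cent x := hCA.cent_eq hx hgk (conj_ne_one g hk1)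
    rw [Subgroup.mem_normalizer_iff]
    intro w
    show w ∈ cent x ↔ g * w * g⁻¹ ∈ cent x
    rw [← h1, mem_cent_conj g, h2, h1]
  have hK1 : cent x ≠ ⊥ := by
    intro h
    have h1 : x ∈ (⊥ : Subgroup G) := h ▸ hxA
    exact hx (Subgroup.mem_bot.mp h1)
  refine ⟨hodd, hCA x hx, hK1, hTI, ?_, fun k hk hk1 => (hCA.cent_eq hx hk hk1).le⟩
  have hle : cent x ≤ Subgroup.normalizer (cent x : Set G) := Subgroup.le_normalizer
  refine lt_of_le_of_ne hle ?_
  intro heq
  have htop : cent x ≠ ⊤ := by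
    intro h
    obtain ⟨a, b, hab⟩ := hna
    exact hab (hCA x hx a (by show a ∈ cent x; rw [h]; trivial) b (by show b ∈ cent x; rw [h]; trivial))
  have hfc : IsFrobeniusComplement (cent x) := by
    refine ⟨hK1, htop, fun g hg => ?_⟩
    rw [eq_bot_iff]
    intro y hy
    obtain ⟨hy1, hy2⟩ := Subgroup.mem_inf.mp hy
    rw [CfsgLib.Solv.mem_conj_smul] at hy2
    have hg' : g ∉ Subgroup.normalizer (cent x : Set G) := by
      rw [← heq]
      exact hg
    have h1 : g * (g⁻¹ * y * g) * g⁻¹ ∈ cent x := by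
      have : g * (g⁻¹ * y * g) * g⁻¹ = y := by group
      rw [this]
      exact hy1
    have h2 := hTI g hg' _ hy2 h1
    rw [Subgroup.mem_bot]
    have h3 : y = g * (g⁻¹ * y * g) * g⁻¹ := by group
    rw [h3, h2]
    group
  obtain ⟨N, -, hN, hcomp⟩ := CfsgLib.FGS.exists_frobenius_kernel _ hfc
  rcases hsimple N hN with h | h
  · subst h
    apply htop
    have h1 := hcomp.sup_eq_top
    rwa [bot_sup_eq] at h1
  · subst h
    apply hK1
    have h1 := hcomp.disjoint
    rwa [top_disjoint] at h1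

/-- A Sylow subgroup inside a centralizer. -/
theorem exists_sylow_le [Finite G] (hCA : IsCAGroup G) {x : G} (hx : x ≠ 1) {p : ℕ} [hp : Fact p.Prime]
    (hdvd : p ∣ Nat.card (cent x)) : ∃ P : Sylow p G, (P : Subgroup G) ≤ cent x := by
  classical
  obtain ⟨a, ha⟩ := exists_prime_orderOf_dvd_card' p hdvd
  have ha1 : (a : G) ≠ 1 := by
    intro h
    have h1 : a = 1 := Subtype.ext h
    rw [h1, orderOf_one] at ha
    exact hp.out.one_lt.ne ha
  have hcenta : cent (a : G) = cent x := hCA.cent_eq hx a.2 ha1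
  have haord : (a : G) ^ p = 1 := by
    have h1 : a ^ p = 1 := by rw [← ha]; exact pow_orderOf_eq_one a
    have h2 := congrArg Subtype.val h1
    simpa using h2
  have hpg : IsPGroup p (Subgroup.zpowers (a : G)) := by
    intro y
    obtain ⟨y, hy⟩ := y
    obtain ⟨k, rfl⟩ := Subgroup.mem_zpowers_iff.mp hy
    refine ⟨1, ?_⟩
    apply Subtype.ext
    simp only [pow_one, Subgroup.coe_pow, Subgroup.coe_one]
    rw [← zpow_natCast, ← zpow_mul, mul_comm, zpow_mul, zpow_natCast, haord, one_zpow]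
  obtain ⟨P, hP⟩ := hpg.exists_le_sylow
  have haP : (a : G) ∈ (P : Subgroup G) := hP (Subgroup.mem_zpowers _)
  refine ⟨P, ?_⟩
  haveI : Nontrivial (P : Subgroup G) := ⟨⟨⟨a, haP⟩, 1, fun h => ha1 (congrArg Subtype.val h)⟩⟩
  haveI : Nontrivial (Subgroup.center (P : Subgroup G)) := P.isPGroup'.center_nontrivial
  obtain ⟨z, hz⟩ := exists_ne (1 : Subgroup.center (P : Subgroup G))
  have hz1 : ((z : (P : Subgroup G)) : G) ≠ 1 := by
    intro h
    apply hz
    apply Subtype.ext
    apply Subtype.ext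
    exact h
  have hzcomm : ∀ y : (P : Subgroup G), y * (z : (P : Subgroup G)) = (z : (P : Subgroup G)) * y :=
    fun y => (Subgroup.mem_center_iff.mp z.2 y)
  have hzA : ((z : (P : Subgroup G)) : G) ∈ cent x := by
    rw [← hcenta, mem_cent]
    have h1 := hzcomm ⟨a, haP⟩
    have h2 := congrArg Subtype.val h1
    exact h2.symm
  have hcentz := hCA.cent_eq hx hzA hz1
  intro y hy
  rw [← hcentz, mem_cent]
  have h1 := hzcomm ⟨y, hy⟩
  exact congrArg Subtype.val h1

/-- A simple CA group of odd order is abelian. -/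
theorem ca_simple_false [Finite G] (hodd : Odd (Nat.card G)) (hCA : IsCAGroup G) (hna : ∃ a b : G, a * b ≠ b * a)
    (hsimple : ∀ N : Subgroup G, N.Normal → N = ⊥ ∨ N = ⊤) : False := by
  classical
  letI : Fintype G := Fintype.ofFinite G
  let X := {x : G // x ≠ 1}
  let st : Setoid X :=
    { r := fun x y => ∃ c : G, ∀ w, w ∈ cent x.1 ↔ c * w * c⁻¹ ∈ cent y.1
      iseqv := by
        refine ⟨fun x => ⟨1, fun w => by simp⟩, ?_, ?_⟩
        · rintro x y ⟨c, hc⟩
          refine ⟨c⁻¹, fun w => ?_⟩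
          rw [hc (c⁻¹ * w * c⁻¹⁻¹)]
          have : c * (c⁻¹ * w * c⁻¹⁻¹) * c⁻¹ = w := by group
          rw [this]
        · rintro x y z ⟨c, hc⟩ ⟨d, hd⟩
          refine ⟨d * c, fun w => ?_⟩
          rw [hc w, hd (c * w * c⁻¹)]
          have : d * (c * w * c⁻¹) * d⁻¹ = d * c * w * (d * c)⁻¹ := by group
          rw [this] }
  let ι := Quotient st
  letI : Fintype ι := Fintype.ofFinite _
  let rep : ι → X := fun i => Quotient.out i
  let H : ι → Subgroup G := fun i => cent (rep i).1
  letI : ∀ i, Fintype (NK (H i)) := fun i => Fintype.ofFinite _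
  have hsound : ∀ i j : ι, (∃ c : G, ∀ w, w ∈ H i ↔ c * w * c⁻¹ ∈ H j) → i = j := by
    intro i j h
    have h1 : (⟦rep i⟧ : Quotient st) = ⟦rep j⟧ := Quotient.sound h
    simpa [rep, Quotient.out_eq] using h1
  haveI : Nonempty ι := by
    obtain ⟨a, b, hab⟩ := hna
    have ha : a ≠ 1 := by
      rintro rfl
      simp at hab
    exact ⟨⟦⟨a, ha⟩⟧⟩
  have hT : ∀ i, CAK (H i) := fun i => cent_CAK hodd hCA hna hsimple (rep i).1 (rep i).2
  refine ca_core (H := H) ⟨hT, ?_, ?_, ?_⟩
  · intro g hg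
    refine ⟨⟦⟨g, hg⟩⟧, ?_⟩
    obtain ⟨c, hc⟩ : st.r (rep ⟦⟨g, hg⟩⟧) ⟨g, hg⟩ := Quotient.mk_out (s := st) ⟨g, hg⟩
    refine ⟨c, ?_, ?_⟩
    · show c⁻¹ * g * c ∈ cent (rep ⟦⟨g, hg⟩⟧).1
      rw [hc]
      have : c * (c⁻¹ * g * c) * c⁻¹ = g := by group
      rw [this]
      exact mem_cent.mpr rfl
    · have := conj_ne_one c⁻¹ hg
      simpa using this
  · intro i j hij g hgi hgj
    apply hij
    obtain ⟨c, hc, hc1⟩ := hgi
    obtain ⟨d, hd, hd1⟩ := hgj
    apply hsound
    have h1 : cent (c⁻¹ * g * c) = H i := hCA.cent_eq (rep i).2 hc hc1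
    have h2 : cent (d⁻¹ * g * d) = H j := hCA.cent_eq (rep j).2 hd hd1
    refine ⟨d⁻¹ * c, fun w => ?_⟩
    rw [← h1, ← h2, mem_cent_conj (d⁻¹ * c)]
    have h3 : d⁻¹ * c * (c⁻¹ * g * c) * (d⁻¹ * c)⁻¹ = d⁻¹ * g * d := by group
    rw [h3]
  · intro i j hij hcard
    apply hij
    have hgt : 1 < Nat.card (H i) := by
      haveI : Nontrivial (H i) := ⟨⟨⟨(rep i).1, mem_cent.mpr rfl⟩, 1, fun h => (rep i).2 (congrArg Subtype.val h)⟩⟩
      exact Finite.one_lt_card
    obtain ⟨p, hp, hpd⟩ := Nat.exists_prime_and_dvd hgt.ne'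
    haveI : Fact p.Prime := ⟨hp⟩
    obtain ⟨P, hP⟩ := exists_sylow_le hCA (rep i).2 hpd
    obtain ⟨Q, hQ⟩ := exists_sylow_le hCA (rep j).2 (hcard ▸ hpd)
    obtain ⟨g, hg⟩ := MulAction.exists_smul_eq G P Q
    have hpG : p ∣ Nat.card G := hpd.trans (Subgroup.card_subgroup_dvd_card _)
    have hP1 : (P : Subgroup G) ≠ ⊥ := P.ne_bot_of_dvd_card hpG
    obtain ⟨⟨w, hw⟩, hw1'⟩ := Subgroup.ne_bot_iff_exists_ne_one.mp hP1
    have hw1 : w ≠ 1 := fun h => hw1' (Subtype.ext h)
    have hgw : g * w * g⁻¹ ∈ (Q : Subgroup G) := by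
      rw [← hg]
      show g * w * g⁻¹ ∈ ((g • P : Sylow p G) : Subgroup G)
      rw [Sylow.coe_subgroup_smul]
      rw [CfsgLib.Solv.mem_conj_smul]
      have h5 : g⁻¹ * (g * w * g⁻¹) * g = w := by group
      rw [h5]
      exact hw
    apply hsound
    have h1 : cent w = H i := hCA.cent_eq (rep i).2 (hP hw) hw1
    have h2 : cent (g * w * g⁻¹) = H j := hCA.cent_eq (rep j).2 (hQ hgw) (conj_ne_one g hw1)
    refine ⟨g, fun y => ?_⟩
    rw [← h1, ← h2]
    exact mem_cent_conj g

/-- The CA theorem for groups of odd order. -/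
theorem ca_solvable : ∀ (n : ℕ) (G : Type u) [Group G] [Finite G], Nat.card G = n → Odd n → IsCAGroup G →
    Group.IsSolvable G := by
  intro n
  induction n using Nat.strong_induction_on with
  | _ n ih =>
    intro G _ _ hn hodd hCA
    have IH : ∀ H : Subgroup G, H ≠ ⊤ → Group.IsSolvable H := by
      intro H hH
      refine ih (Nat.card H) ?_ H rfl (Odd.of_dvd_nat hodd (hn ▸ Subgroup.card_subgroup_dvd_card H)) (hCA.subgroup H)
      have h1 := Subgroup.card_mul_index H
      have h2 : H.index ≠ 1 := fun h => hH (Subgroup.index_eq_one.mp h)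
      have h3 : H.index ≠ 0 := Subgroup.index_ne_zero_of_finite
      have h4 : 0 < Nat.card H := Nat.card_pos
      rw [← hn, ← h1]
      nlinarith [show 2 ≤ H.index by omega]
    by_cases hcomm : ∀ a b : G, a * b = b * a
    · exact Group.isSolvable_of_comm hcomm
    · have hna : ∃ a b : G, a * b ≠ b * a := by
        push Not at hcomm
        exact hcomm
      have hnt : Nontrivial G := by
        obtain ⟨a, b, hab⟩ := hna
        refine ⟨⟨a, 1, ?_⟩⟩
        rintro rfl
        simp at hab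
      obtain ⟨M, hMn, hM1, hmin⟩ := CfsgLib.Solv.exists_minimal_normal G
      by_cases hMtop : M = ⊤
      · exfalso
        refine ca_simple_false (hn ▸ hodd) hCA hna fun N hN => ?_
        rcases hmin N hN (by rw [hMtop]; exact le_top) with h | h
        · exact Or.inl h
        · exact Or.inr (h.trans hMtop)
      · haveI hsM := IH M hMtop
        haveI : Nontrivial M := by
          obtain ⟨⟨x, hx⟩, hx1⟩ := Subgroup.ne_bot_iff_exists_ne_one.mp hM1
          exact ⟨⟨⟨x, hx⟩, 1, hx1⟩⟩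
        have hcomm2 : ⁅M, M⁆ = ⊥ := by
          rcases hmin ⁅M, M⁆ inferInstance (Subgroup.commutator_le_self M) with h | h
          · exact h
          · exfalso
            have h1 := Group.IsSolvable.commutator_lt_top_of_nontrivial (G := M)
            apply h1.ne
            apply Subgroup.map_injective M.subtype_injective
            rw [Subgroup.map_subtype_commutator, h, ← MonoidHom.range_eq_map, Subgroup.range_subtype]
        have hab : ∀ a ∈ M, ∀ b ∈ M, a * b = b * a := by
          intro a ha b hb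
          have h1 := (Subgroup.commutator_eq_bot_iff_le_centralizer.mp hcomm2) ha
          exact (Subgroup.mem_centralizer_iff.mp h1 b hb).symm
        exact solvable_of_abelian_normal hCA M hM1 hab IH

end CfsgLib.Char
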