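import Mathlib
import Cfsg.Agent.Lib.Char.Linear

/-!
# Congruences of character values modulo `1 - ε`
-/

set_option linter.unusedSectionVars false
set_option linter.style.haveILetI false
set_option linter.unusedSimpArgs false

namespace CfsgLib.Char

open Cfsg

variable {G : Type*} [Group G] [Finite G]

theorem exists_int_of_hom_value (p : ℕ) (hp : p.Prime) {A : Type*} [Group A] [Finite A] (l : A →* ℂˣ)
    (x y : A) (hx : x ^ p = 1) :
    ∃ ω : ℂ, IsIntegral ℤ ω ∧ ((l (x * y) : ℂˣ) : ℂ) - ((l y : ℂˣ) : ℂ) =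
      (1 - Complex.exp (2 * Real.pi * Complex.I / p)) * ω := by
  haveI : NeZero p := ⟨hp.ne_zero⟩
  have hε := Complex.isPrimitiveRoot_exp p hp.ne_zero
  set ε := Complex.exp (2 * Real.pi * Complex.I / p) with hεdef
  have hlx : ((l x : ℂˣ) : ℂ) ^ p = 1 := by
    rw [← Units.val_pow_eq_pow_val, ← map_pow, hx, map_one, Units.val_one]
  obtain ⟨k, -, hk⟩ := hε.eq_pow_of_pow_eq_one hlx
  have hεint : IsIntegral ℤ ε := (hε.isIntegral (Nat.pos_of_ne_zero hp.ne_zero))
  have hyint : IsIntegral ℤ ((l y : ℂˣ) : ℂ) := by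
    have h1 : ((l y : ℂˣ) : ℂ) ^ Nat.card A = 1 := by
      rw [← Units.val_pow_eq_pow_val, ← map_pow, pow_card_eq_one', map_one, Units.val_one]
    exact IsIntegral.of_pow Nat.card_pos (by rw [h1]; exact isIntegral_one)
  refine ⟨-(((l y : ℂˣ) : ℂ) * ∑ i ∈ Finset.range k, ε ^ i), ?_, ?_⟩
  · refine IsIntegral.neg (IsIntegral.mul hyint ?_)
    exact IsIntegral.sum _ fun i _ => hεint.pow i
  · rw [map_mul, Units.val_mul, ← hk]
    have := mul_geom_sum ε k
    rw [← sub_eq_zero]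
    linear_combination ((l y : ℂˣ) : ℂ) * (-this)

theorem exists_int_of_character_value (p : ℕ) (hp : p.Prime) {χ : G → ℂ} (hχ : IsCharacter G χ)
    (x y : G) (hx : orderOf x = p) (hxy : x * y = y * x) :
    ∃ ω : ℂ, IsIntegral ℤ ω ∧ χ (x * y) - χ y =
      (1 - Complex.exp (2 * Real.pi * Complex.I / p)) * ω := by
  classical
  set A : Subgroup G := Subgroup.closure {x, y} with hA
  have hxA : x ∈ A := Subgroup.subset_closure (by simp)
  have hyA : y ∈ A := Subgroup.subset_closure (by simp)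
  have hcomm : ∀ a b : A, a * b = b * a := by
    have h : ∀ a ∈ ({x, y} : Set G), ∀ b ∈ ({x, y} : Set G), a * b = b * a := by
      intro a ha b hb
      simp only [Set.mem_insert_iff, Set.mem_singleton_iff] at ha hb
      rcases ha with rfl | rfl <;> rcases hb with rfl | rfl
      · rfl
      · exact hxy
      · exact hxy.symm
      · rfl
    intro a b
    letI := Subgroup.closureCommGroupOfComm h
    exact mul_comm a b
  obtain ⟨l, hl, hsum⟩ := (hχ.restrict A).exists_list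
  have key : ∀ l : List (A → ℂ), (∀ ψ ∈ l, IsIrrCharacter A ψ) →
      ∃ ω : ℂ, IsIntegral ℤ ω ∧ l.sum (⟨x, hxA⟩ * ⟨y, hyA⟩) - l.sum ⟨y, hyA⟩ =
        (1 - Complex.exp (2 * Real.pi * Complex.I / p)) * ω := by
    intro l
    induction l with
    | nil => intro _; exact ⟨0, isIntegral_zero, by simp⟩
    | cons ψ l ih =>
      intro hl
      obtain ⟨ω, h1, h2⟩ := ih (fun φ hφ => hl φ (List.mem_cons_of_mem _ hφ))
      have hψ := hl ψ List.mem_cons_self
      obtain ⟨lam, hlam⟩ := exists_hom_of_degree_one hψ.isCharacter (isIrr_degree_one_of_comm hcomm hψ)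
      obtain ⟨ω', h1', h2'⟩ := exists_int_of_hom_value p hp lam ⟨x, hxA⟩ ⟨y, hyA⟩
        (by ext; simp [← hx, pow_orderOf_eq_one])
      refine ⟨ω' + ω, h1'.add h1, ?_⟩
      rw [List.sum_cons, Pi.add_apply, Pi.add_apply, hlam]
      simp only
      rw [mul_add, ← h2, ← h2']
      ring
  obtain ⟨ω, h1, h2⟩ := key l hl
  refine ⟨ω, h1, ?_⟩
  rw [← h2, ← hsum]
  rfl

/-- S1494 -/
theorem virtual_value_congr (p : ℕ) (hp : p.Prime) {χ : G → ℂ} (hχ : IsGeneralizedCharacter G χ)
    (x y : G) (hx : orderOf x = p) (hxy : x * y = y * x) :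
    ∃ ω : ℂ, IsIntegral ℤ ω ∧ χ (x * y) - χ y =
      (1 - Complex.exp (2 * Real.pi * Complex.I / p)) * ω := by
  obtain ⟨a, b, ha, hb, rfl⟩ := hχ
  obtain ⟨ω₁, h1, h2⟩ := exists_int_of_character_value p hp ha x y hx hxy
  obtain ⟨ω₂, h3, h4⟩ := exists_int_of_character_value p hp hb x y hx hxy
  refine ⟨ω₁ - ω₂, h1.sub h3, ?_⟩
  simp only [Pi.sub_apply]
  linear_combination h2 - h4

end CfsgLib.Char
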