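import Cfsg.Agent.Lib.Char.Count
import Cfsg.Agent.Lib.Char.FrobSchur

/-! # A character of large degree controls the involutions (Brauer–Fowler) -/

set_option autoImplicit false
set_option linter.unusedSectionVars false
set_option linter.unusedVariables false
set_option linter.style.haveILetI false
set_option linter.unusedSimpArgs false

namespace CfsgLib.Char

open Cfsg
open scoped ComplexConjugate

universe u

variable {G : Type u} [Group G] [Fintype G]

theorem orderOf_sq_of_odd {y : G} (h : Odd (orderOf y)) : orderOf (y * y) = orderOf y := by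
  rw [← pow_two]
  rw [orderOf_pow' y two_ne_zero]
  have : Nat.gcd (orderOf y) 2 = 1 := Nat.Coprime.symm ((Nat.coprime_two_left).mpr h)
  rw [this, Nat.div_one]

/-- The square root in an element of odd order. -/
noncomputable def oddRoot (y : G) : G := y ^ ((orderOf y + 1) / 2)

theorem oddRoot_sq {y : G} (h : Odd (orderOf y)) : oddRoot y * oddRoot y = y := by
  obtain ⟨k, hk⟩ := h
  have h1 : (orderOf y + 1) / 2 + (orderOf y + 1) / 2 = orderOf y + 1 := by omega
  rw [oddRoot, ← pow_add, h1, pow_succ, pow_orderOf_eq_one, one_mul]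

theorem oddRoot_of_sq {y : G} (h : Odd (orderOf y)) : oddRoot (y * y) = y := by
  rw [oddRoot, orderOf_sq_of_odd h, ← pow_two, ← pow_mul]
  obtain ⟨k, hk⟩ := h
  have h1 : 2 * ((orderOf y + 1) / 2) = orderOf y + 1 := by omega
  rw [h1, pow_succ, pow_orderOf_eq_one, one_mul]

theorem odd_orderOf_oddRoot {y : G} (h : Odd (orderOf y)) : Odd (orderOf (oddRoot y)) := by
  have h1 : orderOf (oddRoot y) ∣ orderOf y := orderOf_pow_dvd _
  exact h.of_dvd_nat h1

section
variable (χ : IrrCharacter G)

/-- The count in the theorem of Brauer and Fowler. -/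
theorem sum_sq_eq_of_vanish (hne : (χ : G → ℂ) ≠ fun _ => 1)
    (hvan : ∀ y : G, ¬ Odd (orderOf y) → y * y ≠ 1 → (χ : G → ℂ) (y * y) = 0)
    (hvan2 : ∀ y : G, ¬ Odd (orderOf y) → (χ : G → ℂ) y = 0) :
    by
      classical
      exact ∑ y : G, (χ : G → ℂ) (y * y) =
        ((Finset.univ.filter fun y : G => orderOf y = 2).card : ℂ) * (χ : G → ℂ) 1 := by
  classical
  set I := Finset.univ.filter fun y : G => orderOf y = 2 with hI
  set T := Finset.univ.filter fun y : G => Odd (orderOf y) ∧ y ≠ 1 with hT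
  have hsq : ∀ y : G, y * y = 1 ↔ y = 1 ∨ orderOf y = 2 := by
    intro y
    constructor
    · intro h
      by_cases hy : y = 1
      · exact Or.inl hy
      · right
        exact orderOf_eq_prime (by rw [pow_two]; exact h) hy
    · rintro (rfl | h)
      · simp
      · rw [← pow_two, ← h]; exact pow_orderOf_eq_one y
  -- decomposition of the sum
  have h1 : ∑ y : G, (χ : G → ℂ) (y * y) =
      ∑ y : G, ((if y = 1 ∨ orderOf y = 2 then (χ : G → ℂ) 1 else 0) +
        if Odd (orderOf y) ∧ y ≠ 1 then (χ : G → ℂ) (y * y) else 0) := by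
    refine Finset.sum_congr rfl fun y _ => ?_
    by_cases hy : y = 1
    · subst hy
      simp
    · by_cases h2 : orderOf y = 2
      · have h3 : ¬ Odd (orderOf y) := by rw [h2]; decide
        rw [if_pos (Or.inr h2), if_neg (fun h => h3 h.1), add_zero, (hsq y).2 (Or.inr h2)]
      · rw [if_neg (by tauto)]
        by_cases h3 : Odd (orderOf y)
        · rw [if_pos ⟨h3, hy⟩, zero_add]
        · rw [if_neg (fun h => h3 h.1), add_zero]
          exact hvan y h3 (fun h => by
            rcases (hsq y).1 h with h4 | h4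
            · exact hy h4
            · exact h2 h4)
  rw [h1, Finset.sum_add_distrib]
  -- first part
  have h2 : ∑ y : G, (if y = 1 ∨ orderOf y = 2 then (χ : G → ℂ) 1 else 0) =
      ((I.card : ℂ) + 1) * (χ : G → ℂ) 1 := by
    rw [Finset.sum_ite, Finset.sum_const_zero, add_zero, Finset.sum_const, nsmul_eq_mul]
    congr 1
    have h3 : Finset.univ.filter (fun y : G => y = 1 ∨ orderOf y = 2) = insert 1 I := by
      ext y
      simp [hI]
    rw [h3, Finset.card_insert_of_notMem (by simp [hI])]
    push_cast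
    ring
  -- the second part
  have h3 : ∑ y : G, (if Odd (orderOf y) ∧ y ≠ 1 then (χ : G → ℂ) (y * y) else 0) = ∑ y ∈ T, (χ : G → ℂ) y := by
    rw [← Finset.sum_filter]
    refine Finset.sum_nbij' (fun y => y * y) oddRoot ?_ ?_ ?_ ?_ ?_
    · intro y hy
      simp only [hT, Finset.mem_filter, Finset.mem_univ, true_and] at hy ⊢
      refine ⟨by rw [orderOf_sq_of_odd hy.1]; exact hy.1, ?_⟩
      intro h
      have := oddRoot_of_sq hy.1
      rw [h] at this
      apply hy.2
      rw [← this]
      simp [oddRoot]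
    · intro y hy
      simp only [hT, Finset.mem_filter, Finset.mem_univ, true_and] at hy ⊢
      refine ⟨odd_orderOf_oddRoot hy.1, ?_⟩
      intro h
      have := oddRoot_sq hy.1
      rw [h] at this
      exact hy.2 (by rw [← this]; simp)
    · intro y hy
      simp only [hT, Finset.mem_filter, Finset.mem_univ, true_and] at hy
      exact oddRoot_of_sq hy.1
    · intro y hy
      simp only [hT, Finset.mem_filter, Finset.mem_univ, true_and] at hy
      exact oddRoot_sq hy.1
    · intro y hy
      rfl
  have h4 : ∑ y : G, (χ : G → ℂ) y = 0 := by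
    have h5 := classInner_irr_ne χ.2 (isIrrCharacter_one (G := G)) hne
    rw [classInner_def] at h5
    have h6 : (Nat.card G : ℂ) ≠ 0 := Nat.cast_ne_zero.mpr Nat.card_pos.ne'
    simp only [map_one, mul_one] at h5
    rcases mul_eq_zero.mp h5 with h7 | h7
    · exact absurd h7 (inv_ne_zero h6)
    · exact h7
  have h5 : ∑ y ∈ T, (χ : G → ℂ) y = - (χ : G → ℂ) 1 := by
    have h6 : ∑ y : G, (χ : G → ℂ) y = (χ : G → ℂ) 1 + ∑ y ∈ T, (χ : G → ℂ) y := by
      have h7 : ∑ y : G, (χ : G → ℂ) y = ∑ y : G, ((if y = 1 then (χ : G → ℂ) 1 else 0) +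
          if Odd (orderOf y) ∧ y ≠ 1 then (χ : G → ℂ) y else 0) := by
        refine Finset.sum_congr rfl fun y _ => ?_
        by_cases hy : y = 1
        · subst hy; simp
        · rw [if_neg hy, zero_add]
          by_cases h3 : Odd (orderOf y)
          · rw [if_pos ⟨h3, hy⟩]
          · rw [if_neg (fun h => h3 h.1)]
            exact hvan2 y h3
      rw [h7, Finset.sum_add_distrib, Finset.sum_ite_eq' Finset.univ (1 : G), if_pos (Finset.mem_univ _),
        ← Finset.sum_filter]
    rw [h4] at h6
    linear_combination -h6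
  rw [h2, h3, h5]
  ring

end

/-- **Brauer–Fowler.** -/
theorem involutions_of_large_degree (heven : Even (Nat.card G)) (χ : IrrCharacter G)
    (h2 : 2 ^ (Nat.card G).factorization 2 ∣ charDegree (χ : G → ℂ))
    (hp : ∀ p : ℕ, p.Prime → p ≠ 2 → (∃ g : G, orderOf g = 2 * p) →
      p ^ (Nat.card G).factorization p ∣ charDegree (χ : G → ℂ)) :
    (∀ s t : G, orderOf s = 2 → orderOf t = 2 → IsConj s t) ∧
    (∀ s : G, orderOf s = 2 → Nat.card (Subgroup.centralizer ({s} : Set G)) = charDegree (χ : G → ℂ) ∧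
      (Nat.card (Subgroup.centralizer ({s} : Set G))).Coprime (Subgroup.centralizer ({s} : Set G)).index) ∧
    (Nat.card G : ℂ)⁻¹ * ∑ g : G, (χ : G → ℂ) (g * g) = 1 := by
  classical
  set x := charDegree (χ : G → ℂ) with hx
  have hx0 : 0 < x := charDegree_pos χ
  have hG0 : Nat.card G ≠ 0 := Nat.card_pos.ne'
  have hχ1 : (χ : G → ℂ) 1 = x := irr_one_eq_charDegree χ
  have hx0' : x ≠ 0 := hx0.ne'
  have hfull : ∀ r : ℕ, r.Prime → (r = 2 ∨ ∃ g : G, orderOf g = 2 * r) → r ^ (Nat.card G).factorization r ∣ x := by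
    rintro r hr (rfl | h)
    · exact h2
    · by_cases h3 : r = 2
      · rw [h3]; exact h2
      · exact hp r hr h3 h
  have hvanr : ∀ r : ℕ, r.Prime → (r = 2 ∨ ∃ g : G, orderOf g = 2 * r) → ∀ g : G, r ∣ orderOf g → (χ : G → ℂ) g = 0 := by
    intro r hr hh g hg
    exact defect_zero_vanish χ.2 r _ hr x hχ1 hx0' (Nat.ordProj_dvd _ r)
      (Nat.pow_succ_factorization_not_dvd hG0 hr) (hfull r hr hh) g hg
  have hvan2 : ∀ y : G, ¬ Odd (orderOf y) → (χ : G → ℂ) y = 0 := by
    intro y hy
    refine hvanr 2 Nat.prime_two (Or.inl rfl) y ?_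
    exact even_iff_two_dvd.mp (Nat.not_odd_iff_even.mp hy)
  have hvan : ∀ y : G, ¬ Odd (orderOf y) → y * y ≠ 1 → (χ : G → ℂ) (y * y) = 0 := by
    intro y hy hyy
    by_cases h3 : Odd (orderOf (y * y))
    · have h4 : orderOf (y * y) ≠ 1 := by
        intro h; exact hyy (orderOf_eq_one_iff.mp h)
      set r := (orderOf (y * y)).minFac with hr
      have hrp : r.Prime := Nat.minFac_prime h4
      have hrd : r ∣ orderOf (y * y) := Nat.minFac_dvd _
      refine hvanr r hrp (Or.inr ?_) _ hrd
      have hev : 2 ∣ orderOf y := even_iff_two_dvd.mp (Nat.not_odd_iff_even.mp hy)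
      have h5 : orderOf (y * y) = orderOf y / 2 := by
        rw [← pow_two]
        exact orderOf_pow_of_dvd two_ne_zero hev
      obtain ⟨m, hm⟩ := hev
      have h6 : orderOf (y * y) = m := by rw [h5, hm]; simp
      obtain ⟨n, hn⟩ := hrd
      have hn0 : n ≠ 0 := by
        rintro rfl
        rw [mul_zero] at hn
        rw [hn] at h3
        simp at h3
      refine ⟨y ^ n, ?_⟩
      rw [orderOf_pow_of_dvd hn0 (by rw [hm, ← h6, hn]; exact Dvd.intro_left (2 * r) (by ring)), hm, ← h6, hn]
      rw [show 2 * (r * n) = (2 * r) * n by ring]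
      exact Nat.mul_div_cancel _ (Nat.pos_of_ne_zero hn0)
    · refine hvan2 _ h3
  have hne : (χ : G → ℂ) ≠ fun _ => 1 := by
    intro h
    have h3 : (χ : G → ℂ) 1 = 1 := by rw [h]
    rw [hχ1] at h3
    have h4 : x = 1 := by exact_mod_cast h3
    have h5 : 2 ∣ Nat.card G := even_iff_two_dvd.mp heven
    have h6 : 2 ^ 1 ∣ 2 ^ (Nat.card G).factorization 2 :=
      pow_dvd_pow 2 ((Nat.prime_two.dvd_iff_one_le_factorization hG0).mp h5)
    have h7 := (h6.trans h2)
    rw [h4] at h7
    norm_num at h7
  set I := Finset.univ.filter fun y : G => orderOf y = 2 with hI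
  have hsum := sum_sq_eq_of_vanish χ hne hvan hvan2
  have hexI : ∃ s : G, orderOf s = 2 := exists_prime_orderOf_dvd_card' (G := G) 2 (even_iff_two_dvd.mp heven)
  have hIpos : 0 < I.card := by
    obtain ⟨s, hs⟩ := hexI
    exact Finset.card_pos.mpr ⟨s, by simp [hI, hs]⟩
  have hfs := (fs_trichotomy χ.2).1
  have hv : (Nat.card G : ℂ)⁻¹ * ∑ g : G, (χ : G → ℂ) (g * g) = (I.card * x : ℕ) / (Nat.card G : ℂ) := by
    have : ∑ y : G, (χ : G → ℂ) (y * y) = ((I.card : ℂ)) * (χ : G → ℂ) 1 := by
      convert hsum using 2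
    rw [this, hχ1]
    push_cast
    field_simp
  have hG0' : (Nat.card G : ℂ) ≠ 0 := Nat.cast_ne_zero.mpr hG0
  have hval : (Nat.card G : ℂ)⁻¹ * ∑ g : G, (χ : G → ℂ) (g * g) = 1 := by
    rcases hfs with h | h | h
    · exfalso
      rw [hv] at h
      rcases div_eq_zero_iff.mp h with h3 | h3
      · have h4 : I.card * x = 0 := by exact_mod_cast h3
        exact (mul_ne_zero hIpos.ne' hx0') h4
      · exact hG0' h3
    · exact h
    · exfalso
      rw [hv, div_eq_iff hG0'] at h
      have h4 : ((I.card * x : ℕ) : ℤ) = -(Nat.card G : ℤ) := by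
        have : ((I.card * x : ℕ) : ℂ) = ((-(Nat.card G : ℤ) : ℤ) : ℂ) := by
          rw [h]; push_cast; ring
        exact_mod_cast this
      have h5 : (0 : ℤ) < (Nat.card G : ℤ) := by exact_mod_cast Nat.card_pos
      have h6 : (0 : ℤ) ≤ ((I.card * x : ℕ) : ℤ) := Int.natCast_nonneg _
      omega
  have hcount : I.card * x = Nat.card G := by
    rw [hv, div_eq_one_iff_eq hG0'] at hval
    exact_mod_cast hval
  -- the centraliser divides the degree
  have hCdvd : ∀ s : G, orderOf s = 2 → ∀ r : ℕ, r.Prime → r ∣ Nat.card (Subgroup.centralizer ({s} : Set G)) →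
      (r = 2 ∨ ∃ g : G, orderOf g = 2 * r) := by
    intro s hs r hr hd
    by_cases hr2 : r = 2
    · exact Or.inl hr2
    right
    haveI : Fact r.Prime := ⟨hr⟩
    obtain ⟨u, hu⟩ := exists_prime_orderOf_dvd_card' r hd
    have huo : orderOf (u : G) = r := by rw [Subgroup.orderOf_coe]; exact hu
    have hc : Commute (u : G) s := by
      have := Subgroup.mem_centralizer_singleton_iff.mp u.2
      exact this
    have hcop : (orderOf (u : G)).Coprime (orderOf s) := by
      rw [huo, hs]
      exact (Nat.coprime_primes hr Nat.prime_two).mpr hr2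
    refine ⟨(u : G) * s, ?_⟩
    rw [hc.orderOf_mul_eq_mul_orderOf_of_coprime hcop, huo, hs, mul_comm]
  have hCeq : ∀ s : G, orderOf s = 2 → Nat.card (Subgroup.centralizer ({s} : Set G)) ∣ x := by
    intro s hs
    have hC0 : Nat.card (Subgroup.centralizer ({s} : Set G)) ≠ 0 := Nat.card_pos.ne'
    rw [← Nat.factorization_prime_le_iff_dvd hC0 hx0']
    intro r hr
    by_cases hd : r ∣ Nat.card (Subgroup.centralizer ({s} : Set G))
    · have h3 := hfull r hr (hCdvd s hs r hr hd)
      have h4 := (hr.pow_dvd_iff_le_factorization hx0').mp h3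
      have h5 : Nat.card (Subgroup.centralizer ({s} : Set G)) ∣ Nat.card G := Subgroup.card_subgroup_dvd_card _
      exact ((Nat.factorization_le_iff_dvd hC0 hG0).mpr h5 r).trans h4
    · rw [Nat.factorization_eq_zero_of_not_dvd hd]
      exact Nat.zero_le _
  have hKI : ∀ s : G, orderOf s = 2 → (Finset.univ.filter fun y : G => IsConj s y) ⊆ I := by
    intro s hs y hy
    simp only [Finset.mem_filter, Finset.mem_univ, true_and, hI] at hy ⊢
    obtain ⟨c, rfl⟩ := isConj_iff.mp hy
    rw [← hs]
    exact orderOf_injective (MulAut.conj c).toMonoidHom (MulAut.conj c).injective s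
  have hclass : ∀ s : G, (Finset.univ.filter fun y : G => IsConj s y).card *
      Nat.card (Subgroup.centralizer ({s} : Set G)) = Nat.card G := by
    intro s
    rw [← card_class_mul_card_centralizer s, Nat.card_eq_fintype_card (α := {x // IsConj s x}),
      Fintype.card_subtype]
  have hCx : ∀ s : G, orderOf s = 2 → Nat.card (Subgroup.centralizer ({s} : Set G)) = x := by
    intro s hs
    have h3 := Nat.le_of_dvd hx0 (hCeq s hs)
    have h4 := hclass s
    have h5 := Finset.card_le_card (hKI s hs)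
    have hK0 : 0 < (Finset.univ.filter fun y : G => IsConj s y).card :=
      Finset.card_pos.mpr ⟨s, Finset.mem_filter.mpr ⟨Finset.mem_univ _, IsConj.refl s⟩⟩
    have h6 : (Finset.univ.filter fun y : G => IsConj s y).card * x ≤
        (Finset.univ.filter fun y : G => IsConj s y).card * Nat.card (Subgroup.centralizer ({s} : Set G)) := by
      rw [h4, ← hcount]
      by_contra hlt
      push Not at hlt
      have h7 := Nat.lt_of_mul_lt_mul_right hlt
      omega
    exact le_antisymm h3 (Nat.le_of_mul_le_mul_left h6 hK0)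
  refine ⟨?_, ?_, hval⟩
  · intro s t hs ht
    have h3 := hclass s
    rw [hCx s hs, ← hcount] at h3
    have h4 := Nat.eq_of_mul_eq_mul_right hx0 h3
    have h5 := Finset.eq_of_subset_of_card_le (hKI s hs) (le_of_eq h4.symm)
    have h6 : t ∈ I := by simp [hI, ht]
    rw [← h5] at h6
    simpa using h6
  · intro s hs
    refine ⟨hCx s hs, ?_⟩
    refine Nat.coprime_of_dvd fun r hr h3 h4 => ?_
    have h5 := hfull r hr (hCdvd s hs r hr h3)
    rw [hCx s hs] at h3 
    have h6 := Subgroup.card_mul_index (Subgroup.centralizer ({s} : Set G))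
    rw [hCx s hs] at h6
    obtain ⟨c, hc⟩ := h5
    have h7 := (hr.pow_dvd_iff_le_factorization hG0).mp (Nat.ordProj_dvd (Nat.card G) r)
    have h8 : ¬ r ^ ((Nat.card G).factorization r + 1) ∣ Nat.card G := Nat.pow_succ_factorization_not_dvd hG0 hr
    apply h8
    have h9 : r ^ (Nat.card G).factorization r * r ∣ x * (Subgroup.centralizer ({s} : Set G)).index := by
      rw [hc, mul_assoc]
      exact mul_dvd_mul_left _ (h4.trans (Dvd.intro_left _ rfl))
    rw [h6] at h9
    rw [pow_succ]
    exact h9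

end CfsgLib.Char
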