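import Cfsg.Agent.Lib.Char.CycFew

set_option autoImplicit false
set_option linter.all false

open Cfsg
open scoped ComplexConjugate

namespace CfsgLib.Char

section Homs

variable {G : Type*} [Group G] {W₁ W₂ : Subgroup G}

/-- homs trivial on `W₂` -/
abbrev HomA (W₁ W₂ : Subgroup G) := {φ : ↥(W₁ ⊔ W₂) →* ℂˣ // ∀ w : ↥(W₁ ⊔ W₂), (w : G) ∈ W₂ → φ w = 1}

/-- homs trivial on `W₁` -/
abbrev HomB (W₁ W₂ : Subgroup G) := {ψ : ↥(W₁ ⊔ W₂) →* ℂˣ // ∀ w : ↥(W₁ ⊔ W₂), (w : G) ∈ W₁ → ψ w = 1}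

/-- first component -/
noncomputable def homPA (hdisj : W₁ ⊓ W₂ = ⊥) (hcomm : ∀ a ∈ W₁, ∀ b ∈ W₂, a * b = b * a)
    (ω : ↥(W₁ ⊔ W₂) →* ℂˣ) : HomA W₁ W₂ :=
  ⟨ω.comp (proj₁ hdisj hcomm), fun w hw => by simp [proj₁_of_mem_right hdisj hcomm w hw]⟩

/-- second component -/
noncomputable def homPB (hdisj : W₁ ⊓ W₂ = ⊥) (hcomm : ∀ a ∈ W₁, ∀ b ∈ W₂, a * b = b * a)
    (ω : ↥(W₁ ⊔ W₂) →* ℂˣ) : HomB W₁ W₂ :=
  ⟨ω.comp (proj₂ hdisj hcomm), fun w hw => by simp [proj₂_of_mem_left hdisj hcomm w hw]⟩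

theorem homPA_mul_homPB (hdisj : W₁ ⊓ W₂ = ⊥) (hcomm : ∀ a ∈ W₁, ∀ b ∈ W₂, a * b = b * a)
    (ω : ↥(W₁ ⊔ W₂) →* ℂˣ) : (homPA hdisj hcomm ω).1 * (homPB hdisj hcomm ω).1 = ω := by
  ext w
  have := proj_mul hdisj hcomm w
  simp only [homPA, homPB, MonoidHom.mul_apply, MonoidHom.comp_apply]
  rw [← map_mul, this]

theorem homPA_of_mul (hdisj : W₁ ⊓ W₂ = ⊥) (hcomm : ∀ a ∈ W₁, ∀ b ∈ W₂, a * b = b * a)
    (φ : HomA W₁ W₂) (ψ : HomB W₁ W₂) : homPA hdisj hcomm (φ.1 * ψ.1) = φ := by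
  have h := homPA_mul_homPB hdisj hcomm (φ.1 * ψ.1)
  exact Subtype.ext (hom_pair_unique hcomm (homPA hdisj hcomm (φ.1 * ψ.1)).2 φ.2 (homPB hdisj hcomm (φ.1 * ψ.1)).2 ψ.2 h).1

theorem homPB_of_mul (hdisj : W₁ ⊓ W₂ = ⊥) (hcomm : ∀ a ∈ W₁, ∀ b ∈ W₂, a * b = b * a)
    (φ : HomA W₁ W₂) (ψ : HomB W₁ W₂) : homPB hdisj hcomm (φ.1 * ψ.1) = ψ := by
  have h := homPA_mul_homPB hdisj hcomm (φ.1 * ψ.1)
  exact Subtype.ext (hom_pair_unique hcomm (homPA hdisj hcomm (φ.1 * ψ.1)).2 φ.2 (homPB hdisj hcomm (φ.1 * ψ.1)).2 ψ.2 h).2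

/-- The decomposition of the dual. -/
noncomputable def homEquiv (hdisj : W₁ ⊓ W₂ = ⊥) (hcomm : ∀ a ∈ W₁, ∀ b ∈ W₂, a * b = b * a) :
    HomA W₁ W₂ × HomB W₁ W₂ ≃ (↥(W₁ ⊔ W₂) →* ℂˣ) where
  toFun p := p.1.1 * p.2.1
  invFun ω := (homPA hdisj hcomm ω, homPB hdisj hcomm ω)
  left_inv p := by
    apply Prod.ext
    · exact homPA_of_mul hdisj hcomm p.1 p.2
    · exact homPB_of_mul hdisj hcomm p.1 p.2
  right_inv ω := homPA_mul_homPB hdisj hcomm ω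

theorem card_homA_ge [Finite G] (hdisj : W₁ ⊓ W₂ = ⊥) (hcomm : ∀ a ∈ W₁, ∀ b ∈ W₂, a * b = b * a)
    (hW1ab : ∀ a b : W₁, a * b = b * a) : Nat.card W₁ ≤ Nat.card (HomA W₁ W₂) := by
  letI : Fintype W₁ := Fintype.ofFinite _
  rw [← card_hom_of_comm hW1ab]
  apply Nat.card_le_card_of_injective (fun l : W₁ →* ℂˣ =>
    (⟨l.comp ((MonoidHom.fst W₁ W₂).comp (supEquiv hdisj hcomm).symm.toMonoidHom), ?_⟩ : HomA W₁ W₂))
  · intro l l' hll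
    ext a
    have := congrArg (fun t : HomA W₁ W₂ => t.1 ⟨a, (le_sup_left : W₁ ≤ W₁ ⊔ W₂) a.2⟩) hll
    have hs : (supEquiv hdisj hcomm).symm ⟨(a : G), (le_sup_left : W₁ ≤ W₁ ⊔ W₂) a.2⟩ = (a, 1) := by
      rw [MulEquiv.symm_apply_eq]
      apply Subtype.ext
      show (a : G) = (a : G) * ((1 : W₂) : G)
      simp
    simp only [MonoidHom.comp_apply] at this
    simp only [MulEquiv.coe_toMonoidHom, hs] at this
    simpa using congrArg Units.val this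
  · intro w hw
    have hs : (supEquiv hdisj hcomm).symm w = (1, ⟨w, hw⟩) := by
      rw [MulEquiv.symm_apply_eq]
      apply Subtype.ext
      show (w : G) = ((1 : W₁) : G) * (w : G)
      simp
    simp [hs]

theorem card_homB_ge [Finite G] (hdisj : W₁ ⊓ W₂ = ⊥) (hcomm : ∀ a ∈ W₁, ∀ b ∈ W₂, a * b = b * a)
    (hW2ab : ∀ a b : W₂, a * b = b * a) : Nat.card W₂ ≤ Nat.card (HomB W₁ W₂) := by
  letI : Fintype W₂ := Fintype.ofFinite _
  rw [← card_hom_of_comm hW2ab]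
  apply Nat.card_le_card_of_injective (fun l : W₂ →* ℂˣ =>
    (⟨l.comp ((MonoidHom.snd W₁ W₂).comp (supEquiv hdisj hcomm).symm.toMonoidHom), ?_⟩ : HomB W₁ W₂))
  · intro l l' hll
    ext a
    have := congrArg (fun t : HomB W₁ W₂ => t.1 ⟨a, (le_sup_right : W₂ ≤ W₁ ⊔ W₂) a.2⟩) hll
    have hs : (supEquiv hdisj hcomm).symm ⟨(a : G), (le_sup_right : W₂ ≤ W₁ ⊔ W₂) a.2⟩ = (1, a) := by
      rw [MulEquiv.symm_apply_eq]
      apply Subtype.ext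
      show (a : G) = ((1 : W₁) : G) * (a : G)
      simp
    simp only [MonoidHom.comp_apply] at this
    simp only [MulEquiv.coe_toMonoidHom, hs] at this
    simpa using congrArg Units.val this
  · intro w hw
    have hs : (supEquiv hdisj hcomm).symm w = (⟨w, hw⟩, 1) := by
      rw [MulEquiv.symm_apply_eq]
      apply Subtype.ext
      show (w : G) = (w : G) * ((1 : W₂) : G)
      simp
    simp [hs]

theorem card_homA_eq [Finite G] (hdisj : W₁ ⊓ W₂ = ⊥) (hcomm : ∀ a ∈ W₁, ∀ b ∈ W₂, a * b = b * a)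
    (hWab : ∀ a b : ↥(W₁ ⊔ W₂), a * b = b * a) : Nat.card (HomA W₁ W₂) = Nat.card W₁ := by
  letI : Fintype ↥(W₁ ⊔ W₂) := Fintype.ofFinite _
  have hW1ab : ∀ a b : W₁, a * b = b * a := by
    intro a b
    apply Subtype.ext
    have := congrArg (fun t : ↥(W₁ ⊔ W₂) => (t : G)) (hWab ⟨a, (le_sup_left : W₁ ≤ W₁ ⊔ W₂) a.2⟩ ⟨b, (le_sup_left : W₁ ≤ W₁ ⊔ W₂) b.2⟩)
    exact this
  have hW2ab : ∀ a b : W₂, a * b = b * a := by
    intro a b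
    apply Subtype.ext
    have := congrArg (fun t : ↥(W₁ ⊔ W₂) => (t : G)) (hWab ⟨a, (le_sup_right : W₂ ≤ W₁ ⊔ W₂) a.2⟩ ⟨b, (le_sup_right : W₂ ≤ W₁ ⊔ W₂) b.2⟩)
    exact this
  have h1 := card_homA_ge hdisj hcomm hW1ab
  have h2 := card_homB_ge hdisj hcomm hW2ab
  have h3 : Nat.card (HomA W₁ W₂) * Nat.card (HomB W₁ W₂) = Nat.card W₁ * Nat.card W₂ := by
    rw [← Nat.card_prod, Nat.card_congr (homEquiv hdisj hcomm), card_hom_of_comm hWab, ← Nat.card_prod]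
    exact (Nat.card_congr (supEquiv hdisj hcomm).toEquiv).symm
  have h4 : 0 < Nat.card W₁ := Nat.card_pos
  have h5 : 0 < Nat.card W₂ := Nat.card_pos
  by_contra hne
  have h6 : Nat.card W₁ < Nat.card (HomA W₁ W₂) := lt_of_le_of_ne h1 (Ne.symm hne)
  have : Nat.card W₁ * Nat.card W₂ < Nat.card (HomA W₁ W₂) * Nat.card (HomB W₁ W₂) :=
    Nat.mul_lt_mul_of_lt_of_le h6 h2 (lt_of_lt_of_le h5 h2)
  omega

end Homs

section Fourier

variable {A : Type*} [Group A] [Fintype A]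

open Classical in
/-- Fourier inversion on an abelian group. -/
theorem fourier_abelian (hA : ∀ a b : A, a * b = b * a) [Fintype (A →* ℂˣ)] (Θ : A → ℂ) (y : A) :
    Θ y = ∑ l : A →* ℂˣ, ((l y : ℂˣ) : ℂ) * classInner Θ (homFun l) := by
  have hne : (Nat.card A : ℂ) ≠ 0 := card_ne_zero_C A
  simp only [classInner_def]
  have : ∀ l : A →* ℂˣ, ((l y : ℂˣ) : ℂ) * ((Nat.card A : ℂ)⁻¹ * ∑ x, Θ x * conj (homFun l x)) =
      (Nat.card A : ℂ)⁻¹ * ∑ x, Θ x * (((l y : ℂˣ) : ℂ) * conj ((l x : ℂˣ) : ℂ)) := by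
    intro l
    rw [mul_left_comm, Finset.mul_sum]
    congr 1
    refine Finset.sum_congr rfl fun x _ => ?_
    simp only [homFun]
    ring
  simp only [this]
  rw [← Finset.mul_sum, Finset.sum_comm]
  simp only [← Finset.mul_sum, sum_hom_orth hA]
  rw [Finset.sum_eq_single y]
  · rw [if_pos rfl]
    field_simp
  · intro b _ hb
    rw [if_neg (Ne.symm hb), mul_zero]
  · intro h
    exact absurd (Finset.mem_univ _) h

end Fourier

section Sum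

variable {G : Type*} [Group G] {W₁ W₂ : Subgroup G}

open Classical in
/-- The sum of the homs trivial on `W₂` vanishes outside `W₂`. -/
theorem sum_homA_eq_zero [Finite G] (hdisj : W₁ ⊓ W₂ = ⊥) (hcomm : ∀ a ∈ W₁, ∀ b ∈ W₂, a * b = b * a)
    (hWab : ∀ a b : ↥(W₁ ⊔ W₂), a * b = b * a) [Fintype ↥(W₁ ⊔ W₂)] [Fintype (↥(W₁ ⊔ W₂) →* ℂˣ)]
    [Fintype (HomA W₁ W₂)] [Fintype (HomB W₁ W₂)] (y : ↥(W₁ ⊔ W₂)) (hy : (y : G) ∉ W₂) :
    ∑ φ : HomA W₁ W₂, ((φ.1 y : ℂˣ) : ℂ) = 0 := by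
  set z := proj₁ hdisj hcomm y with hz
  have hz1 : z ≠ 1 := by
    intro h
    apply hy
    have := proj_mul hdisj hcomm y
    rw [← hz, h, one_mul] at this
    rw [← this]
    exact proj₂_mem hdisj hcomm y
  have h1 := sum_hom_orth hWab z 1
  rw [if_neg hz1] at h1
  simp only [map_one, Units.val_one, map_one, mul_one] at h1
  rw [← (homEquiv hdisj hcomm).sum_comp, Fintype.sum_prod_type] at h1
  have hval : ∀ (φ : HomA W₁ W₂) (ψ : HomB W₁ W₂), (((homEquiv hdisj hcomm (φ, ψ)) z : ℂˣ) : ℂ) = ((φ.1 y : ℂˣ) : ℂ) := by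
    intro φ ψ
    show (((φ.1 * ψ.1) z : ℂˣ) : ℂ) = _
    have h2 : ψ.1 z = 1 := ψ.2 z (proj₁_mem hdisj hcomm y)
    have h3 : φ.1 y = φ.1 z := by
      have := proj_mul hdisj hcomm y
      conv_lhs => rw [← this]
      rw [map_mul, φ.2 _ (proj₂_mem hdisj hcomm y), mul_one]
    rw [MonoidHom.mul_apply, h2, mul_one, h3]
  simp only [hval] at h1
  simp only [Finset.sum_const, Finset.card_univ] at h1
  rw [← Finset.smul_sum] at h1
  haveI : Nonempty (HomB W₁ W₂) := ⟨⟨1, fun _ _ => rfl⟩⟩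
  have hpos : Fintype.card (HomB W₁ W₂) ≠ 0 := Fintype.card_ne_zero (α := HomB W₁ W₂) 
  rcases smul_eq_zero.mp h1 with h | h
  · exact absurd h hpos
  · exact h

end Sum

section Main

variable {L : Type*} [Group L]

/-- The TI property of `W \ W₂`. -/
theorem mem_sup_of_conj_mem [Finite L] (K W₁ W₂ : Subgroup L) [hK : K.Normal] (hKW₁ : K ⊓ W₁ = ⊥)
    (hKW₁' : K ⊔ W₁ = ⊤) (hW₁c : IsCyclic W₁) (hHall : Nat.Coprime (Nat.card W₁) W₁.index)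
    (hW₂K : W₂ ≤ K) (hC : ∀ x ∈ W₁, x ≠ 1 → K ⊓ Subgroup.centralizer ({x} : Set L) = W₂)
    (hcomm : ∀ a ∈ W₁, ∀ b ∈ W₂, a * b = b * a) {g x₀ : L} (hx : x₀ ∈ W₁ ⊔ W₂) (hx2 : x₀ ∉ W₂)
    (hy : g * x₀ * g⁻¹ ∈ W₁ ⊔ W₂) : g ∈ W₁ ⊔ W₂ := by
  classical
  have hW₁comm : ∀ a ∈ W₁, ∀ c ∈ W₁, c * a = a * c := by
    intro a ha c hc
    letI := IsCyclic.commGroup (α := W₁)
    exact congrArg Subtype.val (mul_comm (⟨c, hc⟩ : W₁) ⟨a, ha⟩)
  have hcompl : Subgroup.IsComplement' K W₁ := by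
    apply Subgroup.isComplement'_of_disjoint_and_mul_eq_univ
    · rw [disjoint_iff]; exact hKW₁
    · rw [← Subgroup.normal_mul, hKW₁']; rfl
  have hindex : W₁.index = Nat.card K := hcompl.index_eq_card
  have hcop : Nat.Coprime (Nat.card W₁) (Nat.card W₂) := by
    rw [hindex] at hHall
    exact Nat.Coprime.coprime_dvd_right (Subgroup.card_dvd_of_le hW₂K) hHall
  obtain ⟨a, ha, b, hb, hab⟩ := mem_sup_factor hcomm hx
  have ha1 : a ≠ 1 := by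
    rintro rfl
    apply hx2
    rw [hab, one_mul]
    exact hb
  obtain ⟨a', ha', b', hb', hab'⟩ := mem_sup_factor hcomm hy
  have hg' : g ∈ K ⊔ W₁ := by rw [hKW₁']; trivial
  obtain ⟨k, hk, c, hc, hkc⟩ := Subgroup.mem_sup_of_normal_left.mp hg'
  have hk1 : a⁻¹ * k * a * k⁻¹ ∈ K := by
    apply K.mul_mem _ (K.inv_mem hk)
    have := hK.conj_mem k hk a⁻¹
    simpa using this
  have hk2 : g * b * g⁻¹ ∈ K := hK.conj_mem b (hW₂K hb) g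
  have hgag : g * a * g⁻¹ = k * a * k⁻¹ := by
    rw [← hkc]
    calc k * c * a * (k * c)⁻¹ = k * (c * a) * c⁻¹ * k⁻¹ := by group
      _ = k * (a * c) * c⁻¹ * k⁻¹ := by rw [hW₁comm a ha c hc]
      _ = k * a * k⁻¹ := by group
  have hyform : a' * b' = a * ((a⁻¹ * k * a * k⁻¹) * (g * b * g⁻¹)) := by
    rw [← hab', hab]
    calc g * (a * b) * g⁻¹ = (g * a * g⁻¹) * (g * b * g⁻¹) := by group
      _ = (k * a * k⁻¹) * (g * b * g⁻¹) := by rw [hgag]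
      _ = a * ((a⁻¹ * k * a * k⁻¹) * (g * b * g⁻¹)) := by group
  have h1 : a⁻¹ * a' ∈ K := by
    have h2 : a⁻¹ * a' = ((a⁻¹ * k * a * k⁻¹) * (g * b * g⁻¹)) * b'⁻¹ := by
      have h3 : a⁻¹ * (a' * b') = (a⁻¹ * k * a * k⁻¹) * (g * b * g⁻¹) := by
        rw [hyform]; group
      rw [← h3]; group
    rw [h2]
    exact K.mul_mem (K.mul_mem hk1 hk2) (K.inv_mem (hW₂K hb'))
  have h2 : a⁻¹ * a' ∈ K ⊓ W₁ := ⟨h1, W₁.mul_mem (W₁.inv_mem ha) ha'⟩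
  rw [hKW₁, Subgroup.mem_bot, inv_mul_eq_one] at h2
  set n₁ := Nat.card W₁ with hn₁
  set n₂ := Nat.card W₂ with hn₂
  let m : ℕ := (Nat.chineseRemainder hcop 1 0 : ℕ)
  have hm1 : m ≡ 1 [MOD n₁] := (Nat.chineseRemainder hcop 1 0).2.1
  have hm2 : m ≡ 0 [MOD n₂] := (Nat.chineseRemainder hcop 1 0).2.2
  have hpow1 : ∀ z ∈ W₁, z ^ m = z := by
    intro z hz
    have h3 : orderOf z ∣ n₁ := by
      have := orderOf_dvd_natCard (⟨z, hz⟩ : W₁)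
      rwa [← Subgroup.orderOf_coe] at this
    have h4 : m ≡ 1 [MOD orderOf z] := hm1.of_dvd h3
    have := (pow_eq_pow_iff_modEq (x := z)).mpr h4
    simpa using this
  have hpow2 : ∀ z ∈ W₂, z ^ m = 1 := by
    intro z hz
    have h3 : orderOf z ∣ n₂ := by
      have := orderOf_dvd_natCard (⟨z, hz⟩ : W₂)
      rwa [← Subgroup.orderOf_coe] at this
    have h4 : m ≡ 0 [MOD orderOf z] := hm2.of_dvd h3
    have := (pow_eq_pow_iff_modEq (x := z)).mpr h4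
    simpa using this
  have hx₀m : x₀ ^ m = a := by
    rw [hab, (show Commute a b from hcomm a ha b hb).mul_pow, hpow1 a ha, hpow2 b hb, mul_one]
  have hym : (g * x₀ * g⁻¹) ^ m = a' := by
    rw [hab', (show Commute a' b' from hcomm a' ha' b' hb').mul_pow, hpow1 a' ha', hpow2 b' hb', mul_one]
  have hga : g * a * g⁻¹ = a := by
    calc g * a * g⁻¹ = g * (x₀ ^ m) * g⁻¹ := by rw [hx₀m]
      _ = (g * x₀ * g⁻¹) ^ m := conj_pow.symm
      _ = a' := hym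
      _ = a := h2.symm
  have hk3 : k * a * k⁻¹ = a := by rw [← hgag]; exact hga
  have hkW₂ : k ∈ W₂ := by
    rw [← hC a ha ha1]
    refine ⟨hk, Subgroup.mem_centralizer_singleton_iff.mpr ?_⟩
    calc k * a = (k * a * k⁻¹) * k := by group
      _ = a * k := by rw [hk3]
  rw [← hkc]
  exact (W₁ ⊔ W₂).mul_mem ((le_sup_right : W₂ ≤ W₁ ⊔ W₂) hkW₂) ((le_sup_left : W₁ ≤ W₁ ⊔ W₂) hc)

/-- The function `ω - ω'` for `ω = φ ψ`, `ω' = ψ`. -/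
noncomputable def famF {W₁ W₂ : Subgroup L} (ψ : HomB W₁ W₂) (φ : HomA W₁ W₂) : ↥(W₁ ⊔ W₂) → ℂ :=
  homFun (φ.1 * ψ.1) - homFun ψ.1

theorem famF_apply {W₁ W₂ : Subgroup L} (ψ : HomB W₁ W₂) (φ : HomA W₁ W₂) (x : ↥(W₁ ⊔ W₂)) :
    famF ψ φ x = ((φ.1 x : ℂˣ) : ℂ) * ((ψ.1 x : ℂˣ) : ℂ) - ((ψ.1 x : ℂˣ) : ℂ) := by
  simp [famF, homFun]

open Classical in
theorem classInner_famF {W₁ W₂ : Subgroup L} [Fintype ↥(W₁ ⊔ W₂)] (ψ ψ' : HomB W₁ W₂) (φ φ' : HomA W₁ W₂) :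
    classInner (famF ψ φ) (famF ψ' φ') =
      (if φ.1 * ψ.1 = φ'.1 * ψ'.1 then 1 else 0) - (if φ.1 * ψ.1 = ψ'.1 then 1 else 0)
        - (if ψ.1 = φ'.1 * ψ'.1 then 1 else 0) + (if ψ.1 = ψ'.1 then 1 else 0) := by
  simp only [famF]
  rw [classInner_sub_left, classInner_sub_right, classInner_sub_right, classInner_homFun, classInner_homFun,
    classInner_homFun, classInner_homFun]
  ring

end Main

end CfsgLib.Char
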