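import Cfsg.Agent.Lib.Char.CycFam

set_option autoImplicit false
set_option linter.all false

open Cfsg
open scoped ComplexConjugate

namespace CfsgLib.Char

section Main

variable {L : Type*} [Group L]

open Classical in
/-- S1511 -/
theorem typeP_family [Fintype L] (K W₁ W₂ : Subgroup L) [hK : K.Normal] (hKW₁ : K ⊓ W₁ = ⊥)
    (hKW₁' : K ⊔ W₁ = ⊤) (hW₁ : W₁ ≠ ⊥) (hW₁c : IsCyclic W₁) (hHall : Nat.Coprime (Nat.card W₁) W₁.index)
    (hW₂ : W₂ ≠ ⊥) (hW₂c : IsCyclic W₂) (hW₂K : W₂ ≤ K)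
    (hC : ∀ x ∈ W₁, x ≠ 1 → K ⊓ Subgroup.centralizer ({x} : Set L) = W₂)
    (hodd : Odd (Nat.card ↥(W₁ ⊔ W₂))) :
    ∃ (μ : (↥(W₁ ⊔ W₂) →* ℂˣ) → (L → ℂ)) (δ : (↥(W₁ ⊔ W₂) →* ℂˣ) → ℂ), Function.Injective μ ∧
      (∀ ω, IsIrrCharacter L (μ ω)) ∧ (∀ ω, δ ω = 1 ∨ δ ω = -1) ∧
      (∀ ω ω' : ↥(W₁ ⊔ W₂) →* ℂˣ, (∀ w : ↥(W₁ ⊔ W₂), (w : L) ∈ W₂ → ω w = ω' w) → δ ω = δ ω' ∧
        indFun (W₁ ⊔ W₂) (fun w => (ω w : ℂ) - (ω' w : ℂ)) = δ ω • (μ ω - μ ω')) ∧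
      (∀ ω, ∀ w : ↥(W₁ ⊔ W₂), (w : L) ∉ W₂ → μ ω w = δ ω * (ω w : ℂ)) ∧
      (∀ θ : L → ℂ, IsIrrCharacter L θ → (∀ ω, θ ≠ μ ω) → ∀ w : ↥(W₁ ⊔ W₂), (w : L) ∉ W₂ → θ w = 0) ∧
      (∀ ω, ∃ n : ℤ, μ ω 1 - δ ω = n * (Nat.card W₁ : ℂ)) := by
  have hW := selfNormalizing_of_complement K W₁ W₂ hKW₁ hKW₁' hW₁ hW₁c hHall hW₂ hW₂c hW₂K hC
  obtain ⟨-, -, hdisj, hcomm, hcyc, -⟩ := hW
  letI : Fintype ↥(W₁ ⊔ W₂) := Fintype.ofFinite _
  have hWab : ∀ a b : ↥(W₁ ⊔ W₂), a * b = b * a := by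
    intro a b
    letI := IsCyclic.commGroup (α := ↥(W₁ ⊔ W₂))
    exact mul_comm a b
  haveI hfin := hom_finite hWab
  letI : Fintype (↥(W₁ ⊔ W₂) →* ℂˣ) := Fintype.ofFinite _
  letI : Fintype (HomA W₁ W₂) := Fintype.ofFinite _
  letI : Fintype (HomB W₁ W₂) := Fintype.ofFinite _
  let oneA : HomA W₁ W₂ := ⟨1, fun _ _ => rfl⟩
  -- the TI set
  let T : Set L := {x | x ∈ W₁ ⊔ W₂ ∧ x ∉ W₂}
  have hTI : ∀ g : L, g ∉ W₁ ⊔ W₂ → ∀ t ∈ T, g * t * g⁻¹ ∈ T → t = 1 := fun g hg t ht h =>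
    absurd (mem_sup_of_conj_mem K W₁ W₂ hKW₁ hKW₁' hW₁c hHall hW₂K hC hcomm ht.1 ht.2 h.1) hg
  have hfvan : ∀ (ψ : HomB W₁ W₂) (φ : HomA W₁ W₂) (x : ↥(W₁ ⊔ W₂)), (x : L) ∉ T → famF ψ φ x = 0 := by
    intro ψ φ x hx
    have hx2 : (x : L) ∈ W₂ := by
      by_contra h
      exact hx ⟨x.2, h⟩
    rw [famF_apply, φ.2 x hx2]
    simp
  have hfone : ∀ (ψ : HomB W₁ W₂) (φ : HomA W₁ W₂), famF ψ φ 1 = 0 := by
    intro ψ φ
    rw [famF_apply]
    simp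
  have hfclass : ∀ (ψ : HomB W₁ W₂) (φ : HomA W₁ W₂), IsClassFunction ↥(W₁ ⊔ W₂) (famF ψ φ) := by
    intro ψ φ g h
    have : h * g * h⁻¹ = g := by rw [hWab h g]; group
    rw [this]
  have hiso : ∀ (ψ ψ' : HomB W₁ W₂) (φ φ' : HomA W₁ W₂),
      classInner (indFun (W₁ ⊔ W₂) (famF ψ φ)) (indFun (W₁ ⊔ W₂) (famF ψ' φ')) = classInner (famF ψ φ) (famF ψ' φ') :=
    fun ψ ψ' φ φ' => classInner_indFun_of_TI (W₁ ⊔ W₂) T hTI _ _ (hfclass ψ φ) (hfvan ψ φ) (hfvan ψ' φ') (hfone ψ φ)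
  have hone_mul : ∀ ψ : HomB W₁ W₂, famF ψ oneA = 0 := by
    intro ψ
    funext x
    rw [famF_apply]
    simp [oneA]
  have hgen : ∀ (ψ : HomB W₁ W₂) (φ : HomA W₁ W₂), IsGeneralizedCharacter L (indFun (W₁ ⊔ W₂) (famF ψ φ)) := by
    intro ψ φ
    refine ⟨_, _, isCharacter_indFun _ (isIrr_homFun (φ.1 * ψ.1)).isCharacter,
      isCharacter_indFun _ (isIrr_homFun ψ.1).isCharacter, ?_⟩
    rw [famF, indFun_sub]
  have hcancel : ∀ (ψ : HomB W₁ W₂) (φ φ' : HomA W₁ W₂), φ.1 * ψ.1 = φ'.1 * ψ.1 ↔ φ = φ' := by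
    intro ψ φ φ'
    constructor
    · intro h
      exact Subtype.ext (mul_right_cancel h)
    · rintro rfl
      rfl
  have hcancel1 : ∀ (ψ : HomB W₁ W₂) (φ : HomA W₁ W₂), φ.1 * ψ.1 = ψ.1 ↔ φ = oneA := by
    intro ψ φ
    constructor
    · intro h
      apply Subtype.ext
      show φ.1 = 1
      ext w
      have h' := congrArg (fun t : ↥(W₁ ⊔ W₂) →* ℂˣ => t w) h
      simp only [MonoidHom.mul_apply] at h'
      have := mul_eq_right.mp h'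
      rw [this]
      rfl
    · rintro rfl
      exact hom_one_mul' ψ.1
  -- the exceptional characters of each family
  have exc : ∀ ψ : HomB W₁ W₂, ∃ ε : ℂ, (ε = 1 ∨ ε = -1) ∧ ∃ μ : HomA W₁ W₂ → (L → ℂ),
      (∀ φ, IsIrrCharacter L (μ φ)) ∧ Function.Injective μ ∧
        ∀ φ, indFun (W₁ ⊔ W₂) (famF ψ φ) = ε • (μ φ - μ oneA) := by
    intro ψ
    let e := Fintype.equivFin (HomA W₁ W₂)
    obtain ⟨ε, hε, μ, hμ, hinj, hτ⟩ := exceptional_of_gram (G := L) _ (e oneA)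
      (fun i => indFun (W₁ ⊔ W₂) (famF ψ (e.symm i)))
      (by
        simp only [Equiv.symm_apply_apply, hone_mul]
        funext g
        simpa using congrFun (indFun_zero (H := W₁ ⊔ W₂)) g)
      (fun i => hgen ψ _)
      (fun i => by
        show indFun (W₁ ⊔ W₂) (famF ψ (e.symm i)) 1 = 0
        rw [indFun_one, hfone]
        simp)
      (fun i j hi hj => by
        show classInner (indFun (W₁ ⊔ W₂) (famF ψ (e.symm i))) (indFun (W₁ ⊔ W₂) (famF ψ (e.symm j))) = _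
        rw [hiso, classInner_famF]
        have h1 : e.symm i ≠ oneA := fun h => hi (by rw [← h]; simp)
        have h2 : e.symm j ≠ oneA := fun h => hj (by rw [← h]; simp)
        simp only [hcancel, hcancel1, h1, if_false]
        have h3 : ¬ ψ.1 = (e.symm j).1 * ψ.1 := fun h => h2 ((hcancel1 ψ _).1 h.symm)
        rw [if_neg h3, if_pos trivial]
        by_cases hij : i = j
        · subst hij
          simp
          norm_num
        · have : e.symm i ≠ e.symm j := fun h => hij (e.symm.injective h)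
          rw [if_neg this, if_neg hij]
          simp)
    refine ⟨ε, hε, fun φ => μ (e φ), fun φ => hμ _, fun a b h => e.injective (hinj h), fun φ => ?_⟩
    have := hτ (e φ)
    simpa using this
  choose ε hε μ' hirr hinj hτ using exc
  have hεconj : ∀ ψ, conj (ε ψ) = ε ψ := by
    intro ψ
    rcases hε ψ with h | h <;> rw [h] <;> simp
  have hεne : ∀ ψ, ε ψ ≠ 0 := by
    intro ψ
    rcases hε ψ with h | h <;> rw [h] <;> norm_num
  -- distinct families have orthogonal induced functions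
  have hcross : ∀ (ψ ψ' : HomB W₁ W₂) (φ φ' : HomA W₁ W₂), ψ ≠ ψ' →
      classInner (indFun (W₁ ⊔ W₂) (famF ψ φ)) (indFun (W₁ ⊔ W₂) (famF ψ' φ')) = 0 := by
    intro ψ ψ' φ φ' hne
    rw [hiso, classInner_famF]
    have h1 : ¬ φ.1 * ψ.1 = φ'.1 * ψ'.1 := fun h =>
      hne (Subtype.ext (hom_pair_unique hcomm φ.2 φ'.2 ψ.2 ψ'.2 h).2)
    have h2 : ¬ φ.1 * ψ.1 = ψ'.1 := fun h => by
      apply hne
      apply Subtype.ext
      have h' : φ.1 * ψ.1 = oneA.1 * ψ'.1 := by rw [h]; exact (hom_one_mul' ψ'.1).symm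
      exact (hom_pair_unique hcomm φ.2 oneA.2 ψ.2 ψ'.2 h').2
    have h3 : ¬ ψ.1 = φ'.1 * ψ'.1 := fun h => by
      apply hne
      apply Subtype.ext
      have h' : oneA.1 * ψ.1 = φ'.1 * ψ'.1 := by rw [← h]; exact hom_one_mul' ψ.1
      exact (hom_pair_unique hcomm oneA.2 φ'.2 ψ.2 ψ'.2 h').2
    have h4 : ¬ ψ.1 = ψ'.1 := fun h => hne (Subtype.ext h)
    rw [if_neg h1, if_neg h2, if_neg h3, if_neg h4]
    simp
  -- `HomA` is nontrivial
  have hcardA : Nat.card (HomA W₁ W₂) = Nat.card W₁ := card_homA_eq hdisj hcomm hWab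
  haveI hnt : Nontrivial (HomA W₁ W₂) := by
    rw [← Finite.one_lt_card_iff_nontrivial, hcardA]
    exact (Subgroup.one_lt_card_iff_ne_bot W₁).2 hW₁
  have hdiff : ∀ (ψ : HomB W₁ W₂) (φ₁ φ₂ : HomA W₁ W₂),
      indFun (W₁ ⊔ W₂) (famF ψ φ₁) - indFun (W₁ ⊔ W₂) (famF ψ φ₂) = ε ψ • (μ' ψ φ₁ - μ' ψ φ₂) := by
    intro ψ φ₁ φ₂
    rw [hτ, hτ, ← smul_sub]
    congr 1
    abel
  -- disjointness of the families
  have hdisjoint : ∀ (ψ ψ' : HomB W₁ W₂) (φ φ' : HomA W₁ W₂), ψ ≠ ψ' → μ' ψ φ ≠ μ' ψ' φ' := by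
    intro ψ ψ' φ φ' hne heq
    obtain ⟨φ₁, hφ₁⟩ := exists_ne φ
    obtain ⟨φ₁', hφ₁'⟩ := exists_ne φ'
    have h0 : classInner (indFun (W₁ ⊔ W₂) (famF ψ φ) - indFun (W₁ ⊔ W₂) (famF ψ φ₁))
        (indFun (W₁ ⊔ W₂) (famF ψ' φ') - indFun (W₁ ⊔ W₂) (famF ψ' φ₁')) = 0 := by
      rw [classInner_sub_left, classInner_sub_right, classInner_sub_right, hcross _ _ _ _ hne, hcross _ _ _ _ hne,
        hcross _ _ _ _ hne, hcross _ _ _ _ hne]
      simp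
    rw [hdiff, hdiff, classInner_smul_left, classInner_smul_right, hεconj, classInner_sub_left, classInner_sub_right,
      classInner_sub_right, classInner_irr (hirr _ _) (hirr _ _), classInner_irr (hirr _ _) (hirr _ _),
      classInner_irr (hirr _ _) (hirr _ _), classInner_irr (hirr _ _) (hirr _ _)] at h0
    have h1 : μ' ψ φ ≠ μ' ψ' φ₁' := by
      rw [heq]
      exact fun h => hφ₁'.symm (hinj ψ' h)
    have h2 : μ' ψ φ₁ ≠ μ' ψ' φ' := by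
      rw [← heq]
      exact fun h => hφ₁ (hinj ψ h)
    rw [if_pos heq, if_neg h1, if_neg h2] at h0
    have h3 := mul_ne_zero (hεne ψ) (hεne ψ')
    have h4 : (1 : ℂ) - 0 - (0 - if μ' ψ φ₁ = μ' ψ' φ₁' then 1 else 0) = 0 := by
      rcases mul_eq_zero.mp h0 with h | h
      · exact absurd h (hεne ψ)
      · rcases mul_eq_zero.mp h with h | h
        · exact absurd h (hεne ψ')
        · exact h
    by_cases h5 : μ' ψ φ₁ = μ' ψ' φ₁' <;> simp [h5] at h4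
  -- values of the inner products
  have hval : ∀ (ψ₀ ψ : HomB W₁ W₂) (φ₀ φ : HomA W₁ W₂),
      classInner (μ' ψ₀ φ₀) (indFun (W₁ ⊔ W₂) (famF ψ φ)) =
        if ψ = ψ₀ then ε ψ₀ * ((if φ₀ = φ then 1 else 0) - (if φ₀ = oneA then 1 else 0)) else 0 := by
    intro ψ₀ ψ φ₀ φ
    rw [hτ, classInner_smul_right, hεconj, classInner_sub_right, classInner_irr (hirr _ _) (hirr _ _),
      classInner_irr (hirr _ _) (hirr _ _)]
    by_cases h : ψ = ψ₀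
    · subst h
      rw [if_pos rfl]
      have h1 : ∀ a b, μ' ψ a = μ' ψ b ↔ a = b := fun a b => (hinj ψ).eq_iff
      simp only [h1]
    · rw [if_neg h, if_neg (fun hh => hdisjoint ψ₀ ψ φ₀ φ (Ne.symm h) hh), if_neg (fun hh => hdisjoint ψ₀ ψ φ₀ oneA (Ne.symm h) hh)]
      simp
  -- Fourier formula
  have hsumA : ∀ y : ↥(W₁ ⊔ W₂), (y : L) ∉ W₂ → ∑ φ : HomA W₁ W₂, ((φ.1 y : ℂˣ) : ℂ) = 0 :=
    fun y hy => sum_homA_eq_zero hdisj hcomm hWab y hy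
  have hfrob : ∀ (θ : L → ℂ), IsClassFunction L θ → ∀ (ψ : HomB W₁ W₂) (φ : HomA W₁ W₂),
      classInner θ (indFun (W₁ ⊔ W₂) (famF ψ φ)) =
        classInner (fun x : ↥(W₁ ⊔ W₂) => θ x) (homFun (φ.1 * ψ.1)) - classInner (fun x : ↥(W₁ ⊔ W₂) => θ x) (homFun ψ.1) := by
    intro θ hθ ψ φ
    rw [frobenius' _ _ hθ, famF, classInner_sub_right]
  have hsumW : ∀ (F : (↥(W₁ ⊔ W₂) →* ℂˣ) → ℂ),
      ∑ l, F l = ∑ ψ : HomB W₁ W₂, ∑ φ : HomA W₁ W₂, F (φ.1 * ψ.1) := by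
    intro F
    rw [← (homEquiv hdisj hcomm).sum_comp, Fintype.sum_prod_type, Finset.sum_comm]
    rfl
  have hkey : ∀ (θ : L → ℂ), IsClassFunction L θ → ∀ y : ↥(W₁ ⊔ W₂), (y : L) ∉ W₂ →
      θ y = ∑ ψ : HomB W₁ W₂, ∑ φ : HomA W₁ W₂, ((ψ.1 y : ℂˣ) : ℂ) * ((φ.1 y : ℂˣ) : ℂ) *
        classInner θ (indFun (W₁ ⊔ W₂) (famF ψ φ)) := by
    intro θ hθ y hy
    have h1 := fourier_abelian hWab (fun x : ↥(W₁ ⊔ W₂) => θ x) y
    rw [h1, hsumW]
    refine Finset.sum_congr rfl fun ψ _ => ?_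
    simp only [hfrob θ hθ]
    have h2 : ∀ φ : HomA W₁ W₂, ((ψ.1 y : ℂˣ) : ℂ) * ((φ.1 y : ℂˣ) : ℂ) *
        (classInner (fun x : ↥(W₁ ⊔ W₂) => θ x) (homFun (φ.1 * ψ.1)) - classInner (fun x : ↥(W₁ ⊔ W₂) => θ x) (homFun ψ.1)) =
        (((φ.1 * ψ.1) y : ℂˣ) : ℂ) * classInner (fun x : ↥(W₁ ⊔ W₂) => θ x) (homFun (φ.1 * ψ.1)) -
          ((φ.1 y : ℂˣ) : ℂ) * (((ψ.1 y : ℂˣ) : ℂ) * classInner (fun x : ↥(W₁ ⊔ W₂) => θ x) (homFun ψ.1)) := by
      intro φ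
      simp only [MonoidHom.mul_apply, Units.val_mul]
      ring
    simp only [h2]
    rw [Finset.sum_sub_distrib, ← Finset.sum_mul, hsumA y hy]
    simp
  have hPAval : ∀ (ω : ↥(W₁ ⊔ W₂) →* ℂˣ) (w : ↥(W₁ ⊔ W₂)),
      ((ω w : ℂˣ) : ℂ) = (((homPA hdisj hcomm ω).1 w : ℂˣ) : ℂ) * (((homPB hdisj hcomm ω).1 w : ℂˣ) : ℂ) := by
    intro ω w
    conv_lhs => rw [← homPA_mul_homPB hdisj hcomm ω]
    simp only [MonoidHom.mul_apply, Units.val_mul]
  refine ⟨fun ω => μ' (homPB hdisj hcomm ω) (homPA hdisj hcomm ω), fun ω => ε (homPB hdisj hcomm ω), ?_,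
    fun ω => hirr _ _, fun ω => hε _, ?_, ?_, ?_, ?_⟩
  · -- injective
    intro ω ω' h
    have h' : μ' (homPB hdisj hcomm ω) (homPA hdisj hcomm ω) = μ' (homPB hdisj hcomm ω') (homPA hdisj hcomm ω') := h
    have h1 : homPB hdisj hcomm ω = homPB hdisj hcomm ω' := by
      by_contra hne
      exact hdisjoint _ _ _ _ hne h'
    have h2 : homPA hdisj hcomm ω = homPA hdisj hcomm ω' := by
      rw [h1] at h'
      exact hinj _ h'
    rw [← homPA_mul_homPB hdisj hcomm ω, ← homPA_mul_homPB hdisj hcomm ω', h1, h2]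
  · -- the induced differences
    intro ω ω' hag
    have h1 : homPB hdisj hcomm ω = homPB hdisj hcomm ω' := by
      apply Subtype.ext
      ext w
      show ((ω (proj₂ hdisj hcomm w) : ℂˣ) : ℂ) = ((ω' (proj₂ hdisj hcomm w) : ℂˣ) : ℂ)
      rw [hag _ (proj₂_mem hdisj hcomm w)]
    refine ⟨by show ε _ = ε _; rw [h1], ?_⟩
    have h2 : (fun w => ((ω w : ℂˣ) : ℂ) - ((ω' w : ℂˣ) : ℂ)) =
        famF (homPB hdisj hcomm ω) (homPA hdisj hcomm ω) - famF (homPB hdisj hcomm ω) (homPA hdisj hcomm ω') := by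
      funext w
      simp only [Pi.sub_apply, famF_apply]
      rw [hPAval ω w, hPAval ω' w, h1]
      ring
    rw [h2, indFun_sub, hdiff]
    show ε _ • (μ' _ _ - μ' _ _) = ε _ • (μ' _ _ - μ' _ _)
    rw [h1]
  · -- the values on `W \ W₂`
    intro ω w hw
    show μ' _ _ w = ε _ * _
    set ψ₀ := homPB hdisj hcomm ω with hψ₀
    set φ₀ := homPA hdisj hcomm ω with hφ₀
    rw [hkey _ (hirr _ _).isClassFunction w hw, hPAval ω w, ← hψ₀, ← hφ₀]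
    simp only [hval]
    rw [Finset.sum_eq_single ψ₀]
    · simp only [if_true]
      have e1 : ∀ φ : HomA W₁ W₂, ((ψ₀.1 w : ℂˣ) : ℂ) * ((φ.1 w : ℂˣ) : ℂ) *
          (ε ψ₀ * ((if φ₀ = φ then 1 else 0) - (if φ₀ = oneA then 1 else 0))) =
          (if φ₀ = φ then ε ψ₀ * ((ψ₀.1 w : ℂˣ) : ℂ) * ((φ.1 w : ℂˣ) : ℂ) else 0) -
            (ε ψ₀ * ((ψ₀.1 w : ℂˣ) : ℂ) * (if φ₀ = oneA then 1 else 0)) * ((φ.1 w : ℂˣ) : ℂ) := by
        intro φ
        split_ifs <;> ring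
      simp only [e1]
      rw [Finset.sum_sub_distrib, Finset.sum_ite_eq, ← Finset.mul_sum, hsumA w hw]
      simp only [Finset.mem_univ, if_true]
      ring
    · intro ψ _ hψ
      simp [hψ]
    · intro h
      exact absurd (Finset.mem_univ _) h
  · -- other irreducible characters vanish
    intro θ hθ hne w hw
    rw [hkey θ hθ.isClassFunction w hw]
    refine Finset.sum_eq_zero fun ψ _ => Finset.sum_eq_zero fun φ _ => ?_
    have hne' : ∀ φ' : HomA W₁ W₂, θ ≠ μ' ψ φ' := by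
      intro φ'
      have := hne (φ'.1 * ψ.1)
      simp only [homPA_of_mul, homPB_of_mul] at this
      exact this
    rw [hτ, classInner_smul_right, classInner_sub_right, classInner_irr hθ (hirr _ _), classInner_irr hθ (hirr _ _),
      if_neg (hne' φ), if_neg (hne' oneA)]
    simp
  · -- the degree
    intro ω
    show ∃ n : ℤ, μ' _ _ 1 - ε _ = _
    set ψ₀ := homPB hdisj hcomm ω with hψ₀
    set φ₀ := homPA hdisj hcomm ω with hφ₀
    set β := μ' ψ₀ φ₀ with hβ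
    have hβirr : IsIrrCharacter L β := hirr _ _
    let Θ : ↥(W₁ ⊔ W₂) → ℂ := fun x => β x
    have hm : ∀ ψ : HomB W₁ W₂, ∃ k : ℕ, classInner Θ (homFun ψ.1) = k := fun ψ =>
      (hβirr.isCharacter.restrict _).classInner_nat (isIrr_homFun ψ.1)
    choose m hmval using hm
    have h1 := fourier_abelian hWab Θ 1
    simp only [map_one, Units.val_one, one_mul] at h1
    rw [hsumW] at h1
    set c : ℂ := if φ₀ = oneA then 1 else 0 with hc
    set n : ℕ := Fintype.card (HomA W₁ W₂) with hn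
    have hncard : n = Nat.card W₁ := by
      rw [hn, ← Nat.card_eq_fintype_card, hcardA]
    have h2 : ∀ ψ : HomB W₁ W₂, ∑ φ : HomA W₁ W₂, classInner Θ (homFun (φ.1 * ψ.1)) =
        (n : ℂ) * (m ψ : ℂ) + (if ψ = ψ₀ then ε ψ₀ * (1 - (n : ℂ) * c) else 0) := by
      intro ψ
      have h3 : ∀ φ : HomA W₁ W₂, classInner Θ (homFun (φ.1 * ψ.1)) =
          (m ψ : ℂ) + (if ψ = ψ₀ then ε ψ₀ * ((if φ₀ = φ then 1 else 0) - c) else 0) := by
        intro φ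
        rw [← hval, hfrob β hβirr.isClassFunction, hmval]
        ring
      simp only [h3]
      rw [Finset.sum_add_distrib, Finset.sum_const, Finset.card_univ, nsmul_eq_mul, ← hn]
      congr 1
      by_cases hψ : ψ = ψ₀
      · simp only [hψ, if_true]
        rw [← Finset.mul_sum, Finset.sum_sub_distrib, Finset.sum_ite_eq, Finset.sum_const, Finset.card_univ, nsmul_eq_mul, ← hn]
        simp
      · simp [hψ]
    simp only [h2] at h1
    rw [Finset.sum_add_distrib, Finset.sum_ite_eq' , ← Finset.mul_sum] at h1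
    simp only [Finset.mem_univ, if_true] at h1
    obtain ⟨e, he⟩ : ∃ e : ℤ, ε ψ₀ = e := by
      rcases hε ψ₀ with h | h
      · exact ⟨1, by rw [h]; simp⟩
      · exact ⟨-1, by rw [h]; simp⟩
    obtain ⟨c', hc'⟩ : ∃ c' : ℤ, c = c' := by
      by_cases h : φ₀ = oneA
      · exact ⟨1, by rw [hc, if_pos h]; simp⟩
      · exact ⟨0, by rw [hc, if_neg h]; simp⟩
    refine ⟨(∑ ψ : HomB W₁ W₂, (m ψ : ℤ)) - e * c', ?_⟩
    have h4 : β 1 = Θ 1 := rfl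
    rw [h4, h1, he, hc', ← hncard]
    push_cast
    ring

end Main

end CfsgLib.Char
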