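import Cfsg.Agent.Lib.Char.CyclicTI
import Cfsg.Agent.Lib.Char.StarP3

set_option autoImplicit false
set_option linter.all false

open Cfsg

namespace CfsgLib.Char

open Classical in
/-- A rectangle-additive matrix with few non-zero entries. -/
theorem rect_trichotomy {A B : Type*} [Finite A] [Finite B] (c : A → B → ℂ)
    (hrect : ∀ φ φ' ψ ψ', c φ ψ + c φ' ψ' = c φ ψ' + c φ' ψ) (a : ℕ) (ha : 1 ≤ a)
    (hA : a ≤ Nat.card A) (hB : a + 2 ≤ Nat.card B)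
    (hN : Nat.card {p : A × B // c p.1 p.2 ≠ 0} < 2 * a) :
    (∀ φ ψ, c φ ψ = 0) ∨ (∃ ψ₀ v, ∀ φ ψ, c φ ψ = if ψ = ψ₀ then v else 0) ∨
      (∃ φ₀ v, ∀ φ ψ, c φ ψ = if φ = φ₀ then v else 0) := by
  classical
  haveI : Nonempty A := by
    apply Nat.card_pos_iff.1 (by omega) |>.1
  haveI : Nonempty B := by
    apply Nat.card_pos_iff.1 (by omega) |>.1
  by_cases hrow : ∀ φ φ' ψ, c φ ψ = c φ' ψ
  · -- c depends only on ψ
    obtain ⟨φ₁⟩ := ‹Nonempty A›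
    by_cases h0 : ∀ ψ, c φ₁ ψ = 0
    · left
      intro φ ψ
      rw [hrow φ φ₁ ψ, h0]
    · push Not at h0
      obtain ⟨ψ₀, hψ₀⟩ := h0
      right; left
      refine ⟨ψ₀, c φ₁ ψ₀, ?_⟩
      intro φ ψ
      by_cases hψ : ψ = ψ₀
      · rw [if_pos hψ, hψ, hrow φ φ₁ ψ₀]
      · rw [if_neg hψ]
        by_contra hne
        have hne' : c φ₁ ψ ≠ 0 := by rwa [hrow φ₁ φ ψ]
        have hinj : Function.Injective (fun s : A ⊕ A =>
            (Sum.elim (fun φ => (⟨(φ, ψ₀), by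
                show c φ ψ₀ ≠ 0
                rwa [hrow φ φ₁ ψ₀]⟩ : {p : A × B // c p.1 p.2 ≠ 0}))
              (fun φ => (⟨(φ, ψ), by
                show c φ ψ ≠ 0
                rwa [hrow φ φ₁ ψ]⟩ : {p : A × B // c p.1 p.2 ≠ 0}))) s) := by
          rintro (x | x) (y | y) hxy <;> simp only [Sum.elim_inl, Sum.elim_inr, Subtype.mk.injEq, Prod.mk.injEq] at hxy
          · rw [hxy.1]
          · exact absurd hxy.2.symm hψ
          · exact absurd hxy.2 hψ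
          · rw [hxy.1]
        have := Nat.card_le_card_of_injective _ hinj
        rw [Nat.card_sum] at this
        omega
  by_cases hcol : ∀ φ ψ ψ', c φ ψ = c φ ψ'
  · -- c depends only on φ
    obtain ⟨ψ₁⟩ := ‹Nonempty B›
    by_cases h0 : ∀ φ, c φ ψ₁ = 0
    · left
      intro φ ψ
      rw [hcol φ ψ ψ₁, h0]
    · push Not at h0
      obtain ⟨φ₀, hφ₀⟩ := h0
      right; right
      refine ⟨φ₀, c φ₀ ψ₁, ?_⟩
      intro φ ψ
      by_cases hφ : φ = φ₀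
      · rw [if_pos hφ, hφ, hcol φ₀ ψ ψ₁]
      · rw [if_neg hφ]
        by_contra hne
        have hne' : c φ ψ₁ ≠ 0 := by rwa [hcol φ ψ₁ ψ]
        have hinj : Function.Injective (fun s : B ⊕ B =>
            (Sum.elim (fun ψ => (⟨(φ₀, ψ), by
                show c φ₀ ψ ≠ 0
                rwa [hcol φ₀ ψ ψ₁]⟩ : {p : A × B // c p.1 p.2 ≠ 0}))
              (fun ψ => (⟨(φ, ψ), by
                show c φ ψ ≠ 0
                rwa [hcol φ ψ ψ₁]⟩ : {p : A × B // c p.1 p.2 ≠ 0}))) s) := by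
          rintro (x | x) (y | y) hxy <;> simp only [Sum.elim_inl, Sum.elim_inr, Subtype.mk.injEq, Prod.mk.injEq] at hxy
          · rw [hxy.2]
          · exact absurd hxy.1.symm hφ
          · exact absurd hxy.1 hφ
          · rw [hxy.2]
        have := Nat.card_le_card_of_injective _ hinj
        rw [Nat.card_sum] at this
        omega
  -- generic case: contradiction
  exfalso
  push Not at hrow hcol
  obtain ⟨φ₁, φ₂, ψ₀, h12⟩ := hrow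
  obtain ⟨φ₀, ψ₁, ψ₂, h12'⟩ := hcol
  have hr : ∀ ψ, c φ₁ ψ ≠ 0 ∨ c φ₂ ψ ≠ 0 := by
    intro ψ
    by_contra hh
    push Not at hh
    apply h12
    have := hrect φ₁ φ₂ ψ₀ ψ
    rw [hh.1, hh.2] at this
    simp at this
    linear_combination this
  have hc : ∀ φ, c φ ψ₁ ≠ 0 ∨ c φ ψ₂ ≠ 0 := by
    intro φ
    by_contra hh
    push Not at hh
    apply h12'
    have := hrect φ₀ φ ψ₁ ψ₂
    rw [hh.1, hh.2] at this
    simp at this
    linear_combination this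
  let S := {φ : A // φ ≠ φ₁ ∧ φ ≠ φ₂}
  let F : B ⊕ S → {p : A × B // c p.1 p.2 ≠ 0} := fun s => match s with
    | Sum.inl ψ => if h : c φ₁ ψ ≠ 0 then ⟨(φ₁, ψ), h⟩ else ⟨(φ₂, ψ), (hr ψ).resolve_left h⟩
    | Sum.inr φ => if h : c φ.1 ψ₁ ≠ 0 then ⟨(φ.1, ψ₁), h⟩ else ⟨(φ.1, ψ₂), (hc φ.1).resolve_left h⟩
  have hF1 : ∀ ψ, (F (Sum.inl ψ)).1.2 = ψ ∧ ((F (Sum.inl ψ)).1.1 = φ₁ ∨ (F (Sum.inl ψ)).1.1 = φ₂) := by
    intro ψ
    show ((if h : c φ₁ ψ ≠ 0 then (⟨(φ₁, ψ), h⟩ : {p : A × B // c p.1 p.2 ≠ 0}) else ⟨(φ₂, ψ), (hr ψ).resolve_left h⟩)).1.2 = ψ ∧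
      ((if h : c φ₁ ψ ≠ 0 then (⟨(φ₁, ψ), h⟩ : {p : A × B // c p.1 p.2 ≠ 0}) else ⟨(φ₂, ψ), (hr ψ).resolve_left h⟩).1.1 = φ₁ ∨
       (if h : c φ₁ ψ ≠ 0 then (⟨(φ₁, ψ), h⟩ : {p : A × B // c p.1 p.2 ≠ 0}) else ⟨(φ₂, ψ), (hr ψ).resolve_left h⟩).1.1 = φ₂)
    split_ifs <;> simp
  have hF2 : ∀ φ : S, (F (Sum.inr φ)).1.1 = φ.1 := by
    intro φ
    show ((if h : c φ.1 ψ₁ ≠ 0 then (⟨(φ.1, ψ₁), h⟩ : {p : A × B // c p.1 p.2 ≠ 0}) else ⟨(φ.1, ψ₂), (hc φ.1).resolve_left h⟩)).1.1 = φ.1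
    split_ifs <;> rfl
  have hinj : Function.Injective F := by
    rintro (x | x) (y | y) hxy
    · have h1 := (hF1 x).1
      have h2 := (hF1 y).1
      rw [hxy] at h1
      rw [← h1, h2]
    · have h1 := (hF1 x).2
      have h2 := hF2 y
      rw [hxy, h2] at h1
      exact absurd h1 (by
        push Not
        exact y.2)
    · have h1 := (hF1 y).2
      have h2 := hF2 x
      rw [← hxy, h2] at h1
      exact absurd h1 (by
        push Not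
        exact x.2)
    · have h1 := hF2 x
      have h2 := hF2 y
      rw [hxy, h2] at h1
      rw [Subtype.ext h1]
  have hcard := Nat.card_le_card_of_injective _ hinj
  rw [Nat.card_sum] at hcard
  have hS : Nat.card A ≤ Nat.card S + 2 := by
    let g : S ⊕ Fin 2 → A := fun s => Sum.elim (fun s => s.1) (fun i => if i = 0 then φ₁ else φ₂) s
    have hg : Function.Surjective g := by
      intro x
      by_cases h1 : x = φ₁
      · exact ⟨Sum.inr 0, by simp [g, h1]⟩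
      by_cases h2 : x = φ₂
      · exact ⟨Sum.inr 1, by simp [g, h2]⟩
      exact ⟨Sum.inl ⟨x, h1, h2⟩, rfl⟩
    have := Nat.card_le_card_of_surjective _ hg
    rw [Nat.card_sum, Nat.card_fin] at this
    exact this
  omega

section Family

variable {G : Type*} [Group G] {W₁ W₂ : Subgroup G}

open Classical in
/-- S1507 -/
theorem cyclic_ti_few [Fintype G] (hW : IsSelfNormalizingCyclic W₁ W₂) (hodd : Odd (Nat.card ↥(W₁ ⊔ W₂)))
    (χ : (↥(W₁ ⊔ W₂) →* ℂˣ) → (G → ℂ)) (hχ : IsCyclicTIFamily W₁ W₂ χ) (hlt : Nat.card W₁ < Nat.card W₂)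
    (θ : G → ℂ) (hθ : IsClassFunction G θ)
    (hθV : ∀ w : ↥(W₁ ⊔ W₂), (w : G) ∉ W₁ → (w : G) ∉ W₂ → θ w = 0)
    (hfew : Nat.card {ω : ↥(W₁ ⊔ W₂) →* ℂˣ // classInner θ (χ ω) ≠ 0} < 2 * Nat.card W₁) :
    (∀ ω, classInner θ (χ ω) = 0) ∨
    (∃ (ψ₀ : ↥(W₁ ⊔ W₂) →* ℂˣ) (a : ℂ), ∀ ω, classInner θ (χ ω) =
      if (∀ w : ↥(W₁ ⊔ W₂), (w : G) ∈ W₂ → (ω * ψ₀⁻¹) w = 1) then a else 0) ∨
    (∃ (φ₀ : ↥(W₁ ⊔ W₂) →* ℂˣ) (a : ℂ), ∀ ω, classInner θ (χ ω) =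
      if (∀ w : ↥(W₁ ⊔ W₂), (w : G) ∈ W₁ → (ω * φ₀⁻¹) w = 1) then a else 0) := by
  obtain ⟨h1, h2, hdisj, hcomm, hcyc, hnorm⟩ := id hW
  letI : Fintype ↥(W₁ ⊔ W₂) := Fintype.ofFinite _
  have hWab : ∀ a b : ↥(W₁ ⊔ W₂), a * b = b * a := by
    intro a b
    letI := IsCyclic.commGroup (α := ↥(W₁ ⊔ W₂))
    exact mul_comm a b
  haveI hfin := hom_finite hWab
  let A := {φ : ↥(W₁ ⊔ W₂) →* ℂˣ // ∀ w : ↥(W₁ ⊔ W₂), (w : G) ∈ W₂ → φ w = 1}
  let B := {ψ : ↥(W₁ ⊔ W₂) →* ℂˣ // ∀ w : ↥(W₁ ⊔ W₂), (w : G) ∈ W₁ → ψ w = 1}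
  -- the decomposition of a homomorphism
  have hdec : ∀ ω : ↥(W₁ ⊔ W₂) →* ℂˣ, ∃ (φ : A) (ψ : B), ω = φ.1 * ψ.1 := by
    intro ω
    refine ⟨⟨ω.comp (proj₁ hdisj hcomm), ?_⟩, ⟨ω.comp (proj₂ hdisj hcomm), ?_⟩, ?_⟩
    · intro w hw
      simp [proj₁_of_mem_right hdisj hcomm w hw]
    · intro w hw
      simp [proj₂_of_mem_left hdisj hcomm w hw]
    · ext w
      have := proj_mul hdisj hcomm w
      simp only [MonoidHom.mul_apply, MonoidHom.comp_apply]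
      rw [← map_mul, this]
  -- orders
  have hcardW : Nat.card ↥(W₁ ⊔ W₂) = Nat.card W₁ * Nat.card W₂ := by
    rw [← Nat.card_prod]
    exact (Nat.card_congr (supEquiv hdisj hcomm).toEquiv).symm
  have hoddW : Odd (Nat.card W₁) ∧ Odd (Nat.card W₂) := by
    rw [hcardW] at hodd
    exact Nat.odd_mul.1 hodd
  have hlt2 : Nat.card W₁ + 2 ≤ Nat.card W₂ := by
    obtain ⟨⟨a, ha⟩, ⟨b, hb⟩⟩ := hoddW
    omega
  -- lower bounds of the cards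
  have hW1ab : ∀ a b : W₁, a * b = b * a := by
    intro a b
    apply Subtype.ext
    have := congrArg (fun t : ↥(W₁ ⊔ W₂) => (t : G)) (hWab ⟨a, (le_sup_left : W₁ ≤ W₁ ⊔ W₂) a.2⟩ ⟨b, (le_sup_left : W₁ ≤ W₁ ⊔ W₂) b.2⟩)
    exact this
  have hW2ab : ∀ a b : W₂, a * b = b * a := by
    intro a b
    apply Subtype.ext
    have := congrArg (fun t : ↥(W₁ ⊔ W₂) => (t : G)) (hWab ⟨a, (le_sup_right : W₂ ≤ W₁ ⊔ W₂) a.2⟩ ⟨b, (le_sup_right : W₂ ≤ W₁ ⊔ W₂) b.2⟩)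
    exact this
  have hcA : Nat.card W₁ ≤ Nat.card A := by
    rw [← card_hom_of_comm hW1ab]
    apply Nat.card_le_card_of_injective (fun l : W₁ →* ℂˣ =>
      (⟨l.comp ((MonoidHom.fst W₁ W₂).comp (supEquiv hdisj hcomm).symm.toMonoidHom), ?_⟩ : A))
    · intro l l' hll
      ext a
      have := congrArg (fun t : A => t.1 ⟨a, (le_sup_left : W₁ ≤ W₁ ⊔ W₂) a.2⟩) hll
      have hs : (supEquiv hdisj hcomm).symm ⟨(a : G), (le_sup_left : W₁ ≤ W₁ ⊔ W₂) a.2⟩ = (a, 1) := by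
        rw [MulEquiv.symm_apply_eq]
        apply Subtype.ext
        show (a : G) = (a : G) * ((1 : W₂) : G)
        simp
      simp only [MonoidHom.comp_apply] at this
      simp only [MulEquiv.coe_toMonoidHom, hs] at this
      simpa using congrArg Units.val this
    · intro w hw
      have hs : (supEquiv hdisj hcomm).symm w = (1, ⟨w, hw⟩) := by
        rw [MulEquiv.symm_apply_eq]
        apply Subtype.ext
        show (w : G) = ((1 : W₁) : G) * (w : G)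
        simp
      simp [hs]
  have hcB : Nat.card W₂ ≤ Nat.card B := by
    rw [← card_hom_of_comm hW2ab]
    apply Nat.card_le_card_of_injective (fun l : W₂ →* ℂˣ =>
      (⟨l.comp ((MonoidHom.snd W₁ W₂).comp (supEquiv hdisj hcomm).symm.toMonoidHom), ?_⟩ : B))
    · intro l l' hll
      ext a
      have := congrArg (fun t : B => t.1 ⟨a, (le_sup_right : W₂ ≤ W₁ ⊔ W₂) a.2⟩) hll
      have hs : (supEquiv hdisj hcomm).symm ⟨(a : G), (le_sup_right : W₂ ≤ W₁ ⊔ W₂) a.2⟩ = (1, a) := by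
        rw [MulEquiv.symm_apply_eq]
        apply Subtype.ext
        show (a : G) = ((1 : W₁) : G) * (a : G)
        simp
      simp only [MonoidHom.comp_apply] at this
      simp only [MulEquiv.coe_toMonoidHom, hs] at this
      simpa using congrArg Units.val this
    · intro w hw
      have hs : (supEquiv hdisj hcomm).symm w = (⟨w, hw⟩, 1) := by
        rw [MulEquiv.symm_apply_eq]
        apply Subtype.ext
        show (w : G) = (w : G) * ((1 : W₂) : G)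
        simp
      simp [hs]
  have hW1pos : 1 ≤ Nat.card W₁ := Nat.card_pos
  -- the matrix
  let c : A → B → ℂ := fun φ ψ => classInner θ (χ (φ.1 * ψ.1))
  have hrect : ∀ φ φ' ψ ψ', c φ ψ + c φ' ψ' = c φ ψ' + c φ' ψ := by
    intro φ φ' ψ ψ'
    exact cyclic_ti_rectangle hW χ hχ θ hθ hθV φ.1 φ'.1 ψ.1 ψ'.1 (fun w hw => ⟨φ.2 w hw, φ'.2 w hw⟩)
      (fun w hw => ⟨ψ.2 w hw, ψ'.2 w hw⟩)
  have hN : Nat.card {p : A × B // c p.1 p.2 ≠ 0} < 2 * Nat.card W₁ := by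
    refine lt_of_le_of_lt ?_ hfew
    apply Nat.card_le_card_of_injective (fun p : {p : A × B // c p.1 p.2 ≠ 0} =>
      (⟨p.1.1.1 * p.1.2.1, p.2⟩ : {ω : ↥(W₁ ⊔ W₂) →* ℂˣ // classInner θ (χ ω) ≠ 0}))
    rintro ⟨⟨φ, ψ⟩, h⟩ ⟨⟨φ', ψ'⟩, h'⟩ hxy
    have hxy' := congrArg Subtype.val hxy
    obtain ⟨e1, e2⟩ := hom_pair_unique hcomm φ.2 φ'.2 ψ.2 ψ'.2 hxy'
    apply Subtype.ext
    exact Prod.ext (Subtype.ext e1) (Subtype.ext e2)
  rcases rect_trichotomy c hrect (Nat.card W₁) hW1pos hcA (le_trans hlt2 hcB) hN with h | ⟨ψ₀, v, h⟩ | ⟨φ₀, v, h⟩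
  · left
    intro ω
    obtain ⟨φ, ψ, rfl⟩ := hdec ω
    exact h φ ψ
  · right; left
    refine ⟨ψ₀.1, v, ?_⟩
    intro ω
    obtain ⟨φ, ψ, rfl⟩ := hdec ω
    rw [show classInner θ (χ (φ.1 * ψ.1)) = c φ ψ from rfl, h φ ψ]
    have hiff : ψ = ψ₀ ↔ (∀ w : ↥(W₁ ⊔ W₂), (w : G) ∈ W₂ → ((φ.1 * ψ.1) * ψ₀.1⁻¹) w = 1) := by
      constructor
      · rintro rfl w hw
        simp [φ.2 w hw]
      · intro hh
        apply Subtype.ext
        ext w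
        obtain ⟨a, ha, b, hb, hab⟩ := mem_sup_factor hcomm w.2
        have hw : w = (⟨a, (le_sup_left : W₁ ≤ W₁ ⊔ W₂) ha⟩ : ↥(W₁ ⊔ W₂)) * ⟨b, (le_sup_right : W₂ ≤ W₁ ⊔ W₂) hb⟩ :=
          Subtype.ext hab
        have e1 := ψ.2 ⟨a, (le_sup_left : W₁ ≤ W₁ ⊔ W₂) ha⟩ ha
        have e2 := ψ₀.2 ⟨a, (le_sup_left : W₁ ≤ W₁ ⊔ W₂) ha⟩ ha
        have e3 := φ.2 ⟨b, (le_sup_right : W₂ ≤ W₁ ⊔ W₂) hb⟩ hb
        rw [hw, map_mul, map_mul, e1, e2]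
        have := hh ⟨b, (le_sup_right : W₂ ≤ W₁ ⊔ W₂) hb⟩ hb
        simp only [MonoidHom.mul_apply, MonoidHom.inv_apply, e3, one_mul] at this
        rw [mul_inv_eq_one.mp this]
    by_cases hc : ψ = ψ₀
    · rw [if_pos hc, if_pos (hiff.1 hc)]
    · rw [if_neg hc, if_neg (fun hh => hc (hiff.2 hh))]
  · right; right
    refine ⟨φ₀.1, v, ?_⟩
    intro ω
    obtain ⟨φ, ψ, rfl⟩ := hdec ω
    rw [show classInner θ (χ (φ.1 * ψ.1)) = c φ ψ from rfl, h φ ψ]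
    have hiff : φ = φ₀ ↔ (∀ w : ↥(W₁ ⊔ W₂), (w : G) ∈ W₁ → ((φ.1 * ψ.1) * φ₀.1⁻¹) w = 1) := by
      constructor
      · rintro rfl w hw
        simp [ψ.2 w hw]
      · intro hh
        apply Subtype.ext
        ext w
        obtain ⟨a, ha, b, hb, hab⟩ := mem_sup_factor hcomm w.2
        have hw : w = (⟨a, (le_sup_left : W₁ ≤ W₁ ⊔ W₂) ha⟩ : ↥(W₁ ⊔ W₂)) * ⟨b, (le_sup_right : W₂ ≤ W₁ ⊔ W₂) hb⟩ :=
          Subtype.ext hab
        have e1 := φ.2 ⟨b, (le_sup_right : W₂ ≤ W₁ ⊔ W₂) hb⟩ hb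
        have e2 := φ₀.2 ⟨b, (le_sup_right : W₂ ≤ W₁ ⊔ W₂) hb⟩ hb
        have e3 := ψ.2 ⟨a, (le_sup_left : W₁ ≤ W₁ ⊔ W₂) ha⟩ ha
        rw [hw, map_mul, map_mul, e1, e2]
        have := hh ⟨a, (le_sup_left : W₁ ≤ W₁ ⊔ W₂) ha⟩ ha
        simp only [MonoidHom.mul_apply, MonoidHom.inv_apply, e3, mul_one] at this
        rw [mul_inv_eq_one.mp this]
    by_cases hc : φ = φ₀
    · rw [if_pos hc, if_pos (hiff.1 hc)]
    · rw [if_neg hc, if_neg (fun hh => hc (hiff.2 hh))]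

end Family

end CfsgLib.Char
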