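import Mathlib
import Cfsg.Agent.Lib.Char.DadeBasic
import Cfsg.Agent.Lib.Char.Ortho

/-!
# The Dade map: counting
-/

set_option linter.unusedSectionVars false
set_option linter.style.haveILetI false
set_option linter.unusedSimpArgs false
set_option linter.unusedVariables false

namespace CfsgLib.Char

open Module Cfsg
open scoped ComplexConjugate

universe u

variable {G : Type u} [Group G]

theorem exists_mul_of_mem_sup (K U : Subgroup G) (hn : ∀ k ∈ K, ∀ u ∈ U, k * u * k⁻¹ ∈ U) {c : G} (hc : c ∈ K ⊔ U) :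
    ∃ m ∈ K, ∃ h ∈ U, c = m * h := by
  let P : Subgroup G :=
    { carrier := {x | ∃ m ∈ K, ∃ h ∈ U, x = m * h}
      one_mem' := ⟨1, K.one_mem, 1, U.one_mem, by simp⟩
      mul_mem' := by
        rintro _ _ ⟨m, hm, h, hh, rfl⟩ ⟨m', hm', h', hh', rfl⟩
        refine ⟨m * m', K.mul_mem hm hm', (m'⁻¹ * h * m') * h', U.mul_mem ?_ hh', by group⟩
        have := hn m'⁻¹ (K.inv_mem hm') h hh
        simpa using this
      inv_mem' := by
        rintro _ ⟨m, hm, h, hh, rfl⟩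
        refine ⟨m⁻¹, K.inv_mem hm, m * h⁻¹ * m⁻¹, hn m hm _ (U.inv_mem hh), by group⟩ }
  have h1 : K ≤ P := fun m hm => ⟨m, hm, 1, U.one_mem, by simp⟩
  have h2 : U ≤ P := fun h hh => ⟨1, K.one_mem, h, hh, by simp⟩
  exact sup_le h1 h2 hc

variable [Fintype G] {A : Set G} {L : Subgroup G} {H : G → Subgroup G}

theorem _root_.Cfsg.DadeHypothesis.decomp_unique (hD : DadeHypothesis A L H) {a b u v y : G} (ha : a ∈ A) (hb : b ∈ A)
    (hu : u ∈ H a) (hv : v ∈ H b) (h : y * (a * u) * y⁻¹ = b * v) : y * a * y⁻¹ = b ∧ y * u * y⁻¹ = v := by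
  obtain ⟨k, hk1, hk2, hk3, hk4⟩ := hD.exists_pow ha hb
  have hcu : Commute a u := by
    have := hD.le_centralizer a ha hu
    rw [Subgroup.mem_centralizer_singleton_iff] at this
    exact this.symm
  have hcv : Commute b v := by
    have := hD.le_centralizer b hb hv
    rw [Subgroup.mem_centralizer_singleton_iff] at this
    exact this.symm
  have h1 : (y * (a * u) * y⁻¹) ^ k = (b * v) ^ k := by rw [h]
  rw [conj_pow, hcu.mul_pow, hcv.mul_pow, hk1, hk2, hk3 u hu, hk4 v hv, mul_one, mul_one] at h1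
  refine ⟨h1, ?_⟩
  have h2 : y * u * y⁻¹ = (y * a * y⁻¹)⁻¹ * (y * (a * u) * y⁻¹) := by group
  rw [h2, h1, h]
  group

theorem _root_.Cfsg.DadeHypothesis.conj_mem_H' (hD : DadeHypothesis A L H) {a y u : G} (ha : a ∈ A) (hy : y * a * y⁻¹ ∈ A)
    (hu : u ∈ H a) : y * u * y⁻¹ ∈ H (y * a * y⁻¹) := by
  obtain ⟨z, hz, hze⟩ := hD.fusion a ha y hy
  rw [← hze, hD.H_conj ha hz]
  have hc : z⁻¹ * y ∈ Subgroup.centralizer ({a} : Set G) := by
    rw [Subgroup.mem_centralizer_singleton_iff]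
    have h1 : y * a = z * a * z⁻¹ * y := by
      rw [hze]
      group
    calc z⁻¹ * y * a = z⁻¹ * (y * a) := by group
      _ = z⁻¹ * (z * a * z⁻¹ * y) := by rw [h1]
      _ = a * (z⁻¹ * y) := by group
  refine ⟨(z⁻¹ * y) * u * (z⁻¹ * y)⁻¹, hD.conj_mem_H a ha _ hc u hu, ?_⟩
  simp only [MulEquiv.coe_toMonoidHom, MulAut.conj_apply]
  group

theorem _root_.Cfsg.DadeHypothesis.card_H_conj (hD : DadeHypothesis A L H) {a y : G} (ha : a ∈ A) (hy : y * a * y⁻¹ ∈ A) :
    Nat.card (H (y * a * y⁻¹)) = Nat.card (H a) := by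
  obtain ⟨z, hz, hze⟩ := hD.fusion a ha y hy
  rw [← hze, hD.H_conj ha hz]
  exact Subgroup.card_map_of_injective (MulAut.conj z).injective

theorem _root_.Cfsg.DadeHypothesis.card_conj_set (hD : DadeHypothesis A L H) {a : G} (ha : a ∈ A) :
    Nat.card {y : G // y * a * y⁻¹ ∈ A} = Nat.card L * Nat.card (H a) := by
  classical
  rw [← Nat.card_prod]
  symm
  apply Nat.card_congr
  have hcomm : ∀ h ∈ H a, h * a * h⁻¹ = a := by
    intro h hh
    have h1 := hD.le_centralizer a ha hh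
    rw [Subgroup.mem_centralizer_singleton_iff] at h1
    rw [h1]
    group
  refine Equiv.ofBijective (fun q : L × H a => (⟨(q.1 : G) * q.2, ?_⟩ : {y : G // y * a * y⁻¹ ∈ A})) ⟨?_, ?_⟩
  · have h1 : ((q.1 : G) * q.2) * a * ((q.1 : G) * q.2)⁻¹ = (q.1 : G) * ((q.2 : G) * a * (q.2 : G)⁻¹) * (q.1 : G)⁻¹ := by
      group
    rw [h1, hcomm _ q.2.2]
    exact hD.conj_mem _ q.1.2 a ha
  · rintro ⟨z, h⟩ ⟨z', h'⟩ hq
    have h1 : (z : G) * h = z' * h' := congrArg Subtype.val hq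
    have h2 : (z' : G)⁻¹ * z = h' * (h : G)⁻¹ := by
      calc (z' : G)⁻¹ * z = (z' : G)⁻¹ * (z * h) * (h : G)⁻¹ := by group
        _ = h' * (h : G)⁻¹ := by rw [h1]; group
    have h3 : (z' : G)⁻¹ * z ∈ H a ⊓ (L ⊓ Subgroup.centralizer ({a} : Set G)) := by
      refine ⟨?_, L.mul_mem (L.inv_mem z'.2) z.2, ?_⟩
      · rw [h2]
        exact (H a).mul_mem h'.2 ((H a).inv_mem h.2)
      · rw [h2]
        exact Subgroup.mul_mem _ (hD.le_centralizer a ha h'.2) (Subgroup.inv_mem _ (hD.le_centralizer a ha h.2))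
    rw [hD.inf_eq_bot a ha, Subgroup.mem_bot] at h3
    have h4 : (z : G) = z' := by
      calc (z : G) = z' * ((z' : G)⁻¹ * z) := by group
        _ = z' := by rw [h3, mul_one]
    have h5 : (h : G) = h' := by
      rw [h4] at h1
      exact mul_left_cancel h1
    rw [Subtype.ext h4, Subtype.ext h5]
  · rintro ⟨y, hy⟩
    obtain ⟨z, hz, hze⟩ := hD.fusion a ha y hy
    have hc : z⁻¹ * y ∈ Subgroup.centralizer ({a} : Set G) := by
      rw [Subgroup.mem_centralizer_singleton_iff]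
      have h1 : y * a = z * a * z⁻¹ * y := by
        rw [hze]
        group
      calc z⁻¹ * y * a = z⁻¹ * (y * a) := by group
        _ = z⁻¹ * (z * a * z⁻¹ * y) := by rw [h1]
        _ = a * (z⁻¹ * y) := by group
    rw [← hD.sup_eq a ha, sup_comm] at hc
    obtain ⟨m, hm, h, hh, he⟩ := exists_mul_of_mem_sup (L ⊓ Subgroup.centralizer ({a} : Set G)) (H a)
      (fun k hk u hu => hD.conj_mem_H a ha k (Subgroup.mem_inf.mp hk).2 u hu) hc
    refine ⟨(⟨z * m, L.mul_mem hz hm.1⟩, ⟨h, hh⟩), ?_⟩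
    apply Subtype.ext
    show z * m * h = y
    rw [mul_assoc, ← he]
    group

/-- The Dade support. -/
def dadeSupport (A : Set G) (H : G → Subgroup G) : Set G := {g | ∃ a ∈ A, ∃ u ∈ H a, ∃ x : G, x * g * x⁻¹ = a * u}

open scoped Classical in
/-- The basic counting formula. -/
theorem _root_.Cfsg.DadeHypothesis.dade_count (hD : DadeHypothesis A L H) {F : G → ℂ} (hF : IsClassFunction G F) :
    (Nat.card G : ℂ) * ∑ a ∈ Finset.univ.filter (· ∈ A), ∑ u ∈ Finset.univ.filter (· ∈ H a),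
        (Nat.card (H a) : ℂ)⁻¹ * F (a * u) =
      (Nat.card L : ℂ) * ∑ g ∈ Finset.univ.filter (· ∈ dadeSupport A H), F g := by
  let w : G → ℂ := fun a => (Nat.card (H a) : ℂ)⁻¹
  let S : Finset (G × G × G) := Finset.univ.filter (fun t => t.1 ∈ A ∧ t.2.1 ∈ H t.1)
  let Φ : G × G × G → G := fun t => t.2.2⁻¹ * (t.1 * t.2.1) * t.2.2
  have hleft : ∑ t ∈ S, w t.1 * F (Φ t) = (Nat.card G : ℂ) * ∑ a ∈ Finset.univ.filter (· ∈ A),
      ∑ u ∈ Finset.univ.filter (· ∈ H a), (Nat.card (H a) : ℂ)⁻¹ * F (a * u) := by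
    have h1 : ∀ t : G × G × G, w t.1 * F (Φ t) = w t.1 * F (t.1 * t.2.1) := by
      rintro ⟨a, u, x⟩
      simp only [Φ]
      have h2 := hF (a * u) x⁻¹
      simp only [inv_inv] at h2
      rw [h2]
    simp only [h1]
    rw [Finset.sum_filter, Fintype.sum_prod_type, Finset.sum_filter, Finset.mul_sum]
    refine Finset.sum_congr rfl fun a _ => ?_
    by_cases ha : a ∈ A
    · rw [if_pos ha, Fintype.sum_prod_type]
      simp only
      rw [Finset.sum_filter, Finset.mul_sum]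
      refine Finset.sum_congr rfl fun u _ => ?_
      by_cases hu : u ∈ H a
      · rw [if_pos hu]
        simp only [ha, hu, and_self, if_true, Finset.sum_const, Finset.card_univ, nsmul_eq_mul]
        rw [Nat.card_eq_fintype_card]
      · rw [if_neg hu]
        simp [hu]
    · rw [if_neg ha, mul_zero]
      apply Finset.sum_eq_zero
      intro y _
      simp [ha]
  have hright : ∑ t ∈ S, w t.1 * F (Φ t) = ∑ g, ∑ t ∈ S.filter (fun t => Φ t = g), w t.1 * F (Φ t) :=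
    (Finset.sum_fiberwise S Φ _).symm
  have hfib : ∀ g, ∑ t ∈ S.filter (fun t => Φ t = g), w t.1 * F (Φ t) =
      if g ∈ dadeSupport A H then (Nat.card L : ℂ) * F g else 0 := by
    intro g
    by_cases hg : g ∈ dadeSupport A H
    · rw [if_pos hg]
      obtain ⟨a₀, ha₀, u₀, hu₀, x₀, hx₀⟩ := hg
      have hval : ∀ t ∈ S.filter (fun t => Φ t = g), w t.1 * F (Φ t) = (Nat.card (H a₀) : ℂ)⁻¹ * F g := by
        rintro ⟨a, u, x⟩ ht
        obtain ⟨ht1, ht2⟩ := Finset.mem_filter.mp ht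
        obtain ⟨-, ha, hu⟩ := Finset.mem_filter.mp ht1
        simp only [Φ] at ht2
        simp only at ha hu
        rw [show Φ (a, u, x) = g from ht2]
        have h1 : (x * x₀⁻¹) * (a₀ * u₀) * (x * x₀⁻¹)⁻¹ = a * u := by
          rw [← hx₀, ← ht2]
          group
        have h2 := (hD.decomp_unique ha₀ ha hu₀ hu h1).1
        have h3 := hD.card_H_conj (y := x * x₀⁻¹) ha₀ (by rw [h2]; exact ha)
        rw [h2] at h3
        simp only [w]
        rw [h3]
      rw [Finset.sum_congr rfl hval, Finset.sum_const, nsmul_eq_mul]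
      have hcard : (S.filter (fun t => Φ t = g)).card = Nat.card L * Nat.card (H a₀) := by
        rw [← hD.card_conj_set ha₀, Nat.card_eq_fintype_card, Fintype.card_subtype]
        apply Finset.card_bij' (i := fun t _ => t.2.2 * x₀⁻¹)
          (j := fun y _ => (y * a₀ * y⁻¹, y * u₀ * y⁻¹, y * x₀))
        · rintro ⟨a, u, x⟩ ht
          obtain ⟨ht1, ht2⟩ := Finset.mem_filter.mp ht
          obtain ⟨-, ha, hu⟩ := Finset.mem_filter.mp ht1
          simp only [Φ] at ht2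
          simp only at ha hu
          have h1 : (x * x₀⁻¹) * (a₀ * u₀) * (x * x₀⁻¹)⁻¹ = a * u := by
            rw [← hx₀, ← ht2]
            group
          have h2 := (hD.decomp_unique ha₀ ha hu₀ hu h1).1
          simp only [Finset.mem_filter, Finset.mem_univ, true_and]
          rw [h2]
          exact ha
        · intro y hy
          have hy' : y * a₀ * y⁻¹ ∈ A := (Finset.mem_filter.mp hy).2
          refine Finset.mem_filter.mpr ⟨Finset.mem_filter.mpr ⟨Finset.mem_univ _, hy', hD.conj_mem_H' ha₀ hy' hu₀⟩, ?_⟩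
          simp only [Φ]
          have h1 : (y * x₀)⁻¹ * (y * a₀ * y⁻¹ * (y * u₀ * y⁻¹)) * (y * x₀) = x₀⁻¹ * (a₀ * u₀) * x₀ := by group
          rw [h1, ← hx₀]
          group
        · rintro ⟨a, u, x⟩ ht
          obtain ⟨ht1, ht2⟩ := Finset.mem_filter.mp ht
          obtain ⟨-, ha, hu⟩ := Finset.mem_filter.mp ht1
          simp only [Φ] at ht2
          simp only at ha hu
          have h1 : (x * x₀⁻¹) * (a₀ * u₀) * (x * x₀⁻¹)⁻¹ = a * u := by
            rw [← hx₀, ← ht2]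
            group
          obtain ⟨h2, h3⟩ := hD.decomp_unique ha₀ ha hu₀ hu h1
          simp only [h2, h3, inv_mul_cancel_right]
        · intro y _
          simp
      rw [hcard]
      have hH0 : (Nat.card (H a₀) : ℂ) ≠ 0 := Nat.cast_ne_zero.mpr Nat.card_pos.ne'
      push_cast
      field_simp
    · rw [if_neg hg]
      apply Finset.sum_eq_zero
      rintro ⟨a, u, x⟩ ht
      exfalso
      obtain ⟨ht1, ht2⟩ := Finset.mem_filter.mp ht
      obtain ⟨-, ha, hu⟩ := Finset.mem_filter.mp ht1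
      simp only [Φ] at ht2
      simp only at ha hu
      apply hg
      refine ⟨a, ha, u, hu, x, ?_⟩
      rw [← ht2]
      group
  rw [← hleft, hright, Finset.sum_congr rfl fun g _ => hfib g, Finset.sum_filter, Finset.mul_sum]
  refine Finset.sum_congr rfl fun g _ => ?_
  by_cases hg : g ∈ dadeSupport A H
  · rw [if_pos hg, if_pos hg]
  · rw [if_neg hg, if_neg hg, mul_zero]

open scoped Classical in
/-- The value of the Dade map on a coset. -/
theorem _root_.Cfsg.DadeHypothesis.dade_apply (hD : DadeHypothesis A L H) {α : L → ℂ} (hα : IsClassFunction L α)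
    {a u g x : G} (ha : a ∈ A) (haL : a ∈ L) (hu : u ∈ H a) (hg : x * g * x⁻¹ = a * u) :
    dadeIsometry A L H α g = α ⟨a, haL⟩ := by
  unfold dadeIsometry
  have hex : ∃ a : ↥L, (a : G) ∈ A ∧ ∃ x : G, ∃ u ∈ H (a : G), x * g * x⁻¹ = (a : G) * u :=
    ⟨⟨a, haL⟩, ha, x, u, hu, hg⟩
  rw [dif_pos hex]
  obtain ⟨ha', x', u', hu', hg'⟩ := Classical.choose_spec hex
  set a' := Classical.choose hex with ha'def
  obtain ⟨z, hz, hze⟩ := hD.cosets_conj ha' ha ⟨u', hu', u, hu, x * x'⁻¹, by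
    rw [← hg', ← hg]
    group⟩
  have h1 := hα a' ⟨z, hz⟩
  rw [← h1]
  apply congrArg α
  apply Subtype.ext
  exact hze

open scoped Classical in
theorem _root_.Cfsg.DadeHypothesis.dade_zero (α : L → ℂ) {g : G} (hg : g ∉ dadeSupport A H) :
    dadeIsometry A L H α g = 0 := by
  unfold dadeIsometry
  rw [dif_neg]
  rintro ⟨a, ha, x, u, hu, hx⟩
  exact hg ⟨a, ha, u, hu, x, hx⟩

theorem _root_.Cfsg.DadeHypothesis.dade_isClass (hD : DadeHypothesis A L H) {α : L → ℂ} (hα : IsClassFunction L α) :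
    IsClassFunction G (dadeIsometry A L H α) := by
  classical
  intro g c
  by_cases hg : g ∈ dadeSupport A H
  · obtain ⟨a, ha, u, hu, x, hx⟩ := hg
    rw [hD.dade_apply hα ha (hD.subset ha) hu hx, hD.dade_apply hα ha (hD.subset ha) hu (x := x * c⁻¹)]
    rw [← hx]
    group
  · have hg' : c * g * c⁻¹ ∉ dadeSupport A H := by
      rintro ⟨a, ha, u, hu, x, hx⟩
      apply hg
      refine ⟨a, ha, u, hu, x * c, ?_⟩
      rw [← hx]
      group
    rw [DadeHypothesis.dade_zero α hg, DadeHypothesis.dade_zero α hg']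

open scoped Classical in
/-- S1500 (ii) in a finite-sum form. -/
theorem _root_.Cfsg.DadeHypothesis.dade_inner (hD : DadeHypothesis A L H) [Fintype L] {α : L → ℂ}
    (hα : IsClassFunction L α) (hαA : ∀ x : L, (x : G) ∉ A → α x = 0) {χ : G → ℂ} (hχ : IsClassFunction G χ)
    (ψ : L → ℂ) (hψ : ∀ a : L, (a : G) ∈ A → ψ a = (Nat.card (H a) : ℂ)⁻¹ * ∑ u ∈ Finset.univ.filter (· ∈ H a), χ (a * u)) :
    classInner (dadeIsometry A L H α) χ = classInner α ψ := by
  have hcl := hD.dade_isClass hα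
  have hFcl : IsClassFunction G (fun g => dadeIsometry A L H α g * conj (χ g)) := fun g c => by
    simp only
    rw [hcl, hχ]
  have hcount := hD.dade_count hFcl
  rw [classInner_def, classInner_def]
  have h1 : ∑ g, dadeIsometry A L H α g * conj (χ g) =
      ∑ g ∈ Finset.univ.filter (· ∈ dadeSupport A H), dadeIsometry A L H α g * conj (χ g) := by
    rw [Finset.sum_filter]
    refine Finset.sum_congr rfl fun g _ => ?_
    by_cases hg : g ∈ dadeSupport A H
    · rw [if_pos hg]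
    · rw [if_neg hg, DadeHypothesis.dade_zero α hg, zero_mul]
  have h2 : ∑ a ∈ Finset.univ.filter (· ∈ A), ∑ u ∈ Finset.univ.filter (· ∈ H a),
      (Nat.card (H a) : ℂ)⁻¹ * (dadeIsometry A L H α (a * u) * conj (χ (a * u))) = ∑ a : L, α a * conj (ψ a) := by
    have h3 : ∑ a : L, α a * conj (ψ a) = ∑ a ∈ Finset.univ.filter (fun a : L => (a : G) ∈ A), α a * conj (ψ a) := by
      rw [Finset.sum_filter]
      refine Finset.sum_congr rfl fun a _ => ?_
      by_cases ha : (a : G) ∈ A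
      · rw [if_pos ha]
      · rw [if_neg ha, hαA a ha, zero_mul]
    rw [h3]
    symm
    apply Finset.sum_bij (fun (a : L) _ => (a : G))
    · intro a ha
      exact Finset.mem_filter.mpr ⟨Finset.mem_univ _, (Finset.mem_filter.mp ha).2⟩
    · intro a _ b _ h
      exact Subtype.ext h
    · intro b hb
      have hb' : b ∈ A := (Finset.mem_filter.mp hb).2
      exact ⟨⟨b, hD.subset hb'⟩, Finset.mem_filter.mpr ⟨Finset.mem_univ _, hb'⟩, rfl⟩
    · intro a ha
      have ha' : (a : G) ∈ A := (Finset.mem_filter.mp ha).2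
      rw [hψ a ha', map_mul, map_inv₀, Complex.conj_natCast, map_sum]
      have h4 : ∀ u ∈ Finset.univ.filter (· ∈ H (a : G)), (Nat.card (H (a : G)) : ℂ)⁻¹ *
          (dadeIsometry A L H α ((a : G) * u) * conj (χ ((a : G) * u))) =
          α a * ((Nat.card (H (a : G)) : ℂ)⁻¹ * conj (χ ((a : G) * u))) := by
        intro u hu
        have hu' : u ∈ H (a : G) := (Finset.mem_filter.mp hu).2
        rw [hD.dade_apply hα ha' a.2 hu' (x := 1) (by group)]
        ring
      rw [Finset.sum_congr rfl h4, ← Finset.mul_sum, ← Finset.mul_sum]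
  rw [h2] at hcount
  rw [h1]
  have hG := card_ne_zero_C G
  have hL := card_ne_zero_C L
  field_simp
  linear_combination -hcount

theorem finsum_mem_eq_sum_subgroup (U : Subgroup G) (f : G → ℂ) [DecidablePred (· ∈ U)] :
    ∑ᶠ u ∈ (U : Set G), f u = ∑ u ∈ Finset.univ.filter (· ∈ U), f u := by
  have h1 : (U : Set G) = ↑(Finset.univ.filter (· ∈ U)) := by
    ext u
    simp
  rw [h1, finsum_mem_coe_finset]

/-- S1500 -/
theorem dade_main (hD : DadeHypothesis A L H) [Fintype L] (α : L → ℂ) (hα : IsClassFunction L α)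
    (hαA : ∀ x : L, (x : G) ∉ A → α x = 0) :
    (∀ β : L → ℂ, IsClassFunction L β → (∀ x : L, (x : G) ∉ A → β x = 0) →
      classInner (dadeIsometry A L H α) (dadeIsometry A L H β) = classInner α β) ∧
    (∀ (χ : G → ℂ) (ψ : L → ℂ), IsClassFunction G χ →
      (∀ a : L, (a : G) ∈ A → ψ a = (Nat.card (H a) : ℂ)⁻¹ * ∑ᶠ u ∈ (H a : Set G), χ (a * u)) →
      classInner (dadeIsometry A L H α) χ = classInner α ψ) := by
  classical
  have hii : ∀ (χ : G → ℂ) (ψ : L → ℂ), IsClassFunction G χ →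
      (∀ a : L, (a : G) ∈ A → ψ a = (Nat.card (H a) : ℂ)⁻¹ * ∑ᶠ u ∈ (H a : Set G), χ (a * u)) →
      classInner (dadeIsometry A L H α) χ = classInner α ψ := by
    intro χ ψ hχ hψ
    apply hD.dade_inner hα hαA hχ ψ
    intro a ha
    rw [hψ a ha, finsum_mem_eq_sum_subgroup]
  refine ⟨fun β hβ hβA => ?_, hii⟩
  apply hii _ β (hD.dade_isClass hβ)
  intro a ha
  rw [finsum_mem_eq_sum_subgroup]
  have h1 : ∀ u ∈ Finset.univ.filter (· ∈ H (a : G)), dadeIsometry A L H β ((a : G) * u) = β a := by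
    intro u hu
    have hu' : u ∈ H (a : G) := (Finset.mem_filter.mp hu).2
    exact hD.dade_apply hβ ha a.2 hu' (x := 1) (by group)
  rw [Finset.sum_congr rfl h1, Finset.sum_const, nsmul_eq_mul]
  have hcard : (Finset.univ.filter (· ∈ H (a : G))).card = Nat.card (H (a : G)) := by
    rw [Nat.card_eq_fintype_card, Fintype.card_subtype]
  rw [hcard]
  have h0 : (Nat.card (H (a : G)) : ℂ) ≠ 0 := Nat.cast_ne_zero.mpr Nat.card_pos.ne'
  field_simp

/-- S1525 -/
theorem dade_bessel (hD : DadeHypothesis A L H) [Fintype L] (χ : G → ℂ) (hχ : IsClassFunction G χ) (ψ : L → ℂ)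
    (hψ : ∀ a : L, (a : G) ∈ A → ψ a = (Nat.card (H a) : ℂ)⁻¹ * ∑ᶠ u ∈ (H a : Set G), χ (a * u)) :
    (Nat.card L : ℝ)⁻¹ * ∑ᶠ a ∈ {a : L | (a : G) ∈ A}, ‖ψ a‖ ^ 2 ≤
      (Nat.card G : ℝ)⁻¹ * ∑ᶠ g ∈ {g : G | ∃ a ∈ A, ∃ u ∈ H a, ∃ x : G, x * g * x⁻¹ = a * u}, ‖χ g‖ ^ 2 := by
  classical
  have hFcl : IsClassFunction G (fun g => ((‖χ g‖ ^ 2 : ℝ) : ℂ)) := fun g c => by
    simp only
    rw [hχ]
  have hcount := hD.dade_count hFcl
  have h1 : {g : G | ∃ a ∈ A, ∃ u ∈ H a, ∃ x : G, x * g * x⁻¹ = a * u} =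
      ↑(Finset.univ.filter (· ∈ dadeSupport A H)) := by
    ext g
    simp only [Finset.coe_filter, Finset.mem_univ, true_and]
    rfl
  have h2 : {a : L | (a : G) ∈ A} = ↑(Finset.univ.filter (fun a : L => (a : G) ∈ A)) := by
    ext a
    simp
  rw [h1, h2, finsum_mem_coe_finset, finsum_mem_coe_finset]
  -- compare real sums
  have hreal : (Nat.card G : ℝ) * ∑ a ∈ Finset.univ.filter (· ∈ A), ∑ u ∈ Finset.univ.filter (· ∈ H a),
      (Nat.card (H a) : ℝ)⁻¹ * ‖χ (a * u)‖ ^ 2 =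
        (Nat.card L : ℝ) * ∑ g ∈ Finset.univ.filter (· ∈ dadeSupport A H), ‖χ g‖ ^ 2 := by
    apply Complex.ofReal_injective
    push_cast
    push_cast at hcount
    exact hcount
  have hsum : ∑ a ∈ Finset.univ.filter (fun a : L => (a : G) ∈ A), ‖ψ a‖ ^ 2 ≤
      ∑ a ∈ Finset.univ.filter (· ∈ A), ∑ u ∈ Finset.univ.filter (· ∈ H a), (Nat.card (H a) : ℝ)⁻¹ * ‖χ (a * u)‖ ^ 2 := by
    have h3 : ∑ a ∈ Finset.univ.filter (· ∈ A), ∑ u ∈ Finset.univ.filter (· ∈ H a), (Nat.card (H a) : ℝ)⁻¹ * ‖χ (a * u)‖ ^ 2 =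
        ∑ a ∈ Finset.univ.filter (fun a : L => (a : G) ∈ A), ∑ u ∈ Finset.univ.filter (· ∈ H (a : G)),
          (Nat.card (H (a : G)) : ℝ)⁻¹ * ‖χ ((a : G) * u)‖ ^ 2 := by
      symm
      apply Finset.sum_bij (fun (a : L) _ => (a : G))
      · intro a ha
        exact Finset.mem_filter.mpr ⟨Finset.mem_univ _, (Finset.mem_filter.mp ha).2⟩
      · intro a _ b _ h
        exact Subtype.ext h
      · intro b hb
        have hb' : b ∈ A := (Finset.mem_filter.mp hb).2
        exact ⟨⟨b, hD.subset hb'⟩, Finset.mem_filter.mpr ⟨Finset.mem_univ _, hb'⟩, rfl⟩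
      · intro a ha
        rfl
    rw [h3]
    apply Finset.sum_le_sum
    intro a ha
    have ha' : (a : G) ∈ A := (Finset.mem_filter.mp ha).2
    rw [hψ a ha', finsum_mem_eq_sum_subgroup, ← Finset.mul_sum]
    -- Cauchy--Schwarz
    set s := Finset.univ.filter (· ∈ H (a : G)) with hs
    have hcard : s.card = Nat.card (H (a : G)) := by
      rw [Nat.card_eq_fintype_card, Fintype.card_subtype]
    have hc0 : (0 : ℝ) < (Nat.card (H (a : G)) : ℝ) := by exact_mod_cast Nat.card_pos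
    have h4 : ‖∑ u ∈ s, χ ((a : G) * u)‖ ≤ ∑ u ∈ s, ‖χ ((a : G) * u)‖ := norm_sum_le _ _
    have h5 : (∑ u ∈ s, ‖χ ((a : G) * u)‖) ^ 2 ≤ s.card * ∑ u ∈ s, ‖χ ((a : G) * u)‖ ^ 2 :=
      sq_sum_le_card_mul_sum_sq
    rw [hcard] at h5
    rw [norm_mul, norm_inv, Complex.norm_natCast, mul_pow]
    have h6 : ‖∑ u ∈ s, χ ((a : G) * u)‖ ^ 2 ≤ (∑ u ∈ s, ‖χ ((a : G) * u)‖) ^ 2 :=
      pow_le_pow_left₀ (norm_nonneg _) h4 2
    have h7 : (Nat.card (H (a : G)) : ℝ)⁻¹ ^ 2 * ‖∑ u ∈ s, χ ((a : G) * u)‖ ^ 2 ≤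
        (Nat.card (H (a : G)) : ℝ)⁻¹ ^ 2 * ((Nat.card (H (a : G)) : ℝ) * ∑ u ∈ s, ‖χ ((a : G) * u)‖ ^ 2) :=
      mul_le_mul_of_nonneg_left (h6.trans h5) (by positivity)
    refine h7.trans (le_of_eq ?_)
    field_simp
  have hL : (0 : ℝ) < (Nat.card L : ℝ) := by exact_mod_cast Nat.card_pos
  have hG : (0 : ℝ) < (Nat.card G : ℝ) := by exact_mod_cast Nat.card_pos
  rw [inv_mul_le_iff₀ hL]
  have h8 : (Nat.card L : ℝ) * ((Nat.card G : ℝ)⁻¹ * ∑ g ∈ Finset.univ.filter (· ∈ dadeSupport A H), ‖χ g‖ ^ 2) =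
      ∑ a ∈ Finset.univ.filter (· ∈ A), ∑ u ∈ Finset.univ.filter (· ∈ H a), (Nat.card (H a) : ℝ)⁻¹ * ‖χ (a * u)‖ ^ 2 := by
    calc (Nat.card L : ℝ) * ((Nat.card G : ℝ)⁻¹ * ∑ g ∈ Finset.univ.filter (· ∈ dadeSupport A H), ‖χ g‖ ^ 2)
        = (Nat.card G : ℝ)⁻¹ * ((Nat.card L : ℝ) * ∑ g ∈ Finset.univ.filter (· ∈ dadeSupport A H), ‖χ g‖ ^ 2) := by ring
      _ = _ := by
        rw [← hreal, ← mul_assoc, inv_mul_cancel₀ hG.ne', one_mul]
  rw [h8]
  exact hsum

end CfsgLib.Char
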