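import Cfsg.Agent.Lib.Char.Rank1
import Cfsg.Agent.Lib.Block.FirstMain

/-! # Counting blocks of given defect through classes of the same defect -/

set_option autoImplicit false
set_option linter.unusedSectionVars false
set_option linter.unusedVariables false
set_option linter.style.haveILetI false

namespace CfsgLib.Char

open Cfsg CfsgLib.Block
open scoped ComplexConjugate

universe u

variable {G : Type u} [Group G] [Fintype G] {p : ℕ} [hp : Fact p.Prime] {M : Ideal AlgInt}

theorem centralChar_mem_of_lt (hM : IsPModular p M) {B : Set (IrrCharacter G)} (hB : IsPBlock M B)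
    {χ : IrrCharacter G} (hχ : χ ∈ B) {g : G}
    (hg : (Nat.card (Subgroup.centralizer ({g} : Set G))).factorization p < blockDefect p B) :
    centralChar (χ : G → ℂ) g ∈ locI hM.isPrime := by
  classical
  have hP := hM.isPrime
  by_contra hu
  obtain ⟨ζ, hζ, hν⟩ := exists_minNu_eq (p := p) (IsPBlock.nonempty hP hB)
  have hu' : centralChar (ζ : G → ℂ) g ∉ locI hP := by
    intro h
    apply hu
    have hs : centralChar (χ : G → ℂ) g - centralChar (ζ : G → ℂ) g ∈ locI hP := sameBlock_of_mem hP hB hχ hζ g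
    have := add_mem hs h
    simpa using this
  have h1 := not_pow_dvd_index_of_central hM ζ.2 hu'
  rw [hp.out.pow_dvd_iff_le_factorization Subgroup.index_ne_zero_of_finite, hν] at h1
  have h2 := card_centralizer_factorization (p := p) g
  rw [blockDefect_eq] at hg
  omega

theorem blockCoeff_mem_of_gt (hM : IsPModular p M) {B : Set (IrrCharacter G)} (hB : IsPBlock M B) {g : G}
    (hg : blockDefect p B < (Nat.card (Subgroup.centralizer ({g} : Set G))).factorization p) :
    blockCoeff B g ∈ locI hM.isPrime := by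
  by_contra hu
  have h1 := pow_dvd_index_of_unit hM hB (fun ζ hζ => pow_minNu_dvd (p := p) hζ) hu
  rw [hp.out.pow_dvd_iff_le_factorization Subgroup.index_ne_zero_of_finite] at h1
  have h2 := card_centralizer_factorization (p := p) g
  rw [blockDefect_eq] at hg
  omega

/-- Only the regular classes of the right defect matter, modulo the local ideal. -/
theorem om_fB_sub_sum_mem (hM : IsPModular p M) {B B' : Set (IrrCharacter G)} (hB : IsPBlock M B)
    (hB' : IsPBlock M B') {χ : IrrCharacter G} (hχ : χ ∈ B) (hd : blockDefect p B = blockDefect p B')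
    [Fintype (ConjClasses G)] (S : Finset (ConjClasses G))
    (hS : ∀ E : ConjClasses G, E ∈ S ↔ (¬ p ∣ orderOf E.out ∧
      (Nat.card (Subgroup.centralizer ({E.out} : Set G))).factorization p = blockDefect p B)) :
    om (χ : G → ℂ) (fB B') - ∑ E ∈ S, blockCoeff B' E.out * centralChar (χ : G → ℂ) E.out ∈ locI hM.isPrime := by
  classical
  have hP := hM.isPrime
  rw [om_eq_sum_classes χ.2 (isCent_fB B')]
  simp only [coeff_fB]
  rw [← Finset.sum_sdiff (Finset.subset_univ S), add_sub_cancel_right]
  refine locI_sum hP _ _ fun E hE => ?_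
  have hE' : E ∉ S := (Finset.mem_sdiff.1 hE).2
  rw [hS] at hE'
  by_cases hr : p ∣ orderOf E.out
  · rw [blockCoeff_singular hM hB' hr, zero_mul]
    exact zero_mem _
  · have hne : (Nat.card (Subgroup.centralizer ({E.out} : Set G))).factorization p ≠ blockDefect p B :=
      fun h => hE' ⟨hr, h⟩
    rcases lt_or_gt_of_ne hne with h | h
    · exact locI_mul_left hP (sval_fB hM hB' _) (centralChar_mem_of_lt hM hB hχ h)
    · rw [hd] at h
      exact locI_mul_right hP (centralChar_mem hP χ.2 _) (blockCoeff_mem_of_gt hM hB' h)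

theorem defect_invariant {E : ConjClasses G} {σ : ℕ}
    (h : ∃ g : G, ConjClasses.mk g = E ∧ ¬ p ∣ orderOf g ∧
      (Nat.card (Subgroup.centralizer ({g} : Set G))).factorization p = σ) :
    ¬ p ∣ orderOf E.out ∧ (Nat.card (Subgroup.centralizer ({E.out} : Set G))).factorization p = σ := by
  obtain ⟨g, hg, h1, h2⟩ := h
  have h3 : ConjClasses.mk E.out = E := by
    rw [← hg]
    exact Quotient.out_eq _
  rw [← hg] at h3
  have h4 : IsConj E.out g := by
    rw [← hg] at *
    exact ConjClasses.mk_eq_mk_iff_isConj.1 h3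
  obtain ⟨c, hc⟩ := isConj_iff.1 h4.symm
  rw [← hc]
  refine ⟨?_, ?_⟩
  · rw [orderOf_conj']
    exact h1
  · rw [card_centralizer_conj]
    exact h2

/-- S4510 core. -/
theorem sameBlock_iff_defect_classes (hM : IsPModular p M) (d : ℕ) (χ ψ : IrrCharacter G)
    (hχ : blockDefect p (blockOf M (χ : G → ℂ)) = d) (hψ : blockDefect p (blockOf M (ψ : G → ℂ)) = d) :
    SameBlock M (χ : G → ℂ) (ψ : G → ℂ) ↔ ∀ x : G, ¬ p ∣ orderOf x →
      (Nat.card (Subgroup.centralizer ({x} : Set G))).factorization p = d →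
      MemLocalIdeal M (centralChar (χ : G → ℂ) x - centralChar (ψ : G → ℂ) x) := by
  classical
  have hP := hM.isPrime
  constructor
  · exact fun h x _ _ => h x
  · intro h
    haveI : Fintype (ConjClasses G) := Fintype.ofFinite _
    set B := blockOf M (ψ : G → ℂ) with hBdef
    have hB : IsPBlock M B := ⟨ψ, rfl⟩
    have hBχ : IsPBlock M (blockOf M (χ : G → ℂ)) := ⟨χ, rfl⟩
    set S : Finset (ConjClasses G) := Finset.univ.filter (fun E => ¬ p ∣ orderOf E.out ∧
      (Nat.card (Subgroup.centralizer ({E.out} : Set G))).factorization p = d) with hSdef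
    have r1 := om_fB_sub_sum_mem hM hBχ hB (self_mem_blockOf hP χ) (hχ.trans hψ.symm) S (by
      intro E; rw [hχ]; simp [hSdef])
    have r2 := om_fB_sub_sum_mem hM hB hB (self_mem_blockOf hP ψ) rfl S (by
      intro E; rw [hψ]; simp [hSdef])
    have r3 : ∑ E ∈ S, blockCoeff B E.out * (centralChar (χ : G → ℂ) E.out - centralChar (ψ : G → ℂ) E.out) ∈ locI hP := by
      refine locI_sum hP _ _ fun E hE => ?_
      have hE' := (Finset.mem_filter.1 hE).2
      exact locI_mul_left hP (sval_fB hM hB _) (h _ hE'.1 hE'.2)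
    have r4 : om (χ : G → ℂ) (fB B) - om (ψ : G → ℂ) (fB B) ∈ locI hP := by
      have := add_mem (add_mem r1 r3) (neg_mem r2)
      convert this using 1
      simp only [mul_sub, Finset.sum_sub_distrib]
      ring
    rw [om_fB, om_fB, if_pos (self_mem_blockOf hP ψ)] at r4
    by_cases hχB : χ ∈ B
    · exact SameBlock.symm hP hχB
    · exfalso
      rw [if_neg hχB, zero_sub] at r4
      exact one_notMem_locI hP (by simpa using neg_mem r4)

/-- The local ideal as an ideal of the local ring. -/
def locJ {M : Ideal AlgInt} (hP : M.IsPrime) : Ideal (locR hP) where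
  carrier := {z | (z : ℂ) ∈ locI hP}
  add_mem' := fun {a b} ha hb => add_mem (S := AddSubgroup ℂ) (s := locI hP) ha hb
  zero_mem' := zero_mem (locI hP)
  smul_mem' := fun c x hx => locI_mul_left hP c.2 hx

theorem mem_locJ {M : Ideal AlgInt} (hP : M.IsPrime) {z : locR hP} : z ∈ locJ hP ↔ (z : ℂ) ∈ locI hP := by
  change z ∈ (locJ hP).carrier ↔ _
  rfl

theorem locJ_ne_top {M : Ideal AlgInt} (hP : M.IsPrime) : locJ hP ≠ ⊤ := by
  intro h
  have h1 : (1 : locR hP) ∈ locJ hP := by
    rw [h]
    trivial
  exact one_notMem_locI hP ((mem_locJ hP).1 h1)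

instance locQuot_nontrivial {M : Ideal AlgInt} (hP : M.IsPrime) : Nontrivial (locR hP ⧸ locJ hP) :=
  Ideal.Quotient.nontrivial_iff.2 (locJ_ne_top hP)

/-- S4505 core. -/
theorem card_blocks_defect_le (hM : IsPModular p M) (σ : ℕ) :
    Nat.card {B : Set (IrrCharacter G) // IsPBlock M B ∧ blockDefect p B = σ} ≤
      Nat.card {C : ConjClasses G // ∃ g : G, ConjClasses.mk g = C ∧ ¬ p ∣ orderOf g ∧
        (Nat.card (Subgroup.centralizer ({g} : Set G))).factorization p = σ} := by
  classical
  have hP := hM.isPrime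
  set α := {B : Set (IrrCharacter G) // IsPBlock M B ∧ blockDefect p B = σ} with hα
  set β := {C : ConjClasses G // ∃ g : G, ConjClasses.mk g = C ∧ ¬ p ∣ orderOf g ∧
        (Nat.card (Subgroup.centralizer ({g} : Set G))).factorization p = σ} with hβ
  haveI : Fintype (ConjClasses G) := Fintype.ofFinite _
  haveI : Finite α := Subtype.finite
  haveI : Fintype α := Fintype.ofFinite _
  haveI : Fintype β := Fintype.ofFinite _
  have hne : ∀ B : α, ∃ χ : IrrCharacter G, χ ∈ B.1 := fun B => IsPBlock.nonempty hP B.2.1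
  choose χB hχB using hne
  let R := locR hP ⧸ locJ hP
  let q : locR hP →+* R := Ideal.Quotient.mk _
  let X : Matrix α β R := fun B C => q ⟨blockCoeff B.1 C.1.out, sval_fB hM B.2.1 _⟩
  let Y : Matrix β α R := fun C B => q ⟨centralChar (χB B : G → ℂ) C.1.out, centralChar_mem hP (χB B).2 _⟩
  have hXY : X * Y = 1 := by
    ext B₁ B₂
    rw [Matrix.mul_apply]
    simp only [X, Y]
    simp only [← map_mul, ← map_sum]
    have hδ : (1 : Matrix α α R) B₁ B₂ = q (if χB B₂ ∈ B₁.1 then 1 else 0) := by
      by_cases h : B₁ = B₂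
      · subst h
        rw [Matrix.one_apply_eq, if_pos (hχB B₁), map_one]
      · rw [Matrix.one_apply_ne h]
        have h2 : χB B₂ ∉ B₁.1 := by
          intro h3
          apply h
          apply Subtype.ext
          rw [blockOf_eq_of_mem hP B₁.2.1 h3, ← blockOf_eq_of_mem hP B₂.2.1 (hχB B₂)]
        rw [if_neg h2, map_zero]
    rw [hδ]
    apply (Ideal.Quotient.eq).2
    rw [mem_locJ]
    set S : Finset (ConjClasses G) := Finset.univ.filter (fun E => ¬ p ∣ orderOf E.out ∧
      (Nat.card (Subgroup.centralizer ({E.out} : Set G))).factorization p = σ) with hSdef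
    have hS : ∀ E : ConjClasses G, E ∈ S ↔ ∃ g : G, ConjClasses.mk g = E ∧ ¬ p ∣ orderOf g ∧
        (Nat.card (Subgroup.centralizer ({g} : Set G))).factorization p = σ := by
      intro E
      simp only [hSdef, Finset.mem_filter, Finset.mem_univ, true_and]
      exact ⟨fun h => ⟨E.out, Quotient.out_eq _, h.1, h.2⟩, fun h => defect_invariant h⟩
    have r1 := om_fB_sub_sum_mem hM B₂.2.1 B₁.2.1 (hχB B₂) (B₂.2.2.trans B₁.2.2.symm) S (by
      intro E
      rw [B₂.2.2]
      simp [hSdef])
    have h1 : (((∑ C : β, (⟨blockCoeff B₁.1 C.1.out, sval_fB hM B₁.2.1 _⟩ : locR hP) *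
        ⟨centralChar (χB B₂ : G → ℂ) C.1.out, centralChar_mem hP (χB B₂).2 _⟩) : locR hP) : ℂ) =
        ∑ E ∈ S, blockCoeff B₁.1 E.out * centralChar (χB B₂ : G → ℂ) E.out := by
      rw [Finset.sum_subtype S hS (fun E => blockCoeff B₁.1 E.out * centralChar (χB B₂ : G → ℂ) E.out)]
      push_cast
      rfl
    have h2 : (((if χB B₂ ∈ B₁.1 then 1 else 0 : locR hP)) : ℂ) = om (χB B₂ : G → ℂ) (fB B₁.1) := by
      rw [om_fB]
      split_ifs <;> simp
    rw [AddSubgroupClass.coe_sub, h1, h2]
    have := neg_mem r1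
    rwa [neg_sub] at this
  have hinj : Function.Injective Y.mulVecLin := by
    intro v w hvw
    have h1 : X.mulVec (Y.mulVec v) = X.mulVec (Y.mulVec w) := by
      have h2 : Y.mulVec v = Y.mulVec w := hvw
      rw [h2]
    rwa [Matrix.mulVec_mulVec, Matrix.mulVec_mulVec, hXY, Matrix.one_mulVec, Matrix.one_mulVec] at h1
  have := card_le_of_injective R Y.mulVecLin hinj
  rw [Nat.card_eq_fintype_card, Nat.card_eq_fintype_card]
  exact this

end CfsgLib.Char
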