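import Mathlib
import Cfsg.Prelude.Def_Solvable
import Cfsg.Agent.Lib.Solv.Core
import Cfsg.Agent.S4496

/-!
# Groups with a self-centralizing subgroup of prime order
-/

set_option linter.unusedSectionVars false
set_option linter.style.haveILetI false
set_option linter.unusedSimpArgs false
set_option linter.unusedVariables false

namespace CfsgLib.Char.SC

open Subgroup Cfsg
open scoped commutatorElement

variable {G : Type*} [Group G] {p : ℕ}

/-- An element of prime order commuting only with its own powers. -/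
structure Hyp (p : ℕ) (x : G) : Prop where
  order : orderOf x = p
  cent : centralizer ({x} : Set G) = zpowers x

variable {x : G}

theorem Hyp.mem_iff (h : Hyp p x) {a : G} : a ∈ zpowers x ↔ a * x = x * a := by
  rw [← h.cent, Subgroup.mem_centralizer_singleton_iff]

theorem Hyp.card_P (h : Hyp p x) : Nat.card (zpowers x) = p := by
  rw [Nat.card_zpowers, h.order]

variable [hp : Fact p.Prime]

theorem Hyp.ne_one (h : Hyp p x) : x ≠ 1 := by
  intro h1
  have h2 := h.order
  rw [h1, orderOf_one] at h2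
  exact hp.out.one_lt.ne h2

theorem Hyp.pow_mem (h : Hyp p x) {y : G} (hy : y ∈ zpowers x) : y ^ p = 1 := by
  obtain ⟨i, rfl⟩ := Subgroup.mem_zpowers_iff.mp hy
  rw [← zpow_natCast, ← zpow_mul, mul_comm, zpow_mul, zpow_natCast, ← h.order, pow_orderOf_eq_one, one_zpow]

theorem Hyp.orderOf_mem (h : Hyp p x) {y : G} (hy : y ∈ zpowers x) (hy1 : y ≠ 1) : orderOf y = p :=
  orderOf_eq_prime (h.pow_mem hy) hy1

variable [Finite G]

theorem Hyp.zpowers_eq (h : Hyp p x) {y : G} (hy : y ∈ zpowers x) (hy1 : y ≠ 1) : zpowers y = zpowers x := by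
  apply Subgroup.eq_of_le_of_card_ge
  · exact (Subgroup.zpowers_le).mpr hy
  · rw [Nat.card_zpowers, Nat.card_zpowers, h.order, h.orderOf_mem hy hy1]

theorem Hyp.exists_sylow (h : Hyp p x) : ∃ P : Sylow p G, (P : Subgroup G) = zpowers x := by
  have hXp : IsPGroup p (zpowers x) := IsPGroup.of_card (n := 1) (by rw [h.card_P, pow_one])
  obtain ⟨P, hP⟩ := hXp.exists_le_sylow
  refine ⟨P, le_antisymm ?_ hP⟩
  have hxP : x ∈ P := hP (mem_zpowers x)
  haveI : Nontrivial (P : Subgroup G) := by
    refine ⟨⟨⟨x, hxP⟩, 1, ?_⟩⟩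
    intro h1
    exact h.ne_one (congrArg Subtype.val h1)
  haveI : Nontrivial (Subgroup.center (P : Subgroup G)) := P.isPGroup'.center_nontrivial
  obtain ⟨⟨z, hz⟩, hz1⟩ := exists_ne (1 : Subgroup.center (P : Subgroup G))
  have hz1' : (z : G) ≠ 1 := by
    intro h1
    apply hz1
    apply Subtype.ext
    apply Subtype.ext
    exact h1
  have hzx : (z : G) ∈ zpowers x := by
    rw [h.mem_iff]
    have := (Subgroup.mem_center_iff.1 hz) ⟨x, hxP⟩
    exact (congrArg Subtype.val this).symm
  have hzz := h.zpowers_eq hzx hz1'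
  have hxz : x ∈ zpowers (z : G) := by
    rw [hzz]
    exact mem_zpowers x
  intro u hu
  rw [h.mem_iff]
  obtain ⟨k, hk⟩ := hxz
  have hcomm : Commute u (z : G) := by
    have := (Subgroup.mem_center_iff.1 hz) ⟨u, hu⟩
    exact (congrArg Subtype.val this)
  rw [← hk]
  exact (hcomm.zpow_right k).eq

theorem Hyp.not_dvd_index (h : Hyp p x) : ¬ p ∣ (zpowers x).index := by
  obtain ⟨P, hP⟩ := h.exists_sylow
  rw [← hP]
  exact P.not_dvd_index

theorem Hyp.exists_conj_mem (h : Hyp p x) {y : G} (hy : orderOf y = p) : ∃ g : G, g * y * g⁻¹ ∈ zpowers x := by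
  obtain ⟨P, hP⟩ := h.exists_sylow
  have hHp : IsPGroup p (zpowers y) := IsPGroup.of_card (n := 1) (by rw [Nat.card_zpowers, hy, pow_one])
  obtain ⟨Q, hQ⟩ := hHp.exists_le_sylow
  obtain ⟨g, hg⟩ := MulAction.exists_smul_eq G Q P
  refine ⟨g, ?_⟩
  rw [← hP, ← hg]
  have h1 : y ∈ (Q : Subgroup G) := hQ (mem_zpowers y)
  show g * y * g⁻¹ ∈ ((g • Q : Sylow p G) : Subgroup G)
  rw [Sylow.coe_subgroup_smul, Subgroup.mem_pointwise_smul_iff_inv_smul_mem]
  simpa [MulAut.smul_def, MulAut.conj_apply, mul_assoc] using h1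

theorem Hyp.mem_of_normal (h : Hyp p x) {E : Subgroup G} [hE : E.Normal] {y : G} (hyE : y ∈ E) (hy : orderOf y = p) :
    x ∈ E := by
  obtain ⟨g, hg⟩ := h.exists_conj_mem hy
  have h1 : g * y * g⁻¹ ∈ E := hE.conj_mem _ hyE g
  have h2 : g * y * g⁻¹ ≠ 1 := by
    intro h3
    have h4 : y = 1 := by
      have : g⁻¹ * (g * y * g⁻¹) * g = y := by group
      rw [← this, h3]
      group
    rw [h4, orderOf_one] at hy
    exact hp.out.one_lt.ne hy
  have h3 := h.zpowers_eq hg h2
  have h4 : x ∈ zpowers (g * y * g⁻¹) := by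
    rw [h3]
    exact mem_zpowers x
  exact (Subgroup.zpowers_le.mpr h1) h4

theorem Hyp.mem_of_dvd (h : Hyp p x) {E : Subgroup G} [hE : E.Normal] (hd : p ∣ Nat.card E) : x ∈ E := by
  obtain ⟨y, hy⟩ := exists_prime_orderOf_dvd_card' (G := E) p hd
  exact h.mem_of_normal y.2 (by rw [← hy]; simp)

theorem Hyp.dvd_of_mem (h : Hyp p x) {E : Subgroup G} (hxE : x ∈ E) : p ∣ Nat.card E := by
  have h1 := Subgroup.orderOf_dvd_natCard E hxE
  rwa [h.order] at h1

theorem Hyp.commutator_le (h : Hyp p x) {E : Subgroup G} [hE : E.Normal] (hxE : x ∈ E) : commutator G ≤ E :=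
  (Cfsg.Agent.S4496.result p hp.out x h.order h.cent E).1 (h.dvd_of_mem hxE)

theorem Hyp.frattini (h : Hyp p x) {E : Subgroup G} [hE : E.Normal] (hxE : x ∈ E) (g : G) :
    ∃ k ∈ E, ∃ a ∈ normalizer (zpowers x : Set G), g = k * a := by
  obtain ⟨P, hP⟩ := h.exists_sylow
  have hPE : (P : Subgroup G) ≤ E := by
    rw [hP]
    exact Subgroup.zpowers_le.mpr hxE
  have h1 := Sylow.normalizer_sup_eq_top' P hPE
  have h2 : g ∈ (normalizer (P : Set G) ⊔ E : Subgroup G) := by
    rw [h1]
    exact Subgroup.mem_top g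
  rw [← SetLike.mem_coe, Subgroup.mul_normal, Set.mem_mul] at h2
  obtain ⟨a, ha, k, hk, rfl⟩ := h2
  have ha' : a ∈ normalizer (((P : Subgroup G)) : Set G) := ha
  rw [hP] at ha'
  replace ha := ha'
  refine ⟨a * k * a⁻¹, hE.conj_mem _ hk a, a, ha, by group⟩

/-- A normal subgroup meeting `⟨x⟩` trivially lies in the commutator subgroup. -/
theorem Hyp.le_commutator (h : Hyp p x) {R : Subgroup G} [hR : R.Normal] (hRP : ∀ k ∈ R, k ∈ zpowers x → k = 1) :
    R ≤ commutator G := by
  let φ : R → R := fun k => ⟨(k : G) * (x * (k : G)⁻¹ * x⁻¹), R.mul_mem k.2 (hR.conj_mem _ (R.inv_mem k.2) x)⟩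
  have hinj : Function.Injective φ := by
    intro a b hab
    have h1 : (a : G) * (x * (a : G)⁻¹ * x⁻¹) = (b : G) * (x * (b : G)⁻¹ * x⁻¹) := congrArg Subtype.val hab
    have h2 : (b : G)⁻¹ * a ∈ zpowers x := by
      rw [h.mem_iff]
      calc (b : G)⁻¹ * a * x = (b : G)⁻¹ * ((a : G) * (x * (a : G)⁻¹ * x⁻¹)) * x * a := by group
        _ = (b : G)⁻¹ * ((b : G) * (x * (b : G)⁻¹ * x⁻¹)) * x * a := by rw [h1]
        _ = x * ((b : G)⁻¹ * a) := by group
    have h3 := hRP _ (R.mul_mem (R.inv_mem b.2) a.2) h2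
    apply Subtype.ext
    rw [inv_mul_eq_one] at h3
    exact h3.symm
  have hsurj := Finite.injective_iff_surjective.mp hinj
  intro k hk
  obtain ⟨a, ha⟩ := hsurj ⟨k, hk⟩
  have h1 : (a : G) * (x * (a : G)⁻¹ * x⁻¹) = k := congrArg Subtype.val ha
  rw [← h1]
  have h2 : (a : G) * (x * (a : G)⁻¹ * x⁻¹) = ⁅(a : G), x⁆ := by
    rw [commutatorElement_def]
    group
  rw [h2]
  exact Subgroup.commutator_mem_commutator (Subgroup.mem_top _) (Subgroup.mem_top _)

theorem Hyp.disjoint_of_coprime (h : Hyp p x) {R : Subgroup G} (hR : ¬ p ∣ Nat.card R) : ∀ k ∈ R, k ∈ zpowers x → k = 1 := by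
  intro k hk hk'
  by_contra h1
  have h2 := h.orderOf_mem hk' h1
  have h3 := Subgroup.orderOf_dvd_natCard R hk
  rw [h2] at h3
  exact hR h3

theorem Hyp.conj_zpow_of_norm (h : Hyp p x) {a : G} (ha : a ∈ normalizer (zpowers x : Set G)) :
    ∃ i : ℤ, ∀ j : ℤ, a * x ^ j * a⁻¹ = x ^ (i * j) := by
  have h1 : a * x * a⁻¹ ∈ zpowers x := (Subgroup.mem_normalizer_iff.mp ha x).mp (mem_zpowers x)
  obtain ⟨i, hi⟩ := Subgroup.mem_zpowers_iff.mp h1
  refine ⟨i, fun j => ?_⟩
  rw [← conj_zpow, ← hi, zpow_mul]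

theorem Hyp.norm_comm (h : Hyp p x) {a b : G} (ha : a ∈ normalizer (zpowers x : Set G))
    (hb : b ∈ normalizer (zpowers x : Set G)) : a * b * a⁻¹ * b⁻¹ ∈ zpowers x := by
  obtain ⟨i, hi⟩ := h.conj_zpow_of_norm ha
  obtain ⟨j, hj⟩ := h.conj_zpow_of_norm hb
  have h1 : (b * a)⁻¹ * (a * b) ∈ zpowers x := by
    rw [h.mem_iff]
    have e1 : a * x = x ^ i * a := by
      have := hi 1
      rw [zpow_one, mul_one] at this
      rw [← this]
      group
    have e2 : b * x = x ^ j * b := by
      have := hj 1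
      rw [zpow_one, mul_one] at this
      rw [← this]
      group
    have e3 : a * x ^ j = x ^ (i * j) * a := by
      rw [← hi j]
      group
    have e4 : b * x ^ i = x ^ (j * i) * b := by
      rw [← hj i]
      group
    have e5 : (a * b) * x = x ^ (i * j) * (a * b) := by
      calc a * b * x = a * (b * x) := by group
        _ = a * (x ^ j * b) := by rw [e2]
        _ = (a * x ^ j) * b := by group
        _ = x ^ (i * j) * a * b := by rw [e3]
        _ = _ := by group
    have e6 : (b * a) * x = x ^ (i * j) * (b * a) := by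
      calc b * a * x = b * (a * x) := by group
        _ = b * (x ^ i * a) := by rw [e1]
        _ = (b * x ^ i) * a := by group
        _ = x ^ (j * i) * b * a := by rw [e4]
        _ = _ := by rw [mul_comm j i]; group
    calc (b * a)⁻¹ * (a * b) * x = (b * a)⁻¹ * ((a * b) * x) := by group
      _ = (b * a)⁻¹ * (x ^ (i * j) * (a * b)) := by rw [e5]
      _ = ((b * a)⁻¹ * x ^ (i * j)) * (a * b) := by group
      _ = x * ((b * a)⁻¹ * (a * b)) := by
        have e7 : (b * a)⁻¹ * x ^ (i * j) = x * (b * a)⁻¹ := by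
          calc (b * a)⁻¹ * x ^ (i * j) = (b * a)⁻¹ * (x ^ (i * j) * (b * a)) * (b * a)⁻¹ := by group
            _ = (b * a)⁻¹ * ((b * a) * x) * (b * a)⁻¹ := by rw [e6]
            _ = x * (b * a)⁻¹ := by group
        rw [e7]
        group
  have h2 : (b * a) * ((b * a)⁻¹ * (a * b)) * (b * a)⁻¹ ∈ zpowers x :=
    (Subgroup.mem_normalizer_iff.mp (Subgroup.mul_mem _ hb ha) _).mp h1
  have h3 : (b * a) * ((b * a)⁻¹ * (a * b)) * (b * a)⁻¹ = a * b * a⁻¹ * b⁻¹ := by group
  rwa [h3] at h2

theorem Hyp.comm_mem (h : Hyp p x) {a : G} (ha : a ∈ normalizer (zpowers x : Set G)) :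
    a * x * a⁻¹ * x⁻¹ ∈ zpowers x ∧ a * x * a⁻¹ * x⁻¹ ∈ commutator G := by
  constructor
  · have h1 : a * x * a⁻¹ ∈ zpowers x := (Subgroup.mem_normalizer_iff.mp ha x).mp (mem_zpowers x)
    exact Subgroup.mul_mem _ h1 (Subgroup.inv_mem _ (mem_zpowers x))
  · have h2 : a * x * a⁻¹ * x⁻¹ = ⁅a, x⁆ := by
      rw [commutatorElement_def]
    rw [h2]
    exact Subgroup.commutator_mem_commutator (Subgroup.mem_top _) (Subgroup.mem_top _)

theorem Hyp.mem_commutator_of_not_mem (h : Hyp p x) {a : G} (ha : a ∈ normalizer (zpowers x : Set G))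
    (ha' : a ∉ zpowers x) : x ∈ commutator G := by
  obtain ⟨h1, h2⟩ := h.comm_mem ha
  have h3 : a * x * a⁻¹ * x⁻¹ ≠ 1 := by
    intro h4
    apply ha'
    rw [h.mem_iff]
    calc a * x = (a * x * a⁻¹ * x⁻¹) * (x * a) := by group
      _ = x * a := by rw [h4, one_mul]
  have h5 := h.zpowers_eq h1 h3
  have h6 : x ∈ zpowers (a * x * a⁻¹ * x⁻¹) := by
    rw [h5]
    exact mem_zpowers x
  exact (Subgroup.zpowers_le.mpr h2) h6

/-- Counting the classes of elements of order `p`. -/
theorem Hyp.count (h : Hyp p x) : ∃ e : ℕ, Nat.card (normalizer (zpowers x : Set G)) = p * e ∧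
    Nat.card { C : ConjClasses G // ∃ g ∈ C.carrier, orderOf g = p } * e = p - 1 := by
  classical
  letI := Fintype.ofFinite G
  set P : Subgroup G := zpowers x with hPdef
  set N : Subgroup G := normalizer (P : Set G) with hNdef
  have hPN : P ≤ N := Subgroup.le_normalizer
  let T := { y : P // y ≠ 1 }
  have hT1 : ∀ y : T, (y.1 : G) ≠ 1 := by
    intro y h1
    exact y.2 (Subtype.ext h1)
  have hTord : ∀ y : T, orderOf (y.1 : G) = p := fun y => h.orderOf_mem y.1.2 (hT1 y)
  have hTz : ∀ y : T, zpowers (y.1 : G) = P := fun y => h.zpowers_eq y.1.2 (hT1 y)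
  have hTcent : ∀ (y : T) (a : G), a * (y.1 : G) = (y.1 : G) * a ↔ a ∈ P := by
    intro y a
    constructor
    · intro h1
      rw [hPdef, h.mem_iff]
      have h2 : x ∈ zpowers (y.1 : G) := by
        rw [hTz]
        exact mem_zpowers x
      obtain ⟨k, hk⟩ := h2
      rw [← hk]
      have : Commute a (y.1 : G) := h1
      exact (this.zpow_right k).eq
    · intro h1
      obtain ⟨k, hk⟩ := y.1.2
      rw [← hk]
      have : Commute a x := (h.mem_iff).mp h1
      exact (this.zpow_right k).eq
  have hTnorm : ∀ (y y' : T) (g : G), g * (y.1 : G) * g⁻¹ = (y'.1 : G) → g ∈ N := by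
    intro y y' g hg
    rw [hNdef, Subgroup.mem_normalizer_iff]
    intro u
    constructor
    · intro hu
      rw [← hTz y] at hu
      obtain ⟨k, rfl⟩ := Subgroup.mem_zpowers_iff.mp hu
      rw [← conj_zpow, hg]
      exact Subgroup.zpow_mem _ y'.1.2 k
    · intro hu
      rw [← hTz y'] at hu
      obtain ⟨k, hk⟩ := Subgroup.mem_zpowers_iff.mp hu
      rw [← hg, conj_zpow] at hk
      have h1 : (y.1 : G) ^ k = u := by
        have h2 : g⁻¹ * (g * (y.1 : G) ^ k * g⁻¹) * g = g⁻¹ * (g * u * g⁻¹) * g := by rw [hk]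
        have h3 : ∀ z, g⁻¹ * (g * z * g⁻¹) * g = z := fun z => by group
        rwa [h3, h3] at h2
      rw [← h1]
      exact Subgroup.zpow_mem _ y.1.2 k
  let Y : T → Type _ := fun y₀ => { y : T // IsConj (y₀.1 : G) (y.1 : G) }
  -- the orbit stabilizer computation
  have hYcard : ∀ y₀ : T, Nat.card N = Nat.card (Y y₀) * p := by
    intro y₀
    let H : Subgroup N := P.subgroupOf N
    have hHcard : Nat.card H = p := by
      rw [Nat.card_congr (Subgroup.subgroupOfEquivOfLe hPN).toEquiv]
      exact h.card_P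
    let Ψ : N → Y y₀ := fun a => ⟨⟨⟨(a : G) * (y₀.1 : G) * (a : G)⁻¹, (Subgroup.mem_normalizer_iff.mp a.2 _).mp y₀.1.2⟩, by
      intro h1
      apply hT1 y₀
      have h2 : (a : G) * (y₀.1 : G) * (a : G)⁻¹ = 1 := congrArg Subtype.val h1
      have h3 : (a : G)⁻¹ * ((a : G) * (y₀.1 : G) * (a : G)⁻¹) * a = y₀.1 := by group
      rw [← h3, h2]
      group⟩, isConj_iff.mpr ⟨a, rfl⟩⟩
    have hΨ : ∀ a b : N, Ψ a = Ψ b ↔ a⁻¹ * b ∈ H := by
      intro a b
      rw [Subgroup.mem_subgroupOf]
      have h1 : Ψ a = Ψ b ↔ (a : G) * (y₀.1 : G) * (a : G)⁻¹ = (b : G) * (y₀.1 : G) * (b : G)⁻¹ := by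
        constructor
        · intro h2
          exact congrArg (fun z : Y y₀ => ((z.1.1 : P) : G)) h2
        · intro h2
          apply Subtype.ext
          apply Subtype.ext
          apply Subtype.ext
          exact h2
      rw [h1]
      have h2 : (((a⁻¹ * b : N)) : G) = (a : G)⁻¹ * b := by simp
      rw [h2, ← hTcent y₀]
      constructor
      · intro h3
        calc (a : G)⁻¹ * b * (y₀.1 : G) = (a : G)⁻¹ * ((b : G) * (y₀.1 : G) * (b : G)⁻¹) * b := by group
          _ = (a : G)⁻¹ * ((a : G) * (y₀.1 : G) * (a : G)⁻¹) * b := by rw [h3]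
          _ = (y₀.1 : G) * ((a : G)⁻¹ * b) := by group
      · intro h3
        have h4 : (b : G) * (y₀.1 : G) = (a : G) * ((a : G)⁻¹ * b * (y₀.1 : G)) := by group
        rw [h4, h3]
        group
    let Ψ' : N ⧸ H → Y y₀ := Quotient.lift Ψ (by
      intro a b hab
      exact (hΨ a b).mpr (QuotientGroup.leftRel_apply.mp hab))
    have hΨ' : Function.Bijective Ψ' := by
      constructor
      · intro a b
        induction a using QuotientGroup.induction_on with
        | H a =>
          induction b using QuotientGroup.induction_on with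
          | H b =>
            intro hab
            apply QuotientGroup.eq.mpr
            exact (hΨ a b).mp hab
      · rintro ⟨y, hy⟩
        obtain ⟨g, hg⟩ := isConj_iff.mp hy
        refine ⟨QuotientGroup.mk ⟨g, hTnorm y₀ y g hg⟩, ?_⟩
        apply Subtype.ext
        apply Subtype.ext
        apply Subtype.ext
        exact hg
    rw [Subgroup.card_eq_card_quotient_mul_card_subgroup H, hHcard, Nat.card_congr (Equiv.ofBijective Ψ' hΨ')]
  let y₁ : T := ⟨⟨x, mem_zpowers x⟩, fun h1 => h.ne_one (congrArg Subtype.val h1)⟩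
  refine ⟨Nat.card (Y y₁), ?_, ?_⟩
  · rw [hYcard y₁, mul_comm]
  -- the map to classes
  let CC := { C : ConjClasses G // ∃ g ∈ C.carrier, orderOf g = p }
  let f : T → CC := fun y => ⟨ConjClasses.mk (y.1 : G), (y.1 : G), ConjClasses.mem_carrier_mk, hTord y⟩
  have hfsurj : Function.Surjective f := by
    rintro ⟨C, g, hg, hord⟩
    obtain ⟨a, ha⟩ := h.exists_conj_mem hord
    have hg1 : g ≠ 1 := by
      rintro rfl
      rw [orderOf_one] at hord
      exact hp.out.one_lt.ne hord
    have hz1 : a * g * a⁻¹ ≠ 1 := by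
      intro h3
      apply hg1
      have h4 : a⁻¹ * (a * g * a⁻¹) * a = g := by group
      rw [← h4, h3]
      group
    obtain rfl := ConjClasses.mem_carrier_iff_mk_eq.mp hg
    refine ⟨⟨⟨a * g * a⁻¹, ha⟩, fun h3 => hz1 (congrArg Subtype.val h3)⟩, ?_⟩
    apply Subtype.ext
    simp only [f]
    rw [ConjClasses.mk_eq_mk_iff_isConj]
    exact (isConj_iff.mpr ⟨a, rfl⟩).symm
  have hfib : ∀ c : CC, Nat.card { y : T // f y = c } = Nat.card (Y y₁) := by
    intro c
    obtain ⟨y₀, rfl⟩ := hfsurj c
    have h1 : Nat.card { y : T // f y = f y₀ } = Nat.card (Y y₀) := by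
      apply Nat.card_congr
      apply Equiv.subtypeEquivRight
      intro y
      constructor
      · intro h2
        have h3 : ConjClasses.mk (y.1 : G) = ConjClasses.mk (y₀.1 : G) := congrArg Subtype.val h2
        exact (ConjClasses.mk_eq_mk_iff_isConj.mp h3).symm
      · intro h2
        apply Subtype.ext
        exact ConjClasses.mk_eq_mk_iff_isConj.mpr h2.symm
    rw [h1]
    have h2 := hYcard y₀
    rw [hYcard y₁] at h2
    exact (Nat.eq_of_mul_eq_mul_right hp.out.pos h2).symm
  have hTcard : Nat.card T = p - 1 := by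
    letI : Fintype P := Fintype.ofFinite P
    have h1 : Nat.card T = Fintype.card { y : P // y ≠ 1 } := Nat.card_eq_fintype_card
    rw [h1, Fintype.card_subtype_compl, Fintype.card_subtype_eq, ← Nat.card_eq_fintype_card, h.card_P]
  letI : Fintype CC := Fintype.ofFinite CC
  have hsum : Nat.card T = ∑ c : CC, Nat.card { y : T // f y = c } := by
    rw [← Nat.card_sigma]
    exact Nat.card_congr (Equiv.sigmaFiberEquiv f).symm
  rw [← hTcard, hsum]
  simp only [hfib, Finset.sum_const, Finset.card_univ, smul_eq_mul]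
  show Nat.card CC * _ = _
  rw [Nat.card_eq_fintype_card]

/-- The hypothesis passes to subgroups containing `x`. -/
theorem Hyp.sub (h : Hyp p x) (D : Subgroup G) (hxD : x ∈ D) : Hyp p (⟨x, hxD⟩ : D) := by
  constructor
  · rw [Subgroup.orderOf_mk]
    exact h.order
  · ext u
    rw [Subgroup.mem_centralizer_singleton_iff]
    constructor
    · intro h1
      have h2 : (u : G) ∈ zpowers x := (h.mem_iff).mpr (congrArg Subtype.val h1)
      obtain ⟨k, hk⟩ := h2
      refine ⟨k, ?_⟩
      apply Subtype.ext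
      simpa using hk
    · rintro ⟨k, rfl⟩
      apply Subtype.ext
      simp only [Subgroup.coe_mul]
      have : Commute ((⟨x, hxD⟩ : D) ^ k : D) (⟨x, hxD⟩ : D) := (Commute.refl _).zpow_left k
      exact congrArg Subtype.val this

theorem Hyp.le_normalizer_card (h : Hyp p x) :
    zpowers x ≤ normalizer (zpowers x : Set G) := Subgroup.le_normalizer

/-- The case `N(P) = P`. -/
theorem Hyp.complement (h : Hyp p x) (hN : Nat.card (normalizer (zpowers x : Set G)) = p) :
    ∃ K : Subgroup G, K.Normal ∧ commutator G = K ∧ Subgroup.IsComplement' K (zpowers x) := by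
  obtain ⟨P, hP⟩ := h.exists_sylow
  have hNP : normalizer (zpowers x : Set G) = zpowers x := by
    symm
    apply Subgroup.eq_of_le_of_card_ge Subgroup.le_normalizer
    rw [hN, h.card_P]
  have hcomm : ∀ a ∈ zpowers x, ∀ b ∈ zpowers x, a * b = b * a := by
    intro a ha b hb
    obtain ⟨i, rfl⟩ := Subgroup.mem_zpowers_iff.mp ha
    obtain ⟨j, rfl⟩ := Subgroup.mem_zpowers_iff.mp hb
    exact ((Commute.refl x).zpow_zpow i j).eq
  have hP' : normalizer (P : Set G) ≤ centralizer (P : Set G) := by
    have e1 : normalizer (P : Set G) = normalizer (((P : Subgroup G)) : Set G) := rfl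
    rw [e1, hP, hNP]
    intro a ha
    rw [Subgroup.mem_centralizer_iff]
    intro b hb
    have hb' : b ∈ (P : Subgroup G) := hb
    rw [hP] at hb'
    exact hcomm b hb' a ha
  have hC := MonoidHom.ker_transferSylow_isComplement' P hP'
  refine ⟨(MonoidHom.transferSylow P hP').ker, inferInstance, ?_, ?_⟩
  · apply le_antisymm
    · rw [_root_.commutator_def G, Subgroup.commutator_le]
      intro a _ b _
      rw [MonoidHom.mem_ker, map_commutatorElement, commutatorElement_eq_one_iff_commute]
      apply Subtype.ext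
      have ha : ((MonoidHom.transferSylow P hP' a : P) : G) ∈ zpowers x := by
        rw [← hP]
        exact (MonoidHom.transferSylow P hP' a).2
      have hb : ((MonoidHom.transferSylow P hP' b : P) : G) ∈ zpowers x := by
        rw [← hP]
        exact (MonoidHom.transferSylow P hP' b).2
      exact hcomm _ ha _ hb
    · apply h.le_commutator
      intro k hk hk'
      rw [← hP] at hk'
      exact Subgroup.disjoint_def.mp hC.disjoint hk hk'
  · rw [← hP]
    exact hC

theorem Hyp.not_dvd_card_complement (h : Hyp p x) {K : Subgroup G} (hC : Subgroup.IsComplement' K (zpowers x)) :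
    ¬ p ∣ Nat.card K := by
  have h1 := h.not_dvd_index
  rwa [hC.index_eq_card] at h1

theorem Hyp.card_complement (h : Hyp p x) {K : Subgroup G} (hC : Subgroup.IsComplement' K (zpowers x)) :
    Nat.card K * p = Nat.card G := by
  have h1 := hC.card_mul_card
  rwa [h.card_P] at h1

theorem Hyp.exists_not_mem (h : Hyp p x) {e : ℕ} (he : Nat.card (normalizer (zpowers x : Set G)) = p * e) (he1 : e ≠ 1) :
    ∃ a ∈ normalizer (zpowers x : Set G), a ∉ zpowers x := by
  by_contra hcon
  push Not at hcon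
  have h1 : normalizer (zpowers x : Set G) ≤ zpowers x := hcon
  have h2 := Subgroup.card_le_of_le h1
  rw [he, h.card_P] at h2
  have h3 : e ≤ 1 := by
    by_contra h4
    push Not at h4
    have : p * 2 ≤ p * e := Nat.mul_le_mul_left p h4
    have := hp.out.pos
    omega
  have h4 : e ≠ 0 := by
    rintro rfl
    have h5 : 0 < Nat.card (normalizer (zpowers x : Set G)) := Nat.card_pos
    rw [he] at h5
    simp at h5
  omega

theorem Hyp.index_dvd (h : Hyp p x) {e : ℕ} (he : Nat.card (normalizer (zpowers x : Set G)) = p * e)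
    (hxD : x ∈ commutator G) : (commutator G).index ∣ e := by
  obtain ⟨P, hP⟩ := h.exists_sylow
  have hPE : (P : Subgroup G) ≤ commutator G := by
    rw [hP]
    exact Subgroup.zpowers_le.mpr hxD
  have h1 := Sylow.normalizer_sup_eq_top' P hPE
  have h2 : (commutator G).index = (commutator G).relIndex (normalizer (P : Set G)) := by
    rw [← Subgroup.relIndex_sup_right, h1, Subgroup.relIndex_top_right]
  have h3 : (normalizer (P : Set G)) = normalizer (zpowers x : Set G) := by
    have e1 : normalizer (P : Set G) = normalizer (((P : Subgroup G)) : Set G) := rfl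
    rw [e1, hP]
  rw [h2, h3]
  have h4 : (commutator G).relIndex (normalizer (zpowers x : Set G)) ∣ (zpowers x).relIndex (normalizer (zpowers x : Set G)) :=
    Subgroup.relIndex_dvd_of_le_left _ (Subgroup.zpowers_le.mpr hxD)
  have h5 : (zpowers x).relIndex (normalizer (zpowers x : Set G)) = e := by
    have h6 := Subgroup.card_mul_index ((zpowers x).subgroupOf (normalizer (zpowers x : Set G)))
    have h7 : Nat.card ((zpowers x).subgroupOf (normalizer (zpowers x : Set G))) = p := by
      rw [Nat.card_congr (Subgroup.subgroupOfEquivOfLe Subgroup.le_normalizer).toEquiv]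
      exact h.card_P
    rw [h7, he] at h6
    exact Nat.eq_of_mul_eq_mul_left hp.out.pos h6
  rwa [h5] at h4

/-- S4495 -/
theorem Hyp.index_main (h : Hyp p x) (t : ℕ)
    (ht : Nat.card { C : ConjClasses G // ∃ g ∈ C.carrier, orderOf g = p } = t) :
    (t ≠ p - 1 → (commutator G).index * t ≤ p - 1) ∧ (t = p - 1 → (commutator G).index = p) := by
  obtain ⟨e, he, hte⟩ := h.count
  rw [ht] at hte
  have hp1 : 0 < p - 1 := Nat.sub_pos_of_lt hp.out.one_lt
  constructor
  · intro ht1
    have he1 : e ≠ 1 := by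
      rintro rfl
      exact ht1 (by simpa using hte)
    obtain ⟨a, ha, ha'⟩ := h.exists_not_mem he he1
    have hxD := h.mem_commutator_of_not_mem ha ha'
    have h1 := h.index_dvd he hxD
    have he0 : 0 < e := by
      rcases Nat.eq_zero_or_pos e with h0 | h0
      · rw [h0] at hte
        omega
      · exact h0
    calc (commutator G).index * t ≤ e * t := Nat.mul_le_mul_right t (Nat.le_of_dvd he0 h1)
      _ = p - 1 := by rw [mul_comm, hte]
  · intro ht1
    rw [ht1] at hte
    have he1 : e = 1 := Nat.eq_of_mul_eq_mul_left hp1 (by rw [hte, mul_one])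
    rw [he1, mul_one] at he
    obtain ⟨K, hK, hKD, hC⟩ := h.complement he
    rw [hKD, hC.symm.index_eq_card, h.card_P]

section Core

theorem pPrimeCore_characteristic' (p : ℕ) (A : Type*) [Group A] : (Cfsg.pPrimeCore p A).Characteristic := by
  rw [Subgroup.characteristic_iff_map_le]
  intro ϕ
  rw [Subgroup.map_le_iff_le_comap]
  refine sSup_le ?_
  rintro N ⟨hN, hp⟩
  rw [← Subgroup.map_le_iff_le_comap]
  refine le_sSup ⟨Subgroup.Normal.map hN ϕ.toMonoidHom ϕ.surjective, ?_⟩
  have : Nat.card (N.map ϕ.toMonoidHom) = Nat.card N :=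
    Nat.card_congr (N.equivMapOfInjective ϕ.toMonoidHom ϕ.injective).symm.toEquiv
  rw [this]
  exact hp

theorem not_dvd_pPrimeCore (p : ℕ) [hp : Fact p.Prime] (A : Type*) [Group A] [Finite A] :
    ¬ p ∣ Nat.card (Cfsg.pPrimeCore p A) := by
  have h := CfsgLib.Solv.pPrimeCore_coprime (G := A) p
  exact (Nat.Prime.coprime_iff_not_dvd hp.out).mp h.symm

theorem Hyp.core_le (h : Hyp p x) : Cfsg.pPrimeCore p G ≤ commutator G := by
  haveI := CfsgLib.Solv.pPrimeCore_normal' (G := G) p
  exact h.le_commutator (h.disjoint_of_coprime (not_dvd_pPrimeCore p G))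

theorem Hyp.not_mem_core (h : Hyp p x) : x ∉ Cfsg.pPrimeCore p G := by
  intro h1
  exact h.ne_one (h.disjoint_of_coprime (not_dvd_pPrimeCore p G) x h1 (mem_zpowers x))

/-- The key claim for simplicity of `G'/O_{p'}(G)`. -/
theorem Hyp.simple_claim (h : Hyp p x) (hxD : x ∈ commutator G) (L : Subgroup G)
    (hRL : Cfsg.pPrimeCore p G ≤ L) (hLD : L ≤ commutator G)
    (hLn : ∀ d ∈ commutator G, ∀ l ∈ L, d * l * d⁻¹ ∈ L) :
    L = Cfsg.pPrimeCore p G ∨ L = commutator G := by
  classical
  set D := commutator G with hDdef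
  haveI hDn : D.Normal := inferInstance
  haveI hRn : (Cfsg.pPrimeCore p G).Normal := CfsgLib.Solv.pPrimeCore_normal' p
  let xD : D := ⟨x, hxD⟩
  have hD : Hyp p xD := h.sub D hxD
  haveI hLDn : (L.subgroupOf D).Normal := by
    constructor
    intro n hn g
    rw [Subgroup.mem_subgroupOf] at hn ⊢
    exact hLn _ g.2 _ hn
  by_cases hy : ∃ y ∈ L, orderOf y = p
  · -- case A
    obtain ⟨y, hyL, hyo⟩ := hy
    have hxL : x ∈ L := by
      obtain ⟨g, hg⟩ := h.exists_conj_mem hyo
      obtain ⟨d, hd, a, ha, hgd⟩ := h.frattini hxD g⁻¹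
      have h1 : d⁻¹ * y * d⁻¹⁻¹ ∈ L := hLn _ (D.inv_mem hd) _ hyL
      have h2 : d⁻¹ * y * d⁻¹⁻¹ = a * (g * y * g⁻¹) * a⁻¹ := by
        have h3 : d = g⁻¹ * a⁻¹ := by
          rw [hgd]
          group
        rw [h3]
        group
      have h3 : d⁻¹ * y * d⁻¹⁻¹ ∈ zpowers x := by
        rw [h2]
        exact (Subgroup.mem_normalizer_iff.mp ha _).mp hg
      have h4 : d⁻¹ * y * d⁻¹⁻¹ ≠ 1 := by
        intro h5
        have h6 : y = 1 := by
          have h7 : d * (d⁻¹ * y * d⁻¹⁻¹) * d⁻¹ = y := by group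
          rw [← h7, h5]
          group
        rw [h6, orderOf_one] at hyo
        exact hp.out.one_lt.ne hyo
      have h5 := h.zpowers_eq h3 h4
      have h6 : x ∈ zpowers (d⁻¹ * y * d⁻¹⁻¹) := by
        rw [h5]
        exact mem_zpowers x
      exact (Subgroup.zpowers_le.mpr h1) h6
    have hxDL : xD ∈ L.subgroupOf D := by
      rw [Subgroup.mem_subgroupOf]
      exact hxL
    have hcomm : commutator D ≤ L.subgroupOf D := hD.commutator_le hxDL
    have hE1 : (commutator D).map D.subtype ≤ L := by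
      rw [Subgroup.map_le_iff_le_comap]
      intro z hz
      have := hcomm hz
      rwa [Subgroup.mem_subgroupOf] at this
    haveI hE1n : ((commutator D).map D.subtype).Normal := inferInstance
    set E := (commutator D).map D.subtype ⊔ Cfsg.pPrimeCore p G with hEdef
    haveI hEn : E.Normal := Subgroup.sup_normal _ _
    have hEL : E ≤ L := sup_le hE1 hRL
    right
    apply le_antisymm hLD
    by_cases hxE : x ∈ E
    · exact (h.commutator_le hxE).trans hEL
    · have hnd : ¬ p ∣ Nat.card E := fun hd => hxE (h.mem_of_dvd hd)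
      have hER : E ≤ Cfsg.pPrimeCore p G :=
        CfsgLib.Solv.le_pPrimeCore' E ((Nat.Prime.coprime_iff_not_dvd hp.out).mpr hnd).symm
      intro d hd
      obtain ⟨l, hl, a, ha, hda⟩ := hD.frattini hxDL ⟨d, hd⟩
      obtain ⟨h1, h2⟩ := hD.comm_mem ha
      have h3 : ((a * xD * a⁻¹ * xD⁻¹ : D) : G) ∈ zpowers x := by
        obtain ⟨k, hk⟩ := h1
        rw [← hk]
        exact ⟨k, by simp [xD]⟩
      have h4 : ((a * xD * a⁻¹ * xD⁻¹ : D) : G) ∈ Cfsg.pPrimeCore p G := by
        apply hER
        apply Subgroup.mem_sup_left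
        exact ⟨_, h2, rfl⟩
      have h5 := h.disjoint_of_coprime (not_dvd_pPrimeCore p G) _ h4 h3
      have h6 : (a : G) ∈ zpowers x := by
        rw [h.mem_iff]
        have h7 : (a : G) * x * (a : G)⁻¹ * x⁻¹ = 1 := by
          simpa [xD] using h5
        calc (a : G) * x = ((a : G) * x * (a : G)⁻¹ * x⁻¹) * (x * a) := by group
          _ = x * a := by rw [h7, one_mul]
      have h8 : (a : G) ∈ L := (Subgroup.zpowers_le.mpr hxL) h6
      have h9 : d = (l : G) * a := by
        have := congrArg Subtype.val hda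
        simpa using this
      rw [h9]
      exact L.mul_mem ((Subgroup.mem_subgroupOf).mp hl) h8
  · -- case B
    left
    apply le_antisymm _ hRL
    have hnd : ¬ p ∣ Nat.card L := by
      intro hd
      obtain ⟨y, hy'⟩ := exists_prime_orderOf_dvd_card' (G := L) p hd
      exact hy ⟨y, y.2, by rw [← hy']; simp⟩
    have hcardL : Nat.card (L.subgroupOf D) = Nat.card L :=
      Nat.card_congr (Subgroup.subgroupOfEquivOfLe hLD).toEquiv
    have hLW : L.subgroupOf D ≤ Cfsg.pPrimeCore p D := by
      apply CfsgLib.Solv.le_pPrimeCore'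
      rw [hcardL]
      exact ((Nat.Prime.coprime_iff_not_dvd hp.out).mpr hnd).symm
    haveI hWc : (Cfsg.pPrimeCore p D).Characteristic := pPrimeCore_characteristic' p D
    haveI hWn : ((Cfsg.pPrimeCore p D).map D.subtype).Normal := inferInstance
    have hWcard : Nat.card ((Cfsg.pPrimeCore p D).map D.subtype) = Nat.card (Cfsg.pPrimeCore p D) :=
      Nat.card_congr ((Cfsg.pPrimeCore p D).equivMapOfInjective D.subtype D.subtype_injective).symm.toEquiv
    have hWR : (Cfsg.pPrimeCore p D).map D.subtype ≤ Cfsg.pPrimeCore p G := by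
      apply CfsgLib.Solv.le_pPrimeCore'
      rw [hWcard]
      exact CfsgLib.Solv.pPrimeCore_coprime p
    intro l hl
    apply hWR
    exact ⟨⟨l, hLD hl⟩, hLW ((Subgroup.mem_subgroupOf).mpr hl), rfl⟩

theorem Hyp.isSimple (h : Hyp p x) (hxD : x ∈ commutator G)
    (hn : ((Cfsg.pPrimeCore p G).subgroupOf (commutator G)).Normal) :
    IsSimpleGroup (↥(commutator G) ⧸ (Cfsg.pPrimeCore p G).subgroupOf (commutator G)) := by
  set D := commutator G with hDdef
  set R := Cfsg.pPrimeCore p G with hRdef
  haveI := hn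
  have hRD : R ≤ D := h.core_le
  have hnt : Nontrivial (↥D ⧸ R.subgroupOf D) := by
    refine ⟨⟨QuotientGroup.mk ⟨x, hxD⟩, 1, ?_⟩⟩
    intro h1
    have h2 := (QuotientGroup.eq_one_iff _).mp h1
    rw [Subgroup.mem_subgroupOf] at h2
    exact h.not_mem_core h2
  refine { toNontrivial := hnt, eq_bot_or_eq_top_of_normal := ?_ }
  intro A hA
  let f := QuotientGroup.mk' (R.subgroupOf D)
  let B : Subgroup D := A.comap f
  let L : Subgroup G := B.map D.subtype
  have hmemL : ∀ b : D, (b : G) ∈ L ↔ b ∈ B := by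
    intro b
    constructor
    · rintro ⟨c, hc, hcb⟩
      have : c = b := Subtype.ext hcb
      rwa [← this]
    · intro hb
      exact ⟨b, hb, rfl⟩
  have hLD : L ≤ D := Subgroup.map_subtype_le _
  have hRL : R ≤ L := by
    intro r hr
    have hrB : (⟨r, hRD hr⟩ : D) ∈ B := by
      show f ⟨r, hRD hr⟩ ∈ A
      have : f ⟨r, hRD hr⟩ = 1 := by
        apply (QuotientGroup.eq_one_iff _).mpr
        rw [Subgroup.mem_subgroupOf]
        exact hr
      rw [this]
      exact A.one_mem
    exact ⟨_, hrB, rfl⟩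
  have hLn : ∀ d ∈ D, ∀ l ∈ L, d * l * d⁻¹ ∈ L := by
    intro d hd l hl
    obtain ⟨b, hb, rfl⟩ := hl
    have h1 : (⟨d, hd⟩ : D) * b * (⟨d, hd⟩ : D)⁻¹ ∈ B := by
      show f _ ∈ A
      rw [map_mul, map_mul, map_inv]
      exact hA.conj_mem _ hb _
    exact ⟨_, h1, rfl⟩
  rcases h.simple_claim hxD L hRL hLD hLn with h1 | h1
  · left
    rw [eq_bot_iff]
    intro q hq
    obtain ⟨b, rfl⟩ := QuotientGroup.mk_surjective q
    have h2 : b ∈ B := hq
    have h3 : (b : G) ∈ L := (hmemL b).mpr h2
    rw [h1] at h3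
    rw [Subgroup.mem_bot]
    apply (QuotientGroup.eq_one_iff _).mpr
    rw [Subgroup.mem_subgroupOf]
    exact h3
  · right
    rw [eq_top_iff]
    intro q _
    obtain ⟨b, rfl⟩ := QuotientGroup.mk_surjective q
    have h3 : (b : G) ∈ L := by
      rw [h1]
      exact b.2
    exact (hmemL b).mp h3

/-- S4497 -/
theorem Hyp.core_main (h : Hyp p x) (t : ℕ)
    (ht : Nat.card { C : ConjClasses G // ∃ g ∈ C.carrier, orderOf g = p } = t) :
    Cfsg.pPrimeCore p G ≤ commutator G ∧
    (t ≠ p - 1 → ∀ h' : ((Cfsg.pPrimeCore p G).subgroupOf (commutator G)).Normal,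
      IsSimpleGroup (↥(commutator G) ⧸ (Cfsg.pPrimeCore p G).subgroupOf (commutator G))) ∧
    (t = p - 1 → commutator G = Cfsg.pPrimeCore p G) := by
  obtain ⟨e, he, hte⟩ := h.count
  rw [ht] at hte
  have hp1 : 0 < p - 1 := Nat.sub_pos_of_lt hp.out.one_lt
  refine ⟨h.core_le, ?_, ?_⟩
  · intro ht1 h'
    have he1 : e ≠ 1 := by
      rintro rfl
      exact ht1 (by simpa using hte)
    obtain ⟨a, ha, ha'⟩ := h.exists_not_mem he he1
    exact h.isSimple (h.mem_commutator_of_not_mem ha ha') h'
  · intro ht1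
    rw [ht1] at hte
    have he1 : e = 1 := Nat.eq_of_mul_eq_mul_left hp1 (by rw [hte, mul_one])
    rw [he1, mul_one] at he
    obtain ⟨K, hK, hKD, hC⟩ := h.complement he
    apply le_antisymm _ h.core_le
    rw [hKD]
    apply CfsgLib.Solv.le_pPrimeCore'
    exact ((Nat.Prime.coprime_iff_not_dvd hp.out).mpr (h.not_dvd_card_complement hC)).symm

end Core

section Order

theorem Hyp.card_sylow_eq (h : Hyp p x) :
    Nat.card { H : Subgroup G // Nat.card H = p } = (normalizer (zpowers x : Set G)).index := by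
  obtain ⟨P, hP⟩ := h.exists_sylow
  have hPcard : Nat.card (P : Subgroup G) = p := by
    rw [hP]
    exact h.card_P
  have hcard : ∀ Q : Sylow p G, Nat.card (Q : Subgroup G) = p := by
    intro Q
    calc Nat.card (Q : Subgroup G) = Nat.card (P : Subgroup G) := Nat.card_congr (Sylow.equiv Q P).toEquiv
      _ = p := hPcard
  let F : Sylow p G → { H : Subgroup G // Nat.card H = p } := fun Q => ⟨Q, hcard Q⟩
  have hF : Function.Bijective F := by
    constructor
    · intro Q Q' hQ
      exact Sylow.ext (congrArg Subtype.val hQ)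
    · rintro ⟨H, hH⟩
      have hHp : IsPGroup p H := IsPGroup.of_card (n := 1) (by rw [hH, pow_one])
      obtain ⟨Q, hQ⟩ := hHp.exists_le_sylow
      refine ⟨Q, ?_⟩
      apply Subtype.ext
      apply (Subgroup.eq_of_le_of_card_ge hQ _).symm
      rw [hcard, hH]
  rw [← Nat.card_congr (Equiv.ofBijective F hF), Sylow.card_eq_index_normalizer P]
  have e1 : normalizer (P : Set G) = normalizer (((P : Subgroup G)) : Set G) := rfl
  rw [e1, hP]

theorem Hyp.card_eq (h : Hyp p x) {e n : ℕ} (he : Nat.card (normalizer (zpowers x : Set G)) = p * e)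
    (hn : Nat.card { H : Subgroup G // Nat.card H = p } = 1 + n * p) : Nat.card G = p * e * (1 + n * p) := by
  rw [← he, ← hn, h.card_sylow_eq]
  exact (Subgroup.card_mul_index _).symm

/-- S4509 -/
theorem Hyp.order_main (h : Hyp p x) (t : ℕ)
    (ht : Nat.card { C : ConjClasses G // ∃ g ∈ C.carrier, orderOf g = p } = t) (n : ℕ)
    (hn : Nat.card { H : Subgroup G // Nat.card H = p } = 1 + n * p) :
    ((∃ S : Subgroup G, S.Normal ∧ Nat.card S = 1 + n * p) ↔
      (t = p - 1 ∨ (t < p - 1 ∧ derivedSeries G 2 ≠ derivedSeries G 1))) ∧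
    (t = p - 1 → Nat.card (commutator G) = 1 + n * p ∧ IsCyclic (G ⧸ commutator G) ∧ (commutator G).index = p) ∧
    (t < p - 1 → derivedSeries G 2 ≠ derivedSeries G 1 →
      Nat.card (derivedSeries G 2) = 1 + n * p ∧ Nat.card (commutator G) = p * (1 + n * p)) := by
  obtain ⟨e, he, hte⟩ := h.count
  rw [ht] at hte
  have hp1 : 0 < p - 1 := Nat.sub_pos_of_lt hp.out.one_lt
  have hcG := h.card_eq he hn
  have hm0 : 0 < 1 + n * p := by omega
  have he0 : 0 < e := by
    rcases Nat.eq_zero_or_pos e with h0 | h0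
    · rw [h0] at hte
      omega
    · exact h0
  -- the case t = p - 1
  have part1 : t = p - 1 → Nat.card (commutator G) = 1 + n * p ∧ IsCyclic (G ⧸ commutator G) ∧ (commutator G).index = p := by
    intro ht1
    rw [ht1] at hte
    have he1 : e = 1 := Nat.eq_of_mul_eq_mul_left hp1 (by rw [hte, mul_one])
    rw [he1, mul_one] at he
    rw [he1, mul_one] at hcG
    obtain ⟨K, hK, hKD, hC⟩ := h.complement he
    have hidx : (commutator G).index = p := by
      rw [hKD, hC.symm.index_eq_card, h.card_P]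
    refine ⟨?_, ?_, hidx⟩
    · have h1 := h.card_complement hC
      rw [hcG, ← hKD, mul_comm] at h1
      exact Nat.eq_of_mul_eq_mul_left hp.out.pos h1
    · apply isCyclic_of_prime_card (p := p)
      rw [← Subgroup.index_eq_card]
      exact hidx
  -- the case of a proper second derived subgroup
  have part2 : t < p - 1 → derivedSeries G 2 ≠ derivedSeries G 1 →
      Nat.card (derivedSeries G 2) = 1 + n * p ∧ Nat.card (commutator G) = p * (1 + n * p) := by
    intro ht1 hne
    have he1 : e ≠ 1 := by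
      rintro rfl
      rw [mul_one] at hte
      omega
    obtain ⟨a, ha, ha'⟩ := h.exists_not_mem he he1
    have hxD := h.mem_commutator_of_not_mem ha ha'
    set D := commutator G with hDdef
    haveI hDn : D.Normal := inferInstance
    have hD2 : derivedSeries G 2 = ⁅D, D⁆ := rfl
    have hmap : (commutator D).map D.subtype = derivedSeries G 2 := by
      rw [hD2]
      exact Subgroup.map_subtype_commutator D
    haveI hD2n : (derivedSeries G 2).Normal := derivedSeries_normal G 2
    have hxD2 : x ∉ derivedSeries G 2 := by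
      intro h1
      apply hne
      apply le_antisymm
      · exact derivedSeries_antitone G (by omega : 1 ≤ 2)
      · exact h.commutator_le h1
    have hndD2 : ¬ p ∣ Nat.card (derivedSeries G 2) := fun hd => hxD2 (h.mem_of_dvd hd)
    -- the normalizer inside `D`
    have hNDP : ∀ b ∈ normalizer (zpowers x : Set G), b ∈ D → b ∈ zpowers x := by
      intro b hb hbD
      have h1 := (h.comm_mem hb).1
      have h2 : b * x * b⁻¹ * x⁻¹ ∈ derivedSeries G 2 := by
        rw [hD2]
        have h3 : b * x * b⁻¹ * x⁻¹ = ⁅b, x⁆ := by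
          rw [commutatorElement_def]
        rw [h3]
        exact Subgroup.commutator_mem_commutator hbD hxD
      have h3 := h.disjoint_of_coprime hndD2 _ h2 h1
      rw [h.mem_iff]
      calc b * x = (b * x * b⁻¹ * x⁻¹) * (x * b) := by group
        _ = x * b := by rw [h3, one_mul]
    have hinf : normalizer (zpowers x : Set G) ⊓ D = zpowers x := by
      apply le_antisymm
      · rintro b ⟨hb, hb'⟩
        exact hNDP b hb hb'
      · exact le_inf Subgroup.le_normalizer (Subgroup.zpowers_le.mpr hxD)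
    obtain ⟨P, hP⟩ := h.exists_sylow
    have hsup : normalizer (zpowers x : Set G) ⊔ D = ⊤ := by
      have hPE : (P : Subgroup G) ≤ D := by
        rw [hP]
        exact Subgroup.zpowers_le.mpr hxD
      have h1 := Sylow.normalizer_sup_eq_top' P hPE
      have e1 : normalizer (P : Set G) = normalizer (((P : Subgroup G)) : Set G) := rfl
      rw [e1, hP] at h1
      exact h1
    have hcardD : Nat.card D = p * (1 + n * p) := by
      have h1 := CfsgLib.Solv.card_sup_mul_card_inf (normalizer (zpowers x : Set G)) D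
      rw [hsup, hinf, Subgroup.card_top, he, h.card_P, hcG] at h1
      have h2 : (p * e) * (p * (1 + n * p)) = (p * e) * Nat.card D := by
        calc (p * e) * (p * (1 + n * p)) = p * e * (1 + n * p) * p := by ring
          _ = p * e * Nat.card D := h1
      exact (Nat.eq_of_mul_eq_mul_left (Nat.mul_pos hp.out.pos he0) h2).symm
    refine ⟨?_, hcardD⟩
    -- apply the complement lemma in `D`
    let xD : D := ⟨x, hxD⟩
    have hHD : Hyp p xD := h.sub D hxD
    have hNcard : Nat.card (normalizer (zpowers xD : Set D)) = p := by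
      have hle : normalizer (zpowers xD : Set D) ≤ zpowers xD := by
        intro b hb
        have h1 : (b : G) ∈ normalizer (zpowers x : Set G) ∨ True := Or.inr trivial
        -- `b` normalizes `⟨x⟩`
        have h2 : (b : G) ∈ normalizer (zpowers x : Set G) := by
          rw [Subgroup.mem_normalizer_iff]
          intro u
          have hform : ∀ c : D, ∀ u : G, u ∈ zpowers x → (c : G) * u * (c : G)⁻¹ ∈ zpowers x →
              True := fun _ _ _ _ => trivial
          constructor
          · intro hu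
            obtain ⟨k, rfl⟩ := Subgroup.mem_zpowers_iff.mp hu
            have h3 : xD ^ k ∈ zpowers xD := Subgroup.zpow_mem _ (mem_zpowers xD) k
            have h4 := (Subgroup.mem_normalizer_iff.mp hb _).mp h3
            obtain ⟨l, hl⟩ := Subgroup.mem_zpowers_iff.mp h4
            refine Subgroup.mem_zpowers_iff.mpr ⟨l, ?_⟩
            have := congrArg Subtype.val hl
            simpa [xD] using this
          · intro hu
            obtain ⟨k, hk⟩ := Subgroup.mem_zpowers_iff.mp hu
            have huD : u = (b : G)⁻¹ * x ^ k * b := by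
              rw [hk]
              group
            have h3 : xD ^ k ∈ zpowers xD := Subgroup.zpow_mem _ (mem_zpowers xD) k
            have h4 := (Subgroup.mem_normalizer_iff.mp (Subgroup.inv_mem _ hb) _).mp h3
            obtain ⟨l, hl⟩ := Subgroup.mem_zpowers_iff.mp h4
            refine Subgroup.mem_zpowers_iff.mpr ⟨l, ?_⟩
            have := congrArg Subtype.val hl
            rw [huD]
            simpa [xD] using this
        have h3 := hNDP _ h2 b.2
        obtain ⟨k, hk⟩ := Subgroup.mem_zpowers_iff.mp h3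
        refine Subgroup.mem_zpowers_iff.mpr ⟨k, ?_⟩
        apply Subtype.ext
        simpa [xD] using hk
      have hge : zpowers xD ≤ normalizer (zpowers xD : Set D) := Subgroup.le_normalizer
      rw [le_antisymm hle hge]
      exact hHD.card_P
    obtain ⟨K, hK, hKD, hC⟩ := hHD.complement hNcard
    have h1 := hHD.card_complement hC
    rw [hcardD, ← hKD, mul_comm] at h1
    have h2 : Nat.card (commutator D) = 1 + n * p := Nat.eq_of_mul_eq_mul_left hp.out.pos h1
    rw [← hmap, ← h2]
    exact Nat.card_congr ((commutator D).equivMapOfInjective D.subtype D.subtype_injective).symm.toEquiv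
  refine ⟨?_, part1, part2⟩
  constructor
  · rintro ⟨S, hS, hScard⟩
    by_cases ht1 : t = p - 1
    · exact Or.inl ht1
    right
    have hle : t ≤ p - 1 := by
      calc t ≤ t * e := Nat.le_mul_of_pos_right t he0
        _ = p - 1 := hte
    refine ⟨by omega, ?_⟩
    intro heq
    have he1 : e ≠ 1 := by
      rintro rfl
      rw [mul_one] at hte
      exact ht1 hte
    obtain ⟨a, ha, ha'⟩ := h.exists_not_mem he he1
    have hxD := h.mem_commutator_of_not_mem ha ha'
    have hndS : ¬ p ∣ Nat.card S := by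
      rw [hScard]
      intro hd
      have h1 : p ∣ 1 := (Nat.dvd_add_iff_left (Dvd.intro_left n rfl)).mpr hd
      exact hp.out.one_lt.ne' (Nat.dvd_one.mp h1)
    have hdisj := h.disjoint_of_coprime hndS
    -- `S` meets the normalizer trivially
    have hinf : normalizer (zpowers x : Set G) ⊓ S = ⊥ := by
      rw [eq_bot_iff]
      rintro b ⟨hb, hbS⟩
      have h1 := (h.comm_mem hb).1
      have h2 : b * x * b⁻¹ * x⁻¹ ∈ S := by
        have h3 : x * b⁻¹ * x⁻¹ ∈ S := hS.conj_mem _ (S.inv_mem hbS) x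
        have h4 : b * x * b⁻¹ * x⁻¹ = b * (x * b⁻¹ * x⁻¹) := by group
        rw [h4]
        exact S.mul_mem hbS h3
      have h3 := hdisj _ h2 h1
      have h4 : b ∈ zpowers x := by
        rw [h.mem_iff]
        calc b * x = (b * x * b⁻¹ * x⁻¹) * (x * b) := by group
          _ = x * b := by rw [h3, one_mul]
      rw [Subgroup.mem_bot]
      exact hdisj b hbS h4
    have hsup : normalizer (zpowers x : Set G) ⊔ S = ⊤ := by
      have h1 := CfsgLib.Solv.card_sup_mul_card_inf (normalizer (zpowers x : Set G)) S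
      rw [hinf, Subgroup.card_bot, mul_one, he, hScard, ← hcG] at h1
      exact Subgroup.eq_top_of_card_eq _ h1
    -- `G' ≤ S ⊔ ⟨x⟩`
    have hmk : ∀ g : G, ∃ a ∈ normalizer (zpowers x : Set G), (QuotientGroup.mk g : G ⧸ S) = QuotientGroup.mk a := by
      intro g
      have h1 : g ∈ (normalizer (zpowers x : Set G) ⊔ S : Subgroup G) := by
        rw [hsup]
        exact Subgroup.mem_top g
      rw [← SetLike.mem_coe, Subgroup.mul_normal, Set.mem_mul] at h1
      obtain ⟨a, ha, s, hs, rfl⟩ := h1
      refine ⟨a, ha, ?_⟩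
      rw [QuotientGroup.mk_mul, (QuotientGroup.eq_one_iff s).mpr hs, mul_one]
    have hcommS : commutator G ≤ zpowers x ⊔ S := by
      rw [_root_.commutator_def G, Subgroup.commutator_le]
      intro g _ g' _
      obtain ⟨a, ha, hga⟩ := hmk g
      obtain ⟨b, hb, hgb⟩ := hmk g'
      have h1 : (QuotientGroup.mk ⁅g, g'⁆ : G ⧸ S) = QuotientGroup.mk ⁅a, b⁆ := by
        rw [commutatorElement_def, commutatorElement_def]
        simp only [QuotientGroup.mk_mul, QuotientGroup.mk_inv, hga, hgb]
      have h2 := QuotientGroup.eq.mp h1.symm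
      have h3 : ⁅a, b⁆ ∈ zpowers x := by
        rw [commutatorElement_def]
        exact h.norm_comm ha hb
      have h4 : ⁅g, g'⁆ = ⁅a, b⁆ * (⁅a, b⁆⁻¹ * ⁅g, g'⁆) := by group
      rw [h4]
      exact Subgroup.mul_mem _ (Subgroup.mem_sup_left h3) (Subgroup.mem_sup_right h2)
    have hYY : ⁅(zpowers x ⊔ S : Subgroup G), (zpowers x ⊔ S : Subgroup G)⁆ ≤ S := by
      rw [Subgroup.commutator_le]
      intro u hu v hv
      rw [← SetLike.mem_coe, Subgroup.mul_normal, Set.mem_mul] at hu hv
      obtain ⟨c, hc, s, hs, rfl⟩ := hu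
      obtain ⟨c', hc', s', hs', rfl⟩ := hv
      have hcc : c * c' = c' * c := by
        obtain ⟨i, rfl⟩ := Subgroup.mem_zpowers_iff.mp hc
        obtain ⟨j, rfl⟩ := Subgroup.mem_zpowers_iff.mp hc'
        exact ((Commute.refl x).zpow_zpow i j).eq
      have h1 : (QuotientGroup.mk ⁅c * s, c' * s'⁆ : G ⧸ S) = 1 := by
        have e1 : (QuotientGroup.mk s : G ⧸ S) = 1 := (QuotientGroup.eq_one_iff s).mpr hs
        have e2 : (QuotientGroup.mk s' : G ⧸ S) = 1 := (QuotientGroup.eq_one_iff s').mpr hs'
        rw [commutatorElement_def]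
        simp only [QuotientGroup.mk_mul, QuotientGroup.mk_inv, e1, e2, mul_one]
        have e3 : (QuotientGroup.mk c : G ⧸ S) * QuotientGroup.mk c' = QuotientGroup.mk c' * QuotientGroup.mk c := by
          rw [← QuotientGroup.mk_mul, ← QuotientGroup.mk_mul, hcc]
        rw [e3]
        group
      exact (QuotientGroup.eq_one_iff _).mp h1
    have hD2S : derivedSeries G 2 ≤ S := by
      have e1 : derivedSeries G 2 = ⁅commutator G, commutator G⁆ := rfl
      rw [e1]
      exact (Subgroup.commutator_mono hcommS hcommS).trans hYY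
    have hx2 : x ∈ derivedSeries G 2 := by
      rw [heq]
      exact hxD
    exact h.ne_one (hdisj x (hD2S hx2) (mem_zpowers x))
  · rintro (ht1 | ⟨ht1, hne⟩)
    · haveI : (commutator G).Normal := inferInstance
      exact ⟨commutator G, inferInstance, (part1 ht1).1⟩
    · exact ⟨derivedSeries G 2, derivedSeries_normal G 2, (part2 ht1 hne).1⟩

end Order

end CfsgLib.Char.SC
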