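import Mathlib
import Cfsg.Agent.Lib.Char.SelfCent
import Cfsg.Agent.Lib.Char.PowerMap
import Cfsg.Agent.Lib.Char.Extend

set_option autoImplicit false
set_option linter.all false

open Cfsg Subgroup
open scoped ComplexConjugate

namespace CfsgLib.Char.DP

section Comb

variable {p : ℕ} [hp : Fact p.Prime] {ι : Type*} [Fintype ι] [DecidableEq ι]

noncomputable def ee (p : ℕ) [Fact p.Prime] : AddChar (ZMod p) ℂ := ZMod.stdAddChar

theorem ee_prim : (ee p).IsPrimitive := ZMod.isPrimitive_stdAddChar p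

theorem sum_ee (d : ZMod p) : ∑ a : ZMod p, ee p (a * d) = if d = 0 then (p : ℂ) else 0 := by
  have h := AddChar.sum_mulShift (ψ := ee p) d ee_prim
  rw [h, ZMod.card]
  split_ifs <;> simp

noncomputable def fv (b : ι → ZMod p) (a : ZMod p) : ℂ := ∑ i, ee p (a * b i)

def cnt (b : ι → ZMod p) (d : ZMod p) : ℕ := (Finset.univ.filter (fun i => b i = d)).card

theorem fourier_cnt (b : ι → ZMod p) (d : ZMod p) :
    ∑ a, fv b a * ee p (-(a * d)) = (p : ℂ) * cnt b d := by
  unfold fv
  simp only [Finset.sum_mul]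
  rw [Finset.sum_comm]
  have h1 : ∀ i, ∑ a : ZMod p, ee p (a * b i) * ee p (-(a * d)) = if b i = d then (p : ℂ) else 0 := by
    intro i
    have h2 : ∀ a : ZMod p, ee p (a * b i) * ee p (-(a * d)) = ee p (a * (b i - d)) := by
      intro a
      rw [← AddChar.map_add_eq_mul]
      congr 1
      ring
    simp only [h2]
    rw [sum_ee]
    simp [sub_eq_zero]
  simp only [h1]
  rw [Finset.sum_ite, Finset.sum_const_zero, add_zero, Finset.sum_const]
  simp [cnt, mul_comm]

theorem parseval (b : ι → ZMod p) :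
    ∑ a, ‖fv b a‖ ^ 2 = (p : ℝ) * ∑ i, (cnt b (b i) : ℝ) := by
  have h : ((∑ a, ‖fv b a‖ ^ 2 : ℝ) : ℂ) = (((p : ℝ) * ∑ i, (cnt b (b i) : ℝ) : ℝ) : ℂ) := by
    push_cast
    have h1 : ∀ a, ((‖fv b a‖ : ℂ)) ^ 2 = fv b a * conj (fv b a) := by
      intro a
      rw [Complex.mul_conj, Complex.normSq_eq_norm_sq]
      push_cast
      rfl
    simp only [h1]
    have h2 : ∀ a, conj (fv b a) = ∑ i, ee p (-(a * b i)) := by
      intro a
      unfold fv
      rw [map_sum]
      refine Finset.sum_congr rfl fun i _ => ?_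
      rw [AddChar.map_neg_eq_conj]
    simp only [h2, Finset.mul_sum]
    rw [Finset.sum_comm]
    refine Finset.sum_congr rfl fun i _ => ?_
    have h3 := fourier_cnt b (b i)
    rw [← h3]
  exact_mod_cast h

theorem sum_cnt_lower (b : ι → ZMod p) :
    (cnt b 0 : ℝ) ^ 2 + (Fintype.card ι : ℝ) - cnt b 0 ≤ ∑ i, (cnt b (b i) : ℝ) := by
  have h1 : ∀ i, (if b i = 0 then (cnt b 0 : ℝ) else 1) ≤ (cnt b (b i) : ℝ) := by
    intro i
    split_ifs with h
    · rw [h]
    · have : 1 ≤ cnt b (b i) := by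
        apply Finset.card_pos.mpr
        exact ⟨i, by simp⟩
      exact_mod_cast this
  have h2 := Finset.sum_le_sum (s := Finset.univ) (fun i _ => h1 i)
  refine le_trans (le_of_eq ?_) h2
  rw [Finset.sum_ite, Finset.sum_const, Finset.sum_const]
  have h3 : (Finset.univ.filter (fun i => b i = 0)).card = cnt b 0 := rfl
  have h4 : (Finset.univ.filter (fun i => ¬ b i = 0)).card = Fintype.card ι - cnt b 0 := by
    have := Finset.card_filter_add_card_filter_not (s := (Finset.univ : Finset ι)) (fun i => b i = 0)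
    rw [Finset.card_univ, h3] at this
    omega
  have h5 : cnt b 0 ≤ Fintype.card ι := by
    rw [← h3]; exact Finset.card_le_univ _
  rw [h3, h4]
  rw [nsmul_eq_mul, nsmul_eq_mul, Nat.cast_sub h5]
  ring

theorem sum_cnt_total (b : ι → ZMod p) : ∑ d, cnt b d = Fintype.card ι := by
  unfold cnt
  rw [← Finset.card_univ (α := ι)]
  exact (Finset.card_eq_sum_card_fiberwise (fun i _ => Finset.mem_univ _)).symm

theorem sum_zmod_units {M : Type*} [AddCommMonoid M] (g : ZMod p → M) :
    ∑ a, g a = g 0 + ∑ u : (ZMod p)ˣ, g u := by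
  classical
  rw [← Finset.add_sum_erase Finset.univ g (Finset.mem_univ 0)]
  congr 1
  refine Finset.sum_bij' (fun a ha => Units.mk0 a (by simpa using ha)) (fun u _ => (u : ZMod p)) ?_ ?_ ?_ ?_ ?_
  · intro a _; exact Finset.mem_univ _
  · intro u _
    simp [u.ne_zero]
  · intro a _; simp
  · intro u _; simp
  · intro a _; simp

/-- Invariant functions on a group have sums divisible by the subgroup order. -/
theorem card_dvd_sum_of_invariant {A : Type*} [Group A] [Fintype A] (U : Subgroup A) (g : A → ℕ)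
    (hg : ∀ a, ∀ s ∈ U, g (a * s) = g a) : Nat.card U ∣ ∑ a, g a := by
  classical
  letI : Fintype U := Fintype.ofFinite _
  letI : Fintype (A ⧸ U) := Fintype.ofFinite _
  let F : (A ⧸ U) × U → A := fun c => c.1.out * (c.2 : A)
  have hF : Function.Bijective F := by
    constructor
    · rintro ⟨c, s⟩ ⟨c', s'⟩ h
      have h1 : (QuotientGroup.mk (F (c, s)) : A ⧸ U) = QuotientGroup.mk (F (c', s')) := congrArg _ h
      have h2 : ∀ (c : A ⧸ U) (s : U), (QuotientGroup.mk (c.out * (s : A)) : A ⧸ U) = c := by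
        intro c s
        rw [QuotientGroup.mk_mul_of_mem _ s.2, QuotientGroup.out_eq']
      simp only [F] at h1
      rw [h2, h2] at h1
      subst h1
      simp only [F] at h
      have h3 := mul_left_cancel h
      rw [Subtype.ext h3]
    · intro a
      refine ⟨(QuotientGroup.mk a, ⟨(QuotientGroup.mk a : A ⧸ U).out⁻¹ * a, ?_⟩), ?_⟩
      · have := QuotientGroup.out_eq' (QuotientGroup.mk a : A ⧸ U)
        exact QuotientGroup.eq.mp this
      · simp [F]
  rw [← hF.sum_comp g, Fintype.sum_prod_type]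
  have h2 : ∀ c : A ⧸ U, ∑ s : U, g (F (c, s)) = Nat.card U * g c.out := by
    intro c
    have : ∀ s : U, g (F (c, s)) = g c.out := fun s => hg _ _ s.2
    simp only [this, Finset.sum_const, Finset.card_univ, smul_eq_mul, Nat.card_eq_fintype_card]
  simp only [h2]
  exact ⟨_, (Finset.mul_sum _ _ _).symm⟩

/-- The subgroup of multipliers fixing `fv`. -/
def multU (b : ι → ZMod p) : Subgroup (ZMod p)ˣ where
  carrier := {k | ∀ a, fv b ((k : ZMod p) * a) = fv b a}
  mul_mem' := by
    intro k l hk hl a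
    simp only [Set.mem_setOf_eq] at hk hl
    rw [Units.val_mul, mul_assoc, hk, hl]
  one_mem' := by
    intro a
    simp
  inv_mem' := by
    intro k hk a
    simp only [Set.mem_setOf_eq] at hk
    have h := hk ((k⁻¹ : (ZMod p)ˣ) * a)
    rw [← mul_assoc, Units.mul_inv, one_mul] at h
    exact h.symm

theorem cnt_mul_of_mem (b : ι → ZMod p) {k : (ZMod p)ˣ} (hk : k ∈ multU b) (d : ZMod p) :
    cnt b (d * k) = cnt b d := by
  have hpc : (p : ℂ) ≠ 0 := by exact_mod_cast hp.out.ne_zero
  have h1 := fourier_cnt b (d * k)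
  have h2 := fourier_cnt b d
  have hk' : k⁻¹ ∈ multU b := inv_mem hk
  have h3 : ∑ a, fv b a * ee p (-(a * (d * k))) = ∑ a, fv b a * ee p (-(a * d)) := by
    rw [← Equiv.sum_comp (Units.mulLeft k⁻¹)]
    refine Finset.sum_congr rfl fun a _ => ?_
    simp only [Units.mulLeft_apply]
    rw [hk' a]
    have h4 : ((k⁻¹ : (ZMod p)ˣ) : ZMod p) * (k : ZMod p) = 1 := Units.inv_mul k
    have h6 : ((k⁻¹ : (ZMod p)ˣ) : ZMod p) * a * (d * k) = a * d := by
      calc ((k⁻¹ : (ZMod p)ˣ) : ZMod p) * a * (d * k) = (((k⁻¹ : (ZMod p)ˣ) : ZMod p) * (k : ZMod p)) * (a * d) := by ring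
        _ = a * d := by rw [h4, one_mul]
    rw [h6]
  rw [h1, h2] at h3
  have h5 := mul_left_cancel₀ hpc h3
  exact_mod_cast h5

theorem card_multU_dvd (b : ι → ZMod p) :
    Nat.card (multU b) ∣ Fintype.card ι - cnt b 0 := by
  classical
  have h1 := sum_cnt_total b
  rw [sum_zmod_units (cnt b)] at h1
  have h2 : Fintype.card ι - cnt b 0 = ∑ u : (ZMod p)ˣ, cnt b u := by omega
  rw [h2]
  apply card_dvd_sum_of_invariant
  intro a s hs
  rw [Units.val_mul]
  exact cnt_mul_of_mem b hs _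

theorem num_core (p m u n : ℕ) (hP : p = n + 1) (W : ℝ)
    (h1 : (p : ℝ) * ((m : ℝ) ^ 2 + n - m) ≤ (n : ℝ) ^ 2 + W) (h2 : W ≤ (u : ℝ) * n) (h3 : u ∣ m) (h4 : 2 ≤ u) :
    m = 0 := by
  by_contra hm
  have hum : u ≤ m := Nat.le_of_dvd (Nat.pos_of_ne_zero hm) h3
  have h5 : (2 : ℝ) ≤ m := by
    have : 2 ≤ m := le_trans h4 hum
    exact_mod_cast this
  have h6 : (u : ℝ) ≤ m := by exact_mod_cast hum
  have hn0 : (0 : ℝ) ≤ n := Nat.cast_nonneg n
  have h7 : (p : ℝ) = n + 1 := by rw [hP]; push_cast; ring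
  rw [h7] at h1
  have h8 : W ≤ (m : ℝ) * n := le_trans h2 (mul_le_mul_of_nonneg_right h6 hn0)
  nlinarith [mul_nonneg (sub_nonneg.mpr h5) hn0, mul_nonneg (sub_nonneg.mpr h5) (by linarith : (0 : ℝ) ≤ (m : ℝ)),
    mul_nonneg hn0 (mul_nonneg (sub_nonneg.mpr h5) (by linarith : (0 : ℝ) ≤ (m : ℝ)))]

end Comb

section Rep

variable {G : Type*} [Group G] [Fintype G] {V : Type*} [AddCommGroup V] [Module ℂ V] [FiniteDimensional ℂ V]
variable {p : ℕ} [hp : Fact p.Prime]

theorem ee_one_prim : IsPrimitiveRoot (ee p 1) p := by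
  have hp0 : p ≠ 0 := hp.out.ne_zero
  haveI : NeZero p := ⟨hp0⟩
  have h := Complex.isPrimitiveRoot_exp p hp0
  have h2 : ee p 1 = Complex.exp (2 * Real.pi * Complex.I / p) := by
    have h3 := ZMod.stdAddChar_coe (N := p) 1
    simp only [Int.cast_one, mul_one] at h3
    exact h3
  rw [h2]
  exact h

/-- Eigen-data for a `p`-element. -/
theorem exists_exponents (ρ : Representation ℂ G V) (x : G) (hx : x ^ p = 1) :
    ∃ (m : ℕ) (B : Module.Basis (Fin m) ℂ V) (b : Fin m → ZMod p),
      ∀ i, ∀ k : ℕ, ρ (x ^ k) (B i) = ee p ((k : ZMod p) * b i) • B i := by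
  classical
  obtain ⟨m, B, μ, h1, h2⟩ := rep_eigenbasis ρ x
  have hpow : ∀ i, ∀ k : ℕ, ρ (x ^ k) (B i) = μ i ^ k • B i := by
    intro i k
    induction k with
    | zero => simp
    | succ k ih =>
      rw [pow_succ, map_mul, Module.End.mul_apply, h1, map_smul, ih, smul_smul, pow_succ, mul_comm]
  have hμ : ∀ i, μ i ^ p = 1 := by
    intro i
    have h3 := hpow i p
    rw [hx, map_one, Module.End.one_apply] at h3
    have h4 : (μ i ^ p - 1) • B i = 0 := by
      rw [sub_smul, ← h3, one_smul, sub_self]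
    rcases smul_eq_zero.mp h4 with h5 | h5
    · exact sub_eq_zero.mp h5
    · exact absurd h5 (B.ne_zero i)
  haveI : NeZero p := ⟨hp.out.ne_zero⟩
  have hk : ∀ i, ∃ k : ℕ, k < p ∧ ee p 1 ^ k = μ i := fun i =>
    (ee_one_prim (p := p)).eq_pow_of_pow_eq_one (hμ i)
  choose k hk1 hk2 using hk
  refine ⟨m, B, fun i => (k i : ZMod p), fun i c => ?_⟩
  rw [hpow, ← hk2 i]
  congr 1
  rw [← pow_mul, ← AddChar.map_nsmul_eq_pow]
  congr 1
  simp [mul_comm]

theorem character_pow_eq (ρ : Representation ℂ G V) (x : G) {m : ℕ} (B : Module.Basis (Fin m) ℂ V)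
    (b : Fin m → ZMod p) (h : ∀ i, ∀ k : ℕ, ρ (x ^ k) (B i) = ee p ((k : ZMod p) * b i) • B i) (k : ℕ) :
    ρ.character (x ^ k) = fv b (k : ZMod p) :=
  character_eq_sum ρ (x ^ k) B _ (fun i => h i k)

theorem fv_zero {ι : Type*} [Fintype ι] (b : ι → ZMod p) : fv b 0 = Fintype.card ι := by
  simp [fv]


open CfsgLib.Char.SC in
theorem exists_lift {x : G} (h : Hyp p x) (a : (ZMod p)ˣ) :
    ∃ k : ℕ, k.Coprime (Nat.card G) ∧ (k : ZMod p) = a := by
  have hpp := hp.out
  have h1 := h.not_dvd_index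
  have h2 := (zpowers x).card_mul_index
  rw [h.card_P] at h2
  set g' := (zpowers x).index with hg'
  have hcop : p.Coprime g' := (Nat.Prime.coprime_iff_not_dvd hpp).mpr h1
  let k := Nat.chineseRemainder hcop (a : ZMod p).val 1
  have hk1 := k.2.1
  have hk2 := k.2.2
  refine ⟨k.1, ?_, ?_⟩
  · rw [← h2]
    apply Nat.Coprime.mul_right
    · apply Nat.Coprime.symm
      rw [Nat.Prime.coprime_iff_not_dvd hpp]
      intro hd
      have h3 : ((k.1 : ℕ) : ZMod p) = 0 := (ZMod.natCast_eq_zero_iff _ _).mpr hd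
      have h4 : ((k.1 : ℕ) : ZMod p) = ((a : ZMod p).val : ZMod p) := (ZMod.natCast_eq_natCast_iff _ _ _).mpr hk1
      rw [h3, ZMod.natCast_zmod_val] at h4
      exact a.ne_zero h4.symm
    · have h5 := hk2.gcd_eq
      rw [Nat.Coprime, h5]
      simp
  · have h4 : ((k.1 : ℕ) : ZMod p) = ((a : ZMod p).val : ZMod p) := (ZMod.natCast_eq_natCast_iff _ _ _).mpr hk1
    rw [h4, ZMod.natCast_zmod_val]

open scoped Classical in
open CfsgLib.Char.SC in
/-- The column bound. -/
theorem column_bound {x : G} (h : Hyp p x) (ρ : Representation ℂ G V) (hχ : IsIrrCharacter G ρ.character)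
    (hdeg : (Module.finrank ℂ V : ℂ) ≠ 1) {m : ℕ} (B : Module.Basis (Fin m) ℂ V)
    (b : Fin m → ZMod p) (hb : ∀ i, ∀ k : ℕ, ρ (x ^ k) (B i) = ee p ((k : ZMod p) * b i) • B i) :
    ∑ u : (ZMod p)ˣ, ‖fv b (u : ZMod p)‖ ^ 2 ≤ (Nat.card (multU b) : ℝ) * ((p : ℝ) - 1) := by
  have hpp := hp.out
  haveI : NeZero p := ⟨hpp.ne_zero⟩
  choose k hk1 hk2 using fun a : (ZMod p)ˣ => exists_lift h a
  let ψ : (ZMod p)ˣ → IrrCharacter G := fun a => ⟨fun g => ρ.character (g ^ k a), powFun_isIrr hχ (hk1 a)⟩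
  have hψpow : ∀ a (l : ℕ), (ψ a : G → ℂ) (x ^ l) = fv b ((l : ZMod p) * a) := by
    intro a l
    show ρ.character ((x ^ l) ^ k a) = _
    rw [← pow_mul, character_pow_eq ρ x B b hb]
    push_cast
    rw [hk2]
  have hψx : ∀ a, (ψ a : G → ℂ) x = fv b a := by
    intro a
    have := hψpow a 1
    simpa using this
  have hfib : ∀ a a', ψ a = ψ a' → a'⁻¹ * a ∈ multU b := by
    intro a a' he c
    have h1 := hψpow a ((((a'⁻¹ : (ZMod p)ˣ) : ZMod p) * c).val)
    have h2 := hψpow a' ((((a'⁻¹ : (ZMod p)ˣ) : ZMod p) * c).val)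
    rw [he] at h1
    rw [h1] at h2
    rw [ZMod.natCast_zmod_val] at h2
    have h3 : ((a'⁻¹ : (ZMod p)ˣ) : ZMod p) * c * a = ((a'⁻¹ * a : (ZMod p)ˣ) : ZMod p) * c := by
      rw [Units.val_mul]; ring
    have h4 : ((a'⁻¹ : (ZMod p)ˣ) : ZMod p) * c * a' = c := by
      have h5 : ((a'⁻¹ : (ZMod p)ˣ) : ZMod p) * (a' : ZMod p) = 1 := Units.inv_mul a'
      calc ((a'⁻¹ : (ZMod p)ˣ) : ZMod p) * c * a' = (((a'⁻¹ : (ZMod p)ˣ) : ZMod p) * (a' : ZMod p)) * c := by ring
        _ = c := by rw [h5, one_mul]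
    rw [h4] at h2
    show fv b (((a'⁻¹ * a : (ZMod p)ˣ) : ZMod p) * c) = fv b c
    rw [← h3]
    exact h2
  let triv : IrrCharacter G := ⟨fun _ => 1, isIrrCharacter_one⟩
  let g : IrrCharacter G → ℝ := fun ψ₀ => ‖(ψ₀ : G → ℂ) x‖ ^ 2
  have hg0 : ∀ ψ₀, 0 ≤ g ψ₀ := fun ψ₀ => by positivity
  have hcol : ∑ ψ₀, g ψ₀ = (p : ℝ) := by
    have h1 := column_orthogonality x x
    rw [if_pos (IsConj.refl x), h.cent, h.card_P] at h1
    have h2 : ((∑ ψ₀, g ψ₀ : ℝ) : ℂ) = (p : ℂ) := by
      rw [← h1]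
      push_cast
      refine Finset.sum_congr rfl fun ψ₀ _ => ?_
      show ((‖(ψ₀ : G → ℂ) x‖ ^ 2 : ℝ) : ℂ) = _
      rw [Complex.mul_conj, Complex.normSq_eq_norm_sq]
    exact_mod_cast h2
  have htriv : g triv = 1 := by simp [g, triv]
  have hne : ∀ a, ψ a ≠ triv := by
    intro a he
    have h1 := congrFun (congrArg (fun y : IrrCharacter G => (y : G → ℂ)) he) 1
    have h2 : ρ.character ((1 : G) ^ k a) = 1 := h1
    rw [one_pow] at h2
    apply hdeg
    have h3 : ρ.character 1 = (Module.finrank ℂ V : ℂ) := by simp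
    rw [← h3, h2]
  have h1 : ∑ u : (ZMod p)ˣ, ‖fv b (u : ZMod p)‖ ^ 2 = ∑ u : (ZMod p)ˣ, g (ψ u) := by
    refine Finset.sum_congr rfl fun u _ => ?_
    show _ = ‖(ψ u : G → ℂ) x‖ ^ 2
    rw [hψx]
  rw [h1, Finset.sum_comp g ψ]
  have hfibcard : ∀ ψ₀ ∈ Finset.image ψ Finset.univ,
      (Finset.univ.filter (fun a => ψ a = ψ₀)).card ≤ Nat.card (multU b) := by
    intro ψ₀ hψ₀
    obtain ⟨a₀, -, rfl⟩ := Finset.mem_image.mp hψ₀
    have h3 : (Finset.univ.filter (fun s : (ZMod p)ˣ => s ∈ multU b)).card = Nat.card (multU b) := by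
      rw [Nat.card_eq_fintype_card, Fintype.card_subtype]
    rw [← h3]
    apply Finset.card_le_card_of_injOn (fun a => a₀⁻¹ * a)
    · intro a ha
      have ha' : ψ a = ψ a₀ := (Finset.mem_filter.mp ha).2
      simp only [Finset.coe_filter, Finset.mem_univ, true_and, Set.mem_setOf_eq]
      exact hfib a a₀ ha'
    · intro a _ a' _ he
      exact mul_left_cancel he
  calc ∑ ψ₀ ∈ Finset.image ψ Finset.univ, (Finset.univ.filter (fun a => ψ a = ψ₀)).card • g ψ₀
      ≤ ∑ ψ₀ ∈ Finset.image ψ Finset.univ, (Nat.card (multU b) : ℝ) * g ψ₀ := by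
        refine Finset.sum_le_sum fun ψ₀ hψ₀ => ?_
        rw [nsmul_eq_mul]
        apply mul_le_mul_of_nonneg_right _ (hg0 ψ₀)
        exact_mod_cast hfibcard ψ₀ hψ₀
    _ = (Nat.card (multU b) : ℝ) * ∑ ψ₀ ∈ Finset.image ψ Finset.univ, g ψ₀ := by rw [Finset.mul_sum]
    _ ≤ (Nat.card (multU b) : ℝ) * ((p : ℝ) - 1) := by
        apply mul_le_mul_of_nonneg_left _ (Nat.cast_nonneg _)
        have h5 : Finset.image ψ Finset.univ ⊆ Finset.univ.erase triv := by
          intro ψ₀ hψ₀
          obtain ⟨a₀, -, rfl⟩ := Finset.mem_image.mp hψ₀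
          simp [hne a₀]
        have h6 := Finset.sum_le_sum_of_subset_of_nonneg (f := g) h5 (fun i _ _ => hg0 i)
        have h7 := Finset.add_sum_erase Finset.univ g (Finset.mem_univ triv)
        rw [hcol, htriv] at h7
        linarith

open CfsgLib.Char.SC in
theorem no_fixed {x : G} (h : Hyp p x) (ρ : Representation ℂ G V) (hχ : IsIrrCharacter G ρ.character)
    (hn : Module.finrank ℂ V + 1 = p) (hp2 : p ≠ 2) {m : ℕ} (B : Module.Basis (Fin m) ℂ V)
    (b : Fin m → ZMod p) (hb : ∀ i, ∀ k : ℕ, ρ (x ^ k) (B i) = ee p ((k : ZMod p) * b i) • B i)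
    (hneg : ∀ a, fv b (-a) = fv b a) : cnt b 0 = 0 := by
  have hpp := hp.out
  have hm : Module.finrank ℂ V = m := finrank_eq_of_basis B
  have hfm : Fintype.card (Fin m) = m := by simp
  have hm2 : 2 ≤ m := by
    have := hpp.two_le
    have h3 : p ≠ 3 ∨ p = 3 := by omega
    rcases h3 with h3 | h3
    · have : 3 ≤ p := by omega
      omega
    · omega
  have hdeg : (Module.finrank ℂ V : ℂ) ≠ 1 := by
    rw [hm]
    have : m ≠ 1 := by omega
    exact_mod_cast this
  have hcol := column_bound h ρ hχ hdeg B b hb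
  apply num_core p (cnt b 0) (Nat.card (multU b)) m (by omega) (∑ u : (ZMod p)ˣ, ‖fv b (u : ZMod p)‖ ^ 2)
  · have h1 := parseval b
    have h2 := sum_cnt_lower b
    rw [hfm] at h2
    have h3 : ∑ a, ‖fv b a‖ ^ 2 = ‖fv b 0‖ ^ 2 + ∑ u : (ZMod p)ˣ, ‖fv b (u : ZMod p)‖ ^ 2 :=
      sum_zmod_units _
    have h4 : ‖fv b 0‖ = m := by
      rw [fv_zero, hfm]
      simp
    rw [h4] at h3
    have hp0 : (0 : ℝ) ≤ p := Nat.cast_nonneg p
    calc (p : ℝ) * ((cnt b 0 : ℝ) ^ 2 + m - cnt b 0) ≤ (p : ℝ) * ∑ i, (cnt b (b i) : ℝ) :=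
          mul_le_mul_of_nonneg_left h2 hp0
      _ = _ := by rw [← h1, h3]
  · have h5 : (p : ℝ) - 1 = m := by
      have : p = m + 1 := by omega
      rw [this]
      push_cast
      ring
    rw [h5] at hcol
    exact hcol
  · have h6 := card_multU_dvd b
    rw [hfm] at h6
    have h7 : Nat.card (multU b) ∣ m := by
      have h8 := Subgroup.card_subgroup_dvd_card (multU b)
      rw [Nat.card_eq_fintype_card (α := (ZMod p)ˣ), ZMod.card_units p] at h8
      have : p - 1 = m := by omega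
      rwa [this] at h8
    have h9 : cnt b 0 ≤ m := by
      have h10 : (Finset.univ.filter (fun i => b i = 0)).card ≤ (Finset.univ : Finset (Fin m)).card :=
        Finset.card_filter_le _ _
      simpa [cnt] using h10
    have h11 : cnt b 0 = m - (m - cnt b 0) := by omega
    rw [h11]
    exact Nat.dvd_sub h7 h6
  · have hmem : (-1 : (ZMod p)ˣ) ∈ multU b := by
      intro a
      simp only [Units.val_neg, Units.val_one, neg_mul, one_mul]
      exact hneg a
    haveI : Nontrivial (multU b) := by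
      refine ⟨⟨⟨-1, hmem⟩, 1, ?_⟩⟩
      intro h2
      have h3 : ((-1 : (ZMod p)ˣ) : ZMod p) = ((1 : (ZMod p)ˣ) : ZMod p) := by
        have := congrArg (fun z : multU b => ((z : (ZMod p)ˣ) : ZMod p)) h2
        simpa using this
      simp only [Units.val_neg, Units.val_one] at h3
      haveI : Fact (2 < p) := ⟨by have := hpp.two_le; omega⟩
      exact ZMod.neg_one_ne_one h3
    exact Finite.one_lt_card

open CfsgLib.Char.SC in
theorem exists_conj_coset {x : G} (h : Hyp p x) {y : G} (hyN : y ∈ normalizer (zpowers x : Set G))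
    (hyP : y ∉ zpowers x) {z : G} (hz : z ∈ zpowers x) : ∃ g, g * y * g⁻¹ = z * y := by
  have hmem : ∀ g : zpowers x, (g : G) * y * (g : G)⁻¹ * y⁻¹ ∈ zpowers x := by
    intro g
    have h1 : y * (g : G)⁻¹ * y⁻¹ ∈ zpowers x :=
      (Subgroup.mem_normalizer_iff.mp hyN _).mp (inv_mem g.2)
    have h2 : (g : G) * y * (g : G)⁻¹ * y⁻¹ = (g : G) * (y * (g : G)⁻¹ * y⁻¹) := by group
    rw [h2]
    exact mul_mem g.2 h1
  let f : zpowers x → zpowers x := fun g => ⟨_, hmem g⟩
  have hinj : Function.Injective f := by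
    intro g g' he
    have h1 : (g : G) * y * (g : G)⁻¹ * y⁻¹ = (g' : G) * y * (g' : G)⁻¹ * y⁻¹ := congrArg Subtype.val he
    have h2 : (g : G) * y * (g : G)⁻¹ = (g' : G) * y * (g' : G)⁻¹ := mul_right_cancel h1
    set s : G := (g' : G)⁻¹ * g with hs
    have hsP : s ∈ zpowers x := mul_mem (inv_mem g'.2) g.2
    have h3 : s * y = y * s := by
      have h4 : s * y * s⁻¹ = y := by
        rw [hs]
        calc (g' : G)⁻¹ * g * y * ((g' : G)⁻¹ * g)⁻¹ = (g' : G)⁻¹ * ((g : G) * y * (g : G)⁻¹) * g' := by group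
          _ = (g' : G)⁻¹ * ((g' : G) * y * (g' : G)⁻¹) * g' := by rw [h2]
          _ = y := by group
      calc s * y = s * y * s⁻¹ * s := by group
        _ = y * s := by rw [h4]
    have hs1 : s = 1 := by
      by_contra hs1
      have h5 := h.zpowers_eq hsP hs1
      have h6 : x ∈ zpowers s := by rw [h5]; exact mem_zpowers x
      obtain ⟨j, hj⟩ := Subgroup.mem_zpowers_iff.mp h6
      apply hyP
      rw [h.mem_iff]
      rw [← hj]
      have h7 : Commute y (s ^ j) := (Commute.zpow_right (show Commute y s from h3.symm) j)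
      exact h7.eq
    have h8 : (g : G) = g' := by
      have : (g' : G)⁻¹ * g = 1 := hs1
      exact (inv_mul_eq_one.mp this).symm
    exact Subtype.ext h8
  have hsurj := Finite.injective_iff_surjective.mp hinj
  obtain ⟨g, hg⟩ := hsurj ⟨z, hz⟩
  refine ⟨g, ?_⟩
  have h9 : (g : G) * y * (g : G)⁻¹ * y⁻¹ = z := congrArg Subtype.val hg
  rw [← h9]
  group

open CfsgLib.Char.SC in
theorem chi_vanish {x : G} (h : Hyp p x) (ρ : Representation ℂ G V) (hχ : IsIrrCharacter G ρ.character)
    {m : ℕ} (B : Module.Basis (Fin m) ℂ V)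
    (b : Fin m → ZMod p) (hb : ∀ i, ∀ k : ℕ, ρ (x ^ k) (B i) = ee p ((k : ZMod p) * b i) • B i)
    (hb0 : ∀ i, b i ≠ 0) {y : G} (hyN : y ∈ normalizer (zpowers x : Set G)) (hyP : y ∉ zpowers x) :
    ρ.character y = 0 := by
  have hpp := hp.out
  haveI : NeZero p := ⟨hpp.ne_zero⟩
  have hT : ∑ a : ZMod p, ρ (x ^ a.val) = 0 := by
    apply B.ext
    intro i
    rw [LinearMap.sum_apply]
    simp only [hb, ZMod.natCast_zmod_val]
    rw [← Finset.sum_smul, sum_ee, if_neg (hb0 i)]
    simp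
  have h1 : ∑ a : ZMod p, ρ.character (x ^ a.val * y) = 0 := by
    have h2 : ∀ a : ZMod p, ρ.character (x ^ a.val * y) = LinearMap.trace ℂ V (ρ (x ^ a.val) * ρ y) := by
      intro a
      rw [← map_mul]
      rfl
    simp only [h2]
    rw [← map_sum, ← Finset.sum_mul, hT, zero_mul, map_zero]
  have h3 : ∀ a : ZMod p, ρ.character (x ^ a.val * y) = ρ.character y := by
    intro a
    obtain ⟨g, hg⟩ := exists_conj_coset h hyN hyP (pow_mem (mem_zpowers x) a.val)
    rw [← hg]
    exact hχ.isClassFunction y g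
  simp only [h3] at h1
  rw [Finset.sum_const, Finset.card_univ, ZMod.card, nsmul_eq_mul] at h1
  have hpc : (p : ℂ) ≠ 0 := by exact_mod_cast hpp.ne_zero
  exact (mul_eq_zero.mp h1).resolve_left hpc

end Rep

section Det

variable {G : Type*} [Group G] [Fintype G] {V : Type*} [AddCommGroup V] [Module ℂ V] [FiniteDimensional ℂ V]

theorem det_neg_one (ρ : Representation ℂ G V) (w : G) (c : ℕ) (hc : 1 ≤ c) (hw : w ^ (2 ^ c) = 1)
    (hvan : ∀ s, 0 < s → s < 2 ^ c → ρ.character (w ^ s) = 0) (o : ℕ) (ho : Odd o)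
    (hn : Module.finrank ℂ V = 2 ^ c * o) : LinearMap.det (ρ w) = -1 := by
  classical
  obtain ⟨m, B, μ, h1, h2⟩ := rep_eigenbasis ρ w
  set q := 2 ^ c with hq
  have hq0 : q ≠ 0 := by positivity
  have hqc : (q : ℂ) ≠ 0 := by exact_mod_cast hq0
  haveI : NeZero q := ⟨hq0⟩
  have hm : Module.finrank ℂ V = m := finrank_eq_of_basis B
  have hpow : ∀ i, ∀ k : ℕ, ρ (w ^ k) (B i) = μ i ^ k • B i := by
    intro i k
    induction k with
    | zero => simp
    | succ k ih =>
      rw [pow_succ, map_mul, Module.End.mul_apply, h1, map_smul, ih, smul_smul, pow_succ, mul_comm]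
  have hμ : ∀ i, μ i ^ q = 1 := by
    intro i
    have h3 := hpow i q
    rw [hw, map_one, Module.End.one_apply] at h3
    have h4 : (μ i ^ q - 1) • B i = 0 := by
      rw [sub_smul, ← h3, one_smul, sub_self]
    rcases smul_eq_zero.mp h4 with h5 | h5
    · exact sub_eq_zero.mp h5
    · exact absurd h5 (B.ne_zero i)
  have hξ := Complex.isPrimitiveRoot_exp q hq0
  set ξ := Complex.exp (2 * Real.pi * Complex.I / q) with hξdef
  have hk : ∀ i, ∃ k : ℕ, k < q ∧ ξ ^ k = μ i := fun i => hξ.eq_pow_of_pow_eq_one (hμ i)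
  choose k hk1 hk2 using hk
  have hchar : ∀ s : ℕ, ρ.character (w ^ s) = ∑ i, μ i ^ s := fun s =>
    character_eq_sum ρ (w ^ s) B _ (fun i => hpow i s)
  have hcount : ∀ d, d < q → (Finset.univ.filter (fun i => k i = d)).card = o := by
    intro d hd
    have h3 : ∑ s ∈ Finset.range q, ρ.character (w ^ s) * ((ξ ^ d)⁻¹) ^ s = (q : ℂ) * o := by
      rw [Finset.sum_eq_single 0]
      · simp only [pow_zero, mul_one]
        have h4 : ρ.character 1 = (Module.finrank ℂ V : ℂ) := by simp
        rw [h4, hn]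
        push_cast
        ring
      · intro s hs hs0
        rw [hvan s (Nat.pos_of_ne_zero hs0) (Finset.mem_range.mp hs), zero_mul]
      · intro h0
        exact absurd (Finset.mem_range.mpr (Nat.pos_of_ne_zero hq0)) h0
    have h5 : ∑ s ∈ Finset.range q, ρ.character (w ^ s) * ((ξ ^ d)⁻¹) ^ s =
        ∑ i, (if k i = d then (q : ℂ) else 0) := by
      simp only [hchar, Finset.sum_mul]
      rw [Finset.sum_comm]
      refine Finset.sum_congr rfl fun i _ => ?_
      have h6 : ∀ s, μ i ^ s * ((ξ ^ d)⁻¹) ^ s = (μ i * (ξ ^ d)⁻¹) ^ s := fun s => (mul_pow _ _ _).symm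
      simp only [h6]
      have hξ0 : ξ ≠ 0 := hξ.ne_zero hq0
      split_ifs with h7
      · have h8 : μ i * (ξ ^ d)⁻¹ = 1 := by
          rw [← hk2 i, h7]
          exact mul_inv_cancel₀ (pow_ne_zero _ hξ0)
        rw [h8]
        simp
      · have h8 : μ i * (ξ ^ d)⁻¹ ≠ 1 := by
          intro h9
          have h10 : μ i = ξ ^ d := by
            field_simp at h9
            exact h9
          rw [← hk2 i] at h10
          exact h7 (hξ.pow_inj (hk1 i) hd h10)
        have h11 : (μ i * (ξ ^ d)⁻¹) ^ q = 1 := by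
          have h25 : (ξ ^ d) ^ q = 1 := by
            rw [← pow_mul, mul_comm, pow_mul, hξ.pow_eq_one, one_pow]
          rw [mul_pow, hμ, inv_pow, h25, inv_one, one_mul]
        rw [geom_sum_eq h8, h11, sub_self, zero_div]
    rw [h3, Finset.sum_ite, Finset.sum_const_zero, add_zero, Finset.sum_const, nsmul_eq_mul] at h5
    have h12 := mul_comm ((Finset.univ.filter (fun i => k i = d)).card : ℂ) (q : ℂ)
    rw [h12] at h5
    have h13 := mul_left_cancel₀ hqc h5
    exact_mod_cast h13.symm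
  have hdet : LinearMap.det (ρ w) = ∏ i, μ i := by
    have h3 : LinearMap.toMatrix B B (ρ w) = Matrix.diagonal μ := by
      ext i j
      rw [LinearMap.toMatrix_apply, h1, map_smul, Module.Basis.repr_self, Matrix.diagonal_apply]
      by_cases hij : i = j
      · subst hij; simp
      · simp [hij, Finsupp.single_eq_of_ne (Ne.symm hij), Finsupp.single_apply]
    rw [← LinearMap.det_toMatrix B, h3, Matrix.det_diagonal]
  rw [hdet]
  have hfib : ∏ i, μ i = ∏ d ∈ Finset.range q, ∏ i ∈ Finset.univ.filter (fun i => k i = d), μ i :=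
    (Finset.prod_fiberwise_of_maps_to (fun i _ => Finset.mem_range.mpr (hk1 i)) _).symm
  rw [hfib]
  have h14 : ∀ d ∈ Finset.range q, ∏ i ∈ Finset.univ.filter (fun i => k i = d), μ i = (ξ ^ d) ^ o := by
    intro d hd
    have h15 : ∀ i ∈ Finset.univ.filter (fun i => k i = d), μ i = ξ ^ d := by
      intro i hi
      rw [← hk2 i, (Finset.mem_filter.mp hi).2]
    rw [Finset.prod_congr rfl h15, Finset.prod_const, hcount d (Finset.mem_range.mp hd)]
  rw [Finset.prod_congr rfl h14, Finset.prod_pow, Finset.prod_pow_eq_pow_sum]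
  obtain ⟨c', rfl⟩ : ∃ c', c = c' + 1 := ⟨c - 1, by omega⟩
  have hsum : ∑ d ∈ Finset.range q, d = 2 ^ c' * (q - 1) := by
    have h16 := Finset.sum_range_id_mul_two q
    have h17 : q = 2 * 2 ^ c' := by rw [hq, pow_succ]; ring
    have h18 : (∑ d ∈ Finset.range q, d) * 2 = (2 ^ c' * (q - 1)) * 2 := by
      rw [h16]
      conv_lhs => rw [h17]
      rw [← h17]
      ring
    exact Nat.eq_of_mul_eq_mul_right (by norm_num) h18
  rw [hsum, pow_mul]
  have hη : ξ ^ 2 ^ c' = -1 := by
    have h19 : (ξ ^ 2 ^ c') * (ξ ^ 2 ^ c') = 1 := by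
      rw [← pow_add, ← two_mul, ← pow_succ']
      exact hξ.pow_eq_one
    rcases mul_self_eq_one_iff.mp h19 with h20 | h20
    · exfalso
      have h21 : 2 ^ c' < q := by
        rw [hq, pow_succ]
        have : 0 < 2 ^ c' := by positivity
        omega
      exact hξ.pow_ne_one_of_pos_of_lt (by positivity) h21 h20
    · exact h20
  rw [hη]
  have hqodd : Odd (q - 1) := by
    have h22 : q = 2 * 2 ^ c' := by rw [hq, pow_succ]; ring
    have h23 : 0 < 2 ^ c' := by positivity
    rw [h22]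
    exact ⟨2 ^ c' - 1, by omega⟩
  rw [hqodd.neg_one_pow, ho.neg_one_pow]

end Det

section Final

variable {G : Type*} [Group G] [Fintype G] {p : ℕ} [hp : Fact p.Prime]

open CfsgLib.Char.SC

theorem exists_inverter {x : G} (h : Hyp p x) (hp2 : p ≠ 2)
    (he : 2 ∣ Nat.card (normalizer (zpowers x : Set G))) :
    ∃ v ∈ normalizer (zpowers x : Set G), ∀ j : ℕ, v * x ^ j * v⁻¹ = (x ^ j)⁻¹ := by
  have hpp := hp.out
  haveI : Fact (Nat.Prime 2) := ⟨Nat.prime_two⟩
  obtain ⟨v, hv⟩ := exists_prime_orderOf_dvd_card' (G := normalizer (zpowers x : Set G)) 2 he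
  have hv' : orderOf (v : G) = 2 := by rw [Subgroup.orderOf_coe]; exact hv
  refine ⟨v, v.2, ?_⟩
  obtain ⟨i, hi⟩ := h.conj_zpow_of_norm v.2
  have hx := h.order
  have h1 : x ^ (i * i - 1) = 1 := by
    have h2 : (v : G) * (v : G) = 1 := by
      rw [← sq, ← hv']
      exact pow_orderOf_eq_one _
    have h3 : (v : G) * ((v : G) * x ^ (1 : ℤ) * (v : G)⁻¹) * (v : G)⁻¹ = x ^ (1 : ℤ) := by
      have h4 : (v : G)⁻¹ = v := inv_eq_of_mul_eq_one_left h2
      rw [h4]
      calc (v : G) * ((v : G) * x ^ (1 : ℤ) * (v : G)) * (v : G) = ((v : G) * (v : G)) * x ^ (1 : ℤ) * ((v : G) * (v : G)) := by group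
        _ = _ := by rw [h2]; simp
    rw [hi 1, mul_one, hi i] at h3
    have h5 : x ^ (i * i) * (x ^ (1 : ℤ))⁻¹ = 1 := by rw [h3]; simp
    rw [zpow_sub, h5]
  have h6 : (p : ℤ) ∣ i * i - 1 := by
    rw [← hx]
    exact orderOf_dvd_iff_zpow_eq_one.mpr h1
  have h7 : (p : ℤ) ∣ (i - 1) * (i + 1) := by
    have : (i - 1) * (i + 1) = i * i - 1 := by ring
    rw [this]; exact h6
  have hpi : Prime (p : ℤ) := Nat.prime_iff_prime_int.mp hpp
  rcases hpi.dvd_or_dvd h7 with h8 | h8
  · exfalso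
    have h9 : x ^ i = x := by
      have h10 : x ^ (i - 1) = 1 := by
        rw [← orderOf_dvd_iff_zpow_eq_one, hx]; exact h8
      rw [zpow_sub] at h10
      simp only [zpow_one] at h10
      exact mul_inv_eq_one.mp h10
    have h11 : (v : G) * x * (v : G)⁻¹ = x := by
      have := hi 1
      simp only [zpow_one, mul_one] at this
      rw [this, h9]
    have h12 : (v : G) * x = x * v := by
      calc (v : G) * x = (v : G) * x * (v : G)⁻¹ * v := by group
        _ = x * v := by rw [h11]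
    have h13 : (v : G) ∈ zpowers x := h.mem_iff.mpr h12
    have h14 := h.pow_mem h13
    have h15 : orderOf (v : G) ∣ p := orderOf_dvd_of_pow_eq_one h14
    rw [hv'] at h15
    exact hp2 ((Nat.prime_dvd_prime_iff_eq Nat.prime_two hpp).mp h15).symm
  · intro j
    have h16 := hi (j : ℤ)
    rw [zpow_natCast] at h16
    rw [h16, ← zpow_natCast, ← zpow_neg]
    have h17 : (orderOf x : ℤ) ∣ i * j - -(j : ℤ) := by
      rw [hx]
      have : i * j - -(j : ℤ) = (i + 1) * j := by ring
      rw [this]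
      exact Dvd.dvd.mul_right h8 _
    have h18 := orderOf_dvd_iff_zpow_eq_one.mp h17
    rw [zpow_sub] at h18
    exact mul_inv_eq_one.mp h18

theorem exists_two_elt {x : G} (h : Hyp p x) (hp2 : p ≠ 2) {e t : ℕ}
    (hN : Nat.card (normalizer (zpowers x : Set G)) = p * e) (hte : t * e = p - 1) (ht : Odd t) :
    ∃ (w : G) (c o : ℕ), 1 ≤ c ∧ orderOf w = 2 ^ c ∧ w ∈ normalizer (zpowers x : Set G) ∧ Odd o ∧
      p - 1 = 2 ^ c * o := by
  have hpp := hp.out
  haveI : Fact (Nat.Prime 2) := ⟨Nat.prime_two⟩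
  have hpodd : Odd p := hpp.odd_of_ne_two hp2
  have hp1 : p - 1 ≠ 0 := by have := hpp.two_le; omega
  have he0 : e ≠ 0 := by
    rintro rfl
    simp at hte
    omega
  obtain ⟨T⟩ : Nonempty (Sylow 2 (normalizer (zpowers x : Set G))) := inferInstance
  haveI : Fact (Nat.card (zpowers x)).Prime := ⟨by rw [h.card_P]; exact hpp⟩
  let φ : normalizer (zpowers x : Set G) →* (ZMod (Nat.card (zpowers x)))ˣ :=
    (IsCyclic.mulAutMulEquiv (zpowers x)).toMonoidHom.comp (normalizerMonoidHom (zpowers x))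
  let φT : (T : Subgroup (normalizer (zpowers x : Set G))) →* (ZMod (Nat.card (zpowers x)))ˣ := φ.comp (T : Subgroup (normalizer (zpowers x : Set G))).subtype
  have hinj : Function.Injective φT := by
    rw [injective_iff_map_eq_one]
    intro s hs
    have h1 : normalizerMonoidHom (zpowers x) (s : normalizer (zpowers x : Set G)) = 1 := by
      have h2 : (IsCyclic.mulAutMulEquiv (zpowers x)) (normalizerMonoidHom (zpowers x) (s : normalizer (zpowers x : Set G))) = 1 := hs
      exact (map_eq_one_iff _ (IsCyclic.mulAutMulEquiv (zpowers x)).injective).mp h2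
    have h3 : (s : normalizer (zpowers x : Set G)) ∈ (normalizerMonoidHom (zpowers x)).ker := h1
    rw [normalizerMonoidHom_ker] at h3
    have h4 : ((s : normalizer (zpowers x : Set G)) : G) ∈ centralizer (zpowers x : Set G) := h3
    have h5 : ((s : normalizer (zpowers x : Set G)) : G) * x = x * ((s : normalizer (zpowers x : Set G)) : G) :=
      ((Subgroup.mem_centralizer_iff.mp h4 x (mem_zpowers x))).symm
    have h6 : ((s : normalizer (zpowers x : Set G)) : G) ∈ zpowers x := h.mem_iff.mpr h5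
    have h7 := h.pow_mem h6
    obtain ⟨k, hk⟩ := (IsPGroup.iff_orderOf.mp T.2) s
    have h8 : orderOf ((s : normalizer (zpowers x : Set G)) : G) = orderOf s := by
      rw [Subgroup.orderOf_coe, Subgroup.orderOf_coe]
    have h9 : orderOf s ∣ p := by
      rw [← h8]
      exact orderOf_dvd_of_pow_eq_one h7
    rw [hk] at h9
    have h10 : k = 0 := by
      by_contra h11
      have h12 : 2 ∣ p := (dvd_pow_self 2 h11).trans h9
      exact hp2 ((Nat.prime_dvd_prime_iff_eq Nat.prime_two hpp).mp h12).symm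
    rw [h10, pow_zero, orderOf_eq_one_iff] at hk
    exact hk
  haveI : IsCyclic (T : Subgroup (normalizer (zpowers x : Set G))) := isCyclic_of_injective φT hinj
  obtain ⟨g, hg⟩ := IsCyclic.exists_generator (α := (T : Subgroup (normalizer (zpowers x : Set G))))
  have hord : orderOf g = Nat.card (T : Subgroup (normalizer (zpowers x : Set G))) :=
    orderOf_eq_card_of_forall_mem_zpowers hg
  rw [T.card_eq_multiplicity, hN] at hord
  have hf1 : (p * e).factorization 2 = e.factorization 2 := by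
    rw [Nat.factorization_mul hpp.ne_zero he0]
    simp only [Finsupp.add_apply]
    rw [Nat.factorization_eq_zero_of_not_dvd hpodd.not_two_dvd_nat, zero_add]
  have ht0 : t ≠ 0 := ht.pos.ne'
  have hf2 : (p - 1).factorization 2 = e.factorization 2 := by
    rw [← hte, Nat.factorization_mul ht0 he0]
    simp only [Finsupp.add_apply]
    rw [Nat.factorization_eq_zero_of_not_dvd ht.not_two_dvd_nat, zero_add]
  refine ⟨((g : normalizer (zpowers x : Set G)) : G), (p - 1).factorization 2, ordCompl[2] (p - 1), ?_, ?_,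
    (g : normalizer (zpowers x : Set G)).2, ?_, ?_⟩
  · have h2p : 2 ∣ p - 1 := by
      obtain ⟨r, hr⟩ := hpodd
      exact ⟨r, by omega⟩
    exact (Nat.Prime.dvd_iff_one_le_factorization Nat.prime_two hp1).mp h2p
  · rw [Subgroup.orderOf_coe, Subgroup.orderOf_coe, hord, hf1, hf2]
  · exact Nat.not_even_iff_odd.mp (fun h3 => Nat.not_dvd_ordCompl Nat.prime_two hp1 h3.two_dvd)
  · exact (Nat.ordProj_mul_ordCompl_eq_self (p - 1) 2).symm

theorem s4508_odd {x : G} (h : Hyp p x) (hp2 : p ≠ 2) (χ : IrrCharacter G) (hdeg : (χ : G → ℂ) 1 = ((p - 1 : ℕ) : ℂ))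
    (ht : Odd (Nat.card { C : ConjClasses G // ∃ g ∈ C.carrier, orderOf g = p })) :
    Even (commutator G).index := by
  classical
  have hpp := hp.out
  have hpodd : Odd p := hpp.odd_of_ne_two hp2
  obtain ⟨e, hN, hte⟩ := h.count
  set t := Nat.card { C : ConjClasses G // ∃ g ∈ C.carrier, orderOf g = p } with htdef
  have h2p : 2 ∣ p - 1 := by
    obtain ⟨r, hr⟩ := hpodd
    exact ⟨r, by omega⟩
  have h2e : 2 ∣ e := by
    rw [← hte] at h2p
    exact (Nat.Prime.dvd_mul Nat.prime_two).mp h2p |>.resolve_left ht.not_two_dvd_nat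
  obtain ⟨v, hvN, hv⟩ := exists_inverter h hp2 (by rw [hN]; exact Dvd.dvd.mul_left h2e p)
  obtain ⟨n, ρ, hρ, hρχ⟩ := χ.2
  haveI := hρ
  have hχirr : IsIrrCharacter G ρ.character := isIrrCharacter_character ρ
  have hχeq : (χ : G → ℂ) = ρ.character := hρχ.symm
  rw [hχeq] at hdeg
  have hfin : Module.finrank ℂ (Fin n → ℂ) = p - 1 := by
    have h1 : ρ.character 1 = (Module.finrank ℂ (Fin n → ℂ) : ℂ) := by simp
    rw [h1] at hdeg
    exact_mod_cast hdeg
  have hfin' : Module.finrank ℂ (Fin n → ℂ) + 1 = p := by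
    have := hpp.two_le
    omega
  obtain ⟨m, B, b, hb⟩ := exists_exponents (p := p) ρ x (by rw [← h.order]; exact pow_orderOf_eq_one x)
  have hneg : ∀ a, fv b (-a) = fv b a := by
    intro a
    have h1 : fv b (-a) = conj (fv b a) := by
      unfold fv
      rw [map_sum]
      refine Finset.sum_congr rfl fun i _ => ?_
      rw [neg_mul, AddChar.map_neg_eq_conj]
    have hval : ∀ a : ZMod p, fv b a = ρ.character (x ^ a.val) := by
      intro a
      haveI : NeZero p := ⟨hpp.ne_zero⟩
      rw [character_pow_eq ρ x B b hb, ZMod.natCast_zmod_val]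
    rw [h1, hval a, ← character_inv]
    rw [← hv a.val]
    exact hχirr.isClassFunction _ v
  have hcnt := no_fixed h ρ hχirr hfin' hp2 B b hb hneg
  have hb0 : ∀ i, b i ≠ 0 := by
    intro i hi
    have h1 : i ∈ Finset.univ.filter (fun i => b i = 0) := by simp [hi]
    have h2 : (Finset.univ.filter (fun i => b i = 0)) = ∅ := Finset.card_eq_zero.mp hcnt
    rw [h2] at h1
    simp at h1
  obtain ⟨w, c, o, hc, hw, hwN, ho, hpo⟩ := exists_two_elt h hp2 hN hte ht
  have hw2 : w ^ (2 ^ c) = 1 := by rw [← hw]; exact pow_orderOf_eq_one w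
  have hvan : ∀ s, 0 < s → s < 2 ^ c → ρ.character (w ^ s) = 0 := by
    intro s hs0 hs
    apply chi_vanish h ρ hχirr B b hb hb0 (pow_mem hwN s)
    intro hP
    have h1 := h.pow_mem hP
    have h2 : (w ^ s) ^ (2 ^ c) = 1 := by
      rw [← pow_mul, mul_comm, pow_mul, hw2, one_pow]
    have h3 : orderOf (w ^ s) ∣ Nat.gcd p (2 ^ c) :=
      Nat.dvd_gcd (orderOf_dvd_of_pow_eq_one h1) (orderOf_dvd_of_pow_eq_one h2)
    have h4 : Nat.gcd p (2 ^ c) = 1 := by
      apply Nat.Coprime.pow_right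
      exact (Nat.coprime_primes hpp Nat.prime_two).mpr hp2
    rw [h4, Nat.dvd_one, orderOf_eq_one_iff] at h3
    have h5 := orderOf_dvd_of_pow_eq_one h3
    rw [hw] at h5
    exact absurd (Nat.le_of_dvd hs0 h5) (by omega)
  have hdet := det_neg_one ρ w c hc hw2 hvan o ho (by rw [hfin, hpo])
  by_contra hodd
  rw [Nat.not_even_iff_odd] at hodd
  have hmem := (commutator G).pow_index_mem w
  have hcomm : commutator G ≤ (detHom ρ).ker := by
    rw [_root_.commutator_def, Subgroup.commutator_le]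
    intro a _ b _
    rw [MonoidHom.mem_ker]
    simp only [commutatorElement_def, map_mul, map_inv]
    rw [mul_comm (detHom ρ a) (detHom ρ b)]
    group
  have h1 : detHom ρ (w ^ (commutator G).index) = 1 := hcomm hmem
  rw [map_pow] at h1
  have h2 := congrArg (fun u : ℂˣ => (u : ℂ)) h1
  simp only [Units.val_pow_eq_pow_val, Units.val_one, detHom_apply, hdet] at h2
  rw [hodd.neg_one_pow] at h2
  norm_num at h2

theorem s4508_two {x : G} (h : Hyp 2 x) : Even (commutator G).index := by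
  classical
  haveI : Fact (Nat.Prime 2) := ⟨Nat.prime_two⟩
  obtain ⟨P, hP⟩ := h.exists_sylow
  have hcardP : Nat.card (P : Subgroup G) = 2 := by rw [hP]; exact h.card_P
  have hnc : Subgroup.normalizer ((P : Subgroup G) : Set G) ≤ Subgroup.centralizer ((P : Subgroup G) : Set G) := by
    intro y hy
    rw [hP] at hy ⊢
    have hx1 : y * x * y⁻¹ ∈ zpowers x := (Subgroup.mem_normalizer_iff.mp hy x).mp (mem_zpowers x)
    rw [Subgroup.mem_centralizer_iff]
    intro z hz
    obtain ⟨j, rfl⟩ := Subgroup.mem_zpowers_iff.mp hz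
    have hne : y * x * y⁻¹ ≠ 1 := by
      intro h0
      have h1 : x = 1 := by
        have : y * x = y := mul_inv_eq_one.mp h0
        exact mul_left_cancel (this.trans (mul_one y).symm)
      exact h.ne_one h1
    have h2 := h.zpowers_eq hx1 hne
    -- the group of order two
    have h3 : y * x * y⁻¹ = x := by
      have h4 : orderOf x = 2 := h.order
      obtain ⟨i, hi⟩ := Subgroup.mem_zpowers_iff.mp hx1
      rcases Int.even_or_odd i with hev | hod
      · exfalso
        obtain ⟨r, rfl⟩ := hev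
        apply hne
        rw [← hi, ← two_mul, zpow_mul]
        have : x ^ (2 : ℤ) = 1 := by
          have h44 := pow_orderOf_eq_one x
          rw [h4] at h44
          exact_mod_cast h44
        rw [this, one_zpow]
      · obtain ⟨r, rfl⟩ := hod
        rw [← hi, zpow_add, zpow_mul]
        have : x ^ (2 : ℤ) = 1 := by
          have h44 := pow_orderOf_eq_one x
          rw [h4] at h44
          exact_mod_cast h44
        rw [this, one_zpow]
        simp
    have h5 : x * y = y * x := by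
      calc x * y = (y * x * y⁻¹) * y := by rw [h3]
        _ = y * x := by group
    exact (Commute.zpow_left (show Commute x y from h5) j).eq
  have hcomp := MonoidHom.ker_transferSylow_isComplement' P hnc
  have hidx : (MonoidHom.transferSylow P hnc).ker.index = 2 := by
    rw [hcomp.symm.index_eq_card, hcardP]
  have hle : commutator G ≤ (MonoidHom.transferSylow P hnc).ker := by
    rw [_root_.commutator_def, Subgroup.commutator_le]
    intro a _ b _
    rw [MonoidHom.mem_ker]
    simp only [commutatorElement_def, map_mul, map_inv]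
    have hc : ∀ a b : (P : Subgroup G), a * b = b * a := by
      intro a b
      apply Subtype.ext
      have h1 : (a : G) ∈ Subgroup.centralizer ((P : Subgroup G) : Set G) :=
        hnc (Subgroup.le_normalizer a.2)
      exact ((Subgroup.mem_centralizer_iff.mp h1 b b.2)).symm
    rw [hc (MonoidHom.transferSylow P hnc a) (MonoidHom.transferSylow P hnc b)]
    group
  have hd := Subgroup.index_dvd_of_le hle
  rw [hidx] at hd
  exact even_iff_two_dvd.mpr hd

/-- S4508. -/
theorem s4508_main (hp' : p.Prime) (x : G) (hx : orderOf x = p)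
    (hC : Subgroup.centralizer ({x} : Set G) = Subgroup.zpowers x) (t : ℕ)
    (ht : Nat.card {C : ConjClasses G // ∃ g ∈ C.carrier, orderOf g = p} = t) (χ : IrrCharacter G)
    (hχ : charDegree (χ : G → ℂ) + 1 = p) : Even t ∨ Even (commutator G).index := by
  have h : Hyp p x := ⟨hx, hC⟩
  by_cases hp2 : p = 2
  · subst hp2
    exact Or.inr (s4508_two h)
  · by_cases hodd : Even t
    · exact Or.inl hodd
    · right
      rw [Nat.not_even_iff_odd, ← ht] at hodd
      apply s4508_odd h hp2 χ _ hodd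
      obtain ⟨n, hn, h1⟩ := χ.2.map_one
      rw [h1]
      have h2 : charDegree (χ : G → ℂ) = n := by
        unfold charDegree
        rw [h1]
        simp
      have : n = p - 1 := by omega
      rw [this]

end Final

end CfsgLib.Char.DP
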