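import Cfsg.Agent.Lib.H3.DihClasses
import Cfsg.Agent.Lib.Char.QDLocal
import Mathlib

/-! # Classes of Klein four-subgroups for a dihedral Sylow 2-subgroup. -/

set_option autoImplicit false
set_option linter.unusedSectionVars false
set_option linter.unusedVariables false

namespace CfsgLib.Char.DKC

open Subgroup CfsgLib.DihFus CfsgLib.DihCl

variable {G : Type*} [Group G] [Finite G]

lemma card_le_two_mul {A B : Type*} [Finite A] [Finite B] (f : A → B) (c : A → G)
    (hc : Function.Injective c)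
    (h : ∀ a, ∃ b : G, ∀ a', f a' = f a → c a' = c a ∨ c a' = b) :
    Nat.card A ≤ 2 * Nat.card B := by
  classical
  letI := Fintype.ofFinite A
  letI := Fintype.ofFinite B
  rw [Nat.card_eq_fintype_card, Nat.card_eq_fintype_card]
  have h1 := Finset.card_le_mul_card_image (s := (Finset.univ : Finset A)) (f := f) 2 (by
    intro y hy
    obtain ⟨a, -, rfl⟩ := Finset.mem_image.1 hy
    obtain ⟨b, hb⟩ := h a
    have : ((Finset.univ.filter (fun x => f x = f a)).image c) ⊆ {c a, b} := by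
      intro w hw
      obtain ⟨a', ha', rfl⟩ := Finset.mem_image.1 hw
      have := hb a' (Finset.mem_filter.1 ha').2
      simpa using this
    calc (Finset.univ.filter (fun x => f x = f a)).card
        = ((Finset.univ.filter (fun x => f x = f a)).image c).card :=
          (Finset.card_image_of_injective _ hc).symm
      _ ≤ ({c a, b} : Finset G).card := Finset.card_le_card this
      _ ≤ 2 := Finset.card_le_two)
  calc Fintype.card A = (Finset.univ : Finset A).card := rfl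
    _ ≤ 2 * (Finset.univ.image f).card := h1
    _ ≤ 2 * Fintype.card B := Nat.mul_le_mul_left _ (Finset.card_le_univ _)

lemma map_conj_mul (K : Subgroup G) (y x : G) :
    K.map (MulAut.conj (y * x)).toMonoidHom =
      (K.map (MulAut.conj x).toMonoidHom).map (MulAut.conj y).toMonoidHom := by
  ext h
  simp only [Subgroup.mem_map_equiv, MulAut.conj_symm_apply]
  have : (y * x)⁻¹ * h * (y * x) = x⁻¹ * (y⁻¹ * h * y) * x := by group
  rw [this]

lemma map_conj_one (K : Subgroup G) : K.map (MulAut.conj (1 : G)).toMonoidHom = K := by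
  ext h
  simp only [Subgroup.mem_map_equiv, MulAut.conj_symm_apply]
  simp

lemma card_map_conj (K : Subgroup G) (x : G) :
    Nat.card (K.map (MulAut.conj x).toMonoidHom) = Nat.card K :=
  Subgroup.card_map_of_injective (MulEquiv.injective _)

lemma two_cases {r : G} {n : ℕ} (hr : orderOf r = 2 ^ n) (hn : 1 ≤ n) (j j' : ℤ)
    (h : r ^ (2 * j') = r ^ (2 * j)) :
    r ^ j' = r ^ j ∨ r ^ j' = r ^ j * r ^ ((2 : ℤ) ^ (n - 1)) := by
  set M : ℤ := (2 : ℤ) ^ (n - 1) with hM
  have h2M : (orderOf r : ℤ) = 2 * M := by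
    rw [hr, hM]
    push_cast
    rw [← pow_succ']
    congr 1
    omega
  have h1M : r ^ (2 * M) = 1 := by
    rw [← h2M]
    exact zpow_natCast r (orderOf r) ▸ pow_orderOf_eq_one r
  rw [zpow_eq_zpow_iff_modEq, Int.modEq_iff_dvd, h2M] at h
  obtain ⟨k, hk⟩ := h
  have hMpos : M ≠ 0 := by positivity
  have hk' : j' = j - M * k := by
    have : 2 * (j - j' - M * k) = 0 := by linear_combination hk
    omega
  rcases Int.even_or_odd' k with ⟨q, rfl | rfl⟩
  · left
    have : j' = j + (2 * M) * (-q) := by rw [hk']; ring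
    rw [this, zpow_add, zpow_mul, h1M, one_zpow, mul_one]
  · right
    have : j' = j + M + (2 * M) * (-q - 1) := by rw [hk']; ring
    rw [this, zpow_add, zpow_mul, h1M, one_zpow, mul_one, zpow_add]


/-- two distinct involutions -/
def Nc (W : Subgroup G) : Prop :=
  ∃ a ∈ W, ∃ b ∈ W, a * a = 1 ∧ b * b = 1 ∧ a ≠ 1 ∧ b ≠ 1 ∧ a ≠ b

lemma Nc.conj {W : Subgroup G} (h : Nc W) (x : G) : Nc (W.map (MulAut.conj x).toMonoidHom) := by
  obtain ⟨a, ha, b, hb, h1, h2, h3, h4, h5⟩ := h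
  refine ⟨x * a * x⁻¹, ⟨a, ha, rfl⟩, x * b * x⁻¹, ⟨b, hb, rfl⟩, ?_, ?_, ?_, ?_, ?_⟩
  · calc x * a * x⁻¹ * (x * a * x⁻¹) = x * (a * a) * x⁻¹ := by group
      _ = 1 := by rw [h1]; group
  · calc x * b * x⁻¹ * (x * b * x⁻¹) = x * (b * b) * x⁻¹ := by group
      _ = 1 := by rw [h2]; group
  · intro h
    apply h3
    have : a = x⁻¹ * (x * a * x⁻¹) * x := by group
    rw [this, h]
    group
  · intro h
    apply h4
    have : b = x⁻¹ * (x * b * x⁻¹) * x := by group
    rw [this, h]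
    group
  · intro h
    apply h5
    have h6 : x * a = x * b := by
      have := congrArg (fun w => w * x) h
      simpa using this
    exact mul_left_cancel h6

section data

variable {S : Subgroup G} {r : G} (D : DData S r) {n : ℕ} (hr : orderOf r = 2 ^ n) (hn : 1 ≤ n)
include D hr hn

lemma comm_r {u : G} (hu : u ∈ S) (hur : u ∉ zpowers r) (j : ℤ) :
    r ^ j * u * (r ^ j)⁻¹ * u⁻¹ = r ^ (2 * j) := by
  have h := refl_zpow D hu hur (-j)
  rw [neg_neg] at h
  calc r ^ j * u * (r ^ j)⁻¹ * u⁻¹ = r ^ j * (u * r ^ (-j) * u⁻¹) := by rw [zpow_neg]; group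
    _ = r ^ j * r ^ j := by rw [h]
    _ = r ^ (2 * j) := by rw [← zpow_add]; congr 1; ring

lemma comm_ur {u : G} (hu : u ∈ S) (hur : u ∉ zpowers r) (j : ℤ) :
    (u * r ^ j) * u * (u * r ^ j)⁻¹ * u⁻¹ = r ^ (-(2 * j)) := by
  have h := comm_r D hr hn hu hur j
  have h2 := refl_zpow D hu hur (2 * j)
  calc (u * r ^ j) * u * (u * r ^ j)⁻¹ * u⁻¹ = u * (r ^ j * u * (r ^ j)⁻¹ * u⁻¹) * u⁻¹ := by group
    _ = u * r ^ (2 * j) * u⁻¹ := by rw [h]
    _ = r ^ (-(2 * j)) := h2

lemma bd (W : Subgroup G) (hW : W ≤ S) (u : G) (huW : u ∈ W) (hur : u ∉ zpowers r) :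
    Nat.card ↥(S ⊓ normalizer (W : Set G)) ≤ 2 * Nat.card W := by
  classical
  have huS := hW huW
  let fG : G → G := fun t => if t ∈ zpowers r then t * u * t⁻¹ * u⁻¹ else u * (t * u * t⁻¹ * u⁻¹)
  have hmem : ∀ t : ↥(S ⊓ normalizer (W : Set G)), fG t ∈ W := by
    intro t
    have h1 : (t : G) * u * (t : G)⁻¹ ∈ W := (mem_normalizer_iff.1 t.2.2 u).1 huW
    have h2 : (t : G) * u * (t : G)⁻¹ * u⁻¹ ∈ W := mul_mem h1 (inv_mem huW)
    by_cases ht : (t : G) ∈ zpowers r
    · simp only [fG, if_pos ht]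
      exact h2
    · simp only [fG, if_neg ht]
      exact mul_mem huW h2
  have hf1 : ∀ j : ℤ, fG (r ^ j) = r ^ (2 * j) := by
    intro j
    simp only [fG]
    rw [if_pos (zpow_mem (mem_zpowers r) j)]
    exact comm_r D hr hn huS hur j
  have hf2 : ∀ j : ℤ, fG (u * r ^ j) = u * r ^ (-(2 * j)) := by
    intro j
    simp only [fG]
    rw [if_neg (refl_mul D huS hur j), comm_ur D hr hn huS hur j]
  refine card_le_two_mul (fun t => (⟨fG t, hmem t⟩ : W)) Subtype.val Subtype.val_injective ?_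
  intro a
  refine ⟨(a : G) * r ^ ((2 : ℤ) ^ (n - 1)), ?_⟩
  intro a' hfa
  have hfa' : fG a' = fG a := congrArg Subtype.val hfa
  have ha := a.2.1
  have ha' := a'.2.1
  rcases exists_rep' D ha huS hur with ⟨j, hj⟩ | ⟨j, hj⟩ <;>
    rcases exists_rep' D ha' huS hur with ⟨j', hj'⟩ | ⟨j', hj'⟩
  · rw [hj, hj', hf1, hf1] at hfa'
    rw [hj, hj']
    exact two_cases hr hn j j' hfa'
  · exfalso
    rw [hj, hj', hf1, hf2] at hfa'
    exact refl_mul D huS hur _ (hfa' ▸ zpow_mem (mem_zpowers r) _)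
  · exfalso
    rw [hj, hj', hf1, hf2] at hfa'
    exact refl_mul D huS hur _ (hfa'.symm ▸ zpow_mem (mem_zpowers r) _)
  · rw [hj, hj', hf2, hf2] at hfa'
    have h1 := mul_left_cancel hfa'
    have h2 : r ^ (2 * j') = r ^ (2 * j) := by
      rw [zpow_neg, zpow_neg] at h1
      exact inv_injective h1
    rw [hj, hj']
    rcases two_cases hr hn j j' h2 with h3 | h3
    · left; rw [h3]
    · right; rw [h3, mul_assoc]

lemma exists_not_mem (W : Subgroup G) (hN : Nc W) : ∃ u ∈ W, u ∉ zpowers r := by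
  obtain ⟨a, ha, b, hb, h1, h2, h3, h4, h5⟩ := hN
  by_contra hcon
  push Not at hcon
  have key : ∀ c ∈ W, c * c = 1 → c ≠ 1 → c = r ^ ((2 : ℤ) ^ (n - 1)) := by
    intro c hc h6 h7
    obtain ⟨j, hj⟩ := hcon c hc
    change r ^ j = c at hj
    have h8 : r ^ (2 * j) = r ^ (2 * (0 : ℤ)) := by
      rw [two_mul, zpow_add, hj, h6]
      simp
    rcases two_cases hr hn 0 j h8 with h9 | h9
    · exfalso
      apply h7
      rw [← hj, h9, zpow_zero]
    · rw [← hj, h9, zpow_zero, one_mul]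
  exact h5 ((key a ha h1 h3).trans (key b hb h2 h4).symm)

end data

lemma lower (S W : Subgroup G) (hS : IsPGroup 2 S) (hW : W ≤ S) (hne : W ≠ S) :
    2 * Nat.card W ≤ Nat.card ↥(S ⊓ normalizer (W : Set G)) := by
  haveI : Fact (Nat.Prime 2) := ⟨Nat.prime_two⟩
  haveI : Group.IsNilpotent S := hS.isNilpotent
  have hlt : W.subgroupOf S < ⊤ := by
    apply lt_top_iff_ne_top.2
    intro h
    apply hne
    apply le_antisymm hW
    intro t ht
    have : (⟨t, ht⟩ : S) ∈ W.subgroupOf S := by rw [h]; trivial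
    simpa [mem_subgroupOf] using this
  have h1 := normalizerCondition_of_isNilpotent (G := S) _ hlt
  obtain ⟨t, ht, htW⟩ := SetLike.exists_of_lt h1
  have htN := CfsgLib.Char.QDL.coe_mem_normalizer S W hW t ht
  have hWM : W ≤ S ⊓ normalizer (W : Set G) := le_inf hW (Subgroup.le_normalizer)
  obtain ⟨k, hk⟩ := Subgroup.card_dvd_of_le hWM
  have hcpos : 0 < Nat.card W := Nat.card_pos
  have hk1 : k ≠ 1 := by
    rintro rfl
    rw [mul_one] at hk
    have := Subgroup.eq_of_le_of_card_ge hWM (by rw [hk])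
    apply htW
    have h5 : (t : G) ∈ W := by
      rw [this]
      exact ⟨t.2, htN⟩
    simpa [mem_subgroupOf] using h5
  have hk0 : k ≠ 0 := by
    rintro rfl
    have : 0 < Nat.card ↥(S ⊓ normalizer (W : Set G)) := Nat.card_pos
    omega
  have h2k : 2 ≤ k := by omega
  rw [hk, mul_comm]
  exact Nat.mul_le_mul_left _ h2k

lemma conj_into (S : Sylow 2 G) (P : Subgroup G) (hP : IsPGroup 2 P) :
    ∃ g : G, P.map (MulAut.conj g).toMonoidHom ≤ S := by
  obtain ⟨Q, hQ⟩ := hP.exists_le_sylow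
  obtain ⟨g, hg⟩ := MulAction.exists_smul_eq G Q S
  refine ⟨g, ?_⟩
  rintro _ ⟨t, ht, rfl⟩
  rw [← hg, Sylow.coe_subgroup_smul]
  exact ⟨t, hQ ht, rfl⟩

lemma max_bound (S : Sylow 2 G) {r : G} (D : DData (S : Subgroup G) r) {n : ℕ}
    (hr : orderOf r = 2 ^ n) (hn : 1 ≤ n) (W : Subgroup G) (hNc : Nc W) (P : Subgroup G)
    (hP : IsPGroup 2 P) (hPN : P ≤ normalizer (W : Set G)) (hWP : W ≤ P) :
    Nat.card P ≤ 2 * Nat.card W := by
  obtain ⟨g, hg⟩ := conj_into S P hP
  have hNc' := hNc.conj g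
  obtain ⟨u, hu, hur⟩ := exists_not_mem D hr hn _ hNc'
  have hW' : W.map (MulAut.conj g).toMonoidHom ≤ S := (Subgroup.map_mono hWP).trans hg
  have h1 := bd D hr hn _ hW' u hu hur
  rw [card_map_conj] at h1
  have h2 : P.map (MulAut.conj g).toMonoidHom ≤
      (S : Subgroup G) ⊓ normalizer ((W.map (MulAut.conj g).toMonoidHom : Subgroup G) : Set G) := by
    refine le_inf hg ?_
    rintro _ ⟨p, hp, rfl⟩
    rw [mem_normalizer_iff]
    intro h
    have h3 := mem_normalizer_iff.1 (hPN hp) (g⁻¹ * h * g)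
    have h5 : ∀ k : G, k ∈ W.map (MulAut.conj g).toMonoidHom ↔ g⁻¹ * k * g ∈ W := by
      intro k
      rw [Subgroup.mem_map_equiv, MulAut.conj_symm_apply]
    rw [h5, h5]
    have h6 : g⁻¹ * (((MulAut.conj g).toMonoidHom p) * h * ((MulAut.conj g).toMonoidHom p)⁻¹) * g =
        p * (g⁻¹ * h * g) * p⁻¹ := by
      simp only [MulEquiv.coe_toMonoidHom, MulAut.conj_apply]
      group
    rw [h6]
    exact h3
  have h7 := Subgroup.card_le_of_le h2
  rw [card_map_conj] at h7
  exact h7.trans h1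

lemma syl_conj (N P₁ P₂ : Subgroup G) (h₁ : P₁ ≤ N) (h₂ : P₂ ≤ N) (hp₁ : IsPGroup 2 P₁) (hp₂ : IsPGroup 2 P₂)
    (hm₁ : ∀ P : Subgroup G, IsPGroup 2 P → P ≤ N → P₁ ≤ P → Nat.card P ≤ Nat.card P₁)
    (hm₂ : ∀ P : Subgroup G, IsPGroup 2 P → P ≤ N → P₂ ≤ P → Nat.card P ≤ Nat.card P₂) :
    ∃ y ∈ N, P₁.map (MulAut.conj y).toMonoidHom = P₂ := by
  haveI : Fact (Nat.Prime 2) := ⟨Nat.prime_two⟩
  have key : ∀ P : Subgroup G, P ≤ N → IsPGroup 2 P →
      (∀ P' : Subgroup G, IsPGroup 2 P' → P' ≤ N → P ≤ P' → Nat.card P' ≤ Nat.card P) →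
      ∃ Q : Sylow 2 N, (Q : Subgroup N).map N.subtype = P := by
    intro P hPN hp hm
    have hp' : IsPGroup 2 (P.comap N.subtype) := hp.comap_of_injective N.subtype N.subtype_injective
    obtain ⟨Q, hQ⟩ := hp'.exists_le_sylow
    refine ⟨Q, ?_⟩
    have hle : P ≤ (Q : Subgroup N).map N.subtype := by
      intro t ht
      exact ⟨⟨t, hPN ht⟩, hQ ht, rfl⟩
    have hc := hm _ (Q.2.map N.subtype) (map_subtype_le _) hle
    exact (Subgroup.eq_of_le_of_card_ge hle hc).symm
  obtain ⟨Q₁, rfl⟩ := key P₁ h₁ hp₁ hm₁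
  obtain ⟨Q₂, rfl⟩ := key P₂ h₂ hp₂ hm₂
  obtain ⟨y, hy⟩ := MulAction.exists_smul_eq N Q₁ Q₂
  have hi : ∀ (Q Q' : Sylow 2 N) (v : N), v • Q = Q' → ∀ t ∈ (Q : Subgroup N),
      v * t * v⁻¹ ∈ (Q' : Subgroup N) := by
    intro Q Q' v hv t ht
    rw [← hv, Sylow.coe_subgroup_smul]
    exact ⟨t, ht, rfl⟩
  refine ⟨y, y.2, ?_⟩
  have hle : ((Q₁ : Subgroup N).map N.subtype).map (MulAut.conj (y : G)).toMonoidHom ≤
      (Q₂ : Subgroup N).map N.subtype := by
    rintro _ ⟨_, ⟨t, ht, rfl⟩, rfl⟩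
    exact ⟨y * t * y⁻¹, hi Q₁ Q₂ y hy t ht, by simp⟩
  refine Subgroup.eq_of_le_of_card_ge hle ?_
  rw [card_map_conj]
  have hy' : y⁻¹ • Q₂ = Q₁ := by rw [← hy, inv_smul_smul]
  have hle2 : ((Q₂ : Subgroup N).map N.subtype).map (MulAut.conj ((y⁻¹ : N) : G)).toMonoidHom ≤
      (Q₁ : Subgroup N).map N.subtype := by
    rintro _ ⟨_, ⟨t, ht, rfl⟩, rfl⟩
    exact ⟨y⁻¹ * t * y⁻¹⁻¹, hi Q₂ Q₁ y⁻¹ hy' t ht, by simp⟩
  have := Subgroup.card_le_of_le hle2
  rwa [card_map_conj] at this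

lemma conj_mem_normalizer (W : Subgroup G) (p : G) (hp : p ∈ normalizer (W : Set G)) (g : G) :
    (MulAut.conj g).toMonoidHom p ∈ normalizer ((W.map (MulAut.conj g).toMonoidHom : Subgroup G) : Set G) := by
  rw [mem_normalizer_iff]
  intro h
  have h3 := mem_normalizer_iff.1 hp (g⁻¹ * h * g)
  have h5 : ∀ k : G, k ∈ W.map (MulAut.conj g).toMonoidHom ↔ g⁻¹ * k * g ∈ W := by
    intro k
    rw [Subgroup.mem_map_equiv, MulAut.conj_symm_apply]
  rw [h5, h5]
  have h6 : g⁻¹ * (((MulAut.conj g).toMonoidHom p) * h * ((MulAut.conj g).toMonoidHom p)⁻¹) * g =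
      p * (g⁻¹ * h * g) * p⁻¹ := by
    simp only [MulEquiv.coe_toMonoidHom, MulAut.conj_apply]
    group
  rw [h6]
  exact h3

lemma step (S : Sylow 2 G) {r : G} (D : DData (S : Subgroup G) r) {n : ℕ}
    (hr : orderOf r = 2 ^ n) (hn : 1 ≤ n) (W₁ W₂ : Subgroup G)
    (h₁S : W₁ ≤ S) (h₂S : W₂ ≤ S) (hNc : Nc W₁) (x : G) (hx : W₁.map (MulAut.conj x).toMonoidHom = W₂)
    (hne₁ : W₁ ≠ S) (hne₂ : W₂ ≠ S) :
    ∃ x' : G, W₁.map (MulAut.conj x').toMonoidHom = W₂ ∧
      ((S : Subgroup G) ⊓ normalizer (W₁ : Set G)).map (MulAut.conj x').toMonoidHom =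
        (S : Subgroup G) ⊓ normalizer (W₂ : Set G) := by
  haveI : Fact (Nat.Prime 2) := ⟨Nat.prime_two⟩
  have hNc₂ : Nc W₂ := hx ▸ hNc.conj x
  have hc : Nat.card W₁ = Nat.card W₂ := by rw [← hx, card_map_conj]
  have hl₁ := lower S W₁ S.2 h₁S hne₁
  have hl₂ := lower S W₂ S.2 h₂S hne₂
  have hW₁M : W₁ ≤ (S : Subgroup G) ⊓ normalizer (W₁ : Set G) := le_inf h₁S Subgroup.le_normalizer
  have hW₂M : W₂ ≤ (S : Subgroup G) ⊓ normalizer (W₂ : Set G) := le_inf h₂S Subgroup.le_normalizer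
  have hW₂P : W₂ ≤ ((S : Subgroup G) ⊓ normalizer (W₁ : Set G)).map (MulAut.conj x).toMonoidHom := by
    rw [← hx]
    exact Subgroup.map_mono hW₁M
  have hPN : ((S : Subgroup G) ⊓ normalizer (W₁ : Set G)).map (MulAut.conj x).toMonoidHom ≤
      normalizer (W₂ : Set G) := by
    rintro _ ⟨t, ht, rfl⟩
    rw [← hx]
    exact conj_mem_normalizer W₁ t ht.2 x
  obtain ⟨y, hyN, hy⟩ := syl_conj (normalizer (W₂ : Set G))
    (((S : Subgroup G) ⊓ normalizer (W₁ : Set G)).map (MulAut.conj x).toMonoidHom)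
    ((S : Subgroup G) ⊓ normalizer (W₂ : Set G)) hPN inf_le_right
    ((S.2.to_le inf_le_left).map _) (S.2.to_le inf_le_left)
    (by
      intro P hP hPN' hle
      have h1 := max_bound S D hr hn W₂ hNc₂ P hP hPN' (hW₂P.trans hle)
      rw [card_map_conj]
      omega)
    (by
      intro P hP hPN' hle
      have h1 := max_bound S D hr hn W₂ hNc₂ P hP hPN' (hW₂M.trans hle)
      omega)
  refine ⟨y * x, ?_, ?_⟩
  · rw [map_conj_mul, hx]
    exact mem_normalizer_iff_map_conj_eq.1 hyN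
  · rw [map_conj_mul, hy]

section HHsec

variable {S : Subgroup G} {r : G}

/-- The index two subgroup through a reflection. -/
def HH (D : DData S r) {y : G} (hy : y ∈ S) (hyr : y ∉ zpowers r) : Subgroup G where
  carrier := {t | ∃ i : ℤ, t = r ^ (2 * i) ∨ t = y * r ^ (2 * i)}
  one_mem' := ⟨0, Or.inl (by simp)⟩
  mul_mem' := by
    rintro _ _ ⟨i, rfl | rfl⟩ ⟨j, rfl | rfl⟩
    · exact ⟨i + j, Or.inl (by rw [← zpow_add]; congr 1; ring)⟩
    · refine ⟨j - i, Or.inr ?_⟩
      rw [← mul_assoc, zpow_refl D hy hyr, mul_assoc, ← zpow_add]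
      congr 2
      ring
    · exact ⟨i + j, Or.inr (by rw [mul_assoc, ← zpow_add]; congr 2; ring)⟩
    · refine ⟨j - i, Or.inl ?_⟩
      calc y * r ^ (2 * i) * (y * r ^ (2 * j)) = y * (r ^ (2 * i) * y) * r ^ (2 * j) := by group
        _ = y * (y * r ^ (-(2 * i))) * r ^ (2 * j) := by rw [zpow_refl D hy hyr]
        _ = (y * y) * (r ^ (-(2 * i)) * r ^ (2 * j)) := by group
        _ = r ^ (2 * (j - i)) := by
          rw [refl_sq D hy hyr, one_mul, ← zpow_add]
          congr 1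
          ring
  inv_mem' := by
    rintro _ ⟨i, rfl | rfl⟩
    · exact ⟨-i, Or.inl (by rw [← zpow_neg]; congr 1; ring)⟩
    · refine ⟨i, Or.inr ?_⟩
      exact inv_eq_of_mul_eq_one_left (refl_sq D (refl_mem D hy _) (refl_mul D hy hyr _))

variable (D : DData S r) {y : G} (hy : y ∈ S) (hyr : y ∉ zpowers r)
  {n : ℕ} (hr : orderOf r = 2 ^ n) (hn : 1 ≤ n)

lemma HH_le : HH D hy hyr ≤ S := by
  rintro _ ⟨i, rfl | rfl⟩
  · exact zpow_mem D.mem _
  · exact refl_mem D hy _

include hr hn in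
lemma even_of_mem (j : ℤ) (h : r ^ j ∈ HH D hy hyr) : Even j := by
  obtain ⟨i, h | h⟩ := h
  · rw [zpow_eq_zpow_iff_modEq, Int.modEq_iff_dvd, hr] at h
    have h2 : (2 : ℤ) ∣ 2 * i - j := by
      refine dvd_trans ?_ h
      push_cast
      exact dvd_pow_self 2 (by omega)
    rw [Int.even_iff]
    omega
  · exfalso
    exact refl_mul D hy hyr (2 * i) (h ▸ zpow_mem (mem_zpowers r) _)

include hr hn in
lemma NA (W : Subgroup G) (hW : W ≤ HH D hy hyr) (hne : W ≠ HH D hy hyr) (u : G) (huW : u ∈ W)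
    (hur : u ∉ zpowers r) (t : G) (htS : t ∈ S) (htN : t ∈ normalizer (W : Set G)) :
    t ∈ HH D hy hyr := by
  obtain ⟨i₀, h₀ | h₀⟩ := hW huW
  · exfalso
    exact hur (h₀ ▸ zpow_mem (mem_zpowers r) _)
  have huS : u ∈ S := HH_le D hy hyr (hW huW)
  have key : ∀ j : ℤ, r ^ j ∈ normalizer (W : Set G) → Even j := by
    intro j hj
    by_contra hodd
    rw [Int.not_even_iff_odd] at hodd
    have h1 : r ^ j * (u * r ^ (0 : ℤ)) * (r ^ j)⁻¹ = u * r ^ (0 - 2 * j) := conj_refl D huS hur j 0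
    have h2 : r ^ j * u * (r ^ j)⁻¹ ∈ W := (mem_normalizer_iff.1 hj u).1 huW
    have h3 : u * r ^ (-(2 * j)) ∈ W := by
      have h9 : r ^ j * u * (r ^ j)⁻¹ = u * r ^ (-(2 * j)) := by
        have := h1
        rw [zpow_zero, mul_one, zero_sub] at this
        exact this
      rw [← h9]
      exact h2
    have h4 : r ^ (2 * j) ∈ W := by
      have h5 := mul_mem (inv_mem huW) h3
      rw [inv_mul_cancel_left] at h5
      have h6 := inv_mem h5
      rwa [← zpow_neg, neg_neg] at h6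
    obtain ⟨a, b, hab⟩ : IsCoprime j ((2 : ℤ) ^ n) := by
      obtain ⟨t', rfl⟩ := hodd
      exact IsCoprime.pow_right ⟨1, -t', by ring⟩
    have h7 : r ^ (2 : ℤ) ∈ W := by
      have h8 : (2 : ℤ) = (2 * j) * a + (orderOf r : ℤ) * (2 * b) := by
        rw [hr]
        push_cast
        linear_combination (-2) * hab
      rw [h8, zpow_add, zpow_mul, zpow_mul r (orderOf r : ℤ), zpow_natCast, pow_orderOf_eq_one, one_zpow, mul_one]
      exact zpow_mem h4 a
    apply hne
    apply le_antisymm hW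
    rintro _ ⟨i, rfl | rfl⟩
    · rw [zpow_mul]
      exact zpow_mem h7 i
    · have h10 : y * r ^ (2 * i) = u * (r ^ (2 : ℤ)) ^ (i - i₀) := by
        rw [h₀, ← zpow_mul, mul_assoc, ← zpow_add]
        congr 2
        ring
      rw [h10]
      exact mul_mem huW (zpow_mem h7 _)
  have hev : ∀ j : ℤ, Even j → r ^ j ∈ HH D hy hyr := by
    rintro j ⟨k, rfl⟩
    exact ⟨k, Or.inl (by congr 1; ring)⟩
  rcases exists_rep' D htS huS hur with ⟨j, hj⟩ | ⟨j, hj⟩
  · rw [hj] at htN ⊢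
    exact hev j (key j htN)
  · have h11 : r ^ j = u⁻¹ * t := by rw [hj]; group
    have h12 : r ^ j ∈ normalizer (W : Set G) := by
      rw [h11]
      exact mul_mem (inv_mem (Subgroup.le_normalizer huW)) htN
    rw [hj]
    exact mul_mem (hW huW) (hev j (key j h12))

include hr hn in
lemma card_eq : Nat.card S = 2 * Nat.card (HH D hy hyr) := by
  classical
  haveI : Fact (Nat.Prime 2) := ⟨Nat.prime_two⟩
  have hrA : r ∉ HH D hy hyr := by
    intro h
    have h1 := even_of_mem D hy hyr hr hn 1 (by simpa using h)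
    simp at h1
  have hne : HH D hy hyr ≠ S := by
    intro h
    apply hrA
    rw [h]
    exact D.mem
  have h1 := lower S (HH D hy hyr) D.p2 (HH_le D hy hyr) hne
  have h2 : Nat.card ↥(S ⊓ normalizer ((HH D hy hyr : Subgroup G) : Set G)) ≤ Nat.card S :=
    Subgroup.card_le_of_le inf_le_left
  have hmem : ∀ t : S, (if (t : G) ∈ HH D hy hyr then (t : G) else (t : G) * r) ∈ HH D hy hyr := by
    intro t
    by_cases ht : (t : G) ∈ HH D hy hyr
    · rw [if_pos ht]
      exact ht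
    · rw [if_neg ht]
      have hev : ∀ j : ℤ, Even j → r ^ j ∈ HH D hy hyr := by
        rintro j ⟨k, rfl⟩
        exact ⟨k, Or.inl (by congr 1; ring)⟩
      have hodd : ∀ j : ℤ, ¬ Even j → r ^ j * r ∈ HH D hy hyr := by
        intro j hj
        have h5 : r ^ j * r = r ^ (j + 1) := by rw [zpow_add, zpow_one]
        rw [h5]
        exact hev _ (by rw [Int.not_even_iff_odd] at hj; exact hj.add_one)
      rcases exists_rep' D t.2 hy hyr with ⟨j, hj⟩ | ⟨j, hj⟩
      · rw [hj] at ht ⊢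
        exact hodd j (fun h => ht (hev j h))
      · rw [hj] at ht ⊢
        have hj' : ¬ Even j := fun h => ht (mul_mem ⟨0, Or.inr (by simp)⟩ (hev j h))
        rw [mul_assoc]
        exact mul_mem ⟨0, Or.inr (by simp)⟩ (hodd j hj')
  have h3 : Nat.card S ≤ 2 * Nat.card (HH D hy hyr) := by
    refine card_le_two_mul (G := G)
      (fun t => (⟨if (t : G) ∈ HH D hy hyr then (t : G) else (t : G) * r, hmem t⟩ : HH D hy hyr))
      Subtype.val Subtype.val_injective ?_
    intro a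
    refine ⟨if (a : G) ∈ HH D hy hyr then (a : G) * r⁻¹ else (a : G) * r, ?_⟩
    intro a' hfa
    have hfa' := congrArg Subtype.val hfa
    simp only at hfa'
    by_cases ha : (a : G) ∈ HH D hy hyr <;> by_cases ha' : (a' : G) ∈ HH D hy hyr
    · rw [if_pos ha, if_pos ha'] at hfa'
      exact Or.inl hfa'
    · rw [if_pos ha, if_neg ha'] at hfa'
      right
      rw [if_pos ha, ← hfa']
      group
    · rw [if_neg ha, if_pos ha'] at hfa'
      right
      rw [if_neg ha]
      exact hfa'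
    · rw [if_neg ha, if_neg ha'] at hfa'
      exact Or.inl (mul_right_cancel hfa')
  omega

end HHsec

lemma base (S : Sylow 2 G) {r : G} (D : DData (S : Subgroup G) r) (hS4 : Nat.card (S : Subgroup G) ≠ 4)
    (A B : Subgroup G) (hA : A ≤ S) (hAN : ∀ t ∈ (S : Subgroup G), t ∈ normalizer (A : Set G)) (x' : G)
    (hx1 : A.map (MulAut.conj x').toMonoidHom = B)
    (hx2 : (S : Subgroup G).map (MulAut.conj x').toMonoidHom = S) : A = B := by
  haveI : Fact (Nat.Prime 2) := ⟨Nat.prime_two⟩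
  have hxN : x' ∈ normalizer ((S : Subgroup G) : Set G) := mem_normalizer_iff_map_conj_eq.2 hx2
  have hP : IsPGroup 2 (MulAut (S : Subgroup G)) := by
    rcases aut_cases D (le_refl (S : Subgroup G)) with h | h
    · exact h
    · exact absurd h.card_four hS4
  obtain ⟨α, β, hβ, ho⟩ := Nat.exists_eq_two_pow_mul_odd (orderOf_pos x').ne'
  obtain ⟨p, q, hpq⟩ : IsCoprime ((2 : ℤ) ^ α) (β : ℤ) := by
    obtain ⟨t', ht'⟩ := hβ
    apply IsCoprime.pow_left
    exact ⟨-(t' : ℤ), 1, by rw [ht']; push_cast; ring⟩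
  set a := x' ^ (q * (β : ℤ)) with ha
  set b := x' ^ (p * (2 : ℤ) ^ α) with hb
  have hab : x' = a * b := by
    rw [ha, hb, ← zpow_add]
    have : q * (β : ℤ) + p * (2 : ℤ) ^ α = 1 := by linear_combination hpq
    rw [this, zpow_one]
  have hoz : x' ^ ((2 : ℤ) ^ α * (β : ℤ)) = 1 := by
    have : ((2 : ℤ) ^ α * (β : ℤ)) = ((orderOf x' : ℕ) : ℤ) := by rw [ho]; push_cast; ring
    rw [this, zpow_natCast, pow_orderOf_eq_one]
  have ha2 : a ^ (2 ^ α : ℕ) = 1 := by
    rw [ha, ← zpow_natCast, ← zpow_mul]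
    have : q * (β : ℤ) * ((2 ^ α : ℕ) : ℤ) = ((2 : ℤ) ^ α * (β : ℤ)) * q := by push_cast; ring
    rw [this, zpow_mul, hoz, one_zpow]
  have hbβ : b ^ β = 1 := by
    rw [hb, ← zpow_natCast, ← zpow_mul]
    have : p * (2 : ℤ) ^ α * (β : ℤ) = ((2 : ℤ) ^ α * (β : ℤ)) * p := by ring
    rw [this, zpow_mul, hoz, one_zpow]
  have haN : a ∈ normalizer ((S : Subgroup G) : Set G) := zpow_mem hxN _
  have hbN : b ∈ normalizer ((S : Subgroup G) : Set G) := zpow_mem hxN _
  -- `a` lies in `S`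
  have haS : a ∈ (S : Subgroup G) := by
    have hpz : IsPGroup 2 (zpowers a) := by
      obtain ⟨k, -, hk⟩ := (Nat.dvd_prime_pow Nat.prime_two).1 (orderOf_dvd_of_pow_eq_one ha2)
      apply IsPGroup.of_card (n := k)
      rw [Nat.card_zpowers, hk]
    have hsup := hpz.to_sup_of_normal_right' S.2 ((zpowers_le (g := a)).2 haN)
    have h1 := S.is_maximal' hsup le_sup_right
    have h2 : a ∈ zpowers a ⊔ (S : Subgroup G) := mem_sup_left (mem_zpowers a)
    rw [show zpowers a ⊔ (S : Subgroup G) = (S : Subgroup G) from h1] at h2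
    exact h2
  -- `b` centralises `S`
  have hbC : ∀ t ∈ (S : Subgroup G), b * t * b⁻¹ = t := by
    intro t ht
    let φ := (S : Subgroup G).normalizerMonoidHom
    have h1 : (φ ⟨b, hbN⟩) ^ β = 1 := by
      rw [← map_pow]
      have : (⟨b, hbN⟩ : normalizer ((S : Subgroup G) : Set G)) ^ β = 1 := Subtype.ext hbβ
      rw [this, map_one]
    obtain ⟨k, hk⟩ := (IsPGroup.iff_orderOf.1 hP) (φ ⟨b, hbN⟩)
    have h2 : orderOf (φ ⟨b, hbN⟩) ∣ β := orderOf_dvd_of_pow_eq_one h1
    have h3 : k = 0 := by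
      by_contra hk0
      rw [hk] at h2
      have h4 : 2 ∣ β := (dvd_pow_self 2 hk0).trans h2
      obtain ⟨t', ht'⟩ := hβ
      omega
    rw [h3, pow_zero, orderOf_eq_one_iff] at hk
    have h5 := congrArg (fun e : MulAut (S : Subgroup G) => ((e ⟨t, ht⟩ : (S : Subgroup G)) : G)) hk
    exact h5
  have hle : A.map (MulAut.conj x').toMonoidHom ≤ A := by
    rintro _ ⟨t, ht, rfl⟩
    have h1 : (MulAut.conj x').toMonoidHom t = a * (b * t * b⁻¹) * a⁻¹ := by
      simp only [MulEquiv.coe_toMonoidHom, MulAut.conj_apply]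
      rw [hab]
      group
    rw [h1, hbC t (hA ht)]
    exact (mem_normalizer_iff.1 (hAN a haS) t).1 ht
  rw [← hx1]
  exact (Subgroup.eq_of_le_of_card_ge hle (by rw [card_map_conj])).symm

theorem no_conj (S : Sylow 2 G) {r : G} (D : DData (S : Subgroup G) r) {n : ℕ}
    (hr : orderOf r = 2 ^ n) (hn : 1 ≤ n) (hS4 : Nat.card (S : Subgroup G) ≠ 4)
    {y₁ y₂ : G} (hy₁ : y₁ ∈ (S : Subgroup G)) (hy₁r : y₁ ∉ zpowers r) (hy₂ : y₂ ∈ (S : Subgroup G))
    (hy₂r : y₂ ∉ zpowers r) (hAB : HH D hy₁ hy₁r ≠ HH D hy₂ hy₂r) :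
    ∀ k : ℕ, ∀ W₁ W₂ : Subgroup G, W₁ ≤ HH D hy₁ hy₁r → W₂ ≤ HH D hy₂ hy₂r → Nc W₁ →
      Nat.card (HH D hy₁ hy₁r) - Nat.card W₁ = k →
      ∀ x : G, W₁.map (MulAut.conj x).toMonoidHom ≠ W₂ := by
  have hc1 := card_eq D hy₁ hy₁r hr hn
  have hc2 := card_eq D hy₂ hy₂r hr hn
  have hAS : HH D hy₁ hy₁r ≠ (S : Subgroup G) := by
    intro h
    have := congrArg (fun K : Subgroup G => Nat.card K) h
    have hp : 0 < Nat.card (HH D hy₁ hy₁r) := Nat.card_pos
    omega
  have hBS : HH D hy₂ hy₂r ≠ (S : Subgroup G) := by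
    intro h
    have := congrArg (fun K : Subgroup G => Nat.card K) h
    have hp : 0 < Nat.card (HH D hy₂ hy₂r) := Nat.card_pos
    omega
  have hnorm : ∀ (K : Subgroup G), K ≤ (S : Subgroup G) → K ≠ (S : Subgroup G) →
      Nat.card (S : Subgroup G) = 2 * Nat.card K → (S : Subgroup G) ⊓ normalizer (K : Set G) = S := by
    intro K hK hne hc
    have h1 := lower S K S.2 hK hne
    exact Subgroup.eq_of_le_of_card_ge inf_le_left (by omega)
  intro k
  induction k using Nat.strong_induction_on with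
  | _ k ih =>
    intro W₁ W₂ hW₁ hW₂ hNc hk x hx
    have hcW : Nat.card W₁ = Nat.card W₂ := by rw [← hx, card_map_conj]
    have hNc₂ : Nc W₂ := hx ▸ hNc.conj x
    have hW₁S : W₁ ≤ (S : Subgroup G) := hW₁.trans (HH_le D hy₁ hy₁r)
    have hW₂S : W₂ ≤ (S : Subgroup G) := hW₂.trans (HH_le D hy₂ hy₂r)
    have hle₁ := Subgroup.card_le_of_le hW₁
    have hle₂ := Subgroup.card_le_of_le hW₂
    have hne₁ : W₁ ≠ (S : Subgroup G) := by
      rintro rfl
      have hp : 0 < Nat.card (HH D hy₁ hy₁r) := Nat.card_pos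
      omega
    have hne₂ : W₂ ≠ (S : Subgroup G) := by
      rintro rfl
      have hp : 0 < Nat.card (HH D hy₂ hy₂r) := Nat.card_pos
      omega
    obtain ⟨x', h1, h2⟩ := step S D hr hn W₁ W₂ hW₁S hW₂S hNc x hx hne₁ hne₂
    by_cases hEq : W₁ = HH D hy₁ hy₁r
    · have hEq₂ : W₂ = HH D hy₂ hy₂r := by
        refine Subgroup.eq_of_le_of_card_ge hW₂ ?_
        rw [← hcW, hEq]
        omega
      subst hEq
      subst hEq₂
      rw [hnorm _ (HH_le D hy₁ hy₁r) hAS hc1, hnorm _ (HH_le D hy₂ hy₂r) hBS hc2] at h2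
      apply hAB
      refine base S D hS4 _ _ (HH_le D hy₁ hy₁r) ?_ x' h1 h2
      intro t ht
      have h3 := hnorm _ (HH_le D hy₁ hy₁r) hAS hc1
      rw [← h3] at ht
      exact ht.2
    · have hEq₂ : W₂ ≠ HH D hy₂ hy₂r := by
        intro h
        apply hEq
        refine Subgroup.eq_of_le_of_card_ge hW₁ ?_
        rw [hcW, h]
        omega
      obtain ⟨u₁, hu₁, hu₁r⟩ := exists_not_mem D hr hn W₁ hNc
      obtain ⟨u₂, hu₂, hu₂r⟩ := exists_not_mem D hr hn W₂ hNc₂
      have hM₁ : (S : Subgroup G) ⊓ normalizer (W₁ : Set G) ≤ HH D hy₁ hy₁r := fun t ht =>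
        NA D hy₁ hy₁r hr hn W₁ hW₁ hEq u₁ hu₁ hu₁r t ht.1 ht.2
      have hM₂ : (S : Subgroup G) ⊓ normalizer (W₂ : Set G) ≤ HH D hy₂ hy₂r := fun t ht =>
        NA D hy₂ hy₂r hr hn W₂ hW₂ hEq₂ u₂ hu₂ hu₂r t ht.1 ht.2
      have hNc' : Nc ((S : Subgroup G) ⊓ normalizer (W₁ : Set G)) := by
        obtain ⟨a, ha, b, hb, h3⟩ := hNc
        exact ⟨a, ⟨hW₁S ha, Subgroup.le_normalizer ha⟩, b, ⟨hW₁S hb, Subgroup.le_normalizer hb⟩, h3⟩
      have hl₁ := lower S W₁ S.2 hW₁S hne₁
      have hp : 0 < Nat.card W₁ := Nat.card_pos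
      have hlt : Nat.card W₁ < Nat.card (HH D hy₁ hy₁r) := by
        refine lt_of_le_of_ne hle₁ ?_
        intro h
        exact hEq (Subgroup.eq_of_le_of_card_ge hW₁ h.ge)
      have hle₃ := Subgroup.card_le_of_le hM₁
      exact ih (Nat.card (HH D hy₁ hy₁r) - Nat.card ↥((S : Subgroup G) ⊓ normalizer (W₁ : Set G)))
        (by omega) _ _ hM₁ hM₂ hNc' rfl x' h2



theorem main {X : Type*} [Group X] [Finite X] (S : Sylow 2 X) (m : ℕ) (hm : 2 ≤ m)
    (eS : (S : Subgroup X) ≃* DihedralGroup m) :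
    (Nat.card S = 4 → ∀ U V : Subgroup X, IsKleinFour U → IsKleinFour V →
      (∃ x : X, U.map (MulAut.conj x).toMonoidHom = V)) ∧
    (4 < Nat.card S → ∃ U₁ U₂ : Subgroup X, IsKleinFour U₁ ∧ IsKleinFour U₂ ∧
      ¬ (∃ x : X, U₁.map (MulAut.conj x).toMonoidHom = U₂) ∧
      ∀ V : Subgroup X, IsKleinFour V → (∃ x : X, V.map (MulAut.conj x).toMonoidHom = U₁) ∨
        (∃ x : X, V.map (MulAut.conj x).toMonoidHom = U₂)) := by
  haveI : Fact (Nat.Prime 2) := ⟨Nat.prime_two⟩
  have hSc : Nat.card (S : Subgroup X) = 2 * m := by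
    rw [Nat.card_congr eS.toEquiv, DihedralGroup.nat_card]
  have hkp : ∀ U : Subgroup X, IsKleinFour U → IsPGroup 2 U := by
    intro U hU
    apply IsPGroup.of_card (n := 2)
    rw [hU.card_four]
    norm_num
  constructor
  · intro h4 U V hU hV
    obtain ⟨g, hg⟩ := conj_into S U (hkp U hU)
    obtain ⟨g', hg'⟩ := conj_into S V (hkp V hV)
    have h4' : Nat.card (S : Subgroup X) = 4 := h4
    have e1 : U.map (MulAut.conj g).toMonoidHom = S :=
      Subgroup.eq_of_le_of_card_ge hg (by rw [card_map_conj, hU.card_four, h4'])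
    have e2 : V.map (MulAut.conj g').toMonoidHom = S :=
      Subgroup.eq_of_le_of_card_ge hg' (by rw [card_map_conj, hV.card_four, h4'])
    refine ⟨g'⁻¹ * g, ?_⟩
    rw [map_conj_mul, e1, ← e2, ← map_conj_mul, inv_mul_cancel, map_conj_one]
  · intro h4
    have h4' : 4 < Nat.card (S : Subgroup X) := h4
    obtain ⟨k, hk⟩ := IsPGroup.iff_card.1 S.2
    have hk' : Nat.card (S : Subgroup X) = 2 ^ k := hk
    obtain ⟨n, rfl⟩ : ∃ n, k = n + 1 := by
      cases k with
      | zero => rw [pow_zero] at hk'; omega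
      | succ k => exact ⟨k, rfl⟩
    have hmn : m = 2 ^ n := by
      rw [hk', pow_succ'] at hSc
      omega
    subst hmn
    have hn2 : 2 ≤ n := by
      by_contra hlt
      have : n = 0 ∨ n = 1 := by omega
      rcases this with rfl | rfl <;> simp at hm h4' hSc <;> omega
    have hn : 1 ≤ n := by omega
    haveI : NeZero (2 ^ n) := ⟨by positivity⟩
    have D := data_of_equiv hm (S : Subgroup X) eS S.2
    set r : X := ((eS.symm (DihedralGroup.r 1) : (S : Subgroup X)) : X) with hrdef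
    have hr : orderOf r = 2 ^ n := by
      rw [hrdef, Subgroup.orderOf_coe, MulEquiv.orderOf_eq, DihedralGroup.orderOf_r_one]
    have hS4 : Nat.card (S : Subgroup X) ≠ 4 := by omega
    obtain ⟨s, hs, hsr⟩ : ∃ s ∈ (S : Subgroup X), s ∉ zpowers r := by
      apply SetLike.not_le_iff_exists.1
      intro hle
      have h1 := Subgroup.card_le_of_le hle
      rw [Nat.card_zpowers, hr, hSc] at h1
      have : 0 < 2 ^ n := by positivity
      omega
    set M : ℤ := (2 : ℤ) ^ (n - 1) with hM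
    set z : X := r ^ M with hz
    have h2M : (orderOf r : ℤ) = 2 * M := by
      rw [hr, hM]
      push_cast
      rw [← pow_succ']
      congr 1
      omega
    have hz2 : z * z = 1 := by
      rw [hz, ← zpow_add, ← two_mul, ← h2M, zpow_natCast, pow_orderOf_eq_one]
    have hz1 : z ≠ 1 := by
      intro h
      have h1 := orderOf_dvd_iff_zpow_eq_one.2 h
      rw [h2M] at h1
      have hMpos : 0 < M := by positivity
      have := Int.le_of_dvd hMpos h1
      omega
    have hzmem : z ∈ zpowers r := zpow_mem (mem_zpowers r) _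
    have hzS : z ∈ (S : Subgroup X) := zpow_mem D.mem _
    have hMeven : ∃ l : ℤ, M = 2 * l := by
      refine ⟨(2 : ℤ) ^ (n - 2), ?_⟩
      rw [hM, ← pow_succ']
      congr 1
      omega
    obtain ⟨l₀, hl₀⟩ := hMeven
    set y₂ : X := s * r ^ (1 : ℤ) with hy₂
    have hy₂S : y₂ ∈ (S : Subgroup X) := refl_mem D hs 1
    have hy₂r : y₂ ∉ zpowers r := refl_mul D hs hsr 1
    have hcomm : ∀ y ∈ (S : Subgroup X), y ∉ zpowers r → y * z = z * y := by
      intro y hy hyr
      have h1 := refl_zpow D hy hyr M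
      have h2 : r ^ (-M) = r ^ M := by
        rw [zpow_eq_zpow_iff_modEq, Int.modEq_iff_dvd, h2M]
        exact ⟨1, by ring⟩
      rw [h2] at h1
      have h3 : y * z * y⁻¹ = z := h1
      rw [mul_inv_eq_iff_eq_mul] at h3
      exact h3
    have hne1 : ∀ y ∈ (S : Subgroup X), y ∉ zpowers r → y ≠ 1 := by
      intro y _ hyr h
      exact hyr (h ▸ one_mem _)
    have hnez : ∀ y ∈ (S : Subgroup X), y ∉ zpowers r → z ≠ y := by
      intro y _ hyr h
      exact hyr (h ▸ hzmem)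
    have hU : ∀ y (hy : y ∈ (S : Subgroup X)) (hyr : y ∉ zpowers r),
        ∃ U : Subgroup X, IsKleinFour U ∧ y ∈ U ∧ z ∈ U ∧ U ≤ HH D hy hyr := by
      intro y hy hyr
      have hyy := refl_sq D hy hyr
      obtain ⟨U, hUS, hUK, hyU, hzU⟩ := exists_klein hy hzS (by rw [pow_two]; exact hyy)
        (by rw [pow_two]; exact hz2) (hne1 y hy hyr) hz1 (hnez y hy hyr).symm (hcomm y hy hyr)
      refine ⟨U, hUK, hyU, hzU, ?_⟩
      intro x hx
      have hyH : y ∈ HH D hy hyr := ⟨0, Or.inr (by simp)⟩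
      have hzH : z ∈ HH D hy hyr := ⟨l₀, Or.inl (by rw [hz, hl₀])⟩
      rcases klein_elems' hUK hzU hyU hz1 (hne1 y hy hyr) (hnez y hy hyr) hx with rfl | rfl | rfl | rfl
      · exact one_mem _
      · exact hzH
      · exact hyH
      · exact mul_mem hyH hzH
    obtain ⟨U₁, hU₁K, hsU₁, hzU₁, hU₁H⟩ := hU s hs hsr
    obtain ⟨U₂, hU₂K, hyU₂, hzU₂, hU₂H⟩ := hU y₂ hy₂S hy₂r
    have hAB : HH D hs hsr ≠ HH D hy₂S hy₂r := by
      intro h
      have h1 : s ∈ HH D hy₂S hy₂r := by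
        rw [← h]
        exact ⟨0, Or.inr (by simp)⟩
      obtain ⟨i, h2 | h2⟩ := h1
      · exact hsr (h2 ▸ zpow_mem (mem_zpowers r) _)
      · have h3 : r ^ (1 + 2 * i) = 1 := by
          have h5 : s * r ^ (1 + 2 * i) = s * 1 := by
            rw [mul_one, zpow_add]
            nth_rewrite 2 [h2]
            rw [hy₂, mul_assoc]
          exact mul_left_cancel h5
        have h4 := orderOf_dvd_iff_zpow_eq_one.2 h3
        rw [h2M] at h4
        have h6 : (2 : ℤ) ∣ 1 + 2 * i := dvd_trans ⟨M, rfl⟩ h4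
        omega
    refine ⟨U₁, U₂, hU₁K, hU₂K, ?_, ?_⟩
    · rintro ⟨x, hx⟩
      have hNc : Nc U₁ := ⟨s, hsU₁, z, hzU₁, refl_sq D hs hsr, hz2, hne1 s hs hsr, hz1,
        (hnez s hs hsr).symm⟩
      exact no_conj S D hr hn hS4 hs hsr hy₂S hy₂r hAB _ U₁ U₂ hU₁H hU₂H hNc rfl x hx
    · intro V hV
      obtain ⟨g, hg⟩ := conj_into S V (hkp V hV)
      set V' := V.map (MulAut.conj g).toMonoidHom with hV'
      have hV'K : IsKleinFour V' := by
        apply klein_of_sq
        · rw [card_map_conj]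
          exact hV.card_four
        · rintro ⟨_, ⟨t, ht, rfl⟩⟩
          apply Subtype.ext
          have h1 : (⟨t, ht⟩ : V) ^ 2 = 1 := by
            have h2 : Monoid.exponent V = 2 := hV.exponent_two
            rw [← h2]
            exact Monoid.pow_exponent_eq_one _
          have h3 : t ^ 2 = 1 := congrArg Subtype.val h1
          show ((MulAut.conj g).toMonoidHom t) ^ 2 = 1
          rw [← map_pow, h3, map_one]
      have hnc : ∀ c : X, ¬ V' ≤ zpowers c := by
        intro c hle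
        haveI : IsCyclic (zpowers c) := inferInstance
        haveI : IsCyclic V' := Subgroup.isCyclic_of_le hle
        exact IsKleinFour.not_isCyclic (G := V') ‹_›
      obtain ⟨u, huV, hur⟩ := SetLike.not_le_iff_exists.1 (hnc r)
      have huS := hg huV
      have huu := refl_sq D huS hur
      obtain ⟨v, hvV, hvu⟩ := SetLike.not_le_iff_exists.1 (hnc u)
      have hv1 : v ≠ 1 := fun h => hvu (h ▸ one_mem _)
      have hvne : v ≠ u := fun h => hvu (h ▸ mem_zpowers u)
      have hsqV : ∀ t ∈ V', t * t = 1 := by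
        intro t ht
        have h1 : (⟨t, ht⟩ : V') ^ 2 = 1 := by
          have h2 : Monoid.exponent V' = 2 := hV'K.exponent_two
          rw [← h2]
          exact Monoid.pow_exponent_eq_one _
        have h3 : t ^ 2 = 1 := congrArg Subtype.val h1
        rwa [pow_two] at h3
      -- the unique involution of the rotations
      have huniq : ∀ c ∈ zpowers r, c * c = 1 → c ≠ 1 → c = z := by
        intro c hc h6 h7
        obtain ⟨j, hj⟩ := hc
        change r ^ j = c at hj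
        have h8 : r ^ (2 * j) = r ^ (2 * (0 : ℤ)) := by
          rw [two_mul, zpow_add, hj, h6]
          simp
        rcases two_cases hr hn 0 j h8 with h9 | h9
        · exfalso
          apply h7
          rw [← hj, h9, zpow_zero]
        · rw [← hj, h9, zpow_zero, one_mul]
      have hzV : z ∈ V' := by
        by_cases hvr : v ∈ zpowers r
        · rw [← huniq v hvr (hsqV v hvV) hv1]
          exact hvV
        · have h1 : u * v ∈ zpowers r := D.prod u huS v (hg hvV) hur hvr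
          have h2 : u * v ≠ 1 := by
            intro h
            apply hvne
            have h3 : u⁻¹ = v := inv_eq_of_mul_eq_one_right h
            rw [← h3]
            exact inv_eq_of_mul_eq_one_left huu
          have h3 : u * v ∈ V' := mul_mem huV hvV
          rw [← huniq _ h1 (hsqV _ h3) h2]
          exact h3
      have hz_u : z ≠ u := hnez u huS hur
      have hu1 : u ≠ 1 := hne1 u huS hur
      have hconj : ∀ (y : X) (hy : y ∈ (S : Subgroup X)) (hyr : y ∉ zpowers r) (U : Subgroup X),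
          IsKleinFour U → y ∈ U → z ∈ U → ∀ l : ℤ, u = y * r ^ (2 * l) →
          ∃ x : X, V.map (MulAut.conj x).toMonoidHom = U := by
        intro y hy hyr U hUK hyU hzU l hul
        have h1 : r ^ l * u * (r ^ l)⁻¹ = y := by
          rw [hul, conj_refl D hy hyr l (2 * l)]
          simp
        have h2 : r ^ l * z * (r ^ l)⁻¹ = z := by
          rw [hz, ← zpow_add, ← zpow_neg, ← zpow_add]
          congr 1
          ring
        refine ⟨r ^ l * g, ?_⟩
        rw [map_conj_mul]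
        refine Subgroup.eq_of_le_of_card_ge ?_ (by rw [card_map_conj, card_map_conj, hV.card_four, hUK.card_four])
        rintro _ ⟨t, ht, rfl⟩
        rcases klein_elems' hV'K hzV huV hz1 hu1 hz_u ht with e | e | e | e
        · rw [e, map_one]
          exact one_mem _
        · rw [e]
          show r ^ l * z * (r ^ l)⁻¹ ∈ U
          rw [h2]
          exact hzU
        · rw [e]
          show r ^ l * u * (r ^ l)⁻¹ ∈ U
          rw [h1]
          exact hyU
        · rw [e]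
          show r ^ l * (u * z) * (r ^ l)⁻¹ ∈ U
          have h3 : r ^ l * (u * z) * (r ^ l)⁻¹ = (r ^ l * u * (r ^ l)⁻¹) * (r ^ l * z * (r ^ l)⁻¹) := by group
          rw [h3, h1, h2]
          exact mul_mem hyU hzU
      obtain ⟨j, hj⟩ := exists_rep D huS hur hs hsr
      rcases Int.even_or_odd' j with ⟨l, rfl | rfl⟩
      · left
        exact hconj s hs hsr U₁ hU₁K hsU₁ hzU₁ l hj
      · right
        refine hconj y₂ hy₂S hy₂r U₂ hU₂K hyU₂ hzU₂ l ?_
        rw [hj, hy₂, mul_assoc, ← zpow_add]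
        congr 2
        ring

end CfsgLib.Char.DKC
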