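import Cfsg.Agent.Lib.Char.Brauer3

set_option autoImplicit false
set_option linter.all false

open Cfsg
open scoped ComplexConjugate

namespace CfsgLib.Char

/-- On a nilpotent group a "Hall projector" power map is multiplicative. -/
theorem pow_hom_of_nilpotent {E : Type*} [Group E] [Finite E] (hE : Group.IsNilpotent E) (B m r : ℕ)
    (hcop : Nat.Coprime m r) (hcard : Nat.card E ∣ m * r) (hB1 : B ≡ 1 [MOD m]) (hB0 : B ≡ 0 [MOD r])
    (x y : E) : (x * y) ^ B = x ^ B * y ^ B := by
  classical
  obtain ⟨Φ⟩ := ((Group.isNilpotent_of_finite_tfae (G := E)).out 0 4).mp hE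
  let ψ : (∀ p : (Nat.card E).primeFactors, ∀ P : Sylow p E, (↑P : Subgroup E)) →
      (∀ p : (Nat.card E).primeFactors, ∀ P : Sylow p E, (↑P : Subgroup E)) :=
    fun f p P => if (p : ℕ) ∣ m then f p P else 1
  have hψ : ∀ f, f ^ B = ψ f := by
    intro f
    funext p P
    have hpp : (p : ℕ).Prime := Nat.prime_of_mem_primeFactors p.2
    show (f p P) ^ B = _
    set z := f p P with hz
    obtain ⟨k, hk⟩ := P.isPGroup' z
    have h1 : orderOf z ∣ (p : ℕ) ^ k := orderOf_dvd_of_pow_eq_one hk
    have h2 : orderOf z ∣ m * r := by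
      refine dvd_trans ?_ hcard
      rw [← Subgroup.orderOf_coe]
      exact orderOf_dvd_natCard _
    by_cases hpm : (p : ℕ) ∣ m
    · have h3 : Nat.Coprime (orderOf z) r :=
        Nat.Coprime.coprime_dvd_left h1 (Nat.Coprime.pow_left k (Nat.Coprime.coprime_dvd_left hpm hcop))
      have h4 : orderOf z ∣ m := h3.dvd_of_dvd_mul_right h2
      have h5 := pow_eq_pow_iff_modEq.2 (hB1.of_dvd h4)
      show z ^ B = if (p : ℕ) ∣ m then z else 1
      rw [if_pos hpm]
      simpa using h5
    · have h3 : Nat.Coprime (orderOf z) m :=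
        Nat.Coprime.coprime_dvd_left h1 (Nat.Coprime.pow_left k ((Nat.Prime.coprime_iff_not_dvd hpp).2 hpm))
      have h4 : orderOf z ∣ r := h3.dvd_of_dvd_mul_left h2
      have h5 := pow_eq_pow_iff_modEq.2 (hB0.of_dvd h4)
      show z ^ B = if (p : ℕ) ∣ m then z else 1
      rw [if_neg hpm]
      simpa using h5
  have hψmul : ∀ a b, ψ (a * b) = ψ a * ψ b := by
    intro a b
    funext p P
    show (if (p : ℕ) ∣ m then (a p P) * (b p P) else 1) = (if (p : ℕ) ∣ m then a p P else 1) * (if (p : ℕ) ∣ m then b p P else 1)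
    split_ifs <;> simp
  obtain ⟨a, rfl⟩ := Φ.surjective x
  obtain ⟨b, rfl⟩ := Φ.surjective y
  rw [← map_mul, ← map_pow, ← map_pow, ← map_pow, ← map_mul, hψ, hψ, hψ, hψmul]

variable {G : Type*} [Group G] [Fintype G]

/-- S0877 -/
theorem hall_normal_complement (H : Subgroup G) (hHall : Nat.Coprime (Nat.card H) H.index)
    (hfus : ∀ x ∈ H, ∀ y ∈ H, IsConj x y → ∃ h ∈ H, h * x * h⁻¹ = y)
    (helem : ∀ (E : Subgroup G) (p : ℕ), p.Prime → IsElementary p E → Nat.card E ∣ Nat.card H →
      ∃ g : G, E.map (MulAut.conj g).toMonoidHom ≤ H) :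
    ∃ K : Subgroup G, K.Normal ∧ K ⊔ H = ⊤ ∧ K ⊓ H = ⊥ := by
  classical
  letI : Fintype H := Fintype.ofFinite _
  set m := Nat.card H with hm
  set r := H.index with hr
  have hmr : m * r = Nat.card G := H.card_mul_index
  have hmpos : 0 < m := Nat.card_pos
  let B : ℕ := (Nat.chineseRemainder hHall 1 0 : ℕ)
  have hB1 : B ≡ 1 [MOD m] := (Nat.chineseRemainder hHall 1 0).2.1
  have hB0 : B ≡ 0 [MOD r] := (Nat.chineseRemainder hHall 1 0).2.2
  have hpow1 : ∀ x : G, x ^ m = 1 → x ^ B = x := by
    intro x hx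
    have h1 : orderOf x ∣ m := orderOf_dvd_of_pow_eq_one hx
    have h3 := pow_eq_pow_iff_modEq.2 (hB1.of_dvd h1)
    simpa using h3
  have hpowm : ∀ g : G, (g ^ B) ^ m = 1 := by
    intro g
    obtain ⟨c, hc⟩ : r ∣ B := (Nat.modEq_zero_iff_dvd).1 hB0
    rw [← pow_mul, hc, show r * c * m = (m * r) * c by ring, pow_mul, hmr, pow_card_eq_one', one_pow]
  have hHm : ∀ y : H, (y : G) ^ m = 1 := by
    intro y
    have := pow_card_eq_one' (x := y)
    exact_mod_cast congrArg Subtype.val this
  -- conjugate into H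
  have hex : ∀ g : G, ∃ y : H, IsConj (y : G) (g ^ B) := by
    intro g
    obtain ⟨p, hpm, hp⟩ := Nat.exists_infinite_primes (m + 1)
    set z := g ^ B with hz
    let E : Subgroup G := Subgroup.zpowers z
    have hzm : orderOf z ∣ m := orderOf_dvd_of_pow_eq_one (hpowm g)
    have hcardE : Nat.card E ∣ m := by
      show Nat.card (Subgroup.zpowers z) ∣ m
      rw [Nat.card_zpowers]
      exact hzm
    have hel : IsElementary p E := by
      refine ⟨⟨z, Subgroup.mem_zpowers z⟩, ?_, ?_, 0, ?_⟩
      · rw [Subgroup.mem_center_iff]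
        intro y
        obtain ⟨k, hk⟩ := Subgroup.mem_zpowers_iff.1 y.2
        apply Subtype.ext
        show (y : G) * z = z * y
        rw [← hk]
        exact ((Commute.refl z).zpow_left k).eq
      · rw [Subgroup.orderOf_mk]
        have h1 : orderOf z ≤ m := Nat.le_of_dvd hmpos hzm
        have h2 : 0 < orderOf z := Nat.pos_of_dvd_of_pos hzm hmpos
        exact (Nat.coprime_of_lt_prime h2.ne' (by omega) hp).symm
      · have : Subgroup.zpowers (⟨z, Subgroup.mem_zpowers z⟩ : E) = ⊤ := by
          rw [Subgroup.eq_top_iff']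
          intro y
          obtain ⟨k, hk⟩ := Subgroup.mem_zpowers_iff.1 y.2
          refine Subgroup.mem_zpowers_iff.2 ⟨k, Subtype.ext ?_⟩
          simpa using hk
        rw [this, Subgroup.index_top, pow_zero]
    obtain ⟨u, hu⟩ := helem E p hp hel hcardE
    have h1 : u * z * u⁻¹ ∈ H := hu ⟨z, Subgroup.mem_zpowers z, rfl⟩
    exact ⟨⟨_, h1⟩, isConj_iff.2 ⟨u⁻¹, by simp [mul_assoc]⟩⟩
  choose c hc using hex
  have hfc : ∀ (f : H → ℂ), IsClassFunction H f → ∀ (g : G) (y : H), IsConj (y : G) (g ^ B) → f y = f (c g) := by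
    intro f hf g y hy
    obtain ⟨h, hh, hconj⟩ := hfus y y.2 (c g) (c g).2 (hy.trans (hc g).symm)
    have : c g = (⟨h, hh⟩ : H) * y * (⟨h, hh⟩ : H)⁻¹ := Subtype.ext (by simpa using hconj.symm)
    rw [this]
    exact (hf y ⟨h, hh⟩).symm
  have hclass : ∀ f : H → ℂ, IsClassFunction H f → IsClassFunction G (fun g => f (c g)) := by
    intro f hf g u
    show f (c (u * g * u⁻¹)) = f (c g)
    symm
    apply hfc f hf
    rw [conj_pow]
    exact (hc g).trans (isConj_iff.2 ⟨u, rfl⟩)
  have hres : ∀ f : H → ℂ, IsClassFunction H f → ∀ y : H, f (c y) = f y := by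
    intro f hf y
    symm
    apply hfc f hf
    rw [hpow1 y (hHm y)]
  -- generalized characters
  have hgen : ∀ β : H → ℂ, IsCharacter H β → IsGeneralizedCharacter G (fun g => β (c g)) := by
    intro β hβ
    apply brauer_characterization (hclass β hβ.isClassFunction)
    intro E p hp hE
    haveI : Fact p.Prime := ⟨hp⟩
    have hnil : Group.IsNilpotent E := isElementary_isNilpotent hE
    have hcardE : Nat.card E ∣ m * r := by rw [hmr]; exact Subgroup.card_subgroup_dvd_card E
    have hhom := pow_hom_of_nilpotent hnil B m r hHall hcardE hB1 hB0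
    let φ : E →* E := { toFun := fun e => e ^ B, map_one' := one_pow _, map_mul' := hhom }
    let E₀ : Subgroup E := φ.range
    let E₁ : Subgroup G := E₀.map E.subtype
    have hel : IsElementary p E₁ :=
      isElementary_of_equiv (E₀.equivMapOfInjective E.subtype E.subtype_injective) (isElementary_subgroup hE E₀)
    have hE₁m : ∀ z ∈ E₁, z ^ m = 1 := by
      rintro _ ⟨_, ⟨e, rfl⟩, rfl⟩
      show ((e : G) ^ B) ^ m = 1
      exact hpowm e
    have hcardE₁ : Nat.card E₁ ∣ m := by
      have h1 : Nat.card E₁ ∣ m * r := by rw [hmr]; exact Subgroup.card_subgroup_dvd_card E₁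
      have h2 : Nat.Coprime (Nat.card E₁) r := by
        by_contra hcon
        obtain ⟨q, hq, hq1, hq2⟩ := Nat.Prime.not_coprime_iff_dvd.1 hcon
        haveI : Fact q.Prime := ⟨hq⟩
        obtain ⟨x, hx⟩ := exists_prime_orderOf_dvd_card' q hq1
        have h3 : orderOf (x : G) = q := by rw [Subgroup.orderOf_coe, hx]
        have h4 : q ∣ m := by
          rw [← h3]
          exact orderOf_dvd_of_pow_eq_one (hE₁m x x.2)
        exact Nat.not_coprime_of_dvd_of_dvd hq.one_lt h4 hq2 hHall
      exact h2.dvd_of_dvd_mul_right h1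
    obtain ⟨u, hu⟩ := helem E₁ p hp hel hcardE₁
    have hmem : ∀ e : E, u * (e : G) ^ B * u⁻¹ ∈ H := by
      intro e
      apply hu
      exact ⟨(e : G) ^ B, ⟨φ e, ⟨e, rfl⟩, rfl⟩, rfl⟩
    let ψ : E →* H :=
      { toFun := fun e => ⟨u * (e : G) ^ B * u⁻¹, hmem e⟩
        map_one' := by
          apply Subtype.ext
          simp
        map_mul' := by
          intro a b
          apply Subtype.ext
          have h1 := hhom a b
          have h2 : ((a : G) * (b : G)) ^ B = (a : G) ^ B * (b : G) ^ B := by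
            exact_mod_cast congrArg Subtype.val h1
          show u * ((a : G) * (b : G)) ^ B * u⁻¹ = u * (a : G) ^ B * u⁻¹ * (u * (b : G) ^ B * u⁻¹)
          rw [h2]
          group }
    have h3 : (fun e : E => β (c e)) = β ∘ ψ := by
      funext e
      exact (hfc β hβ.isClassFunction e (ψ e) (isConj_iff.2 ⟨u⁻¹, by
        show u⁻¹ * (u * (e : G) ^ B * u⁻¹) * u⁻¹⁻¹ = _
        group⟩)).symm
    rw [h3]
    exact (IsCharacter.comp hβ ψ).isGeneralized
  -- counting
  let C : H → ℕ := fun h => Nat.card (Subgroup.centralizer ({h} : Set H))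
  let M : H → ℕ := fun h => (Finset.univ.filter (fun g : G => IsConj (h : G) (g ^ B))).card
  have hconjiff : ∀ (g : G) (h : H), IsConj (h : G) (g ^ B) ↔ IsConj (c g) h := by
    intro g h
    constructor
    · intro hh
      obtain ⟨u, hu, hconj⟩ := hfus (c g) (c g).2 h h.2 ((hc g).trans hh.symm)
      rw [isConj_iff]
      exact ⟨⟨u, hu⟩, Subtype.ext (by simpa using hconj)⟩
    · intro hh
      have h1 : IsConj (c g : G) (h : G) := by
        obtain ⟨u, hu⟩ := isConj_iff.1 hh
        exact isConj_iff.2 ⟨u, by rw [← hu]; simp⟩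
      exact h1.symm.trans (hc g)
  have hCconj : ∀ a b : H, IsConj a b → C a = C b := by
    intro a b hab
    have h1 := card_class_mul_card_centralizer a
    have h2 := card_class_mul_card_centralizer b
    have h3 : {x // IsConj a x} = {x // IsConj b x} := by
      congr
      funext x
      exact propext ⟨fun h => hab.symm.trans h, fun h => hab.trans h⟩
    rw [h3] at h1
    haveI : Nonempty {x // IsConj b x} := ⟨⟨b, IsConj.refl b⟩⟩
    exact Nat.eq_of_mul_eq_mul_left Nat.card_pos (h1.trans h2.symm)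
  have hMsum : ∀ h : H, (M h : ℂ) = ∑ g : G, if IsConj (c g) h then (1 : ℂ) else 0 := by
    intro h
    simp only [M, hconjiff]
    rw [Finset.card_filter]
    push_cast
    rfl
  have hD1 : ∀ f : H → ℂ, IsClassFunction H f →
      (∑ g : G, f (c g)) * (m : ℂ) = ∑ h : H, f h * (C h : ℂ) * (M h : ℂ) := by
    intro f hf
    simp only [hMsum, Finset.mul_sum]
    rw [Finset.sum_comm, Finset.sum_mul]
    apply Finset.sum_congr rfl
    intro g _
    have h1 : ∀ h : H, f h * (C h : ℂ) * (if IsConj (c g) h then (1 : ℂ) else 0) =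
        if IsConj (c g) h then f (c g) * (C (c g) : ℂ) else 0 := by
      intro h
      split_ifs with hh
      · obtain ⟨u, hu⟩ := isConj_iff.1 hh
        rw [mul_one, hCconj _ _ hh, ← hu, hf (c g) u]
      · simp
    simp only [h1]
    have h2 := card_class_mul_card_centralizer (c g)
    have h3 : (∑ h : H, if IsConj (c g) h then f (c g) * (C (c g) : ℂ) else 0) =
        (Nat.card {x // IsConj (c g) x} : ℂ) * (f (c g) * (C (c g) : ℂ)) := by
      rw [Finset.sum_ite, Finset.sum_const_zero, add_zero, Finset.sum_const, nsmul_eq_mul]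
      congr 2
      rw [Nat.card_eq_fintype_card, Fintype.card_subtype]
    rw [h3]
    have h4 : ((Nat.card {x // IsConj (c g) x} : ℂ)) * (C (c g) : ℂ) = (m : ℂ) := by
      exact_mod_cast h2
    rw [← h4]
    ring
  have hz : ∀ ψ : IrrCharacter H, ∃ z : ℤ, classInner (fun g => (ψ : H → ℂ) (c g)) (fun _ : G => (1 : ℂ)) = z :=
    fun ψ => (hgen ψ ψ.2.isCharacter).classInner_int isCharacter_one.isGeneralized
  choose z hz using hz
  have hGC : (Nat.card G : ℂ) ≠ 0 := card_ne_zero_C G
  have hsumz : ∀ ψ : IrrCharacter H, ∑ g : G, (ψ : H → ℂ) (c g) = (Nat.card G : ℂ) * z ψ := by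
    intro ψ
    have h1 := hz ψ
    rw [classInner_def] at h1
    simp only [map_one, mul_one] at h1
    rw [← h1]
    field_simp
  have hdvd : ∀ h : H, Nat.card G ∣ C h * M h := by
    intro h
    apply dvd_of_isIntegral_div Nat.card_pos
    have h1 : ((C h * M h : ℕ) : ℂ) / (Nat.card G : ℂ) = ∑ ψ : IrrCharacter H, conj ((ψ : H → ℂ) h) * z ψ := by
      have h2 : ∑ g : G, ∑ ψ : IrrCharacter H, (ψ : H → ℂ) (c g) * conj ((ψ : H → ℂ) h) = ((C h * M h : ℕ) : ℂ) := by
        simp only [column_orthogonality, hMsum, Finset.mul_sum]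
        push_cast
        simp only [hMsum, Finset.mul_sum]
        apply Finset.sum_congr rfl
        intro g _
        split_ifs <;> simp [C]
      rw [← h2, Finset.sum_comm, div_eq_iff hGC, Finset.sum_mul]
      apply Finset.sum_congr rfl
      intro ψ _
      rw [← Finset.sum_mul, hsumz]
      ring
    rw [h1]
    apply IsIntegral.sum
    intro ψ _
    apply IsIntegral.mul
    · exact (IsCharacter.conj ψ.2.isCharacter).isIntegral h
    · exact isIntegral_algebraMap (R := ℤ) (A := ℂ) (x := z ψ)
  have hMpos : ∀ h : H, 0 < M h := by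
    intro h
    apply Finset.card_pos.2
    refine ⟨h, ?_⟩
    simp only [Finset.mem_filter, Finset.mem_univ, true_and]
    rw [hpow1 h (hHm h)]
  have hCpos : ∀ h : H, 0 < C h := fun h => Nat.card_pos
  have hsum : ∑ h : H, C h * M h = ∑ _h : H, Nat.card G := by
    have h1 := hD1 (fun _ => 1) (fun _ _ => rfl)
    simp only [one_mul, Finset.sum_const, Finset.card_univ, nsmul_eq_mul, mul_one] at h1
    rw [Finset.sum_const, Finset.card_univ, smul_eq_mul]
    have h2 : (Fintype.card G : ℂ) * (m : ℂ) = ((∑ h : H, C h * M h : ℕ) : ℂ) := by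
      rw [h1]
      push_cast
      rfl
    have h3 : Fintype.card G * m = ∑ h : H, C h * M h := by exact_mod_cast h2
    rw [← h3, Nat.card_eq_fintype_card (α := G), mul_comm]
    congr 1
    exact Nat.card_eq_fintype_card
  have hCM : ∀ h : H, C h * M h = Nat.card G := by
    have hle : ∀ h ∈ (Finset.univ : Finset H), Nat.card G ≤ C h * M h :=
      fun h _ => Nat.le_of_dvd (Nat.mul_pos (hCpos h) (hMpos h)) (hdvd h)
    have := (Finset.sum_eq_sum_iff_of_le hle).1 hsum.symm
    exact fun h => (this h (Finset.mem_univ h)).symm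
  have hE : ∀ f : H → ℂ, IsClassFunction H f →
      (∑ g, f (c g)) * (m : ℂ) = (Nat.card G : ℂ) * ∑ h, f h := by
    intro f hf
    rw [hD1 f hf, Finset.mul_sum]
    apply Finset.sum_congr rfl
    intro h _
    have h1 : (C h : ℂ) * (M h : ℂ) = (Nat.card G : ℂ) := by exact_mod_cast hCM h
    rw [mul_assoc, h1]
    ring
  have hmC : (m : ℂ) ≠ 0 := by exact_mod_cast hmpos.ne'
  have hnorm : ∀ ψ : IrrCharacter H, classInner (fun g => (ψ : H → ℂ) (c g)) (fun g => (ψ : H → ℂ) (c g)) = 1 := by
    intro ψ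
    have h1 := hE (fun y => (ψ : H → ℂ) y * conj ((ψ : H → ℂ) y)) (fun y u => by
      show _ * _ = _ * _
      rw [ψ.2.isClassFunction y u])
    have h2 := classInner_irr_self ψ.2
    rw [classInner_def] at h2
    rw [classInner_def]
    have h3 : ∑ h : H, (ψ : H → ℂ) h * conj ((ψ : H → ℂ) h) = (m : ℂ) := by
      field_simp at h2
      exact h2
    rw [h3] at h1
    have h4 : ∑ g : G, (ψ : H → ℂ) (c g) * conj ((ψ : H → ℂ) (c g)) = (Nat.card G : ℂ) :=
      mul_right_cancel₀ hmC h1
    rw [h4]
    exact inv_mul_cancel₀ hGC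
  have hirr : ∀ ψ : IrrCharacter H, IsIrrCharacter G (fun g => (ψ : H → ℂ) (c g)) := by
    intro ψ
    rcases (hgen _ ψ.2.isCharacter).exists_of_norm_one (hnorm ψ) with h | h
    · exact h
    · exfalso
      obtain ⟨n, hn, hn1⟩ := h.map_one
      obtain ⟨k, hk, hk1⟩ := ψ.2.map_one
      have h3 : (ψ : H → ℂ) (c 1) = k := by
        have := hres _ ψ.2.isClassFunction 1
        simp only [OneMemClass.coe_one] at this
        rw [this, hk1]
      have h4 : -((k : ℂ)) = n := by
        rw [← h3]
        exact hn1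
      have h5 : ((k + n : ℕ) : ℂ) = 0 := by
        push_cast
        rw [← h4]
        ring
      have h6 : k + n = 0 := by exact_mod_cast h5
      omega
  choose d hdpos hd using (fun ψ : IrrCharacter H => ψ.2.map_one)
  let ρ : G → ℂ := ∑ ψ : IrrCharacter H, (d ψ) • (fun g => (ψ : H → ℂ) (c g))
  have hρ : IsCharacter G ρ := IsCharacter.sum _ _ (fun ψ _ => (hirr ψ).isCharacter.nsmul _)
  have hC1 : C 1 = m := by
    show Nat.card (Subgroup.centralizer ({1} : Set H)) = m
    have : Subgroup.centralizer ({1} : Set H) = ⊤ := by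
      ext x
      simp [Subgroup.mem_centralizer_iff]
    rw [this, Subgroup.card_top]
  have hρval : ∀ g, ρ g = if IsConj (c g) (1 : H) then (m : ℂ) else 0 := by
    intro g
    have h1 := column_orthogonality (c g) (1 : H)
    have h2 : ρ g = ∑ ψ : IrrCharacter H, (ψ : H → ℂ) (c g) * conj ((ψ : H → ℂ) 1) := by
      simp only [ρ, Finset.sum_apply]
      apply Finset.sum_congr rfl
      intro ψ _
      show (d ψ : ℕ) • ((ψ : H → ℂ) (c g)) = _
      rw [nsmul_eq_mul, hd ψ, Complex.conj_natCast, mul_comm]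
    rw [h2, h1]
    congr 1
    show ((C 1 : ℕ) : ℂ) = _
    rw [hC1]
  obtain ⟨n, R, hR⟩ := hρ
  have hc1 : IsConj (c 1) (1 : H) := (hconjiff 1 1).1 (by simp)
  have hρ1 : ρ 1 = (m : ℂ) := by rw [hρval, if_pos hc1]
  have hfin : (Module.finrank ℂ (Fin n → ℂ) : ℂ) = m := by
    rw [← hρ1, ← hR]
    simp
  let K : Subgroup G := MonoidHom.ker R
  have hK : ∀ g : G, g ∈ K ↔ g ^ B = 1 := by
    intro g
    have h1 : g ∈ K ↔ R g = LinearMap.id := by
      show g ∈ MonoidHom.ker R ↔ _
      rw [MonoidHom.mem_ker]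
      rfl
    rw [h1, ← character_eq_finrank_iff, hfin, hR, hρval]
    constructor
    · intro h
      have h2 : IsConj (c g) (1 : H) := by
        by_contra hne
        rw [if_neg hne] at h
        exact hmC h.symm
      have h3 : IsConj ((1 : H) : G) (g ^ B) := (hconjiff g 1).2 h2
      simpa using h3.symm
    · intro h
      rw [if_pos]
      exact (hconjiff g 1).1 (by rw [h]; simp)
  refine ⟨K, MonoidHom.normal_ker R, ?_, ?_⟩
  · have hcardK : Nat.card K = M 1 := by
      have : Nat.card K = Nat.card {x // x ∈ K} := rfl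
      rw [this]
      apply Nat.subtype_card
      intro g
      simp only [Finset.mem_filter, Finset.mem_univ, true_and, hK]
      constructor
      · intro h
        simpa using h.symm
      · intro h
        rw [h]
        simp
    have h1 : Nat.card H * Nat.card K = Nat.card G := by
      rw [hcardK]
      have := hCM 1
      rwa [hC1] at this
    have hdisj : Disjoint H K := by
      rw [Subgroup.disjoint_def]
      intro x hx hxK
      have h2 := (hK x).1 hxK
      rw [hpow1 x (hHm ⟨x, hx⟩)] at h2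
      exact h2
    have := (Subgroup.isComplement'_of_card_mul_and_disjoint h1 hdisj).sup_eq_top
    rwa [sup_comm] at this
  · rw [eq_bot_iff]
    rintro x ⟨hxK, hx⟩
    have h2 := (hK x).1 hxK
    rw [hpow1 x (hHm ⟨x, hx⟩)] at h2
    exact h2

end CfsgLib.Char
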