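import Cfsg.Agent.Lib.Char.ElemOrbit
import Cfsg.Agent.Lib.Char.HallBrauer
import Cfsg.Agent.Lib.Char.Extend2

set_option autoImplicit false
set_option linter.all false

open Cfsg Module
open scoped ComplexConjugate

namespace CfsgLib.Char

/-- Extending a homomorphism from a supplement of a normal subgroup. -/
theorem extend_hom_of_sup {Γ A : Type*} [Group Γ] [CommGroup A] (K L : Subgroup Γ) [hL : L.Normal]
    (hsup : K ⊔ L = ⊤) (τ : K →* A) (hτ : ∀ x : K, (x : Γ) ∈ L → τ x = 1) :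
    ∃ τ' : Γ →* A, (∀ x : K, τ' x = τ x) ∧ ∀ l ∈ L, τ' l = 1 := by
  let f : K →* Γ ⧸ L := (QuotientGroup.mk' L).comp K.subtype
  have hf : Function.Surjective f := by
    intro y
    obtain ⟨x, rfl⟩ := QuotientGroup.mk'_surjective L y
    have hx : x ∈ K ⊔ L := by rw [hsup]; trivial
    obtain ⟨a, ha, b, hb, rfl⟩ := Subgroup.mem_sup_of_normal_right.1 hx
    refine ⟨⟨a, ha⟩, ?_⟩
    show QuotientGroup.mk' L a = QuotientGroup.mk' L (a * b)
    have hb1 : QuotientGroup.mk' L b = 1 := (QuotientGroup.eq_one_iff b).2 hb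
    rw [map_mul, hb1, mul_one]
  have hker : f.ker ≤ τ.ker := by
    intro x hx
    rw [MonoidHom.mem_ker] at hx ⊢
    exact hτ x ((QuotientGroup.eq_one_iff _).1 hx)
  let τ₂ : Γ ⧸ L →* A := f.liftOfSurjective hf ⟨τ, hker⟩
  have h2 : ∀ x : K, τ₂ (f x) = τ x := fun x => f.liftOfRightInverse_comp_apply _ _ ⟨τ, hker⟩ x
  refine ⟨τ₂.comp (QuotientGroup.mk' L), fun x => h2 x, fun l hl => ?_⟩
  show τ₂ (QuotientGroup.mk' L l) = 1
  have hl1 : QuotientGroup.mk' L l = 1 := (QuotientGroup.eq_one_iff l).2 hl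
  rw [hl1, map_one]

section Good

variable {G : Type*} [Group G] [Fintype G] (N : Subgroup G) [hN : N.Normal]
  {W : Type*} [AddCommGroup W] [Module ℂ W] [FiniteDimensional ℂ W] (ρ : Representation ℂ N W) (M : ℕ)

/-- The multiplicity space is a module for the preimage of `E`: a good exponent. -/
theorem elementary_good (E : Subgroup G) [Fintype ↥(E ⊓ N)] (hsup : E ⊔ N = ⊤)
    (hdet : ∀ h : N, (LinearMap.det (ρ h)) ^ M = (((1 : G →* ℂˣ) (h : G) : ℂˣ) : ℂ) ^ M)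
    (l : ↥(E ⊓ N) →* ℂˣ) (hl : ∀ (g : E) (x : ↥(E ⊓ N)), l (conjInf E N g x) = l x)
    (μ : E →* ℂˣ) (hμ : ∀ x : ↥(E ⊓ N), μ ⟨x, x.2.1⟩ = l x) [hρ : ρ.IsIrreducible] (hM : M ≠ 0)
    (a : ℕ) (ha : (Nat.card ↥(E ⊓ N) : ℂ)⁻¹ * ∑ x : ↥(E ⊓ N), ρ.character ⟨x, x.2.2⟩ * conj ((l x : ℂˣ) : ℂ) = a) :
    (a : ℤ) ∈ goodExps N ρ (1 : G →* ℂˣ) M := by
  classical
  haveI := ((isIrreducible_iff ρ).mp hρ).1
  haveI := liftGroup_finite N ρ (1 : G →* ℂˣ) M hM
  let D := ↥(E ⊓ N)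
  let K : Subgroup (liftGroup N ρ (1 : G →* ℂˣ) M) := E.comap (liftFst N ρ (1 : G →* ℂˣ) M)
  have hlU : ∀ d : D, ((l d : ℂˣ) : ℂ) ≠ 0 := fun d => Units.ne_zero _
  -- the multiplicity space
  let Wφ : Submodule ℂ W :=
    { carrier := {v | ∀ d : D, ρ ⟨d, d.2.2⟩ v = ((l d : ℂˣ) : ℂ) • v}
      add_mem' := by
        intro u v hu hv d
        rw [map_add, hu d, hv d, smul_add]
      zero_mem' := by
        intro d
        simp
      smul_mem' := by
        intro c v hv d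
        rw [map_smul, hv d, smul_comm] }
  have hWφ : ∀ v, v ∈ Wφ ↔ ∀ d : D, ρ ⟨d, d.2.2⟩ v = ((l d : ℂˣ) : ℂ) • v := fun v => Iff.rfl
  have hpres : ∀ (x : K) (v : W), v ∈ Wφ → ((x.1.1.2 : (Module.End ℂ W)ˣ) : Module.End ℂ W) v ∈ Wφ := by
    intro x v hv d
    let g : E := ⟨x.1.1.1, x.2⟩
    let d' : D := conjInf E N g⁻¹ d
    have h1 := lift_intertwines N ρ (1 : G →* ℂˣ) M x.1 ⟨d', d'.2.2⟩
    have h2 : conjN N x.1.1.1 ⟨d', d'.2.2⟩ = ⟨d, d.2.2⟩ := by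
      apply Subtype.ext
      show (g : G) * ((g⁻¹ : E) * (d : G) * ((g⁻¹ : E) : G)⁻¹) * (g : G)⁻¹ = d
      simp only [InvMemClass.coe_inv]
      group
    rw [h2] at h1
    have h3 := LinearMap.congr_fun h1 v
    simp only [Module.End.mul_apply] at h3
    rw [← h3, hv d', map_smul]
    have h4 : l d' = l d := hl g⁻¹ d
    rw [h4]
  let R : Representation ℂ K Wφ :=
    { toFun := fun x => ((x.1.1.2 : (Module.End ℂ W)ˣ) : Module.End ℂ W).restrict (hpres x)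
      map_one' := by
        ext v
        rfl
      map_mul' := by
        intro x y
        ext v
        rfl }
  have hR : ∀ (x : K) (v : Wφ), ((R x v : Wφ) : W) = ((x.1.1.2 : (Module.End ℂ W)ˣ) : Module.End ℂ W) v := fun _ _ => rfl
  -- the dimension of the multiplicity space
  have hNC : (Nat.card D : ℂ) ≠ 0 := card_subgroup_ne_zero (E ⊓ N)
  have hmapinv : ∀ d : D, conj ((l d : ℂˣ) : ℂ) = ((l d⁻¹ : ℂˣ) : ℂ) := by
    intro d
    have h1 := (isIrr_of_hom l).isCharacter.map_inv d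
    simpa using h1.symm
  let π : Module.End ℂ W := (Nat.card D : ℂ)⁻¹ • ∑ d : D, conj ((l d : ℂˣ) : ℂ) • ρ ⟨d, d.2.2⟩
  have hπapply : ∀ v, π v = (Nat.card D : ℂ)⁻¹ • ∑ d : D, conj ((l d : ℂˣ) : ℂ) • ρ ⟨d, d.2.2⟩ v := by
    intro v
    simp [π, LinearMap.sum_apply]
  have hρmul : ∀ (d d' : D) (v : W), ρ ⟨d, d.2.2⟩ (ρ ⟨d', d'.2.2⟩ v) = ρ ⟨(d * d' : D), (d * d').2.2⟩ v := by
    intro d d' v
    have h1 : (⟨(d * d' : D), (d * d').2.2⟩ : N) = ⟨d, d.2.2⟩ * ⟨d', d'.2.2⟩ := rfl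
    rw [h1, map_mul]
    rfl
  have hproj : LinearMap.IsProj Wφ π := by
    constructor
    · intro v d₀
      rw [hπapply, map_smul, map_sum]
      have h1 : ∀ d : D, ρ ⟨d₀, d₀.2.2⟩ (conj ((l d : ℂˣ) : ℂ) • ρ ⟨d, d.2.2⟩ v) =
          ((l d₀ : ℂˣ) : ℂ) • (conj ((l (d₀ * d) : ℂˣ) : ℂ) • ρ ⟨(d₀ * d : D), (d₀ * d).2.2⟩ v) := by
        intro d
        rw [map_smul, hρmul, smul_smul]
        congr 1
        rw [hmapinv, hmapinv, mul_inv_rev, map_mul, Units.val_mul, mul_left_comm, ← Units.val_mul (l d₀), ← map_mul,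
          mul_inv_cancel, map_one, Units.val_one, mul_one]
      simp only [h1]
      rw [← Finset.smul_sum, smul_comm]
      congr 2
      exact Equiv.sum_comp (Equiv.mulLeft d₀) (fun d : D => conj ((l d : ℂˣ) : ℂ) • ρ ⟨d, d.2.2⟩ v)
    · intro v hv
      rw [hπapply]
      have h1 : ∀ d : D, conj ((l d : ℂˣ) : ℂ) • ρ ⟨d, d.2.2⟩ v = v := by
        intro d
        rw [hv d, smul_smul, hmapinv, ← Units.val_mul, ← map_mul, inv_mul_cancel, map_one, Units.val_one, one_smul]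
      simp only [h1]
      rw [Finset.sum_const, Finset.card_univ, ← Nat.card_eq_fintype_card, ← Nat.cast_smul_eq_nsmul ℂ, smul_smul,
        inv_mul_cancel₀ hNC, one_smul]
  have hfin : finrank ℂ Wφ = a := by
    have h1 := hproj.trace
    have h2 : LinearMap.trace ℂ W π = (a : ℂ) := by
      rw [← ha]
      simp only [π, map_smul, map_sum, smul_eq_mul]
      congr 1
      apply Finset.sum_congr rfl
      intro d _
      rw [mul_comm]
      rfl
    rw [h2] at h1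
    exact_mod_cast h1.symm
  -- the homomorphism on `K`
  let pr : K →* E :=
    { toFun := fun x => ⟨x.1.1.1, x.2⟩
      map_one' := rfl
      map_mul' := fun _ _ => rfl }
  let τ₀ : K →* ℂˣ := detHom R * ((μ.comp pr)⁻¹) ^ a
  have hτ₀ : ∀ x : K, τ₀ x = detHom R x * ((μ (pr x))⁻¹) ^ a := fun x => rfl
  have hdetc : ∀ (x : K) (c : ℂˣ), (∀ v ∈ Wφ, ((x.1.1.2 : (Module.End ℂ W)ˣ) : Module.End ℂ W) v = (c : ℂ) • v) →
      detHom R x = c ^ a := by
    intro x c hc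
    have h1 : R x = (c : ℂ) • LinearMap.id := by
      ext v
      show ((R x v : Wφ) : W) = (c : ℂ) • (v : W)
      rw [hR]
      exact hc v v.2
    apply Units.ext
    rw [detHom_apply, h1, LinearMap.det_smul, LinearMap.det_id, mul_one, hfin]
    simp
  have hτ₀N : ∀ x : K, (x : liftGroup N ρ (1 : G →* ℂˣ) M) ∈ liftN N ρ (1 : G →* ℂˣ) M → τ₀ x = 1 := by
    rintro x ⟨h, h1, h2⟩
    have hE : (h : G) ∈ E := by
      have : x.1.1.1 ∈ E := x.2
      rwa [h1] at this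
    let d : D := ⟨h, hE, h.2⟩
    have h3 : pr x = ⟨d, d.2.1⟩ := Subtype.ext h1
    have h4 : detHom R x = (l d) ^ a := by
      apply hdetc x (l d)
      intro v hv
      rw [h2]
      exact hv d
    rw [hτ₀, h3, hμ, h4, ← mul_pow, mul_inv_cancel, one_pow]
  have hsupK : K ⊔ liftN N ρ (1 : G →* ℂˣ) M = ⊤ := by
    rw [eq_top_iff]
    intro x _
    have hg : x.1.1 ∈ E ⊔ N := by rw [hsup]; trivial
    obtain ⟨e, he, n, hn, hen⟩ := Subgroup.mem_sup_of_normal_right.1 hg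
    let y : liftGroup N ρ (1 : G →* ℂˣ) M := ⟨(n, ρ.asGroupHom ⟨n, hn⟩), by
      refine ⟨fun h => ?_, hdet ⟨n, hn⟩⟩
      show ρ ⟨n, hn⟩ * ρ h = ρ (conjN N n h) * ρ ⟨n, hn⟩
      rw [← map_mul, ← map_mul]
      congr 1
      apply Subtype.ext
      show n * (h : G) = n * h * n⁻¹ * n
      group⟩
    have hy : y ∈ liftN N ρ (1 : G →* ℂˣ) M := ⟨⟨n, hn⟩, rfl, rfl⟩
    have hxy : x * y⁻¹ ∈ K := by
      show (x * y⁻¹).1.1 ∈ E
      show x.1.1 * n⁻¹ ∈ E
      rw [← hen]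
      simpa using he
    have := Subgroup.mul_mem_sup hxy hy
    rwa [inv_mul_cancel_right] at this
  obtain ⟨τ', hτ'1, hτ'2⟩ := extend_hom_of_sup K (liftN N ρ (1 : G →* ℂˣ) M) hsupK τ₀ hτ₀N
  refine ⟨τ', ⟨hτ'2, ?_⟩⟩
  intro x hx c hc
  have hxK : x ∈ K := by
    show x.1.1 ∈ E
    rw [hx]
    exact E.one_mem
  have h5 := hτ'1 ⟨x, hxK⟩
  have h6 : pr ⟨x, hxK⟩ = 1 := Subtype.ext hx
  have h7 : detHom R ⟨x, hxK⟩ = c ^ a := by
    apply hdetc _ c
    intro v _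
    show ((x.1.2 : (Module.End ℂ W)ˣ) : Module.End ℂ W) v = _
    rw [hc, scalU_apply]
  rw [zpow_natCast]
  show τ' (⟨x, hxK⟩ : K) = _
  rw [h5, hτ₀, h6, h7]
  simp

end Good

/-- A linear character of a subgroup of a finite abelian group extends. -/
theorem exists_lin_extension {A : Type*} [Group A] [Fintype A] (hA : ∀ a b : A, a * b = b * a) (S : Subgroup A)
    (lam : S → ℂ) (hlam : IsCharacter S lam) (h1 : lam 1 = 1) :
    ∃ ν : A → ℂ, IsCharacter A ν ∧ ν 1 = 1 ∧ ∀ s : S, ν s = lam s := by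
  classical
  letI : Fintype S := Fintype.ofFinite _
  have hirr : IsIrrCharacter S lam := isIrr_of_degree_one hlam h1
  have hind := isCharacter_indFun S hlam
  have hne : indFun S lam 1 ≠ 0 := by
    rw [indFun_one, h1, mul_one]
    exact_mod_cast Subgroup.index_ne_zero_of_finite
  obtain ⟨ν, hν, hc⟩ := exists_constituent hind hne
  have hν1 : ν 1 = 1 := isIrr_degree_one_of_comm hA hν
  have h2 : classInner (fun s : S => ν s) lam ≠ 0 := by
    rw [← frobenius' S lam hν.isClassFunction]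
    intro h0
    apply hc
    rw [← conj_classInner, h0, map_zero]
  have h3 : IsIrrCharacter S (fun s : S => ν s) :=
    isIrr_of_degree_one (hν.isCharacter.restrict S) hν1
  have h4 : (fun s : S => ν s) = lam := by
    by_contra hne'
    apply h2
    rw [classInner_irr h3 hirr, if_neg hne']
  exact ⟨ν, hν.isCharacter, hν1, fun s => congrFun h4 s⟩

section Structure

variable {G : Type*} [Group G] [Fintype G]

/-- A linear extension to an elementary subgroup. -/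
theorem elementary_lin_extension (p : ℕ) [hp : Fact p.Prime] (N : Subgroup G) [hN : N.Normal] (k : ℕ) (hk : N.index = p ^ k)
    (hcent : ∀ P : Sylow p G, ∀ x ∈ (P : Subgroup G) ⊓ N, ∀ y ∈ (P : Subgroup G), x * y = y * x)
    (hlin : ∀ P : Sylow p G, ∀ lam : ↥((P : Subgroup G) ⊓ N) → ℂ, IsCharacter _ lam → lam 1 = 1 →
      ∃ μ : ↥(P : Subgroup G) → ℂ, IsCharacter _ μ ∧ μ 1 = 1 ∧ ∀ x : ↥((P : Subgroup G) ⊓ N), μ ⟨x, x.2.1⟩ = lam x)
    (E : Subgroup G) (hE : IsElementary p E) (φ : ↥(E ⊓ N) → ℂ) (hφ : IsIrrCharacter _ φ) :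
    ∃ (l : ↥(E ⊓ N) →* ℂˣ) (μ : E →* ℂˣ), (∀ x, ((l x : ℂˣ) : ℂ) = φ x) ∧ ∀ x : ↥(E ⊓ N), μ ⟨x, x.2.1⟩ = l x := by
  classical
  have hnil : Group.IsNilpotent E := isElementary_isNilpotent hE
  obtain ⟨x, hx, hc, j, hj⟩ := hE
  set n₁ := orderOf x with hn₁
  have hcenter : ∀ z ∈ Subgroup.zpowers x, ∀ y : E, z * y = y * z := by
    intro z hz y
    have h1 : z ∈ Subgroup.center E := (Subgroup.zpowers_le.2 hx) hz
    exact ((Subgroup.mem_center_iff.1 h1) y).symm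
  haveI hzn : (Subgroup.zpowers x).Normal := by
    constructor
    intro n hn g
    rw [← hcenter n hn g, mul_assoc, mul_inv_cancel, mul_one]
    exact hn
  have hcardE : Nat.card E = n₁ * p ^ j := by
    have h1 := (Subgroup.zpowers x).card_mul_index
    rw [Nat.card_zpowers, hj] at h1
    exact h1.symm
  have hcop : Nat.Coprime n₁ (p ^ j) := hc.pow_right j
  let B₁ : ℕ := (Nat.chineseRemainder hcop 1 0 : ℕ)
  let B₂ : ℕ := (Nat.chineseRemainder hcop 0 1 : ℕ)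
  have hB₁1 : B₁ ≡ 1 [MOD n₁] := (Nat.chineseRemainder hcop 1 0).2.1
  have hB₁0 : B₁ ≡ 0 [MOD p ^ j] := (Nat.chineseRemainder hcop 1 0).2.2
  have hB₂0 : B₂ ≡ 0 [MOD n₁] := (Nat.chineseRemainder hcop 0 1).2.1
  have hB₂1 : B₂ ≡ 1 [MOD p ^ j] := (Nat.chineseRemainder hcop 0 1).2.2
  have h₁ : ∀ a b : E, (a * b) ^ B₁ = a ^ B₁ * b ^ B₁ :=
    pow_hom_of_nilpotent hnil B₁ n₁ (p ^ j) hcop (by rw [hcardE]) hB₁1 hB₁0
  have h₂ : ∀ a b : E, (a * b) ^ B₂ = a ^ B₂ * b ^ B₂ :=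
    pow_hom_of_nilpotent hnil B₂ (p ^ j) n₁ hcop.symm (by rw [hcardE, mul_comm]) hB₂1 hB₂0
  have hsplit : ∀ e : E, e ^ B₁ * e ^ B₂ = e := by
    intro e
    rw [← pow_add]
    have h1 : B₁ + B₂ ≡ 1 [MOD n₁ * p ^ j] := by
      rw [← Nat.modEq_and_modEq_iff_modEq_mul hcop]
      constructor
      · simpa using hB₁1.add hB₂0
      · simpa using hB₁0.add hB₂1
    have h2 : orderOf e ∣ n₁ * p ^ j := by
      rw [← hcardE]
      exact orderOf_dvd_natCard e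
    have h3 := pow_eq_pow_iff_modEq.2 (h1.of_dvd h2)
    simpa using h3
  have hpowmem : ∀ e : E, e ^ (p ^ j) ∈ Subgroup.zpowers x := by
    intro e
    have := (Subgroup.zpowers x).pow_index_mem e
    rwa [hj] at this
  have hC : ∀ e : E, e ^ B₁ ∈ Subgroup.zpowers x := by
    intro e
    obtain ⟨c, hc'⟩ : p ^ j ∣ B₁ := (Nat.modEq_zero_iff_dvd).1 hB₁0
    rw [hc', pow_mul]
    exact Subgroup.pow_mem _ (hpowmem e) c
  have hQ : ∀ e : E, (e ^ B₂) ^ (p ^ j) = 1 := by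
    intro e
    rw [← pow_mul, mul_comm, pow_mul]
    have h1 : orderOf (e ^ (p ^ j)) ∣ n₁ := orderOf_dvd_of_mem_zpowers (hpowmem e)
    have h2 : n₁ ∣ B₂ := (Nat.modEq_zero_iff_dvd).1 hB₂0
    exact orderOf_dvd_iff_pow_eq_one.1 (h1.trans h2)
  have hCN : ∀ z ∈ Subgroup.zpowers x, (z : G) ∈ N := by
    intro z hz
    have hcop2 : Nat.Coprime n₁ (p ^ k) := hc.pow_right k
    let T : ℕ := (Nat.chineseRemainder hcop2 1 0 : ℕ)
    have hT1 : T ≡ 1 [MOD n₁] := (Nat.chineseRemainder hcop2 1 0).2.1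
    have hT0 : T ≡ 0 [MOD p ^ k] := (Nat.chineseRemainder hcop2 1 0).2.2
    have h1 : orderOf z ∣ n₁ := orderOf_dvd_of_mem_zpowers hz
    have h2 : z ^ T = z := by
      have := pow_eq_pow_iff_modEq.2 (hT1.of_dvd h1)
      simpa using this
    obtain ⟨t, ht⟩ : p ^ k ∣ T := (Nat.modEq_zero_iff_dvd).1 hT0
    have h3 : (z : G) ^ T = z := by exact_mod_cast congrArg Subtype.val h2
    rw [← h3, ht, pow_mul]
    apply Subgroup.pow_mem
    have := N.pow_index_mem (z : G)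
    rwa [hk] at this
  -- the Sylow subgroup
  let q₂ : E →* E := { toFun := fun e => e ^ B₂, map_one' := one_pow _, map_mul' := h₂ }
  let Q : Subgroup G := (q₂.range).map E.subtype
  have hQp : IsPGroup p Q := by
    rintro ⟨y, _, ⟨e, rfl⟩, rfl⟩
    refine ⟨j, ?_⟩
    apply Subtype.ext
    have := congrArg Subtype.val (hQ e)
    simpa [q₂] using this
  obtain ⟨P', hP'⟩ := hQp.exists_le_sylow
  have hQP' : ∀ e : E, ((e ^ B₂ : E) : G) ∈ (P' : Subgroup G) := by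
    intro e
    exact hP' ⟨e ^ B₂, ⟨e, rfl⟩, rfl⟩
  have hpowN : ∀ (e : E) (hen : (e : G) ∈ N) (t : ℕ), ((e ^ t : E) : G) ∈ N := by
    intro e hen t
    push_cast
    exact N.pow_mem hen t
  -- commutativity
  have hcomm : ∀ a b : ↥(E ⊓ N), a * b = b * a := by
    intro a b
    let a' : E := ⟨a, a.2.1⟩
    let b' : E := ⟨b, b.2.1⟩
    have h1 : a' * b' = b' * a' := by
      rw [← hsplit a', ← hsplit b']
      have ha₂ : ((a' ^ B₂ : E) : G) ∈ (P' : Subgroup G) ⊓ N := ⟨hQP' a', hpowN a' a.2.2 B₂⟩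
      have hb₂ : ((b' ^ B₂ : E) : G) ∈ (P' : Subgroup G) := hQP' b'
      have h2 : Commute (a' ^ B₂) (b' ^ B₂) := Subtype.ext (hcent P' _ ha₂ _ hb₂)
      have h3 : Commute (a' ^ B₁) (b' ^ B₁) := hcenter _ (hC a') _
      have h4 : Commute (a' ^ B₁) (b' ^ B₂) := hcenter _ (hC a') _
      have h5 : Commute (a' ^ B₂) (b' ^ B₁) := (hcenter _ (hC b') _).symm
      have h6 : Commute (a' ^ B₁ * a' ^ B₂) (b' ^ B₁ * b' ^ B₂) :=
        Commute.mul_left (Commute.mul_right h3 h4) (Commute.mul_right h5 h2)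
      exact h6
    apply Subtype.ext
    have h7 := congrArg Subtype.val h1
    exact h7
  have hφ1 : φ 1 = 1 := isIrr_degree_one_of_comm hcomm hφ
  obtain ⟨l, hl⟩ := exists_hom_of_degree_one hφ.isCharacter hφ1
  -- extend to `P' ⊓ N`
  let A : Subgroup G := (P' : Subgroup G) ⊓ N
  letI : Fintype A := Fintype.ofFinite _
  have hAcomm : ∀ a b : A, a * b = b * a := fun a b => Subtype.ext (hcent P' a a.2 b b.2.1)
  let S : Subgroup A := (E ⊓ N).subgroupOf A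
  let inc : S →* ↥(E ⊓ N) :=
    { toFun := fun s => ⟨s.1.1, s.2⟩
      map_one' := rfl
      map_mul' := fun _ _ => rfl }
  let lam₀ : S → ℂ := fun s => ((l (inc s) : ℂˣ) : ℂ)
  have hlam₀ : IsCharacter S lam₀ := IsCharacter.comp (isIrr_of_hom l).isCharacter inc
  obtain ⟨ν, hν, hν1, hνS⟩ := exists_lin_extension hAcomm S lam₀ hlam₀ (by simp [lam₀])
  obtain ⟨mu', hmu', hmu'1, hmu'A⟩ := hlin P' ν hν hν1
  obtain ⟨mu, hmu⟩ := exists_hom_of_degree_one hmu' hmu'1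
  let π₁ : E →* ↥(E ⊓ N) :=
    { toFun := fun e => ⟨(e ^ B₁ : E), (e ^ B₁).2, hCN _ (hC e)⟩
      map_one' := by
        apply Subtype.ext
        simp
      map_mul' := by
        intro a b
        apply Subtype.ext
        show ((a * b) ^ B₁ : E).1 = (a ^ B₁ * b ^ B₁ : E).1
        rw [h₁] }
  let π₂ : E →* ↥(P' : Subgroup G) :=
    { toFun := fun e => ⟨(e ^ B₂ : E), hQP' e⟩
      map_one' := by
        apply Subtype.ext
        simp
      map_mul' := by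
        intro a b
        apply Subtype.ext
        show ((a * b) ^ B₂ : E).1 = (a ^ B₂ * b ^ B₂ : E).1
        rw [h₂] }
  refine ⟨l, (l.comp π₁) * (mu.comp π₂), fun y => (congrFun hl y).symm, fun d => ?_⟩
  show l (π₁ ⟨d, d.2.1⟩) * mu (π₂ ⟨d, d.2.1⟩) = l d
  let e : E := ⟨d, d.2.1⟩
  have hyA : ((e ^ B₂ : E) : G) ∈ A := ⟨hQP' e, hpowN e d.2.2 B₂⟩
  have hyS : (⟨((e ^ B₂ : E) : G), hyA⟩ : A) ∈ S := by
    show ((e ^ B₂ : E) : G) ∈ E ⊓ N
    exact ⟨(e ^ B₂).2, d.2.2 |> fun h => hpowN e h B₂⟩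
  have hmuy : mu (π₂ e) = l (inc ⟨⟨((e ^ B₂ : E) : G), hyA⟩, hyS⟩) := by
    apply Units.ext
    have h1 := congrFun hmu (π₂ e)
    have h2 := hmu'A ⟨((e ^ B₂ : E) : G), hyA⟩
    have h3 := hνS ⟨⟨((e ^ B₂ : E) : G), hyA⟩, hyS⟩
    rw [← h1]
    exact h2.trans h3
  rw [hmuy, ← map_mul]
  congr 1
  apply Subtype.ext
  have h7 := congrArg Subtype.val (hsplit e)
  exact h7

end Structure

section Main

variable {G : Type*} [Group G] [Fintype G]

/-- S0897 -/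
theorem extends_of_sylow_central (p : ℕ) [hp : Fact p.Prime] (N : Subgroup G) [hN : N.Normal]
    (hind : ∃ k : ℕ, N.index = p ^ k) (P : Sylow p G)
    (hcent : ∀ x ∈ (P : Subgroup G) ⊓ N, ∀ y ∈ (P : Subgroup G), x * y = y * x)
    (hlin : ∀ lam : ↥((P : Subgroup G) ⊓ N) → ℂ, IsCharacter ↥((P : Subgroup G) ⊓ N) lam → lam 1 = 1 →
      ∃ μ : ↥(P : Subgroup G) → ℂ, IsCharacter ↥(P : Subgroup G) μ ∧ μ 1 = 1 ∧
        ∀ x : ↥((P : Subgroup G) ⊓ N), μ ⟨(x : G), x.2.1⟩ = lam x)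
    (ϑ : N → ℂ) (hϑ : IsIrrCharacter N ϑ)
    (hinv : ∀ (g : G) (n : N), ϑ ⟨g * n * g⁻¹, hN.conj_mem (n : G) n.2 g⟩ = ϑ n) :
    ∃ χ : G → ℂ, IsIrrCharacter G χ ∧ ∀ n : N, χ n = ϑ n := by
  classical
  obtain ⟨k, hk⟩ := id hind
  -- transfer to all Sylow subgroups
  have hmem : ∀ P' : Sylow p G, ∃ g : G, ∀ y, y ∈ (P' : Subgroup G) ↔ g⁻¹ * y * g ∈ (P : Subgroup G) := by
    intro P'
    obtain ⟨g, hg⟩ := MulAction.exists_smul_eq G P P'
    refine ⟨g, fun y => ?_⟩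
    rw [← hg, Sylow.coe_subgroup_smul, Subgroup.mem_pointwise_smul_iff_inv_smul_mem]
    simp [MulAut.smul_def]
  have hNconj : ∀ (g y : G), y ∈ N → g⁻¹ * y * g ∈ N := by
    intro g y hy
    simpa using hN.conj_mem y hy g⁻¹
  have hcent' : ∀ P' : Sylow p G, ∀ x ∈ (P' : Subgroup G) ⊓ N, ∀ y ∈ (P' : Subgroup G), x * y = y * x := by
    intro P' x hx y hy
    obtain ⟨g, hg⟩ := hmem P'
    have h1 := hcent (g⁻¹ * x * g) ⟨(hg x).1 hx.1, hNconj g x hx.2⟩ (g⁻¹ * y * g) ((hg y).1 hy)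
    have h2 : g⁻¹ * (x * y) * g = g⁻¹ * (y * x) * g := by
      calc g⁻¹ * (x * y) * g = (g⁻¹ * x * g) * (g⁻¹ * y * g) := by group
        _ = (g⁻¹ * y * g) * (g⁻¹ * x * g) := h1
        _ = g⁻¹ * (y * x) * g := by group
    exact mul_left_cancel (mul_right_cancel h2)
  have hlin' : ∀ P' : Sylow p G, ∀ lam : ↥((P' : Subgroup G) ⊓ N) → ℂ, IsCharacter _ lam → lam 1 = 1 →
      ∃ μ : ↥(P' : Subgroup G) → ℂ, IsCharacter _ μ ∧ μ 1 = 1 ∧
        ∀ x : ↥((P' : Subgroup G) ⊓ N), μ ⟨x, x.2.1⟩ = lam x := by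
    intro P' lam hlam hlam1
    obtain ⟨g, hg⟩ := hmem P'
    have hgmem : ∀ a ∈ (P : Subgroup G), g * a * g⁻¹ ∈ (P' : Subgroup G) := by
      intro a ha
      rw [hg]
      simpa [mul_assoc] using ha
    let c : ↥((P : Subgroup G) ⊓ N) →* ↥((P' : Subgroup G) ⊓ N) :=
      { toFun := fun a => ⟨g * a * g⁻¹, hgmem a a.2.1, hN.conj_mem a a.2.2 g⟩
        map_one' := by
          apply Subtype.ext
          simp
        map_mul' := by
          intro a b
          apply Subtype.ext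
          show g * ((a : G) * b) * g⁻¹ = (g * a * g⁻¹) * (g * b * g⁻¹)
          group }
    let c' : ↥(P' : Subgroup G) →* ↥(P : Subgroup G) :=
      { toFun := fun b => ⟨g⁻¹ * b * g, (hg b).1 b.2⟩
        map_one' := by
          apply Subtype.ext
          simp
        map_mul' := by
          intro a b
          apply Subtype.ext
          show g⁻¹ * ((a : G) * b) * g = (g⁻¹ * a * g) * (g⁻¹ * b * g)
          group }
    obtain ⟨μ, hμ, hμ1, hμres⟩ := hlin (lam ∘ c) (IsCharacter.comp hlam c) (by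
      show lam (c 1) = 1
      rw [map_one, hlam1])
    refine ⟨μ ∘ c', IsCharacter.comp hμ c', ?_, ?_⟩
    · show μ (c' 1) = 1
      rw [map_one, hμ1]
    · intro x
      have h1 := hμres ⟨g⁻¹ * x * g, (hg x).1 x.2.1, hNconj g x x.2.2⟩
      have h2 : c ⟨g⁻¹ * x * g, (hg x).1 x.2.1, hNconj g x x.2.2⟩ = x := by
        apply Subtype.ext
        show g * (g⁻¹ * (x : G) * g) * g⁻¹ = x
        group
      have h3 : lam x = lam (c ⟨g⁻¹ * x * g, (hg x).1 x.2.1, hNconj g x x.2.2⟩) := by rw [h2]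
      show μ (c' ⟨x, x.2.1⟩) = lam x
      rw [h3]
      exact h1
  obtain ⟨E, φ, hE, hsup, hφ, hφinv, n, hpn, hval⟩ :=
    elementary_subgroup_invariant p hp.out N hind ϑ hϑ hinv
  letI : Fintype ↥(E ⊓ N) := Fintype.ofFinite _
  obtain ⟨l, μ, hl, hμ⟩ := elementary_lin_extension p N k hk hcent' hlin' E hE φ hφ
  obtain ⟨m, ρ, hρ, rfl⟩ := hϑ
  haveI := ((isIrreducible_iff ρ).mp hρ).1
  have hint := fun g => exists_intertwiner N ρ g (hinv g)
  have hM : Nat.card N ≠ 0 := Nat.card_pos.ne'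
  have hU := liftFst_surjective N ρ (1 : G →* ℂˣ) (Nat.card N) hint
  have hdet : ∀ h : N, (LinearMap.det (ρ h)) ^ Nat.card N = (((1 : G →* ℂˣ) (h : G) : ℂˣ) : ℂ) ^ Nat.card N := by
    intro h
    rw [← map_pow, ← map_pow, pow_card_eq_one', map_one, map_one]
    simp
  have h1 : (n : ℤ) ∈ goodExps N ρ (1 : G →* ℂˣ) (Nat.card N) := by
    apply elementary_good N ρ (Nat.card N) E hsup hdet l _ μ hμ hM n
    · rw [← hval, finsum_eq_sum_of_fintype]
      congr 1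
      apply Finset.sum_congr rfl
      intro x _
      rw [hl x]
    · intro g x
      apply Units.ext
      rw [hl, hl]
      exact hφinv g g.2 x
  have h2 : (N.index : ℤ) ∈ goodExps N ρ (1 : G →* ℂˣ) (Nat.card N) :=
    index_mem_goodExps N ρ 1 (Nat.card N) hU hM N le_rfl ρ.asGroupHom (fun h => rfl)
  have hcop : Nat.Coprime N.index n := by
    rw [hk]
    exact Nat.Coprime.pow_left k ((Nat.Prime.coprime_iff_not_dvd hp.out).2 hpn)
  have h3 : (1 : ℤ) ∈ goodExps N ρ (1 : G →* ℂˣ) (Nat.card N) := by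
    have hb := Nat.gcd_eq_gcd_ab N.index n
    rw [hcop] at hb
    have h4 := (goodExps N ρ (1 : G →* ℂˣ) (Nat.card N)).add_mem
      ((goodExps N ρ (1 : G →* ℂˣ) (Nat.card N)).zsmul_mem h2 (Nat.gcdA N.index n))
      ((goodExps N ρ (1 : G →* ℂˣ) (Nat.card N)).zsmul_mem h1 (Nat.gcdB N.index n))
    have h5 : (1 : ℤ) = Nat.gcdA N.index n • (N.index : ℤ) + Nat.gcdB N.index n • (n : ℤ) := by
      simp only [smul_eq_mul]
      push_cast at hb ⊢
      linarith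
    rw [h5]
    exact h4
  obtain ⟨τ, hτ⟩ := h3
  obtain ⟨ψ, hψ, -⟩ := exists_extension_of_goodHom N ρ 1 (Nat.card N) hU hdet hτ
  haveI := isIrreducible_of_extends N ρ ψ hψ
  exact ⟨ψ.character, isIrrCharacter_character ψ, fun n => character_of_extends N ρ ψ hψ n⟩

end Main

end CfsgLib.Char
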