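import Cfsg.Agent.Lib.Char.Brauer3

set_option autoImplicit false
set_option linter.all false

open Cfsg
open scoped ComplexConjugate

namespace CfsgLib.Char

theorem dvd_sum_of_orbit {A X : Type*} [Group A] [Finite A] [MulAction A X] [Fintype X] {p : ℕ} (hp : p.Prime)
    (U : Subgroup A) (k : ℕ) (hU : U.index = p ^ k) (hUfix : ∀ g ∈ U, ∀ x : X, g • x = x)
    (w : X → ℕ) (hw : ∀ (g : A) (x : X), w (g • x) = w x)
    (hfix : ∀ x : X, (∀ g : A, g • x = x) → p ∣ w x) : p ∣ ∑ x, w x := by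
  classical
  letI : Fintype (MulAction.orbitRel.Quotient A X) := Fintype.ofFinite _
  rw [← Finset.sum_fiberwise Finset.univ (fun x : X => (Quotient.mk (MulAction.orbitRel A X) x)) w]
  apply Finset.dvd_sum
  intro ω _
  obtain ⟨x₀, rfl⟩ := Quotient.mk_surjective ω
  have hmem : ∀ x : X, Quotient.mk (MulAction.orbitRel A X) x = Quotient.mk (MulAction.orbitRel A X) x₀ ↔
      x ∈ MulAction.orbit A x₀ := by
    intro x
    rw [Quotient.eq]
    exact MulAction.orbitRel_apply
  have hF : ∀ x ∈ Finset.univ.filter (fun x : X => Quotient.mk (MulAction.orbitRel A X) x =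
      Quotient.mk (MulAction.orbitRel A X) x₀), w x = w x₀ := by
    intro x hx
    have h1 := (hmem x).1 (Finset.mem_filter.1 hx).2
    obtain ⟨g, rfl⟩ := h1
    exact hw g x₀
  rw [Finset.sum_congr rfl hF, Finset.sum_const, smul_eq_mul]
  by_cases hx : ∀ g : A, g • x₀ = x₀
  · exact Dvd.dvd.mul_left (hfix x₀ hx) _
  · apply Dvd.dvd.mul_right
    have h1 : U ≤ MulAction.stabilizer A x₀ := fun g hg => hUfix g hg x₀
    have h2 : (MulAction.stabilizer A x₀).index ∣ p ^ k := hU ▸ Subgroup.index_dvd_of_le h1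
    obtain ⟨j, hj, hj2⟩ := (Nat.dvd_prime_pow hp).1 h2
    have h3 : j ≠ 0 := by
      rintro rfl
      apply hx
      rw [pow_zero] at hj2
      have h4 := Subgroup.index_eq_one.1 hj2
      intro g
      have : g ∈ MulAction.stabilizer A x₀ := by rw [h4]; trivial
      exact this
    have h4 : (Finset.univ.filter (fun x : X => Quotient.mk (MulAction.orbitRel A X) x =
        Quotient.mk (MulAction.orbitRel A X) x₀)).card = (MulAction.stabilizer A x₀).index := by
      rw [MulAction.index_stabilizer, ← Set.ncard_coe_finset]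
      congr 1
      ext x
      simp [hmem]
    rw [h4, hj2]
    exact dvd_pow_self p h3

/-- The orbit count for `a, b` invariant under an action on `Irr`. -/
theorem orbit_key {A D : Type*} [Group A] [Finite A] [Group D] [Fintype D] (τ : A →* MulAut D) {p : ℕ} (hp : p.Prime)
    (U : Subgroup A) (k : ℕ) (hU : U.index = p ^ k)
    (hUfix : ∀ g ∈ U, ∀ φ : D → ℂ, IsClassFunction D φ → ∀ x, φ (τ g x) = φ x)
    (a b : D → ℂ) (ha : IsCharacter D a) (hb : IsCharacter D b)
    (hainv : ∀ g x, a (τ g x) = a x) (hbinv : ∀ g x, b (τ g x) = b x)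
    (hdiv : ∀ φ : D → ℂ, IsIrrCharacter D φ → (∀ g x, φ (τ g x) = φ x) → ∀ n : ℕ, classInner a φ = n → p ∣ n) :
    ∃ z : ℕ, classInner (b * a) a = ((p * z : ℕ) : ℂ) := by
  classical
  letI hact : MulAction A (IrrCharacter D) :=
    { smul := fun g φ => ⟨(φ : D → ℂ) ∘ (τ g⁻¹).toMonoidHom, φ.2.comp_surjective (τ g⁻¹).toMonoidHom (τ g⁻¹).surjective⟩
      one_smul := by
        intro φ
        apply Subtype.ext
        funext x
        show (φ : D → ℂ) (τ 1⁻¹ x) = _
        simp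
      mul_smul := by
        intro g h φ
        apply Subtype.ext
        funext x
        show (φ : D → ℂ) (τ (g * h)⁻¹ x) = (φ : D → ℂ) (τ h⁻¹ (τ g⁻¹ x))
        rw [mul_inv_rev, map_mul]
        rfl }
  have hsmul : ∀ (g : A) (φ : IrrCharacter D) (x : D), ((g • φ : IrrCharacter D) : D → ℂ) x = (φ : D → ℂ) (τ g⁻¹ x) := fun _ _ _ => rfl
  have hn : ∀ φ : IrrCharacter D, ∃ n : ℕ, classInner a φ = n := fun φ => ha.classInner_nat φ.2
  have hk : ∀ φ : IrrCharacter D, ∃ n : ℕ, classInner (b * (φ : D → ℂ)) a = n :=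
    fun φ => (hb.mul φ.2.isCharacter).classInner_nat_of_char ha
  choose n hn using hn
  choose k' hk' using hk
  have hsum : classInner (b * a) a = ((∑ φ, n φ * k' φ : ℕ) : ℂ) := by
    have h1 : b * a = ∑ φ : IrrCharacter D, (n φ : ℂ) • (b * (φ : D → ℂ)) := by
      conv_lhs => rw [ha.eq_sum_classInner]
      rw [Finset.mul_sum]
      apply Finset.sum_congr rfl
      intro φ _
      rw [hn φ]
      funext x
      simp only [Pi.mul_apply, Pi.smul_apply, smul_eq_mul]
      ring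
    rw [h1, classInner_sum_left]
    push_cast
    apply Finset.sum_congr rfl
    intro φ _
    rw [classInner_smul_left, hk' φ]
  have hainv' : ∀ g : A, a ∘ (τ g).toMonoidHom = a := fun g => funext fun x => hainv g x
  have hbinv' : ∀ g : A, b ∘ (τ g).toMonoidHom = b := fun g => funext fun x => hbinv g x
  have hcomp : ∀ (g : A) (u v : D → ℂ), classInner (fun x => u (τ g x)) (fun x => v (τ g x)) = classInner u v := by
    intro g u v
    exact classInner_comp_mulEquiv (τ g) u v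
  have hnw : ∀ (g : A) (φ : IrrCharacter D), n (g • φ) = n φ := by
    intro g φ
    have h1 : ((n (g • φ) : ℕ) : ℂ) = n φ := by
      rw [← hn, ← hn]
      have h2 := hcomp g⁻¹ a φ
      have h3 : (fun x => a (τ g⁻¹ x)) = a := funext fun x => hainv g⁻¹ x
      rw [h3] at h2
      exact h2
    exact_mod_cast h1
  have hkw : ∀ (g : A) (φ : IrrCharacter D), k' (g • φ) = k' φ := by
    intro g φ
    have h1 : ((k' (g • φ) : ℕ) : ℂ) = k' φ := by
      rw [← hk', ← hk']
      have h2 := hcomp g⁻¹ (b * (φ : D → ℂ)) a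
      have h3 : (fun x => a (τ g⁻¹ x)) = a := funext fun x => hainv g⁻¹ x
      rw [h3] at h2
      rw [← h2]
      congr 1
      funext x
      show b x * (φ : D → ℂ) (τ g⁻¹ x) = b (τ g⁻¹ x) * (φ : D → ℂ) (τ g⁻¹ x)
      rw [hbinv]
    exact_mod_cast h1
  have hdvd : p ∣ ∑ φ, n φ * k' φ := by
    apply dvd_sum_of_orbit hp U k hU
    · intro g hg φ
      apply Subtype.ext
      funext x
      exact hUfix g⁻¹ (U.inv_mem hg) φ φ.2.isClassFunction x
    · intro g φ
      rw [hnw, hkw]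
    · intro φ hφ
      apply Dvd.dvd.mul_right
      apply hdiv φ φ.2 _ (n φ) (hn φ)
      intro g x
      have h1 := hφ g⁻¹
      have h2 := congrFun (congrArg Subtype.val h1) x
      rw [hsmul, inv_inv] at h2
      exact h2
  obtain ⟨z, hz⟩ := hdvd
  exact ⟨z, by rw [hsum, hz]⟩

variable {G : Type*} [Group G] [Fintype G]

/-- Inner product of `Ind_E β` with `|ϑ|²` on `N`, `ϑ` invariant. -/
theorem ind_pair (N E : Subgroup G) [hN : N.Normal] [Fintype N] [Fintype E] [Fintype ↥(E ⊓ N)] (wt : N → ℂ)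
    (hwt : ∀ (g : G) (n : N), wt ⟨g * n * g⁻¹, hN.conj_mem (n : G) n.2 g⟩ = wt n) (β : E → ℂ) :
    (Nat.card N : ℂ)⁻¹ * ∑ n : N, indFun E β n * wt n =
      ((E ⊔ N).index : ℂ) * ((Nat.card ↥(E ⊓ N) : ℂ)⁻¹ *
        ∑ x : ↥(E ⊓ N), β ⟨(x : G), x.2.1⟩ * wt ⟨(x : G), x.2.2⟩) := by
  classical
  have hNC : (Nat.card N : ℂ) ≠ 0 := card_subgroup_ne_zero N
  have hEC : (Nat.card E : ℂ) ≠ 0 := card_subgroup_ne_zero E
  have hDC : (Nat.card ↥(E ⊓ N) : ℂ) ≠ 0 := card_subgroup_ne_zero _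
  have hGC : (Nat.card G : ℂ) ≠ 0 := card_ne_zero_C G
  -- the sum over `N`
  have h1 : ∀ y : G, ∑ n : N, extendByZero E β (y⁻¹ * n * y) * wt n = ∑ n : N, extendByZero E β n * wt n := by
    intro y
    let σ : N ≃ N :=
      { toFun := fun n => ⟨y⁻¹ * n * y, by simpa using hN.conj_mem (n : G) n.2 y⁻¹⟩
        invFun := fun n => ⟨y * n * y⁻¹, hN.conj_mem (n : G) n.2 y⟩
        left_inv := by
          intro n
          apply Subtype.ext
          show y * (y⁻¹ * (n : G) * y) * y⁻¹ = n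
          group
        right_inv := by
          intro n
          apply Subtype.ext
          show y⁻¹ * (y * (n : G) * y⁻¹) * y = n
          group }
    rw [← Equiv.sum_comp σ (fun n : N => extendByZero E β n * wt n)]
    apply Finset.sum_congr rfl
    intro n _
    have h2 : wt (σ n) = wt n := by
      have h0 : σ n = ⟨y⁻¹ * n * y⁻¹⁻¹, hN.conj_mem (n : G) n.2 y⁻¹⟩ :=
        Subtype.ext (by
          show y⁻¹ * (n : G) * y = y⁻¹ * n * y⁻¹⁻¹
          rw [inv_inv])
      rw [h0]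
      exact hwt y⁻¹ n
    rw [h2]
    rfl
  have h2 : ∑ n : N, indFun E β n * wt n = (Nat.card E : ℂ)⁻¹ * (Nat.card G : ℂ) * ∑ n : N, extendByZero E β n * wt n := by
    simp only [indFun_def]
    have h3 : ∀ n : N, (Nat.card E : ℂ)⁻¹ * (∑ x : G, extendByZero E β (x⁻¹ * n * x)) * wt n =
        (Nat.card E : ℂ)⁻¹ * ∑ x : G, extendByZero E β (x⁻¹ * n * x) * wt n := by
      intro n
      rw [mul_assoc, Finset.sum_mul]
    simp only [h3]
    rw [← Finset.mul_sum, Finset.sum_comm]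
    simp only [h1]
    rw [Finset.sum_const, Finset.card_univ, nsmul_eq_mul, Nat.card_eq_fintype_card (α := G)]
    ring
  -- to `E ⊓ N`
  have h3 : ∑ n : N, extendByZero E β n * wt n =
      ∑ x : ↥(E ⊓ N), β ⟨(x : G), x.2.1⟩ * wt ⟨(x : G), x.2.2⟩ := by
    let F : G → ℂ := fun g => if h : g ∈ N then extendByZero E β g * wt ⟨g, h⟩ else 0
    have h4 : ∑ g, F g = ∑ n : N, F n := sum_eq_sum_subgroup N F (fun g hg => by simp [F, hg])
    have h5 : ∑ g, F g = ∑ x : ↥(E ⊓ N), F x := sum_eq_sum_subgroup _ F (fun g hg => by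
      by_cases hgN : g ∈ N
      · have hgE : g ∉ E := fun h => hg ⟨h, hgN⟩
        simp [F, hgN, extendByZero_of_not_mem E β hgE]
      · simp [F, hgN])
    have h6 : ∀ n : N, F n = extendByZero E β n * wt n := by
      intro n
      simp [F]
    have h7 : ∀ x : ↥(E ⊓ N), F x = β ⟨(x : G), x.2.1⟩ * wt ⟨(x : G), x.2.2⟩ := by
      intro x
      have : (x : G) ∈ N := x.2.2
      simp only [F, dif_pos this]
      rw [extendByZero_of_mem E β x.2.1]
    simp only [h6] at h4
    simp only [h7] at h5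
    rw [← h4, h5]
  rw [h2, h3]
  -- arithmetic
  set s := N.relIndex E with hs
  have h4 : Nat.card N * s = Nat.card ↥(E ⊔ N) := by
    have h5 : Nat.card (N.subgroupOf (E ⊔ N)) * N.relIndex (E ⊔ N) = Nat.card ↥(E ⊔ N) :=
      (N.subgroupOf (E ⊔ N)).card_mul_index
    rw [Subgroup.relIndex_sup_right] at h5
    rw [← h5]
    congr 1
    exact (Nat.card_congr (Subgroup.subgroupOfEquivOfLe le_sup_right).toEquiv).symm
  have h5 : Nat.card ↥(E ⊓ N) * s = Nat.card E := by
    have h6 : Nat.card (N.subgroupOf E) * N.relIndex E = Nat.card E := (N.subgroupOf E).card_mul_index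
    rw [← h6]
    congr 1
    rw [← Subgroup.inf_subgroupOf_left]
    exact (Nat.card_congr (Subgroup.subgroupOfEquivOfLe inf_le_left).toEquiv).symm
  have h6 : Nat.card ↥(E ⊔ N) * (E ⊔ N).index = Nat.card G := (E ⊔ N).card_mul_index
  have hsC : (s : ℂ) ≠ 0 := by
    intro h0
    apply hEC
    have : (Nat.card E : ℂ) = (Nat.card ↥(E ⊓ N) : ℂ) * s := by exact_mod_cast h5.symm
    rw [this, h0, mul_zero]
  have h7 : (Nat.card G : ℂ) = (Nat.card N : ℂ) * s * ((E ⊔ N).index : ℂ) := by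
    rw [← h6, ← h4]
    push_cast
    ring
  have h8 : (Nat.card E : ℂ) = (Nat.card ↥(E ⊓ N) : ℂ) * s := by exact_mod_cast h5.symm
  rw [h7, h8]
  field_simp

/-- Conjugation action of `E` on `E ⊓ N`. -/
noncomputable def conjInf (E N : Subgroup G) [hN : N.Normal] : E →* MulAut ↥(E ⊓ N) :=
  { toFun := fun g =>
      { toFun := fun x => ⟨g * x * (g : G)⁻¹, ⟨E.mul_mem (E.mul_mem g.2 x.2.1) (E.inv_mem g.2), hN.conj_mem x x.2.2 g⟩⟩
        invFun := fun x => ⟨(g : G)⁻¹ * x * g, ⟨E.mul_mem (E.mul_mem (E.inv_mem g.2) x.2.1) g.2, by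
          simpa using hN.conj_mem x x.2.2 (g : G)⁻¹⟩⟩
        left_inv := by
          intro x
          apply Subtype.ext
          show (g : G)⁻¹ * (g * (x : G) * (g : G)⁻¹) * g = x
          group
        right_inv := by
          intro x
          apply Subtype.ext
          show (g : G) * ((g : G)⁻¹ * (x : G) * g) * (g : G)⁻¹ = x
          group
        map_mul' := by
          intro x y
          apply Subtype.ext
          show (g : G) * ((x : G) * y) * (g : G)⁻¹ = ((g : G) * x * (g : G)⁻¹) * ((g : G) * y * (g : G)⁻¹)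
          group }
    map_one' := by
      ext x
      show ((1 : G)) * (x : G) * (1 : G)⁻¹ = x
      simp
    map_mul' := by
      intro g h
      ext x
      show ((g : G) * h) * (x : G) * ((g : G) * h)⁻¹ = (g : G) * ((h : G) * x * (h : G)⁻¹) * (g : G)⁻¹
      group }

theorem conjInf_apply (E N : Subgroup G) [hN : N.Normal] (g : E) (x : ↥(E ⊓ N)) :
    conjInf E N g x = ⟨g * x * (g : G)⁻¹, ⟨E.mul_mem (E.mul_mem g.2 x.2.1) (E.inv_mem g.2), hN.conj_mem x x.2.2 g⟩⟩ := rfl

theorem index_subgroupOf_of_sup (E N : Subgroup G) [hN : N.Normal] (htop : E ⊔ N = ⊤) :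
    (N.subgroupOf E).index = N.index := by
  show N.relIndex E = N.index
  rw [← Subgroup.relIndex_sup_right, htop, Subgroup.relIndex_top_right]

/-- S0896 -/
theorem elementary_subgroup_invariant (p : ℕ) (hp : p.Prime) (N : Subgroup G) [hN : N.Normal]
    (hind : ∃ k : ℕ, N.index = p ^ k)
    (ϑ : N → ℂ) (hϑ : IsIrrCharacter N ϑ)
    (hinv : ∀ (g : G) (n : N), ϑ ⟨g * n * g⁻¹, hN.conj_mem (n : G) n.2 g⟩ = ϑ n) :
    ∃ (E : Subgroup G) (φ : ↥(E ⊓ N) → ℂ), IsElementary p E ∧ E ⊔ N = ⊤ ∧ IsIrrCharacter ↥(E ⊓ N) φ ∧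
      (∀ (g : G) (hg : g ∈ E) (x : ↥(E ⊓ N)),
        φ ⟨g * x * g⁻¹, ⟨(E.mul_mem (E.mul_mem hg x.2.1) (E.inv_mem hg)), hN.conj_mem (x : G) x.2.2 g⟩⟩ = φ x) ∧
      ∃ m : ℕ, ¬ p ∣ m ∧ (Nat.card ↥(E ⊓ N) : ℂ)⁻¹ * ∑ᶠ x : ↥(E ⊓ N), ϑ ⟨(x : G), x.2.2⟩ * conj (φ x) = (m : ℂ) := by
  classical
  by_contra hcon
  obtain ⟨k, hk⟩ := hind
  letI : Fintype N := Fintype.ofFinite _
  let wt : N → ℂ := fun n => ϑ n * conj (ϑ n)
  have hwt : ∀ (g : G) (n : N), wt ⟨g * n * g⁻¹, hN.conj_mem (n : G) n.2 g⟩ = wt n := by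
    intro g n
    show ϑ _ * conj (ϑ _) = _
    rw [hinv]
  let L : (G → ℂ) → ℂ := fun f => (Nat.card N : ℂ)⁻¹ * ∑ n : N, f n * wt n
  have hmain : ∀ (E : Subgroup G) (β : E → ℂ), IsElementary p E → IsCharacter E β →
      ∃ z : ℤ, L (indFun E β) = (p : ℂ) * z := by
    intro E β hE hβ
    letI : Fintype E := Fintype.ofFinite _
    letI : Fintype ↥(E ⊓ N) := Fintype.ofFinite _
    have h1 := ind_pair N E wt hwt β
    let a : ↥(E ⊓ N) → ℂ := fun x => ϑ ⟨(x : G), x.2.2⟩
    let b : ↥(E ⊓ N) → ℂ := fun x => β ⟨(x : G), x.2.1⟩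
    have ha : IsCharacter ↥(E ⊓ N) a := IsCharacter.comp hϑ.isCharacter (Subgroup.inclusion inf_le_right)
    have hb : IsCharacter ↥(E ⊓ N) b := IsCharacter.comp hβ (Subgroup.inclusion inf_le_left)
    have h2 : (Nat.card ↥(E ⊓ N) : ℂ)⁻¹ * ∑ x : ↥(E ⊓ N), β ⟨(x : G), x.2.1⟩ * wt ⟨(x : G), x.2.2⟩ =
        classInner (b * a) a := by
      rw [classInner_def]
      congr 1
      apply Finset.sum_congr rfl
      intro x _
      show b x * (a x * conj (a x)) = b x * a x * conj (a x)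
      ring
    by_cases htop : E ⊔ N = ⊤
    · have hidx : (E ⊔ N).index = 1 := by rw [htop, Subgroup.index_top]
      rw [hidx, h2] at h1
      have hU : (N.subgroupOf E).index = p ^ k := by rw [index_subgroupOf_of_sup E N htop, hk]
      have hUfix : ∀ g ∈ N.subgroupOf E, ∀ φ : ↥(E ⊓ N) → ℂ, IsClassFunction ↥(E ⊓ N) φ →
          ∀ x, φ (conjInf E N g x) = φ x := by
        intro g hg φ hφ x
        have h3 : (g : G) ∈ N := hg
        exact hφ x ⟨g, g.2, h3⟩
      have hainv : ∀ (g : E) (x : ↥(E ⊓ N)), a (conjInf E N g x) = a x := by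
        intro g x
        exact hinv g ⟨x, x.2.2⟩
      have hbinv : ∀ (g : E) (x : ↥(E ⊓ N)), b (conjInf E N g x) = b x := by
        intro g x
        exact hβ.isClassFunction ⟨x, x.2.1⟩ g
      have hdiv : ∀ φ : ↥(E ⊓ N) → ℂ, IsIrrCharacter ↥(E ⊓ N) φ → (∀ g x, φ (conjInf E N g x) = φ x) →
          ∀ n : ℕ, classInner a φ = n → p ∣ n := by
        intro φ hφ hφinv n hn
        by_contra hpn
        apply hcon
        refine ⟨E, φ, hE, htop, hφ, fun g hg x => hφinv ⟨g, hg⟩ x, n, hpn, ?_⟩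
        rw [finsum_eq_sum_of_fintype, ← hn, classInner_def]
      obtain ⟨z, hz⟩ := orbit_key (conjInf E N) hp (N.subgroupOf E) k hU hUfix a b ha hb hainv hbinv hdiv
      refine ⟨z, ?_⟩
      show (Nat.card N : ℂ)⁻¹ * ∑ n : N, indFun E β n * wt n = _
      rw [h1, hz]
      push_cast
      ring
    · obtain ⟨c, hc⟩ := (hb.mul ha).classInner_nat_of_char ha
      have h3 : (E ⊔ N).index ∣ p ^ k := hk ▸ Subgroup.index_dvd_of_le le_sup_right
      obtain ⟨j, hj, hj2⟩ := (Nat.dvd_prime_pow hp).1 h3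
      have hj0 : j ≠ 0 := by
        rintro rfl
        rw [pow_zero] at hj2
        exact htop (Subgroup.index_eq_one.1 hj2)
      obtain ⟨i, rfl⟩ := Nat.exists_eq_succ_of_ne_zero hj0
      refine ⟨(p ^ i * c : ℕ), ?_⟩
      show (Nat.card N : ℂ)⁻¹ * ∑ n : N, indFun E β n * wt n = _
      rw [h1, h2, hc, hj2]
      push_cast
      rw [pow_succ]
      ring
  have hall : ∀ f ∈ elemY p G, ∃ z : ℤ, L f = (p : ℂ) * z := by
    intro f hf
    induction hf using AddSubgroup.closure_induction with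
    | mem x hx =>
      obtain ⟨E, φ, hE, hφ, rfl⟩ := hx
      exact hmain E φ hE hφ
    | zero => exact ⟨0, by simp [L]⟩
    | add x y _ _ hx hy =>
      obtain ⟨a, ha⟩ := hx
      obtain ⟨b, hb⟩ := hy
      refine ⟨a + b, ?_⟩
      have : L (x + y) = L x + L y := by
        simp only [L, Pi.add_apply, add_mul, Finset.sum_add_distrib, mul_add]
      rw [this, ha, hb]
      push_cast
      ring
    | neg x _ hx =>
      obtain ⟨a, ha⟩ := hx
      refine ⟨-a, ?_⟩
      have : L (-x) = - L x := by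
        simp only [L, Pi.neg_apply, neg_mul, Finset.sum_neg_distrib, mul_neg]
      rw [this, ha]
      push_cast
      ring
  obtain ⟨m₀, hm₀, hmem⟩ := elementary_one (G := G) p hp
  obtain ⟨z, hz⟩ := hall _ hmem
  have hL : L (fun _ => (m₀ : ℂ)) = m₀ := by
    show (Nat.card N : ℂ)⁻¹ * ∑ n : N, (m₀ : ℂ) * wt n = m₀
    have h1 := classInner_irr_self hϑ
    rw [classInner_def] at h1
    rw [← Finset.mul_sum]
    calc _ = (m₀ : ℂ) * ((Nat.card N : ℂ)⁻¹ * ∑ n : N, wt n) := by ring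
      _ = m₀ := by
        have h2 : (Nat.card N : ℂ)⁻¹ * ∑ n : N, wt n = 1 := h1
        rw [h2, mul_one]
  apply hm₀
  refine ⟨z, ?_⟩
  have h3 : (m₀ : ℂ) = (p : ℂ) * z := hL.symm.trans hz
  exact_mod_cast h3

end CfsgLib.Char
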