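import Mathlib
import Cfsg.Agent.Lib.Char.GlaubCorr4
import Cfsg.Agent.Lib.Char.GaloisTI
import Cfsg.Agent.Lib.Char.GalFixCount
import Cfsg.Agent.Lib.Block.Value
import Cfsg.Agent.Lib.Block.Height

/-!
# Canonical extensions over a cyclic group all of whose elements have the same centralizer
-/

set_option linter.unusedSectionVars false
set_option linter.style.haveILetI false
set_option linter.unusedSimpArgs false
set_option linter.unusedVariables false

namespace CfsgLib.Char.FPF

open Cfsg CfsgLib.Char CfsgLib.Block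
open scoped ComplexConjugate Pointwise

universe u

theorem unique_one {ι : Type*} [Fintype ι] [DecidableEq ι] (c : ι → ℤ) (h01 : ∀ i, c i = 0 ∨ c i = 1)
    (hsum : ∑ i, c i = 1) : ∃ i₀, ∀ i, c i = if i = i₀ then 1 else 0 := by
  obtain ⟨i₀, -, hi₀⟩ : ∃ i ∈ Finset.univ, c i ≠ 0 := by
    apply Finset.exists_ne_zero_of_sum_ne_zero
    rw [hsum]
    exact one_ne_zero
  have h1 : c i₀ = 1 := (h01 i₀).resolve_left hi₀
  refine ⟨i₀, fun i => ?_⟩
  by_cases hi : i = i₀
  · simp [hi, h1]
  · simp only [hi, if_false]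
    have h2 := Finset.add_sum_erase Finset.univ c (Finset.mem_univ i₀)
    rw [hsum, h1] at h2
    have h3 : ∑ x ∈ Finset.univ.erase i₀, c x = 0 := by omega
    have h4 := (Finset.sum_eq_zero_iff_of_nonneg (fun x _ => by
      rcases h01 x with h | h <;> omega)).mp h3
    exact h4 i (Finset.mem_erase.mpr ⟨hi, Finset.mem_univ _⟩)

theorem int_struct {ι : Type*} [Fintype ι] [DecidableEq ι] (a : ι → ℕ) (m : ℕ) (hm : 1 < m)
    (hcard : Fintype.card ι = m) (e : ℕ) (hsum : ∑ i, a i = e)
    (hsq : m * ∑ i, a i ^ 2 + 1 = e ^ 2 + m) :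
    ∃ (t : ℕ) (ε : ℤ) (i₀ : ι), (ε = 1 ∨ ε = -1) ∧ ∀ i, (a i : ℤ) = t + (if i = i₀ then ε else 0) := by
  obtain ⟨q, r, hr, he⟩ : ∃ q r : ℕ, r < m ∧ e = m * q + r :=
    ⟨e / m, e % m, Nat.mod_lt _ (by omega), (Nat.div_add_mod e m).symm⟩
  let b : ι → ℤ := fun i => (a i : ℤ) - q
  have hcardC : ∑ i : ι, (1 : ℤ) = m := by
    simp [hcard]
  have h1 : ∑ i, b i = r := by
    simp only [b, Finset.sum_sub_distrib, Finset.sum_const, Finset.card_univ, hcard, nsmul_eq_mul]
    have : ((∑ i, a i : ℕ) : ℤ) = (m : ℤ) * q + r := by rw [hsum, he]; push_cast; ring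
    push_cast at this
    rw [this]
    ring
  have h2 : (m : ℤ) * ∑ i, b i ^ 2 + 1 = (r : ℤ) ^ 2 + m := by
    have h3 : ∑ i, b i ^ 2 =
        ∑ i, (a i : ℤ) ^ 2 - 2 * q * ∑ i, (a i : ℤ) + (m : ℤ) * q ^ 2 := by
      simp only [b, sub_sq, Finset.sum_add_distrib, Finset.sum_sub_distrib, Finset.sum_const,
        Finset.card_univ, hcard, nsmul_eq_mul, Finset.mul_sum]
      congr 1
      congr 1
      refine Finset.sum_congr rfl fun i _ => by ring
    have h4 : (∑ i, (a i : ℤ)) = (m : ℤ) * q + r := by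
      have : ((∑ i, a i : ℕ) : ℤ) = (m : ℤ) * q + r := by rw [hsum, he]; push_cast; ring
      push_cast at this
      exact this
    have h5 : (m : ℤ) * ∑ i, (a i : ℤ) ^ 2 + 1 = ((m : ℤ) * q + r) ^ 2 + m := by
      have : ((m * ∑ i, a i ^ 2 + 1 : ℕ) : ℤ) = ((e ^ 2 + m : ℕ) : ℤ) := by rw [hsq]
      push_cast at this
      rw [this, he]
      push_cast
      ring
    rw [h3, h4]
    nlinarith [h5]
  have hle : ∑ i, b i ≤ ∑ i, b i ^ 2 := Finset.sum_le_sum fun i _ => Int.le_self_sq _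
  rw [h1] at hle
  have hm' : (0 : ℤ) < m := by exact_mod_cast (by omega : 0 < m)
  have h4 : (m : ℤ) * r ≤ (r : ℤ) ^ 2 + m - 1 := by
    have := mul_le_mul_of_nonneg_left hle hm'.le
    linarith
  have hm2 : (1 : ℤ) < m := by exact_mod_cast hm
  have hdiff : ∀ i, b i ^ 2 - b i = 0 → b i = 0 ∨ b i = 1 := by
    intro i h
    have : b i * (b i - 1) = 0 := by linarith [h, sq (b i)]
    rcases mul_eq_zero.mp this with h5 | h5
    · exact Or.inl h5
    · exact Or.inr (by linarith)
  have hall : (∑ i, b i ^ 2 = ∑ i, b i) → ∀ i, b i = 0 ∨ b i = 1 := by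
    intro h i
    apply hdiff
    have h5 : ∑ i, (b i ^ 2 - b i) = 0 := by
      rw [Finset.sum_sub_distrib]
      linarith
    have h6 : ∀ j ∈ Finset.univ, 0 ≤ b j ^ 2 - b j := fun j _ => by
      linarith [Int.le_self_sq (b j)]
    exact (Finset.sum_eq_zero_iff_of_nonneg h6).mp h5 i (Finset.mem_univ i)
  rcases Nat.lt_or_ge r 1 with h0 | h0
  · have hr0 : r = 0 := by omega
    exfalso
    rw [hr0] at h2
    have h6 : (m : ℤ) * (∑ i, b i ^ 2 - 1) = - 1 := by push_cast at h2; linarith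
    have h7 : (m : ℤ) ∣ 1 := ⟨-(∑ i, b i ^ 2 - 1), by linarith⟩
    have := Int.eq_one_of_dvd_one hm'.le h7
    omega
  · by_cases hr1 : r = 1
    · -- one `b` equals one, the rest vanish
      have hs : ∑ i, b i ^ 2 = 1 := by
        rw [hr1] at h2
        have : (m : ℤ) * (∑ i, b i ^ 2 - 1) = 0 := by push_cast at h2; linarith
        rcases mul_eq_zero.mp this with h5 | h5
        · omega
        · linarith
      have hb1 : ∑ i, b i = 1 := by rw [h1, hr1]; rfl
      obtain ⟨i₀, hi₀⟩ := unique_one b (hall (by rw [hs, hb1])) hb1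
      refine ⟨q, 1, i₀, Or.inl rfl, fun i => ?_⟩
      have := hi₀ i
      have h5 : (a i : ℤ) = q + b i := by simp [b]
      rw [h5, this]
    · have hrm : r = m - 1 := by
        by_contra hne
        have h5 : r + 2 ≤ m := by omega
        have h6 : (2 : ℤ) ≤ r := by exact_mod_cast (by omega : 2 ≤ r)
        have h7 : (r : ℤ) + 2 ≤ m := by exact_mod_cast h5
        nlinarith
      have hmr : m = r + 1 := by omega
      have hs : ∑ i, b i ^ 2 = r := by
        have h5 : ((r + 1 : ℕ) : ℤ) * (∑ i, b i ^ 2 - r) = 0 := by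
          rw [← hmr]
          have h6 : (m : ℤ) = r + 1 := by exact_mod_cast hmr
          rw [h6] at h2 ⊢
          nlinarith
        rcases mul_eq_zero.mp h5 with h6 | h6
        · exfalso
          have : ((r + 1 : ℕ) : ℤ) > 0 := by positivity
          omega
        · linarith
      have h01 := hall (by rw [hs, h1])
      have hcs : ∑ i, (1 - b i) = 1 := by
        rw [Finset.sum_sub_distrib, hcardC, h1]
        have h6 : (m : ℤ) = r + 1 := by exact_mod_cast hmr
        rw [h6]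
        ring
      obtain ⟨i₀, hi₀⟩ := unique_one (fun i => 1 - b i) (fun i => by
        rcases h01 i with h | h
        · right
          simp [h]
        · left
          simp [h]) hcs
      refine ⟨q + 1, -1, i₀, Or.inr rfl, fun i => ?_⟩
      have h5 : 1 - b i = if i = i₀ then 1 else 0 := hi₀ i
      have h6 : (a i : ℤ) = q + b i := by simp [b]
      push_cast
      by_cases hi : i = i₀
      · simp only [hi, if_true] at h5 ⊢
        rw [← hi] at h5 ⊢
        rw [h6]
        linarith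
      · simp only [hi, if_false] at h5 ⊢
        rw [h6]
        linarith

section Cyc

variable {S : Type u} [Group S] [Fintype S]

theorem cyc_struct (hcomm : ∀ a b : S, a * b = b * a) (hn : 1 < Nat.card S) {ψ : S → ℂ} (hψ : IsCharacter S ψ)
    (hval : ∀ x, x ≠ 1 → ∃ e : ℤ, (e = 1 ∨ e = -1) ∧ ψ x = e) :
    ∃ (t : ℕ) (ε : ℤ) (lam : IrrCharacter S), (ε = 1 ∨ ε = -1) ∧ ψ 1 = t * (Nat.card S : ℂ) + ε ∧
      ∀ x, x ≠ 1 → ψ x = ε * (lam : S → ℂ) x := by
  classical
  have hdeg : ∀ lam : IrrCharacter S, (lam : S → ℂ) 1 = 1 := by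
    intro lam
    apply CfsgLib.Char.degree_one_of_abelian_quot (⊥ : Subgroup S) lam.2
    · intro n hn
      rw [Subgroup.mem_bot.mp hn]
    · intro x y
      rw [Subgroup.mem_bot, hcomm x y]
      group
  have hcol : ∀ x : S, ∑ lam : IrrCharacter S, (lam : S → ℂ) x =
      if x = 1 then (Nat.card S : ℂ) else 0 := by
    intro x
    have h1 := column_orthogonality x (1 : S)
    rw [Finset.sum_congr rfl fun lam _ => by rw [hdeg lam, map_one, mul_one]] at h1
    rw [h1]
    by_cases hx : x = 1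
    · subst hx
      have h2 : Subgroup.centralizer ({(1 : S)} : Set S) = ⊤ := by
        ext y
        simp [Subgroup.mem_centralizer_singleton_iff]
      rw [if_pos (IsConj.refl _), if_pos rfl, h2, Nat.card_congr Subgroup.topEquiv.toEquiv]
    · rw [if_neg hx, if_neg (fun h => hx (isConj_one_right.mp h.symm))]
  have hcard : Fintype.card (IrrCharacter S) = Nat.card S := by
    have h1 := hcol 1
    rw [if_pos rfl, Finset.sum_congr rfl fun lam _ => hdeg lam] at h1
    simp only [Finset.sum_const, Finset.card_univ, nsmul_eq_mul, mul_one] at h1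
    exact_mod_cast h1
  obtain ⟨a, ha⟩ := hψ.exists_coeff
  have hψv : ∀ x, ψ x = ∑ lam, (a lam : ℂ) * (lam : S → ℂ) x := by
    intro x
    have := congrFun ha x
    rw [Finset.sum_apply] at this
    rw [this]
    simp
  have hone : ψ 1 = ((∑ lam, a lam : ℕ) : ℂ) := by
    rw [hψv 1, Finset.sum_congr rfl fun lam _ => by rw [hdeg lam, mul_one]]
    push_cast
    rfl
  have hnorm : classInner ψ ψ = ((∑ lam, a lam ^ 2 : ℕ) : ℂ) := by
    conv_lhs => rw [ha]
    rw [CfsgLib.Char.classInner_nsum]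
    push_cast
    refine Finset.sum_congr rfl fun β _ => ?_
    rw [Finset.sum_eq_single β]
    · rw [classInner_irr_self β.2]
      ring
    · intro β' _ hne
      rw [classInner_irr_ne β.2 β'.2 (fun h => hne (Subtype.ext h.symm)), mul_zero]
    · intro h
      exact absurd (Finset.mem_univ _) h
  set e := ∑ lam, a lam with he
  have hsumsq : ∑ x : S, ‖ψ x‖ ^ 2 = (e : ℝ) ^ 2 + ((Nat.card S : ℝ) - 1) := by
    have h1 : ∀ x : S, ‖ψ x‖ ^ 2 = if x = 1 then (e : ℝ) ^ 2 else 1 := by
      intro x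
      split_ifs with hx
      · rw [hx, hone, Complex.norm_natCast]
      · obtain ⟨z, hz, hz'⟩ := hval x hx
        rw [hz']
        rcases hz with rfl | rfl <;> simp
    rw [Finset.sum_congr rfl fun x _ => h1 x, Finset.sum_ite]
    simp only [Finset.sum_const, nsmul_eq_mul, mul_one]
    have h2 : (Finset.univ.filter (fun x : S => x = 1)) = {1} := by
      ext x
      simp
    have h3 : ((Finset.univ.filter (fun x : S => ¬ x = 1)).card : ℝ) = (Nat.card S : ℝ) - 1 := by
      have h4 := Finset.card_filter_add_card_filter_not (s := (Finset.univ : Finset S)) (fun x : S => x = 1)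
      rw [h2] at h4
      have h5 : ((({1} : Finset S).card : ℝ)) + ((Finset.univ.filter (fun x : S => ¬ x = 1)).card : ℝ) =
          (Nat.card S : ℝ) := by
        rw [Nat.card_eq_fintype_card, Fintype.card]
        exact_mod_cast h4
      simp only [Finset.card_singleton] at h5
      push_cast at h5
      linarith
    rw [h2, h3]
    simp
  have hsq : Nat.card S * ∑ lam, a lam ^ 2 + 1 = e ^ 2 + Nat.card S := by
    have h1 := hnorm
    rw [CfsgLib.Char.classInner_self_eq_real, hsumsq] at h1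
    have hS0 : (0 : ℝ) < Nat.card S := by exact_mod_cast Nat.card_pos
    have h2 : (Nat.card S : ℝ)⁻¹ * ((e : ℝ) ^ 2 + ((Nat.card S : ℝ) - 1)) = ((∑ lam, a lam ^ 2 : ℕ) : ℝ) := by
      exact_mod_cast h1
    field_simp at h2
    have h3 : ((Nat.card S * ∑ lam, a lam ^ 2 + 1 : ℕ) : ℝ) = ((e ^ 2 + Nat.card S : ℕ) : ℝ) := by
      push_cast at h2 ⊢
      linarith
    exact_mod_cast h3
  obtain ⟨t, ε, i₀, hε, hi⟩ := int_struct a (Nat.card S) hn hcard e rfl hsq
  have hiC : ∀ lam, (a lam : ℂ) = t + (if lam = i₀ then (ε : ℂ) else 0) := by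
    intro lam
    have := hi lam
    have h2 : ((a lam : ℤ) : ℂ) = ((t + (if lam = i₀ then ε else 0) : ℤ) : ℂ) := by rw [this]
    push_cast at h2
    rw [h2]
  have hgen : ∀ x, ψ x = (t : ℂ) * (if x = 1 then (Nat.card S : ℂ) else 0) + ε * (i₀ : S → ℂ) x := by
    intro x
    rw [hψv x, ← hcol x, Finset.mul_sum, Finset.sum_congr rfl fun lam _ => by
      rw [hiC lam, add_mul]]
    rw [Finset.sum_add_distrib]
    congr 1
    rw [Finset.sum_eq_single i₀]
    · simp
    · intro lam _ hne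
      simp [hne]
    · intro h
      exact absurd (Finset.mem_univ _) h
  refine ⟨t, ε, i₀, hε, ?_, ?_⟩
  · rw [hgen 1, if_pos rfl, hdeg i₀, mul_one]
  · intro x hx
    rw [hgen x, if_neg hx, mul_zero, zero_add]

end Cyc

section Main

variable {Γ : Type u} [Group Γ] [Fintype Γ]

theorem s4451_main (G S : Subgroup Γ) [Fintype G] (hnorm : ∀ s ∈ S, ∀ g ∈ G, s * g * s⁻¹ ∈ G)
    (hcop : (Nat.card G).Coprime (Nat.card S)) (htop : G ⊔ S = ⊤) (hcyc : IsCyclic S) (C : Subgroup Γ) [Fintype C]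
    (hC : C = G ⊓ Subgroup.centralizer (S : Set Γ)) (hCG : C ≤ G)
    (hfpf : ∀ x ∈ S, x ≠ 1 → G ⊓ Subgroup.centralizer ({x} : Set Γ) = C) (χ : IrrCharacter G)
    (χh : IrrCharacter Γ) (hext : ∀ g : G, (χh : Γ → ℂ) g = (χ : G → ℂ) g)
    (hdet : (detOrder (χh : Γ → ℂ)).Coprime (Nat.card S)) (β : IrrCharacter C) (ε₀ : ℤ) (hε₀ : ε₀ = 1 ∨ ε₀ = -1)
    (hβ : ∀ c : C, ∀ s : Γ, Subgroup.zpowers s = S → (χh : Γ → ℂ) ((c : Γ) * s) = (ε₀ : ℂ) * (β : C → ℂ) c) :
    ∃ ε : ℤ, (ε = 1 ∨ ε = -1) ∧ (∃ μ : S → ℂ, IsCharacter S μ ∧ μ 1 = 1 ∧ (∀ x : S, μ x * μ x = 1) ∧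
        ∀ c : C, ∀ x : S, x ≠ 1 → (χh : Γ → ℂ) ((c : Γ) * x) = (ε : ℂ) * (β : C → ℂ) c * μ x) ∧
      (∃ ϑ : C → ℂ, IsCharacter C ϑ ∧ (fun c : C => (χ : G → ℂ) ⟨c, hCG c.2⟩) =
        fun c => (Nat.card S : ℂ) * ϑ c + (ε : ℂ) * (β : C → ℂ) c) ∧
      (Nat.card S : ℤ) ∣ (charDegree (χ : G → ℂ) : ℤ) - ε * (charDegree (β : C → ℂ) : ℤ) := by
  classical
  haveI hG : G.Normal := normal_of_sup_eq_top G S hnorm htop
  letI : Fintype S := Fintype.ofFinite _
  obtain ⟨s, hs⟩ := exists_generator_of_cyclic S hcyc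
  have hsS : s ∈ S := hs ▸ Subgroup.mem_zpowers s
  rcases Nat.eq_or_lt_of_le (Nat.card_pos (α := S) : 1 ≤ Nat.card S) with hS1 | hn
  · -- trivial `S`
    have hSbot : S = ⊥ := (Subgroup.eq_bot_of_card_eq S hS1.symm)
    have hval : ∀ c : C, (χ : G → ℂ) ⟨c, hCG c.2⟩ = (ε₀ : ℂ) * (β : C → ℂ) c := by
      intro c
      have h1 := hβ c 1 (by rw [hSbot]; simp)
      rw [mul_one] at h1
      rw [← hext ⟨c, hCG c.2⟩]
      exact h1
    have hε1 : ε₀ = 1 := by
      rcases hε₀ with h | h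
      · exact h
      · exfalso
        have h1 := hval 1
        obtain ⟨a, ha0, ha⟩ := χ.2.map_one
        obtain ⟨b, hb0, hb⟩ := β.2.map_one
        have h2 : (χ : G → ℂ) ⟨((1 : C) : Γ), hCG (1 : C).2⟩ = (χ : G → ℂ) 1 := rfl
        rw [h2, ha, hb, h] at h1
        have h3 : ((a : ℤ) : ℂ) = ((-(b : ℤ) : ℤ) : ℂ) := by
          push_cast at h1 ⊢
          linear_combination h1
        have h4 : (a : ℤ) = -(b : ℤ) := by exact_mod_cast h3
        omega
    refine ⟨1, Or.inl rfl, ⟨fun _ => 1, isIrrCharacter_one.isCharacter, rfl, fun _ => by simp, ?_⟩,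
      ⟨0, isCharacter_zero, ?_⟩, ?_⟩
    · intro c x hx
      exfalso
      apply hx
      have : x.1 ∈ (⊥ : Subgroup Γ) := hSbot ▸ x.2
      exact Subtype.ext (Subgroup.mem_bot.mp this)
    · funext c
      rw [hval c, hε1]
      simp
    · rw [← hS1]
      simp
  have hSgen : s ≠ 1 := by
    rintro rfl
    have h1 : S = ⊥ := by rw [← hs]; simp
    rw [h1] at hn
    simp at hn
  have hχ1 : IsIrrCharacter G (fun g : G => (χh : Γ → ℂ) g) := by
    have : (fun g : G => (χh : Γ → ℂ) g) = (χ : G → ℂ) := funext hext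
    rw [this]
    exact χ.2
  have hScomm : ∀ a b : S, a * b = b * a := by
    intro a b
    obtain ⟨a, ha⟩ := a
    obtain ⟨b, hb⟩ := b
    apply Subtype.ext
    show a * b = b * a
    rw [← hs] at ha hb
    obtain ⟨i, rfl⟩ := Subgroup.mem_zpowers_iff.mp ha
    obtain ⟨j, rfl⟩ := Subgroup.mem_zpowers_iff.mp hb
    exact (Commute.zpow_zpow_self s i j).eq
  have hcommC : ∀ c ∈ C, ∀ u ∈ S, c * u = u * c := by
    intro c hc u hu
    rw [hC] at hc
    exact (Subgroup.mem_centralizer_iff.mp hc.2 u hu).symm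
  have hdisj : G ⊓ S = ⊥ := (Subgroup.disjoint_of_coprime_natCard hcop).eq_bot
  have hindex : G.index = Nat.card S := (frob_isComplement G S hdisj htop).symm.index_eq_card
  have hcardΓ : Nat.card G * Nat.card S = Nat.card Γ := by
    rw [← hindex]
    exact Subgroup.card_mul_index G
  -- the tensor decomposition
  have hcomm : ∀ (c : C) (u : S), Commute (C.subtype c) (S.subtype u) := fun c u => hcommC c c.2 u u.2
  let ι : C × S →* Γ := MonoidHom.noncommCoprod C.subtype S.subtype hcomm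
  obtain ⟨γ, l, hγ, hdec⟩ := exists_tensor_decomp hScomm (χh.2.isCharacter.comp ι)
  have hdec' : ∀ (c : C) (u : S), (χh : Γ → ℂ) ((c : Γ) * (u : Γ)) = ∑ i, γ i c * ((l i u : ℂˣ) : ℂ) :=
    fun c u => hdec c u
  choose n hn' using fun i (η : IrrCharacter C) => (hγ i).classInner_nat η.2
  let E : IrrCharacter C → S → ℂ := fun η => ∑ i, (n i η) • (fun u : S => ((l i u : ℂˣ) : ℂ))
  have hE : ∀ η, IsCharacter S (E η) := fun η =>
    IsCharacter.sum _ _ fun i _ => ((isIrr_of_hom (l i)).isCharacter).nsmul _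
  have hEsum : ∀ η u, E η u = ∑ i, (n i η : ℂ) * ((l i u : ℂˣ) : ℂ) := by
    intro η u
    simp only [E, Finset.sum_apply]
    refine Finset.sum_congr rfl fun i _ => ?_
    rw [Pi.smul_apply, nsmul_eq_mul]
  have hEval : ∀ η (u : S), E η u = classInner (fun c : C => (χh : Γ → ℂ) ((c : Γ) * (u : Γ))) (η : C → ℂ) := by
    intro η u
    have h1 : (fun c : C => (χh : Γ → ℂ) ((c : Γ) * (u : Γ))) = ∑ i, ((l i u : ℂˣ) : ℂ) • γ i := by
      funext c
      simp only [Finset.sum_apply, Pi.smul_apply, smul_eq_mul]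
      rw [hdec']
      exact Finset.sum_congr rfl fun i _ => mul_comm _ _
    rw [h1, classInner_sum_left, hEsum]
    refine Finset.sum_congr rfl fun i _ => ?_
    rw [classInner_smul_left, hn' i η]
    ring
  have hpow : ∀ (c : C) (u : S) (m : ℕ), m.Coprime (Nat.card S) →
      (χh : Γ → ℂ) ((c : Γ) * ((u ^ m : S) : Γ)) = (χh : Γ → ℂ) ((c : Γ) * (u : Γ)) := by
    intro c u m hm
    have hcop' : Nat.Coprime (Nat.card S) (Nat.card G) := hcop.symm
    obtain ⟨r, hr1, hr2⟩ : ∃ r : ℕ, r ≡ m [MOD Nat.card S] ∧ r ≡ 1 [MOD Nat.card G] :=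
      ⟨_, (Nat.chineseRemainder hcop' m 1).2.1, (Nat.chineseRemainder hcop' m 1).2.2⟩
    have hrc : r.Coprime (Nat.card Γ) := by
      rw [← hcardΓ]
      apply Nat.Coprime.mul_right
      · rw [Nat.Coprime, Nat.ModEq.gcd_eq hr2]
        simp
      · rw [Nat.Coprime, Nat.ModEq.gcd_eq hr1]
        exact hm
    have hcu : Commute (c : Γ) (u : Γ) := hcommC c c.2 u u.2
    have h3 : ((c : Γ) * (u : Γ)) ^ r = (c : Γ) * ((u ^ m : S) : Γ) := by
      rw [hcu.mul_pow]
      have h4 : (c : Γ) ^ r = (c : Γ) ^ 1 := by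
        apply (pow_eq_pow_iff_modEq).mpr
        exact hr2.of_dvd (Subgroup.orderOf_dvd_natCard _ (hCG c.2))
      have h5 : (u : Γ) ^ r = (u : Γ) ^ m := by
        apply (pow_eq_pow_iff_modEq).mpr
        exact hr1.of_dvd (Subgroup.orderOf_dvd_natCard _ u.2)
      rw [h4, h5, pow_one]
      rfl
    rw [← h3]
    refine canonical_pow G χh.2 hχ1 ?_ ?_ hrc hr2 _
    · rw [hindex]
      exact hcop
    · rw [hindex]
      exact hdet.symm
  have hint : ∀ η u, ∃ z : ℤ, E η u = z := by
    intro η u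
    refine exists_int_of_fixed (hE η) u 1 (one_dvd _) (Nat.coprime_one_right _) (fun m hm _ => ?_)
    rw [hEval, hEval]
    congr 1
    funext c
    exact hpow c u m hm
  -- values off the identity
  have hL1 : ∀ u : S, u ≠ 1 → ∃ (b : IrrCharacter C) (e : ℤ), (e = 1 ∨ e = -1) ∧
      ∀ c : C, (χh : Γ → ℂ) ((c : Γ) * (u : Γ)) = (e : ℂ) * (b : C → ℂ) c := by
    intro u hu
    have hu' : (u : Γ) ≠ 1 := fun h => hu (Subtype.ext h)
    have huC : ∀ y, y ∈ C ↔ y ∈ G ∧ y * (u : Γ) = (u : Γ) * y := by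
      intro y
      rw [← hfpf u u.2 hu', Subgroup.mem_inf, Subgroup.mem_centralizer_singleton_iff]
    set F : C → ℂ := fun c => (χh : Γ → ℂ) ((c : Γ) * (u : Γ)) with hF
    have hFclass : IsClassFunction C F := by
      intro c c'
      simp only [hF]
      have h2 := hcommC c' c'.2 u u.2
      have h1 : ((c' * c * c'⁻¹ : C) : Γ) * (u : Γ) = (c' : Γ) * ((c : Γ) * (u : Γ)) * (c' : Γ)⁻¹ := by
        have h3 : (u : Γ) * (c' : Γ)⁻¹ = (c' : Γ)⁻¹ * (u : Γ) := by
          have : (c' : Γ)⁻¹ * ((c' : Γ) * (u : Γ)) * (c' : Γ)⁻¹ = (c' : Γ)⁻¹ * ((u : Γ) * c') * (c' : Γ)⁻¹ := by rw [h2]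
          simpa [mul_assoc] using this
        simp only [Subgroup.coe_mul, Subgroup.coe_inv]
        rw [mul_assoc ((c' : Γ) * c : Γ), ← h3]
        group
      rw [h1]
      exact χh.2.isClassFunction _ _
    have hgen : IsGeneralizedCharacter C F := by
      rw [classFunction_eq_sum hFclass]
      apply IsGeneralizedCharacter.sum
      intro η _
      obtain ⟨z, hz⟩ := hint η u
      have h1 : classInner F (η : C → ℂ) = z := by rw [← hz, hEval]
      rw [h1]
      exact η.2.isGeneralized.int_smul z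
    have hnorm1 : classInner F F = 1 := by
      have hF0 : ∀ x ∈ G, ∀ y, (fun y => (χh : Γ → ℂ) y * conj ((χh : Γ → ℂ) y)) (x * y * x⁻¹) =
          (fun y => (χh : Γ → ℂ) y * conj ((χh : Γ → ℂ) y)) y := by
        intro x _ y
        simp only
        rw [χh.2.isClassFunction]
      have hcu : (Nat.card G).Coprime (orderOf (u : Γ)) :=
        Nat.Coprime.coprime_dvd_right (Subgroup.orderOf_dvd_natCard _ u.2) hcop
      have h1 := sum_coset_centralizer G C (u : Γ) hcu hCG huC (fun y => (χh : Γ → ℂ) y * conj ((χh : Γ → ℂ) y)) hF0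
      have h2 := (coset_average G χh.2 hχ1 χh.2 rfl).2.2 rfl
      have h3 := congrFun h2 (u : Γ)
      have hC0 : (Nat.card C : ℂ) ≠ 0 := Nat.cast_ne_zero.mpr Nat.card_pos.ne'
      have hG0 : (Nat.card G : ℂ) ≠ 0 := Nat.cast_ne_zero.mpr Nat.card_pos.ne'
      rw [classInner_def]
      have h4 : ∑ g : G, (χh : Γ → ℂ) ((g : Γ) * (u : Γ)) * conj ((χh : Γ → ℂ) ((g : Γ) * (u : Γ))) = (Nat.card G : ℂ) := by
        rw [inv_mul_eq_iff_eq_mul₀ hG0, mul_one] at h3
        exact h3
      rw [h4] at h1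
      have h5 : ∑ c : C, F c * conj (F c) = (Nat.card C : ℂ) := by
        have h6 : (Nat.card G : ℂ) * ∑ c : C, F c * conj (F c) = (Nat.card G : ℂ) * (Nat.card C : ℂ) := by
          rw [mul_comm (Nat.card G : ℂ) (Nat.card C : ℂ)]
          exact h1.symm
        exact mul_left_cancel₀ hG0 h6
      rw [h5, inv_mul_cancel₀ hC0]
    rcases hgen.exists_of_norm_one hnorm1 with h | h
    · refine ⟨⟨F, h⟩, 1, Or.inl rfl, fun c => ?_⟩
      simp [hF]
    · refine ⟨⟨-F, h⟩, -1, Or.inr rfl, fun c => ?_⟩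
      simp [hF]
  -- the coefficients off the identity
  have hEe : ∀ (u : S) (b : IrrCharacter C) (e : ℤ), (∀ c : C, (χh : Γ → ℂ) ((c : Γ) * (u : Γ)) = (e : ℂ) * (b : C → ℂ) c) →
      ∀ η, E η u = if b = η then (e : ℂ) else 0 := by
    intro u b e h η
    rw [hEval]
    have h1 : (fun c : C => (χh : Γ → ℂ) ((c : Γ) * (u : Γ))) = (e : ℂ) • (b : C → ℂ) := by
      funext c
      rw [h c]
      rfl
    rw [h1, classInner_smul_left]
    by_cases hb : b = η
    · subst hb
      rw [classInner_irr_self b.2, if_pos rfl, mul_one]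
    · rw [if_neg hb, classInner_irr_ne b.2 η.2 (fun h2 => hb (Subtype.ext h2)), mul_zero]
  -- congruences
  have hcong : ∀ (q : ℕ) (hq : q.Prime) (w : S) (j : ℕ), orderOf w = q ^ j → ∀ (η : IrrCharacter C) (u : S)
      (M : Ideal AlgInt) (hM : IsPModular q M), E η (u * w) - E η u ∈ locI hM.isPrime := by
    intro q hq w j hw η u M hM
    haveI : Fact q.Prime := ⟨hq⟩
    have hP := hM.isPrime
    rw [hEsum, hEsum, ← Finset.sum_sub_distrib]
    apply locI_sum
    intro i _
    have h1 : (n i η : ℂ) * ((l i (u * w) : ℂˣ) : ℂ) - (n i η : ℂ) * ((l i u : ℂˣ) : ℂ) =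
        ((n i η : ℂ) * ((l i u : ℂˣ) : ℂ)) * (((l i w : ℂˣ) : ℂ) - 1) := by
      rw [map_mul, Units.val_mul]
      ring
    rw [h1]
    apply locI_mul_left
    · apply mul_mem (locR_natCast _ _)
      apply locR_of_isIntegral
      have h2 : ((l i u : ℂˣ) : ℂ) ^ Nat.card S = 1 := by
        rw [← Units.val_pow_eq_pow_val, ← map_pow, pow_card_eq_one', map_one, Units.val_one]
      exact IsIntegral.of_pow Nat.card_pos (by rw [h2]; exact isIntegral_one)
    · apply CfsgLib.Block.root_sub_one_mem hM (k := j)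
      rw [← Units.val_pow_eq_pow_val, ← map_pow, ← hw, pow_orderOf_eq_one, map_one, Units.val_one]
  have hstep : ∀ (q : ℕ) (hq : q.Prime) (w : S) (j : ℕ), orderOf w = q ^ j → ∀ (η : IrrCharacter C) (u : S),
      u ≠ 1 → u * w ≠ 1 → (E η u ≠ 0 ↔ E η (u * w) ≠ 0) := by
    intro q hq w j hw η u hu huw
    obtain ⟨M, hM⟩ := exists_isPModular q hq
    have hP := hM.isPrime
    have hc := hcong q hq w j hw η u M hM
    have hone : ((1 : ℂ)) ∉ locI hP := one_notMem_locI hP
    have hunit : ∀ (v : S), v ≠ 1 → E η v ≠ 0 → E η v ∉ locI hP := by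
      intro v hv hne hmem
      obtain ⟨b, e, he, hb⟩ := hL1 v hv
      rw [hEe v b e hb η] at hne hmem
      split_ifs at hne hmem with h
      · rcases he with rfl | rfl
        · exact hone (by simpa using hmem)
        · apply hone
          have := (locI hP).neg_mem hmem
          simpa using this
      · exact hne rfl
    constructor
    · intro h1 h2
      rw [h2, zero_sub] at hc
      have := (locI hP).neg_mem hc
      rw [neg_neg] at this
      exact hunit u hu h1 this
    · intro h1 h2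
      rw [h2, sub_zero] at hc
      exact hunit _ huw h1 hc
  have hpath : ∀ N : ℕ, ∀ w : S, orderOf w = N → ∀ u : S, u ≠ 1 → u * w ≠ 1 → ∀ η : IrrCharacter C,
      (E η u ≠ 0 ↔ E η (u * w) ≠ 0) := by
    intro N
    induction N using Nat.strong_induction_on with
    | _ N IH =>
      intro w hw u hu huw η
      by_cases hw1 : w = 1
      · simp [hw1]
      have hN1 : orderOf w ≠ 1 := fun h => hw1 (orderOf_eq_one_iff.mp h)
      have hq := Nat.minFac_prime hN1
      have hqd := Nat.minFac_dvd (orderOf w)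
      set q := (orderOf w).minFac with hqdef
      haveI : Fact q.Prime := ⟨hq⟩
      obtain ⟨x, y, hxy, hc, ⟨j, hj⟩, hy⟩ := GF.exists_parts q w
      by_cases hy1 : y = 1
      · rw [hy1, mul_one] at hxy
        rw [hxy] at huw ⊢
        exact hstep q hq x j hj η u hu huw
      have hx1 : x ≠ 1 := by
        rintro rfl
        rw [one_mul] at hxy
        rw [hxy] at hqd
        have := Nat.Coprime.eq_one_of_dvd hy.symm hqd
        exact hq.one_lt.ne' this
      have hordcop : Nat.Coprime (orderOf x) (orderOf y) := by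
        rw [hj]
        exact (Nat.Coprime.pow_left j hy.symm)
      have hordmul : orderOf w = orderOf x * orderOf y := by
        rw [hxy]
        exact hc.orderOf_mul_eq_mul_orderOf_of_coprime hordcop
      have hx2 : 1 < orderOf x := by
        have h1 : orderOf x ≠ 1 := fun h => hx1 (orderOf_eq_one_iff.mp h)
        have h2 : 0 < orderOf x := orderOf_pos x
        omega
      have hy2 : 1 < orderOf y := by
        have h1 : orderOf y ≠ 1 := fun h => hy1 (orderOf_eq_one_iff.mp h)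
        have h2 : 0 < orderOf y := orderOf_pos y
        omega
      have hxlt : orderOf x < N := by
        rw [← hw, hordmul]
        nlinarith
      have hylt : orderOf y < N := by
        rw [← hw, hordmul]
        nlinarith
      by_cases hux : u * x = 1
      · have huy : u * y ≠ 1 := by
          intro h
          have h1 : x = y := by
            have h2 : u * x = u * y := by rw [hux, h]
            exact mul_left_cancel h2
          rw [← h1] at hordcop
          have h3 : orderOf x = 1 := by simpa using hordcop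
          omega
        have h1 := IH _ hylt y rfl u hu huy η
        have hrw : u * y * x = u * w := by
          rw [mul_assoc, hScomm y x, ← hxy]
        have h2 := IH _ hxlt x rfl (u * y) huy (by rw [hrw]; exact huw) η
        rw [hrw] at h2
        exact h1.trans h2
      · have h1 := IH _ hxlt x rfl u hu hux η
        have hrw : u * x * y = u * w := by
          rw [mul_assoc, ← hxy]
        have h2 := IH _ hylt y rfl (u * x) hux (by rw [hrw]; exact huw) η
        rw [hrw] at h2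
        exact h1.trans h2
  let s₀ : S := ⟨s, hsS⟩
  have hs₀ : s₀ ≠ 1 := fun h => hSgen (congrArg Subtype.val h)
  have hEs : ∀ η, E η s₀ = if β = η then (ε₀ : ℂ) else 0 :=
    hEe s₀ β ε₀ (fun c => hβ c s hs)
  have hβs : E β s₀ ≠ 0 := by
    rw [hEs, if_pos rfl]
    rcases hε₀ with rfl | rfl <;> simp
  have hmain : ∀ u : S, u ≠ 1 → ∃ e : ℤ, (e = 1 ∨ e = -1) ∧
      (∀ c : C, (χh : Γ → ℂ) ((c : Γ) * (u : Γ)) = (e : ℂ) * (β : C → ℂ) c) ∧ E β u = e ∧ ∀ η, η ≠ β → E η u = 0 := by
    intro u hu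
    obtain ⟨b, e, he, hb⟩ := hL1 u hu
    have hp := hpath _ (s₀⁻¹ * u) rfl s₀ hs₀ (by simpa using hu) β
    rw [mul_inv_cancel_left] at hp
    have h1 := hp.mp hβs
    have hbβ : b = β := by
      by_contra hne
      apply h1
      rw [hEe u b e hb β, if_neg hne]
    subst hbβ
    refine ⟨e, he, hb, ?_, ?_⟩
    · rw [hEe u b e hb b, if_pos rfl]
    · intro η hη
      rw [hEe u b e hb η, if_neg (fun h => hη h.symm)]
  obtain ⟨t, ε, lam, hε, hone, hoff⟩ := cyc_struct hScomm hn (hE β) (fun x hx => by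
    obtain ⟨e, he, -, h2, -⟩ := hmain x hx
    exact ⟨e, he, h2⟩)
  have hεε : (ε : ℂ) * (ε : ℂ) = 1 := by
    rcases hε with rfl | rfl <;> simp
  have hlam1 : (lam : S → ℂ) 1 = 1 := by
    apply CfsgLib.Char.degree_one_of_abelian_quot (⊥ : Subgroup S) lam.2
    · intro n hn
      rw [Subgroup.mem_bot.mp hn]
    · intro x y
      rw [Subgroup.mem_bot, hScomm x y]
      group
  -- the coefficients at the identity
  have hk : ∀ η : IrrCharacter C, ∃ k : ℕ, η ≠ β → E η 1 = (Nat.card S : ℂ) * k := by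
    intro η
    obtain ⟨k, hk⟩ := (hE η).classInner_nat (isIrrCharacter_one (G := S))
    refine ⟨k, fun hη => ?_⟩
    rw [classInner_def] at hk
    have h1 : ∑ x : S, E η x * conj (1 : ℂ) = E η 1 := by
      rw [Finset.sum_eq_single (1 : S)]
      · simp
      · intro x _ hx
        obtain ⟨e, -, -, -, h3⟩ := hmain x hx
        rw [h3 η hη, zero_mul]
      · intro h
        exact absurd (Finset.mem_univ _) h
    rw [h1] at hk
    have hS0 : (Nat.card S : ℂ) ≠ 0 := Nat.cast_ne_zero.mpr Nat.card_pos.ne'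
    rw [inv_mul_eq_iff_eq_mul₀ hS0] at hk
    exact hk
  choose k hk' using hk
  let K : IrrCharacter C → ℕ := fun η => if η = β then t else k η
  let ϑ : C → ℂ := ∑ η, K η • (η : C → ℂ)
  have hϑ : IsCharacter C ϑ := IsCharacter.sum _ _ fun η _ => η.2.isCharacter.nsmul _
  have hϑv : ∀ c, ϑ c = ∑ η, (K η : ℂ) * (η : C → ℂ) c := by
    intro c
    show (∑ η, K η • (η : C → ℂ)) c = _
    rw [Finset.sum_apply]
    refine Finset.sum_congr rfl fun η _ => ?_
    rw [Pi.smul_apply, nsmul_eq_mul]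
  have hres : (fun c : C => (χ : G → ℂ) ⟨c, hCG c.2⟩) =
      fun c => (Nat.card S : ℂ) * ϑ c + (ε : ℂ) * (β : C → ℂ) c := by
    funext c
    have h0 : (χ : G → ℂ) ⟨c, hCG c.2⟩ = (χh : Γ → ℂ) (c : Γ) := (hext ⟨c, hCG c.2⟩).symm
    have hcl : IsClassFunction C (fun c : C => (χh : Γ → ℂ) (c : Γ)) := (χh.2.isCharacter.restrict C).isClassFunction
    have h1 := classFunction_apply hcl c
    have h2 : ∀ η : IrrCharacter C, classInner (fun c : C => (χh : Γ → ℂ) (c : Γ)) (η : C → ℂ) = E η 1 := by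
      intro η
      rw [hEval]
      congr 1
      funext c
      simp
    rw [h0]
    rw [h1, hϑv, Finset.mul_sum, Finset.sum_congr rfl fun η _ => by rw [h2 η]]
    have h3 : ∀ η : IrrCharacter C, E η 1 * (η : C → ℂ) c =
        (Nat.card S : ℂ) * ((K η : ℂ) * (η : C → ℂ) c) + (if η = β then (ε : ℂ) * (β : C → ℂ) c else 0) := by
      intro η
      by_cases hη : η = β
      · subst hη
        simp only [K, if_true]
        rw [hone]
        ring
      · simp only [K, if_neg hη]
        rw [hk' η hη]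
        push_cast
        ring
    rw [Finset.sum_congr rfl fun η _ => h3 η, Finset.sum_add_distrib]
    congr 1
    simp
  refine ⟨ε, hε, ⟨(lam : S → ℂ), lam.2.isCharacter, hlam1, ?_, ?_⟩, ⟨ϑ, hϑ, hres⟩, ?_⟩
  · intro x
    by_cases hx : x = 1
    · rw [hx, hlam1, one_mul]
    · obtain ⟨e, he, -, h2, -⟩ := hmain x hx
      have h3 := hoff x hx
      rw [h2] at h3
      have hee : (e : ℂ) * (e : ℂ) = 1 := by
        rcases he with rfl | rfl <;> simp
      rw [h3] at hee
      calc (lam : S → ℂ) x * (lam : S → ℂ) x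
          = ((ε : ℂ) * (ε : ℂ)) * ((lam : S → ℂ) x * (lam : S → ℂ) x) := by rw [hεε, one_mul]
        _ = 1 := by rw [← hee]; ring
  · intro c x hx
    obtain ⟨e, -, h1, h2, -⟩ := hmain x hx
    rw [h1 c, ← h2, hoff x hx]
    ring
  · obtain ⟨m, hm⟩ := hϑ.map_one
    have h1 := congrFun hres 1
    have h2 : (χ : G → ℂ) ⟨((1 : C) : Γ), hCG (1 : C).2⟩ = (χ : G → ℂ) 1 := rfl
    simp only [h2] at h1
    rw [hm, ← BL.coe_deg χ, ← BL.coe_deg β] at h1
    refine ⟨m, ?_⟩
    have h3 : (((charDegree (χ : G → ℂ) : ℤ) - ε * (charDegree (β : C → ℂ) : ℤ) : ℤ) : ℂ) =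
        (((Nat.card S : ℤ) * (m : ℤ) : ℤ) : ℂ) := by
      push_cast
      rw [h1]
      ring
    exact_mod_cast h3

end Main

end CfsgLib.Char.FPF
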