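import Mathlib
import Cfsg.Agent.Lib.Char.GalOdd

/-!
# Fully ramified sections with Frobenius action
-/

set_option linter.unusedSectionVars false
set_option linter.style.haveILetI false
set_option linter.unusedSimpArgs false
set_option linter.unusedVariables false

namespace CfsgLib.Char.FRC

open Cfsg CfsgLib.Char
open scoped ComplexConjugate Pointwise

universe u

theorem int_step {ι : Type*} (S : Finset ι) (a : ι → ℕ) (m e : ℕ) (hm : 1 < m) (hcard : S.card = m)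
    (hsum : ∑ i ∈ S, a i = e) (hsq : m * ∑ i ∈ S, a i ^ 2 + 1 = e ^ 2 + m) :
    (m : ℤ) ∣ (e : ℤ) - 1 ∨ (m : ℤ) ∣ (e : ℤ) + 1 := by
  obtain ⟨q, r, hr, he⟩ : ∃ q r : ℕ, r < m ∧ e = m * q + r :=
    ⟨e / m, e % m, Nat.mod_lt _ (by omega), (Nat.div_add_mod e m).symm⟩
  let b : ι → ℤ := fun i => (a i : ℤ) - q
  have h1 : ∑ i ∈ S, b i = r := by
    simp only [b, Finset.sum_sub_distrib, Finset.sum_const, hcard, nsmul_eq_mul]
    have : ((∑ i ∈ S, a i : ℕ) : ℤ) = (m : ℤ) * q + r := by rw [hsum, he]; push_cast; ring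
    push_cast at this
    rw [this]; ring
  have h2 : (m : ℤ) * ∑ i ∈ S, b i ^ 2 + 1 = (r : ℤ) ^ 2 + m := by
    have h3 : ∑ i ∈ S, b i ^ 2 =
        ∑ i ∈ S, (a i : ℤ) ^ 2 - 2 * q * ∑ i ∈ S, (a i : ℤ) + (m : ℤ) * q ^ 2 := by
      simp only [b, sub_sq, Finset.sum_add_distrib, Finset.sum_sub_distrib, Finset.sum_const, hcard,
        nsmul_eq_mul, Finset.mul_sum]
      congr 1
      congr 1
      refine Finset.sum_congr rfl fun i _ => by ring
    have h4 : (∑ i ∈ S, (a i : ℤ)) = (m : ℤ) * q + r := by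
      have : ((∑ i ∈ S, a i : ℕ) : ℤ) = (m : ℤ) * q + r := by rw [hsum, he]; push_cast; ring
      push_cast at this
      exact this
    have h5 : (m : ℤ) * ∑ i ∈ S, (a i : ℤ) ^ 2 + 1 = ((m : ℤ) * q + r) ^ 2 + m := by
      have : ((m * ∑ i ∈ S, a i ^ 2 + 1 : ℕ) : ℤ) = ((e ^ 2 + m : ℕ) : ℤ) := by rw [hsq]
      push_cast at this
      rw [this, he]
      push_cast
      ring
    rw [h3, h4]
    nlinarith [h5]
  have h3 : ∑ i ∈ S, b i ≤ ∑ i ∈ S, b i ^ 2 :=
    Finset.sum_le_sum fun i _ => Int.le_self_sq _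
  rw [h1] at h3
  have hm' : (0 : ℤ) < m := by exact_mod_cast (by omega : 0 < m)
  have h4 : (m : ℤ) * r ≤ (r : ℤ) ^ 2 + m - 1 := by
    have := mul_le_mul_of_nonneg_left h3 hm'.le
    linarith
  have hr' : (r : ℤ) < m := by exact_mod_cast hr
  rcases Nat.lt_or_ge r 1 with h0 | h0
  · -- r = 0 impossible
    have hr0 : r = 0 := by omega
    exfalso
    rw [hr0] at h2
    have h6 : (m : ℤ) * (∑ i ∈ S, b i ^ 2 - 1) = - 1 := by push_cast at h2; linarith
    have h7 : (m : ℤ) ∣ 1 := ⟨-(∑ i ∈ S, b i ^ 2 - 1), by linarith⟩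
    have := Int.eq_one_of_dvd_one hm'.le h7
    have hm2 : (1 : ℤ) < m := by exact_mod_cast hm
    omega
  · by_cases hr1 : r = 1
    · left
      refine ⟨(q : ℤ), ?_⟩
      rw [he, hr1]; push_cast; ring
    · right
      have hr2 : r = m - 1 := by
        by_contra hne
        have h5 : r + 2 ≤ m := by omega
        have h6 : (2 : ℤ) ≤ r := by exact_mod_cast (by omega : 2 ≤ r)
        have h7 : (r : ℤ) + 2 ≤ m := by exact_mod_cast h5
        nlinarith
      refine ⟨(q : ℤ) + 1, ?_⟩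
      have : m = r + 1 := by omega
      rw [he, this]; push_cast; ring

variable {U : Type u} [Group U] [Fintype U] (M : Subgroup U) [hM : M.Normal] [Fintype M]

theorem sum_norm_eq {ψ : U → ℂ} {θ : M → ℂ}
    (hθ : IsIrrCharacter M θ) (e : ℕ) (hres : ∀ n : M, ψ n = (e : ℂ) * θ n)
    (hnorm : ∀ u : U, u ∉ M → ∑ n : M, ‖ψ (u * n)‖ ^ 2 = (Nat.card M : ℝ)) :
    ((M.index : ℂ) * classInner ψ ψ) = (e : ℂ) ^ 2 + M.index - 1 := by
  classical
  have hcardM : (0 : ℝ) < Nat.card M := by exact_mod_cast Nat.card_pos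
  have hcardU : (0 : ℝ) < Nat.card U := by exact_mod_cast Nat.card_pos
  have hidx : (Nat.card M : ℝ) * M.index = Nat.card U := by
    exact_mod_cast Subgroup.card_mul_index M
  -- the sum of squares over `M`
  have hθnorm : ∑ n : M, ‖θ n‖ ^ 2 = (Nat.card M : ℝ) := by
    have h1 := classInner_irr_self hθ
    rw [classInner_self_eq_real] at h1
    have h2 : (Nat.card M : ℝ)⁻¹ * ∑ g, ‖θ g‖ ^ 2 = 1 := by exact_mod_cast h1
    field_simp at h2
    linarith
  have hM1 : ∀ u : U, u ∈ M → ∑ n : M, ‖ψ (u * n)‖ ^ 2 = (e : ℝ) ^ 2 * Nat.card M := by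
    intro u hu
    have h1 : ∑ n : M, ‖ψ (u * n)‖ ^ 2 = ∑ n : M, ‖ψ (n : U)‖ ^ 2 :=
      Fintype.sum_equiv (Equiv.mulLeft (⟨u, hu⟩ : M)) _ _ (fun n => by simp)
    rw [h1]
    have h2 : ∀ n : M, ‖ψ (n : U)‖ ^ 2 = (e : ℝ) ^ 2 * ‖θ n‖ ^ 2 := by
      intro n
      rw [hres n, norm_mul, Complex.norm_natCast, mul_pow]
    rw [Finset.sum_congr rfl fun n _ => h2 n, ← Finset.mul_sum, hθnorm]
  -- double counting
  have hdouble : (Nat.card M : ℝ) * ∑ u : U, ‖ψ u‖ ^ 2 = ∑ u : U, ∑ n : M, ‖ψ (u * n)‖ ^ 2 := by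
    rw [Finset.sum_comm]
    have : ∀ n : M, ∑ u : U, ‖ψ (u * n)‖ ^ 2 = ∑ u : U, ‖ψ u‖ ^ 2 := fun n =>
      Fintype.sum_equiv (Equiv.mulRight (n : U)) _ _ (fun u => by simp)
    rw [Finset.sum_congr rfl fun n _ => this n]
    simp [Nat.card_eq_fintype_card]
  have hsplit : ∑ u : U, ∑ n : M, ‖ψ (u * n)‖ ^ 2 =
      (Nat.card M : ℝ) * ((e : ℝ) ^ 2 * Nat.card M) + ((Nat.card U : ℝ) - Nat.card M) * Nat.card M := by
    have h1 : ∀ u : U, ∑ n : M, ‖ψ (u * n)‖ ^ 2 =
        if u ∈ M then (e : ℝ) ^ 2 * Nat.card M else (Nat.card M : ℝ) := by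
      intro u
      split_ifs with h
      · exact hM1 u h
      · exact hnorm u h
    rw [Finset.sum_congr rfl fun u _ => h1 u, Finset.sum_ite]
    simp only [Finset.sum_const, nsmul_eq_mul]
    have h2 : ((Finset.univ.filter (fun u : U => u ∈ M)).card : ℝ) = Nat.card M := by
      have : (Finset.univ.filter (fun u : U => u ∈ M)).card = Fintype.card M :=
        (Fintype.card_subtype _).symm
      rw [this, Nat.card_eq_fintype_card]
    have h3 : ((Finset.univ.filter (fun u : U => ¬ u ∈ M)).card : ℝ) = (Nat.card U : ℝ) - Nat.card M := by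
      have := Finset.card_filter_add_card_filter_not (s := (Finset.univ : Finset U)) (fun u : U => u ∈ M)
      have h4 : ((Finset.univ.filter (fun u : U => u ∈ M)).card : ℝ) +
          ((Finset.univ.filter (fun u : U => ¬ u ∈ M)).card : ℝ) = (Nat.card U : ℝ) := by
        rw [Nat.card_eq_fintype_card, Fintype.card]
        exact_mod_cast this
      linarith
    rw [h2, h3]
  have hsum : ∑ u : U, ‖ψ u‖ ^ 2 = (e : ℝ) ^ 2 * Nat.card M + (Nat.card U : ℝ) - Nat.card M := by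
    have h1 := hdouble.trans hsplit
    have : (Nat.card M : ℝ) * (∑ u : U, ‖ψ u‖ ^ 2) =
        (Nat.card M : ℝ) * ((e : ℝ) ^ 2 * Nat.card M + (Nat.card U : ℝ) - Nat.card M) := by
      rw [h1]; ring
    exact mul_left_cancel₀ hcardM.ne' this
  rw [classInner_self_eq_real, hsum]
  have hfin : (M.index : ℝ) * ((Nat.card U : ℝ)⁻¹ * ((e : ℝ) ^ 2 * Nat.card M + (Nat.card U : ℝ) - Nat.card M)) =
      (e : ℝ) ^ 2 + M.index - 1 := by
    rw [← hidx]
    have hi : (0 : ℝ) < M.index := by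
      have : 0 < M.index := Nat.pos_of_ne_zero (Subgroup.index_ne_zero_of_finite)
      exact_mod_cast this
    field_simp
  exact_mod_cast hfin

theorem abstract_main (hcyc : IsCyclic (U ⧸ M)) {θ : M → ℂ} (hθ : IsIrrCharacter M θ)
    (hinv : ∀ (g : U) (n : M), θ ⟨g * n * g⁻¹, hM.conj_mem (n : U) n.2 g⟩ = θ n)
    {ψ : U → ℂ} (hψ : IsCharacter U ψ) (e : ℕ) (hres : ∀ n : M, ψ n = (e : ℂ) * θ n)
    (hnorm : ∀ u : U, u ∉ M → ∑ n : M, ‖ψ (u * n)‖ ^ 2 = (Nat.card M : ℝ))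
    (hm : 1 < M.index) : (M.index : ℤ) ∣ (e : ℤ) - 1 ∨ (M.index : ℤ) ∣ (e : ℤ) + 1 := by
  classical
  obtain ⟨d, hd⟩ := (isCharacter_indFun M hθ.isCharacter).exists_coeff
  obtain ⟨a, ha⟩ := hψ.exists_coeff
  have hdval : ∀ β : IrrCharacter U, classInner (indFun M θ) (β : U → ℂ) = d β := by
    intro β
    rw [hd]
    exact classInner_sum_coeff_nat d β
  have hext : ∀ β : IrrCharacter U, d β ≠ 0 → ∀ n : M, (β : U → ℂ) n = θ n := by
    intro β hβ
    apply restrict_eq_of_cyclic_quot M hcyc hθ hinv β.2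
    intro h0
    have := hdval β
    rw [frobenius M θ β.2.isClassFunction, ← conj_classInner, h0, map_zero] at this
    exact hβ (by exact_mod_cast this.symm)
  have hd1 : ∀ β, d β ≠ 0 → d β = 1 := by
    intro β hβ
    have h1 := hdval β
    rw [frobenius M θ β.2.isClassFunction] at h1
    have : (fun h : M => (β : U → ℂ) h) = θ := funext (hext β hβ)
    rw [this, classInner_irr_self hθ] at h1
    exact_mod_cast h1.symm
  set S := Finset.univ.filter (fun β : IrrCharacter U => d β ≠ 0) with hSdef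
  have hnsq : ∀ c : IrrCharacter U → ℕ, classInner (∑ β, c β • (β : U → ℂ)) (∑ β, c β • (β : U → ℂ)) =
      ((∑ β, c β ^ 2 : ℕ) : ℂ) := by
    intro c
    rw [classInner_nsum]
    push_cast
    refine Finset.sum_congr rfl fun β _ => ?_
    rw [Finset.sum_eq_single β]
    · rw [classInner_irr_self β.2]
      ring
    · intro β' _ hne
      rw [classInner_irr_ne β.2 β'.2 (fun h => hne (Subtype.ext h.symm)), mul_zero]
    · intro h
      exact absurd (Finset.mem_univ _) h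
  have hS : S.card = M.index := by
    have h1 := norm_ind_invariant M hθ hinv
    rw [hd, hnsq] at h1
    have h2 : ∑ β, d β ^ 2 = M.index := by exact_mod_cast h1
    rw [← h2, hSdef, Finset.card_filter]
    refine Finset.sum_congr rfl fun β _ => ?_
    by_cases h : d β = 0
    · simp [h]
    · simp [h, hd1 β h]
  have hdegθ := hθ.map_one_ne_zero
  -- the sum of the `a`
  have he : ∑ β ∈ S, a β = e := by
    have h1 := frobenius' M θ hψ.isClassFunction
    have h2 : (fun h : M => ψ h) = (e : ℂ) • θ := by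
      funext n
      rw [hres n]
      rfl
    rw [h2, classInner_smul_left, classInner_irr_self hθ, mul_one, hd] at h1
    have h3 : classInner ψ (∑ β, d β • (β : U → ℂ)) = ((∑ β ∈ S, a β : ℕ) : ℂ) := by
      simp_rw [← Nat.cast_smul_eq_nsmul ℂ]
      rw [classInner_sum_right]
      simp_rw [classInner_smul_right, Complex.conj_natCast]
      rw [hSdef, Finset.sum_filter]
      push_cast
      refine Finset.sum_congr rfl fun β _ => ?_
      have h5 : classInner ψ (β : U → ℂ) = a β := by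
        rw [ha]
        exact classInner_sum_coeff_nat a β
      rw [h5]
      by_cases h : d β = 0
      · simp [h]
      · simp [h, hd1 β h]
    rw [h3] at h1
    exact_mod_cast h1
  -- `a` vanishes off `S`
  have ha0 : ∀ β, β ∉ S → a β = 0 := by
    have h1 : ψ 1 = ∑ β, (a β : ℂ) * (β : U → ℂ) 1 := by
      rw [ha]
      simp [Finset.sum_apply]
    have h2 : ψ 1 = (e : ℂ) * θ 1 := hres 1
    have h3 : ∀ β ∈ S, (β : U → ℂ) 1 = θ 1 := by
      intro β hβ
      exact hext β (Finset.mem_filter.mp hβ).2 1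
    rw [← Finset.sum_filter_add_sum_filter_not Finset.univ (fun β : IrrCharacter U => d β ≠ 0)] at h1
    have h4 : ∑ β ∈ Finset.univ.filter (fun β : IrrCharacter U => d β ≠ 0), (a β : ℂ) * (β : U → ℂ) 1 =
        (e : ℂ) * θ 1 := by
      rw [Finset.sum_congr rfl fun β hβ => by rw [h3 β hβ], ← Finset.sum_mul, ← he]
      push_cast
      rfl
    rw [h4, h2] at h1
    have h5 : ∑ β ∈ Finset.univ.filter (fun β : IrrCharacter U => ¬ d β ≠ 0), (a β : ℂ) * (β : U → ℂ) 1 = 0 := by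
      linear_combination -h1
    choose deg hdeg0 hdeg using fun β : IrrCharacter U => β.2.map_one
    have h6 : ∑ β ∈ Finset.univ.filter (fun β : IrrCharacter U => ¬ d β ≠ 0), a β * deg β = 0 := by
      have : ((∑ β ∈ Finset.univ.filter (fun β : IrrCharacter U => ¬ d β ≠ 0), a β * deg β : ℕ) : ℂ) = 0 := by
        push_cast
        rw [← h5]
        refine Finset.sum_congr rfl fun β _ => ?_
        rw [hdeg β]
      exact_mod_cast this
    intro β hβ
    have h7 := (Finset.sum_eq_zero_iff.mp h6) β (by simpa [hSdef] using hβ)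
    rcases Nat.mul_eq_zero.mp h7 with h8 | h8
    · exact h8
    · have := hdeg0 β
      omega
  have hsq := sum_norm_eq M hθ e hres hnorm
  have hψψ : classInner ψ ψ = ((∑ β, a β ^ 2 : ℕ) : ℂ) := by
    rw [ha]
    exact hnsq a
  rw [hψψ] at hsq
  have hsumsq : ∑ β, a β ^ 2 = ∑ β ∈ S, a β ^ 2 := by
    symm
    apply Finset.sum_subset (Finset.subset_univ _)
    intro β _ hβ
    rw [ha0 β hβ]
    simp
  rw [hsumsq] at hsq
  refine int_step S a M.index e hm hS he ?_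
  have : ((M.index * ∑ β ∈ S, a β ^ 2 + 1 : ℕ) : ℂ) = ((e ^ 2 + M.index : ℕ) : ℂ) := by
    push_cast at hsq ⊢
    rw [hsq]
    ring
  exact_mod_cast this

section Concrete

variable {Γ : Type u} [Group Γ] [Fintype Γ] (G N : Subgroup Γ) [hG : G.Normal] [hN : N.Normal]
  [Fintype G] [Fintype N]

theorem exists_conj_rep (hNG : N ≤ G)
    (hfrob : ∀ x : Γ, x ∉ G → ∀ g : Γ, g ∈ G → x * g * x⁻¹ * g⁻¹ ∈ N → g ∈ N)
    (y : Γ) (hy : y ∉ G) (g : Γ) (hg : g ∈ G) :
    ∃ t ∈ G, ∃ n ∈ N, g = y⁻¹ * t⁻¹ * y * t * n := by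
  classical
  let K := N.subgroupOf G
  haveI : K.Normal := hN.subgroupOf G
  let τ : G →* G := (MulAut.conjNormal y⁻¹ : MulAut G).toMonoidHom
  have hτ : ∀ t : G, ((τ t : G) : Γ) = y⁻¹ * t * y := by
    intro t
    simp [τ, MulAut.conjNormal_apply]
  have hK : K ≤ K.comap τ := by
    intro n hn
    simp only [Subgroup.mem_comap, K, Subgroup.mem_subgroupOf] at hn ⊢
    rw [hτ]
    simpa using hN.conj_mem _ hn y⁻¹
  let σ : (G ⧸ K) →* (G ⧸ K) := QuotientGroup.map K K τ hK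
  have hσ : ∀ t : G, σ (t : G ⧸ K) = ((τ t : G) : G ⧸ K) := fun t => rfl
  let Φ : (G ⧸ K) → (G ⧸ K) := fun q => (σ q)⁻¹ * q
  have hy' : y⁻¹ ∉ G := fun h => hy (by simpa using G.inv_mem h)
  have hfix : ∀ q : G ⧸ K, σ q = q → q = 1 := by
    intro q hq
    obtain ⟨w, rfl⟩ := QuotientGroup.mk_surjective q
    rw [hσ] at hq
    have h1 : ((τ w * w⁻¹ : G) : G ⧸ K) = 1 := by
      rw [QuotientGroup.mk_mul, QuotientGroup.mk_inv, hq, mul_inv_cancel]
    have h2 : τ w * w⁻¹ ∈ K := (QuotientGroup.eq_one_iff _).mp h1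
    have h3 : ((τ w * w⁻¹ : G) : Γ) ∈ N := h2
    have h4 : (w : Γ) ∈ N := by
      apply hfrob y⁻¹ hy' w w.2
      rw [Subgroup.coe_mul, hτ] at h3
      simpa using h3
    exact (QuotientGroup.eq_one_iff _).mpr h4
  have hinj : Function.Injective Φ := by
    intro p q h
    have h0 : (σ p)⁻¹ * p = (σ q)⁻¹ * q := h
    have h1 : σ (q * p⁻¹) = q * p⁻¹ := by
      rw [map_mul, map_inv]
      have h2 : σ q * (σ p)⁻¹ * p = q := by rw [mul_assoc, h0, mul_inv_cancel_left]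
      rw [eq_mul_inv_iff_mul_eq]
      exact h2
    have h2 := hfix _ h1
    exact (mul_inv_eq_one.mp h2).symm
  have hsurj : Function.Surjective Φ := Finite.injective_iff_surjective.mp hinj
  obtain ⟨q, hq⟩ := hsurj ((⟨g, hg⟩ : G) : G ⧸ K)
  obtain ⟨t, rfl⟩ := QuotientGroup.mk_surjective q
  have h1 : (((τ t)⁻¹ * t : G) : G ⧸ K) = ((⟨g, hg⟩ : G) : G ⧸ K) := by
    rw [QuotientGroup.mk_mul, QuotientGroup.mk_inv, ← hσ]
    exact hq
  have h2 : ((τ t)⁻¹ * t : G)⁻¹ * ⟨g, hg⟩ ∈ K := QuotientGroup.eq.mp h1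
  have h3 : ((((τ t)⁻¹ * t : G)⁻¹ * ⟨g, hg⟩ : G) : Γ) ∈ N := h2
  refine ⟨t, t.2, _, h3, ?_⟩
  simp only [Subgroup.coe_mul, Subgroup.coe_inv, hτ]
  group

theorem sum_norm_coset (hNG : N ≤ G)
    (hfrob : ∀ x : Γ, x ∉ G → ∀ g : Γ, g ∈ G → x * g * x⁻¹ * g⁻¹ ∈ N → g ∈ N)
    {ψ : Γ → ℂ} (hψ : IsClassFunction Γ ψ) (y : Γ) (hy : y ∉ G) (g : Γ) (hg : g ∈ G) :
    ∑ n : N, ‖ψ (y * (g * n))‖ ^ 2 = ∑ n : N, ‖ψ (y * n)‖ ^ 2 := by
  classical
  obtain ⟨t, ht, n₀, hn₀, rfl⟩ := exists_conj_rep G N hNG hfrob y hy g hg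
  let e : N → N := fun n => ⟨t * n₀ * n * t⁻¹, by
    have := hN.conj_mem _ (N.mul_mem hn₀ n.2) t
    simpa [mul_assoc] using this⟩
  have he : Function.Injective e := by
    intro a b h
    have h1 : t * n₀ * a * t⁻¹ = t * n₀ * b * t⁻¹ := congrArg Subtype.val h
    have h2 : (a : Γ) = b := by
      have h3 := mul_right_cancel h1
      exact mul_left_cancel h3
    exact Subtype.ext h2
  refine Fintype.sum_bijective e (Finite.injective_iff_bijective.mp he) _ _ fun n => ?_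
  have h1 : y * (y⁻¹ * t⁻¹ * y * t * n₀ * n) = t⁻¹ * (y * (t * n₀ * n * t⁻¹)) * t⁻¹⁻¹ := by group
  rw [h1]
  have h2 := hψ (y * (t * n₀ * n * t⁻¹)) t⁻¹
  rw [h2]

theorem coset_norm (hNG : N ≤ G)
    (hfrob : ∀ x : Γ, x ∉ G → ∀ g : Γ, g ∈ G → x * g * x⁻¹ * g⁻¹ ∈ N → g ∈ N)
    {ψ : Γ → ℂ} (hψ : IsIrrCharacter Γ ψ) (hψG : IsIrrCharacter G (fun g : G => ψ g))
    (y : Γ) (hy : y ∉ G) :
    ∑ n : N, ‖ψ (y * n)‖ ^ 2 = (Nat.card N : ℝ) := by
  classical
  have h1 := (coset_average G hψ hψG hψ rfl).2.2 rfl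
  have h2 := congrFun h1 y
  have hcomm : ∀ g : Γ, ψ (g * y) = ψ (y * g) := by
    intro g
    have := hψ.isClassFunction (y * g) g
    rw [← this]
    congr 1
    group
  have hG0 : (Nat.card G : ℂ) ≠ 0 := by exact_mod_cast Nat.card_pos.ne'
  have h3 : ∑ g : G, ‖ψ (y * g)‖ ^ 2 = (Nat.card G : ℝ) := by
    have h4 : ((∑ g : G, ‖ψ (y * g)‖ ^ 2 : ℝ) : ℂ) = (Nat.card G : ℂ) := by
      have h5 : ∑ g : G, ψ (g * y) * conj (ψ (g * y)) = (Nat.card G : ℂ) := by
        rw [inv_mul_eq_iff_eq_mul₀ hG0, mul_one] at h2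
        exact h2
      rw [← h5]
      push_cast
      refine Finset.sum_congr rfl fun g _ => ?_
      rw [Complex.mul_conj', hcomm]
    exact_mod_cast h4
  have hcardG : (0 : ℝ) < Nat.card G := by exact_mod_cast Nat.card_pos
  have hdouble : ∑ g : G, ∑ n : N, ‖ψ (y * ((g : Γ) * n))‖ ^ 2 =
      (Nat.card G : ℝ) * ∑ n : N, ‖ψ (y * n)‖ ^ 2 := by
    rw [Finset.sum_congr rfl fun (g : G) _ => sum_norm_coset G N hNG hfrob hψ.isClassFunction y hy (g : Γ) g.2]
    simp [Nat.card_eq_fintype_card]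
  have hdouble2 : ∑ g : G, ∑ n : N, ‖ψ (y * ((g : Γ) * n))‖ ^ 2 =
      (Nat.card N : ℝ) * (Nat.card G : ℝ) := by
    rw [Finset.sum_comm]
    have h5 : ∀ n : N, ∑ g : G, ‖ψ (y * ((g : Γ) * n))‖ ^ 2 = (Nat.card G : ℝ) := by
      intro n
      rw [← h3]
      exact Fintype.sum_equiv (Equiv.mulRight (⟨n, hNG n.2⟩ : G)) _ _ (fun g => by simp)
    rw [Finset.sum_congr rfl fun n _ => h5 n]
    simp [Nat.card_eq_fintype_card]
  have h6 := hdouble.symm.trans hdouble2
  have : (Nat.card G : ℝ) * ∑ n : N, ‖ψ (y * n)‖ ^ 2 = (Nat.card G : ℝ) * (Nat.card N : ℝ) := by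
    rw [h6]; ring
  exact mul_left_cancel₀ hcardG.ne' this

theorem main_concrete (hNG : N ≤ G) (hGlt : G ≠ ⊤) (hcyc : IsCyclic (Γ ⧸ G))
    (hfrob : ∀ x : Γ, x ∉ G → ∀ g : Γ, g ∈ G → x * g * x⁻¹ * g⁻¹ ∈ N → g ∈ N)
    (θ : IrrCharacter N)
    (hinv : ∀ (x : Γ) (n : N), (θ : N → ℂ) ⟨x * n * x⁻¹, hN.conj_mem n n.2 x⟩ = (θ : N → ℂ) n)
    (χ : IrrCharacter G) (e : ℕ)
    (hram : indFun (N.subgroupOf G) (fun n : N.subgroupOf G => (θ : N → ℂ) ⟨(n : G), n.2⟩) =
      fun g => (e : ℂ) * (χ : G → ℂ) g) :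
    (G.index : ℤ) ∣ (e : ℤ) - 1 ∨ (G.index : ℤ) ∣ (e : ℤ) + 1 := by
  classical
  letI : Fintype (N.subgroupOf G) := Fintype.ofFinite _
  set N' := N.subgroupOf G with hN'
  set θ' : N' → ℂ := fun n => (θ : N → ℂ) ⟨(n : G), n.2⟩ with hθ'
  have hθ'irr : IsIrrCharacter N' θ' :=
    isIrr_comp_equiv (Subgroup.subgroupOfEquivOfLe hNG) θ.2
  let E : G → ℂ := fun g => extendByZero N' θ' g
  have hE_inv : ∀ (x : Γ) (g : G), E ⟨x * g * x⁻¹, hG.conj_mem g g.2 x⟩ = E g := by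
    intro x g
    by_cases hg : (g : Γ) ∈ N
    · have h1 : (⟨x * g * x⁻¹, hG.conj_mem g g.2 x⟩ : G) ∈ N' := hN.conj_mem g hg x
      have h2 : g ∈ N' := hg
      simp only [E]
      rw [extendByZero_of_mem _ _ h1, extendByZero_of_mem _ _ h2]
      exact hinv x ⟨g, hg⟩
    · have h1 : (⟨x * g * x⁻¹, hG.conj_mem g g.2 x⟩ : G) ∉ N' := by
        intro h
        apply hg
        have h3 : x * g * x⁻¹ ∈ N := h
        have h4 := hN.conj_mem _ h3 x⁻¹
        simpa [mul_assoc] using h4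
      have h2 : g ∉ N' := hg
      simp only [E]
      rw [extendByZero_of_not_mem _ _ h1, extendByZero_of_not_mem _ _ h2]
  have hindE : ∀ g : G, indFun N' θ' g = (N'.index : ℂ) * E g := by
    intro g
    rw [indFun_def]
    have h1 : ∀ y : G, extendByZero N' θ' (y⁻¹ * g * y) = E g := by
      intro y
      have h2 := hE_inv ((y⁻¹ : G) : Γ) g
      have h3 : (⟨((y⁻¹ : G) : Γ) * g * ((y⁻¹ : G) : Γ)⁻¹, hG.conj_mem g g.2 _⟩ : G) = y⁻¹ * g * y := by
        apply Subtype.ext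
        simp
      rw [h3] at h2
      exact h2
    rw [Finset.sum_congr rfl fun y _ => h1 y]
    simp only [Finset.sum_const, Finset.card_univ, nsmul_eq_mul]
    rw [← mul_assoc]
    congr 1
    have h5 : (Nat.card N' : ℂ) * (N'.index : ℂ) = (Nat.card G : ℂ) := by
      exact_mod_cast Subgroup.card_mul_index N'
    have h6 : (Nat.card N' : ℂ) ≠ 0 := by exact_mod_cast Nat.card_pos.ne'
    rw [← Nat.card_eq_fintype_card, ← h5, ← mul_assoc, inv_mul_cancel₀ h6, one_mul]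
  have hramE : ∀ g : G, (e : ℂ) * (χ : G → ℂ) g = (N'.index : ℂ) * E g := by
    intro g
    rw [← hindE, hram]
  have hidx0 : (N'.index : ℂ) ≠ 0 := by
    have : N'.index ≠ 0 := Subgroup.index_ne_zero_of_finite
    exact_mod_cast this
  have he0 : (e : ℂ) ≠ 0 := by
    intro h0
    have h1 := hramE 1
    rw [h0, zero_mul] at h1
    have h2 : E 1 = θ' 1 := by
      simp only [E]
      exact extendByZero_of_mem _ _ N'.one_mem
    rw [h2] at h1
    exact (mul_ne_zero hidx0 hθ'irr.map_one_ne_zero) h1.symm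
  have hχN : ∀ n : N', (χ : G → ℂ) n = ((N'.index : ℂ) / e) * θ' n := by
    intro n
    have h1 := hramE n
    have h2 : E n = θ' n := by
      simp only [E]
      exact extendByZero_coe _ _ n
    rw [h2] at h1
    field_simp
    linear_combination h1
  -- k = e²
  have hke : (N'.index : ℂ) = (e : ℂ) ^ 2 := by
    have h1 := frobenius N' θ' χ.2.isClassFunction
    have h2 : classInner (indFun N' θ') (χ : G → ℂ) = (e : ℂ) := by
      rw [hram]
      have h3 : (fun g => (e : ℂ) * (χ : G → ℂ) g) = (e : ℂ) • (χ : G → ℂ) := rfl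
      rw [h3, classInner_smul_left, classInner_irr_self χ.2, mul_one]
    have h4 : (fun h : N' => (χ : G → ℂ) h) = ((N'.index : ℂ) / e) • θ' := by
      funext n
      exact hχN n
    rw [h2, h4, classInner_smul_right, classInner_irr_self hθ'irr, mul_one] at h1
    have h5 : conj ((N'.index : ℂ) / e) = (N'.index : ℂ) / e := by
      rw [map_div₀, Complex.conj_natCast, Complex.conj_natCast]
    rw [h5] at h1
    field_simp at h1
    linear_combination -h1
  have hχN2 : ∀ n : N', (χ : G → ℂ) n = (e : ℂ) * θ' n := by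
    intro n
    rw [hχN n, hke]
    congr 1
    field_simp
  -- invariance
  have hχinv : ∀ (x : Γ) (g : G), (χ : G → ℂ) ⟨x * g * x⁻¹, hG.conj_mem g g.2 x⟩ = (χ : G → ℂ) g := by
    intro x g
    have h1 := hramE ⟨x * g * x⁻¹, hG.conj_mem g g.2 x⟩
    rw [hE_inv x g, ← hramE g] at h1
    exact mul_left_cancel₀ he0 h1
  obtain ⟨ψ, hψ, hψχ⟩ := extends_of_cyclic_quotient G hcyc (χ : G → ℂ) χ.2 hχinv
  have hψG : IsIrrCharacter G (fun g : G => ψ g) := by
    have : (fun g : G => ψ g) = (χ : G → ℂ) := funext hψχ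
    rw [this]
    exact χ.2
  have hnormΓ := coset_norm G N hNG hfrob hψ hψG
  -- the generator
  obtain ⟨q, hq⟩ := hcyc.exists_generator
  obtain ⟨x, rfl⟩ := QuotientGroup.mk_surjective q
  have hxG : x ∉ G := by
    intro hx
    apply hGlt
    rw [eq_top_iff]
    intro g _
    have h1 := hq (g : Γ ⧸ G)
    rw [(QuotientGroup.eq_one_iff x).mpr hx] at h1
    have h2 : ((g : Γ ⧸ G)) = 1 := by simpa using h1
    exact (QuotientGroup.eq_one_iff g).mp h2
  let U : Subgroup Γ := Subgroup.zpowers x ⊔ N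
  have hNU : N ≤ U := le_sup_right
  have hxU : x ∈ U := (le_sup_left : Subgroup.zpowers x ≤ U) (Subgroup.mem_zpowers x)
  have hUG : ∀ u ∈ U, u ∈ G → u ∈ N := by
    intro u hu huG
    have h1 : u ∈ ((Subgroup.zpowers x : Set Γ) * (N : Set Γ)) := by
      rw [← Subgroup.mul_normal]
      exact hu
    obtain ⟨a, ha, n, hn, rfl⟩ := Set.mem_mul.mp h1
    obtain ⟨j, rfl⟩ := Subgroup.mem_zpowers_iff.mp ha
    have h2 : x ^ j ∈ G := by
      have h3 := G.mul_mem huG (G.inv_mem (hNG hn))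
      simpa using h3
    have h4 : x ^ j ∈ N := by
      apply hfrob x hxG _ h2
      have : x * x ^ j * x⁻¹ * (x ^ j)⁻¹ = 1 := by
        have h5 : x * x ^ j = x ^ j * x := (Commute.refl x).zpow_right j
        rw [h5]
        group
      rw [this]
      exact N.one_mem
    exact N.mul_mem h4 hn
  letI : Fintype U := Fintype.ofFinite _
  haveI hMn : (N.subgroupOf U).Normal := hN.subgroupOf U
  letI : Fintype (N.subgroupOf U) := Fintype.ofFinite _
  let f : U →* Γ ⧸ G := (QuotientGroup.mk' G).comp U.subtype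
  have hfs : Function.Surjective f := by
    intro q
    obtain ⟨j, hj⟩ := Subgroup.mem_zpowers_iff.mp (hq q)
    refine ⟨⟨x, hxU⟩ ^ j, ?_⟩
    rw [← hj, map_zpow]
    rfl
  have hker : f.ker = N.subgroupOf U := by
    ext u
    rw [MonoidHom.mem_ker, Subgroup.mem_subgroupOf]
    constructor
    · intro h
      exact hUG u u.2 ((QuotientGroup.eq_one_iff _).mp h)
    · intro h
      exact (QuotientGroup.eq_one_iff _).mpr (hNG h)
  have hidxU : (N.subgroupOf U).index = G.index := by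
    rw [← hker, Subgroup.index_ker, MonoidHom.range_eq_top.mpr hfs, Subgroup.card_top]
    rfl
  have hcycU : IsCyclic (U ⧸ N.subgroupOf U) := by
    let ε : (U ⧸ N.subgroupOf U) ≃* Γ ⧸ G :=
      (QuotientGroup.quotientMulEquivOfEq hker).symm.trans (QuotientGroup.quotientKerEquivOfSurjective f hfs)
    exact isCyclic_of_surjective ε.symm ε.symm.surjective
  have hm : 1 < (N.subgroupOf U).index := by
    rw [hidxU]
    have h1 : G.index ≠ 0 := Subgroup.index_ne_zero_of_finite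
    have h2 : G.index ≠ 1 := fun h => hGlt (Subgroup.index_eq_one.mp h)
    omega
  let θU : N.subgroupOf U → ℂ := fun n => (θ : N → ℂ) ⟨(n : U), n.2⟩
  have hθU : IsIrrCharacter (N.subgroupOf U) θU :=
    isIrr_comp_equiv (Subgroup.subgroupOfEquivOfLe hNU) θ.2
  have hinvU : ∀ (g : U) (n : N.subgroupOf U),
      θU ⟨g * n * g⁻¹, hMn.conj_mem (n : U) n.2 g⟩ = θU n := by
    intro g n
    exact hinv g ⟨n, n.2⟩
  have hresU : ∀ n : N.subgroupOf U, (fun u : U => ψ u) n = (e : ℂ) * θU n := by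
    intro n
    show ψ ((n : U) : Γ) = _
    have h1 := hψχ ⟨((n : U) : Γ), hNG n.2⟩
    rw [show ψ (((⟨((n : U) : Γ), hNG n.2⟩ : G)) : Γ) = ψ ((n : U) : Γ) from rfl] at h1
    rw [h1]
    exact hχN2 ⟨⟨((n : U) : Γ), hNG n.2⟩, n.2⟩
  have hnormU : ∀ u : U, u ∉ N.subgroupOf U →
      ∑ n : N.subgroupOf U, ‖(fun u : U => ψ u) (u * n)‖ ^ 2 = (Nat.card (N.subgroupOf U) : ℝ) := by
    intro u hu
    have huG : (u : Γ) ∉ G := by
      intro h
      exact hu (hUG u u.2 h)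
    have h1 := hnormΓ u huG
    have h2 : Nat.card (N.subgroupOf U) = Nat.card N :=
      Nat.card_congr (Subgroup.subgroupOfEquivOfLe hNU).toEquiv
    rw [h2, ← h1]
    exact Fintype.sum_equiv (Subgroup.subgroupOfEquivOfLe hNU).toEquiv _ _ (fun n => rfl)
  have hfinal := abstract_main (N.subgroupOf U) hcycU hθU hinvU (hψ.isCharacter.restrict U) e hresU hnormU hm
  rw [hidxU] at hfinal
  exact hfinal

end Concrete

end CfsgLib.Char.FRC
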