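import Mathlib
import Cfsg.Agent.Lib.Char.Induce

/-!
# Sums of induced class functions over products of involutions
-/

set_option linter.unusedSectionVars false
set_option linter.style.haveILetI false
set_option linter.unusedSimpArgs false
set_option linter.unusedVariables false

namespace CfsgLib.Char

open Module Cfsg
open scoped ComplexConjugate

universe u

variable {G : Type u} [Group G] [Fintype G]

/-- S0849 -/
theorem invol_sum (H : Subgroup G) (S : Set G) (hSH : S ⊆ H) (hHS : ∀ h ∈ H, ∀ s ∈ S, h * s * h⁻¹ ∈ S)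
    (hTI : ∀ g : G, g ∉ H → ∀ s ∈ S, g * s * g⁻¹ ∉ S) (hinv : ∀ s ∈ S, s⁻¹ ∈ S) (φ : H → ℂ)
    (hφ : IsClassFunction H φ) (hφS : ∀ x : H, (x : G) ∉ S → φ x = 0) (u v : G) (hu : orderOf u = 2) (hv : orderOf v = 2) :
    ∑ᶠ p ∈ {p : G × G | IsConj u p.1 ∧ IsConj v p.2}, indFun H φ (p.1 * p.2) =
      (H.index : ℂ) * ∑ᶠ p ∈ {p : H × H | IsConj u (p.1 : G) ∧ IsConj v (p.2 : G)}, φ (p.1 * p.2) := by
  classical
  letI : Fintype H := Fintype.ofFinite H
  have h1 : {p : G × G | IsConj u p.1 ∧ IsConj v p.2} = ↑(Finset.univ.filter (fun p : G × G => IsConj u p.1 ∧ IsConj v p.2)) := by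
    ext p
    simp
  have h2 : {p : H × H | IsConj u (p.1 : G) ∧ IsConj v (p.2 : G)} =
      ↑(Finset.univ.filter (fun p : H × H => IsConj u (p.1 : G) ∧ IsConj v (p.2 : G))) := by
    ext p
    simp
  rw [h1, h2, finsum_mem_coe_finset, finsum_mem_coe_finset]
  set T := Finset.univ.filter (fun p : G × G => IsConj u p.1 ∧ IsConj v p.2) with hT
  -- swap the sums
  have hswap : ∀ x : G, ∑ p ∈ T, extendByZero H φ (x⁻¹ * (p.1 * p.2) * x) = ∑ p ∈ T, extendByZero H φ (p.1 * p.2) := by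
    intro x
    apply Finset.sum_bij' (fun p _ => (x⁻¹ * p.1 * x, x⁻¹ * p.2 * x)) (fun p _ => (x * p.1 * x⁻¹, x * p.2 * x⁻¹))
    · intro p hp
      have hp' := (Finset.mem_filter.mp hp).2
      refine Finset.mem_filter.mpr ⟨Finset.mem_univ _, ?_, ?_⟩
      · refine hp'.1.trans (isConj_iff.mpr ⟨x⁻¹, ?_⟩)
        simp
      · refine hp'.2.trans (isConj_iff.mpr ⟨x⁻¹, ?_⟩)
        simp
    · intro p hp
      have hp' := (Finset.mem_filter.mp hp).2
      refine Finset.mem_filter.mpr ⟨Finset.mem_univ _, ?_, ?_⟩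
      · exact hp'.1.trans (isConj_iff.mpr ⟨x, rfl⟩)
      · exact hp'.2.trans (isConj_iff.mpr ⟨x, rfl⟩)
    · intro p _
      ext <;> simp <;> group
    · intro p _
      ext <;> simp <;> group
    · intro p _
      congr 1
      simp only
      group
  have hLHS : ∑ p ∈ T, indFun H φ (p.1 * p.2) = (Nat.card H : ℂ)⁻¹ * ((Nat.card G : ℂ) * ∑ p ∈ T, extendByZero H φ (p.1 * p.2)) := by
    simp only [indFun_def]
    rw [← Finset.mul_sum, Finset.sum_comm, Finset.sum_congr rfl fun x _ => hswap x, Finset.sum_const,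
      Finset.card_univ, nsmul_eq_mul, ← Nat.card_eq_fintype_card]
  -- reduce to `H`
  have hinH : ∀ p ∈ T, p.1 * p.2 ∈ S → p.1 ∈ H ∧ p.2 ∈ H := by
    intro p hp hS
    have hp' := (Finset.mem_filter.mp hp).2
    have ha2 : p.1 * p.1 = 1 := by
      obtain ⟨c, hc⟩ := isConj_iff.mp hp'.1
      have h3 : u ^ 2 = 1 := by
        rw [← hu]
        exact pow_orderOf_eq_one u
      rw [← hc]
      calc c * u * c⁻¹ * (c * u * c⁻¹) = c * (u ^ 2) * c⁻¹ := by rw [pow_two]; group
        _ = 1 := by rw [h3]; group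
    have hb2 : p.2 * p.2 = 1 := by
      obtain ⟨c, hc⟩ := isConj_iff.mp hp'.2
      have h3 : v ^ 2 = 1 := by
        rw [← hv]
        exact pow_orderOf_eq_one v
      rw [← hc]
      calc c * v * c⁻¹ * (c * v * c⁻¹) = c * (v ^ 2) * c⁻¹ := by rw [pow_two]; group
        _ = 1 := by rw [h3]; group
    have ha : p.1 ∈ H := by
      by_contra hn
      apply hTI p.1 hn _ hS
      have h3 : p.1⁻¹ = p.1 := inv_eq_of_mul_eq_one_left ha2
      have h4 : p.2⁻¹ = p.2 := inv_eq_of_mul_eq_one_left hb2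
      have h5 : p.1 * (p.1 * p.2) * p.1⁻¹ = (p.1 * p.2)⁻¹ := by
        rw [mul_inv_rev, h3, h4, ← mul_assoc, ha2, one_mul]
      rw [h5]
      exact hinv _ hS
    have hs : p.1 * p.2 ∈ H := hSH hS
    refine ⟨ha, ?_⟩
    have h6 := H.mul_mem (H.inv_mem ha) hs
    simpa using h6
  have hRHS : ∑ p ∈ T, extendByZero H φ (p.1 * p.2) =
      ∑ p ∈ Finset.univ.filter (fun p : H × H => IsConj u (p.1 : G) ∧ IsConj v (p.2 : G)), φ (p.1 * p.2) := by
    symm
    apply Finset.sum_bij_ne_zero (fun p _ _ => ((p.1 : G), (p.2 : G)))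
    · intro p hp _
      exact Finset.mem_filter.mpr ⟨Finset.mem_univ _, (Finset.mem_filter.mp hp).2⟩
    · intro p _ _ q _ _ h
      have h3 := congrArg Prod.fst h
      have h4 := congrArg Prod.snd h
      exact Prod.ext (Subtype.ext h3) (Subtype.ext h4)
    · intro q hq hne
      have hq' := (Finset.mem_filter.mp hq).2
      have hqS : q.1 * q.2 ∈ S := by
        by_contra hn
        apply hne
        by_cases hqH : q.1 * q.2 ∈ H
        · rw [extendByZero_of_mem H φ hqH]
          exact hφS _ hn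
        · exact extendByZero_of_not_mem H φ hqH
      obtain ⟨h3, h4⟩ := hinH q hq hqS
      refine ⟨(⟨q.1, h3⟩, ⟨q.2, h4⟩), Finset.mem_filter.mpr ⟨Finset.mem_univ _, hq'⟩, ?_, rfl⟩
      intro h5
      apply hne
      rw [extendByZero_of_mem H φ (H.mul_mem h3 h4)]
      exact h5
    · intro p _ _
      have h3 : (p.1 : G) * (p.2 : G) = ((p.1 * p.2 : H) : G) := rfl
      simp only
      rw [h3, extendByZero_coe]
  rw [hLHS, hRHS, ← mul_assoc]
  congr 1
  have h3 := Subgroup.card_mul_index H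
  have h4 : (Nat.card G : ℂ) = (Nat.card H : ℂ) * (H.index : ℂ) := by
    rw [← h3]
    push_cast
    rfl
  rw [h4]
  have h5 : (Nat.card H : ℂ) ≠ 0 := Nat.cast_ne_zero.mpr Nat.card_pos.ne'
  field_simp

end CfsgLib.Char
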