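import Cfsg.Agent.Lib.Char.PNilp
import Cfsg.Agent.Lib.Block.Second

/-! # Blocks of `p`-regular rank equal to their size and of rank one -/

set_option autoImplicit false
set_option linter.unusedSectionVars false
set_option linter.unusedVariables false
set_option linter.style.haveILetI false

namespace CfsgLib.Char

open Cfsg CfsgLib.Block
open scoped ComplexConjugate

universe u

variable {G : Type u} [Group G] [Fintype G] {p : ℕ} [hp : Fact p.Prime] {M : Ideal AlgInt}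

theorem isPPart_one_of_regular {g : G} (hg : ¬ p ∣ orderOf g) : IsPPart p g 1 :=
  ⟨g, one_mul g, Commute.one_left g, ⟨0, by simp⟩, hg⟩

theorem block_reg_sing (hM : IsPModular p M) {B : Set (IrrCharacter G)} (hB : IsPBlock M B) {g h : G}
    (hg : ¬ p ∣ orderOf g) (hh : p ∣ orderOf h) [DecidablePred (· ∈ B)] :
    ∑ χ : IrrCharacter G, (if χ ∈ B then (χ : G → ℂ) g * conj ((χ : G → ℂ) h) else 0) = 0 := by
  refine block_orthogonality hM hB (isPPart_one_of_regular hg) (isPPart_pPart h) ?_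
  intro hc
  have h1 : pPart p h = 1 := isConj_one_right.1 hc
  obtain ⟨y, hy1, hy2, hy3, hy4⟩ := isPPart_pPart (p := p) h
  rw [h1, one_mul] at hy1
  rw [hy1] at hy4
  exact hy4 hh

theorem pRegularPart_ne_zero (χ : IrrCharacter G) : pRegularPart p (χ : G → ℂ) ≠ 0 := by
  intro h
  have h1 := congrFun h 1
  have hreg : IsPRegular p (1 : G) := by
    simp only [IsPRegular, orderOf_one]
    intro hd
    exact hp.out.one_lt.ne' (Nat.dvd_one.1 hd)
  simp only [pRegularPart, if_pos hreg, Pi.zero_apply] at h1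
  exact χ.2.map_one_ne_zero h1

theorem blockRank_le_card (B : Set (IrrCharacter G)) : blockRank p B ≤ Nat.card B := by
  classical
  haveI : Fintype B := Fintype.ofFinite _
  have h1 := finrank_range_le_card (R := ℂ) (fun χ : B => pRegularPart p ((χ : IrrCharacter G) : G → ℂ))
  rw [Nat.card_eq_fintype_card]
  have h2 : Set.range (fun χ : B => pRegularPart p ((χ : IrrCharacter G) : G → ℂ)) =
      (fun χ : IrrCharacter G => pRegularPart p (χ : G → ℂ)) '' B := by
    ext v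
    simp
  rw [h2] at h1
  exact h1

theorem sum_ite_eq_subtype (B : Set (IrrCharacter G)) [Fintype B] [DecidablePred (· ∈ B)] (f : IrrCharacter G → ℂ) :
    (∑ χ : IrrCharacter G, if χ ∈ B then f χ else 0) = ∑ χ : B, f χ := by
  rw [← Finset.sum_filter]
  exact Finset.sum_subtype _ (by simp) f

/-- When the rank of a block equals its size every member vanishes on the `p`-singular elements. -/
theorem vanish_of_rank_eq (hM : IsPModular p M) {B : Set (IrrCharacter G)} (hB : IsPBlock M B)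
    (hkl : Nat.card B = blockRank p B) {χ : IrrCharacter G} (hχ : χ ∈ B) {h : G} (hh : p ∣ orderOf h) :
    (χ : G → ℂ) h = 0 := by
  classical
  haveI : Fintype B := Fintype.ofFinite _
  have hli : LinearIndependent ℂ (fun χ : B => pRegularPart p ((χ : IrrCharacter G) : G → ℂ)) := by
    rw [linearIndependent_iff_card_eq_finrank_span]
    have h2 : Set.range (fun χ : B => pRegularPart p ((χ : IrrCharacter G) : G → ℂ)) =
        (fun χ : IrrCharacter G => pRegularPart p (χ : G → ℂ)) '' B := by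
      ext v
      simp
    rw [h2, ← Nat.card_eq_fintype_card, hkl]
    rfl
  have h3 := Fintype.linearIndependent_iff.1 hli (fun ζ => conj (((ζ : IrrCharacter G) : G → ℂ) h)) ?_ ⟨χ, hχ⟩
  · simpa using h3
  · funext x
    simp only [Finset.sum_apply, Pi.smul_apply, smul_eq_mul, Pi.zero_apply, pRegularPart]
    by_cases hx : IsPRegular p x
    · simp only [if_pos hx]
      have h4 := block_reg_sing hM hB (g := x) hx hh
      rw [sum_ite_eq_subtype B (fun ζ => (ζ : G → ℂ) x * conj ((ζ : G → ℂ) h))] at h4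
      rw [← h4]
      exact Finset.sum_congr rfl fun ζ _ => mul_comm _ _
    · simp [if_neg hx]

theorem factorization_eq_of_vanish {χ : IrrCharacter G} (hv : ∀ h : G, p ∣ orderOf h → (χ : G → ℂ) h = 0) :
    (charDegree (χ : G → ℂ)).factorization p = (Nat.card G).factorization p := by
  classical
  refine le_antisymm minNu_le_factorization ?_
  by_contra hlt
  push Not at hlt
  apply not_isGen_tl_div (p := p) χ
  set a := (Nat.card G).factorization p with ha
  set b := (charDegree (χ : G → ℂ)).factorization p with hb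
  have h1 : IsCharacter G ((p ^ (a - (b + 1)) : ℕ) • (χ : G → ℂ)) := χ.2.isCharacter.nsmul _
  refine ⟨_, fun _ => 0, h1, isCharacter_zero, ?_⟩
  funext x
  by_cases hx : p ∣ orderOf x
  · simp [if_pos hx, hv x hx]
  · simp only [if_neg hx]
    rw [Pi.sub_apply, Pi.smul_apply, nsmul_eq_mul, sub_zero]
    congr 1
    have hp0 : ((p : ℕ) : ℂ) ≠ 0 := by exact_mod_cast hp.out.ne_zero
    have h2 : a = (a - (b + 1)) + (b + 1) := by omega
    push_cast
    rw [div_eq_iff (pow_ne_zero _ hp0), ← pow_add, ← h2]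

theorem blockDefect_eq_zero_of_vanish {B : Set (IrrCharacter G)} (hne : B.Nonempty)
    (hv : ∀ χ ∈ B, ∀ h : G, p ∣ orderOf h → (χ : G → ℂ) h = 0) : blockDefect p B = 0 := by
  obtain ⟨ζ, hζ, h1⟩ := exists_minNu_eq (p := p) hne
  have h2 := factorization_eq_of_vanish (hv ζ hζ)
  rw [blockDefect_eq, ← h1, h2, Nat.sub_self]

theorem singleton_of_blockDefect_eq_zero (hM : IsPModular p M) {B : Set (IrrCharacter G)} (hB : IsPBlock M B)
    (h0 : blockDefect p B = 0) {χ : IrrCharacter G} (hχ : χ ∈ B) : B = {χ} := by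
  classical
  have hP := hM.isPrime
  have hB' : blockOf M (χ : G → ℂ) = B := (blockOf_eq_of_mem hP hB hχ).symm
  rw [← hB']
  apply (not_dvd_card_div_iff hM χ).1
  have h1 : (charDegree (χ : G → ℂ)).factorization p = (Nat.card G).factorization p := by
    refine le_antisymm minNu_le_factorization ?_
    have h2 := minNu_le (p := p) hχ
    rw [blockDefect_eq] at h0
    omega
  have hdvd := degree_dvd_card χ.2 (coe_charDegree χ.2.isCharacter).symm
  intro hd
  have hq : Nat.card G / charDegree (χ : G → ℂ) ≠ 0 :=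
    (Nat.div_pos (Nat.le_of_dvd Nat.card_pos hdvd) (Nat.pos_of_ne_zero (charDegree_ne_zero χ.2))).ne'
  have h6 := (hp.out.dvd_iff_one_le_factorization hq).1 hd
  have h7 : (Nat.card G / charDegree (χ : G → ℂ)).factorization p =
      (Nat.card G).factorization p - (charDegree (χ : G → ℂ)).factorization p := by
    rw [Nat.factorization_div hdvd]; rfl
  omega

theorem blockRank_singleton (χ : IrrCharacter G) : blockRank p ({χ} : Set (IrrCharacter G)) = 1 := by
  rw [blockRank, Set.image_singleton]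
  exact finrank_span_singleton (pRegularPart_ne_zero χ)

/-- The three-part statement of S4733. -/
theorem rank_block_main (hM : IsPModular p M) {B : Set (IrrCharacter G)} (hB : IsPBlock M B) :
    blockRank p B ≤ Nat.card B ∧ (blockDefect p B = 0 ↔ (Nat.card B = 1 ∧ blockRank p B = 1)) ∧
      (blockDefect p B = 0 ↔ Nat.card B = blockRank p B) := by
  classical
  have hne : B.Nonempty := by
    obtain ⟨χ, rfl⟩ := hB
    exact ⟨χ, self_mem_blockOf hM.isPrime χ⟩
  have h1 : blockDefect p B = 0 → Nat.card B = 1 ∧ blockRank p B = 1 := by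
    intro h0
    obtain ⟨χ, hχ⟩ := hne
    have h2 := singleton_of_blockDefect_eq_zero hM hB h0 hχ
    rw [h2]
    exact ⟨by simp, blockRank_singleton χ⟩
  have h3 : Nat.card B = blockRank p B → blockDefect p B = 0 := fun hkl =>
    blockDefect_eq_zero_of_vanish hne fun χ hχ h hh => vanish_of_rank_eq hM hB hkl hχ hh
  refine ⟨blockRank_le_card B, ⟨h1, fun h => h3 (h.1.trans h.2.symm)⟩, ⟨fun h => ?_, h3⟩⟩
  have := h1 h
  omega

/-- Bézout for a finite family of natural numbers. -/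
theorem exists_bezout {ι : Type*} [DecidableEq ι] (s : Finset ι) (f : ι → ℕ) :
    ∃ n : ι → ℤ, ∑ i ∈ s, n i * (f i : ℤ) = ((s.gcd f : ℕ) : ℤ) := by
  induction s using Finset.induction_on with
  | empty => exact ⟨0, by simp⟩
  | insert a s ha ih =>
    obtain ⟨n, hn⟩ := ih
    rw [Finset.gcd_insert]
    refine ⟨fun i => if i = a then Nat.gcdA (f a) (s.gcd f) else Nat.gcdB (f a) (s.gcd f) * n i, ?_⟩
    rw [Finset.sum_insert ha]
    beta_reduce
    rw [if_pos rfl]
    have h1 : ∑ i ∈ s, (if i = a then Nat.gcdA (f a) (s.gcd f) else Nat.gcdB (f a) (s.gcd f) * n i) * (f i : ℤ) =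
        Nat.gcdB (f a) (s.gcd f) * ∑ i ∈ s, n i * (f i : ℤ) := by
      rw [Finset.mul_sum]
      refine Finset.sum_congr rfl fun i hi => ?_
      have : i ≠ a := fun h => ha (h ▸ hi)
      rw [if_neg this, mul_assoc]
    rw [h1, hn]
    have h2 := Nat.gcd_eq_gcd_ab (f a) (s.gcd f)
    change _ = ((Nat.gcd (f a) (s.gcd f) : ℕ) : ℤ)
    rw [h2]
    ring

/-- S4675 core: a block with `p`-regular rank one. -/
theorem rank_one_block (hM : IsPModular p M) {B : Set (IrrCharacter G)} (hB : IsPBlock M B)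
    (hl : blockRank p B = 1) :
    ∃ φ : G → ℂ, ∃ d : IrrCharacter G → ℕ,
      (∃ n : IrrCharacter G → ℤ, ∀ x : G, IsPRegular p x → φ x = ∑ᶠ ψ ∈ B, (n ψ : ℂ) * (ψ : G → ℂ) x) ∧
      (∀ χ ∈ B, ∀ x : G, IsPRegular p x → (χ : G → ℂ) x = (d χ : ℂ) * φ x) ∧
      ∑ᶠ χ ∈ B, d χ ^ 2 = p ^ blockDefect p B := by
  classical
  have hP := hM.isPrime
  have hne : B.Nonempty := by
    obtain ⟨χ, rfl⟩ := hB
    exact ⟨χ, self_mem_blockOf hP χ⟩
  obtain ⟨χ₀, hχ₀⟩ := hne
  have hone : IsPRegular p (1 : G) := by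
    simp only [IsPRegular, orderOf_one]
    intro hd
    exact hp.out.one_lt.ne' (Nat.dvd_one.1 hd)
  have hprop : ∀ χ ∈ B, ∃ r : ℂ, ∀ x, IsPRegular p x → (χ : G → ℂ) x = r * (χ₀ : G → ℂ) x := by
    intro χ hχ
    have hmem : ∀ ζ ∈ B, pRegularPart p (ζ : G → ℂ) ∈
        Submodule.span ℂ ((fun χ : IrrCharacter G => pRegularPart p (χ : G → ℂ)) '' B) := fun ζ hζ =>
      Submodule.subset_span ⟨ζ, hζ, rfl⟩
    have h0 : (⟨pRegularPart p (χ₀ : G → ℂ), hmem χ₀ hχ₀⟩ :
        ↥(Submodule.span ℂ ((fun χ : IrrCharacter G => pRegularPart p (χ : G → ℂ)) '' B))) ≠ 0 := by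
      intro h
      exact pRegularPart_ne_zero χ₀ (congrArg Subtype.val h)
    obtain ⟨r, hr⟩ := (finrank_eq_one_iff_of_nonzero' _ h0).1 hl ⟨_, hmem χ hχ⟩
    refine ⟨r, fun x hx => ?_⟩
    have h1 := congrFun (congrArg Subtype.val hr) x
    simp only [Submodule.coe_smul, Pi.smul_apply, smul_eq_mul, pRegularPart, if_pos hx] at h1
    exact h1.symm
  have hcross : ∀ χ ∈ B, ∀ ψ ∈ B, ∀ x, IsPRegular p x →
      (ψ : G → ℂ) x * (χ : G → ℂ) 1 = (ψ : G → ℂ) 1 * (χ : G → ℂ) x := by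
    intro χ hχ ψ hψ x hx
    obtain ⟨r, hr⟩ := hprop χ hχ
    obtain ⟨q, hq⟩ := hprop ψ hψ
    rw [hr x hx, hr 1 hone, hq x hx, hq 1 hone]
    ring
  set D : IrrCharacter G → ℕ := fun χ => charDegree (χ : G → ℂ) with hD
  have hDc : ∀ χ : IrrCharacter G, (D χ : ℂ) = (χ : G → ℂ) 1 := fun χ => coe_charDegree χ.2.isCharacter
  have hD0 : ∀ χ : IrrCharacter G, D χ ≠ 0 := fun χ => charDegree_ne_zero χ.2
  set s : Finset (IrrCharacter G) := Finset.univ.filter (· ∈ B) with hs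
  have hsm : ∀ χ, χ ∈ s ↔ χ ∈ B := fun χ => by simp [hs]
  set g := s.gcd D with hg
  have hg0 : g ≠ 0 := by
    intro h
    have h1 := Finset.gcd_eq_zero_iff.1 h χ₀ ((hsm _).2 hχ₀)
    exact hD0 _ h1
  have hgc : (g : ℂ) ≠ 0 := by exact_mod_cast hg0
  have hgd : ∀ χ ∈ B, g ∣ D χ := fun χ hχ => Finset.gcd_dvd ((hsm _).2 hχ)
  set d : IrrCharacter G → ℕ := fun χ => D χ / g with hd
  have hDd : ∀ χ ∈ B, D χ = g * d χ := fun χ hχ => (Nat.mul_div_cancel' (hgd χ hχ)).symm
  obtain ⟨n, hn⟩ := exists_bezout s D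
  have hnd : ∑ ψ ∈ s, n ψ * (d ψ : ℤ) = 1 := by
    have h1 : (g : ℤ) * ∑ ψ ∈ s, n ψ * (d ψ : ℤ) = (g : ℤ) := by
      conv_rhs => rw [hg, ← hn]
      rw [Finset.mul_sum]
      refine Finset.sum_congr rfl fun ψ hψ => ?_
      rw [hDd ψ ((hsm _).1 hψ)]
      push_cast
      ring
    have hg1 : (g : ℤ) ≠ 0 := by exact_mod_cast hg0
    exact mul_left_cancel₀ hg1 (h1.trans (mul_one _).symm)
  set φ : G → ℂ := fun x => ∑ᶠ ψ ∈ B, (n ψ : ℂ) * (ψ : G → ℂ) x with hφ
  have hfin : ∀ f : IrrCharacter G → ℂ, ∑ᶠ ψ ∈ B, f ψ = ∑ ψ ∈ s, f ψ := by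
    intro f
    rw [finsum_mem_eq_finite_toFinset_sum _ (Set.toFinite B)]
    refine Finset.sum_congr ?_ fun _ _ => rfl
    ext ψ
    simp [hs]
  have hfinN : ∀ f : IrrCharacter G → ℕ, ∑ᶠ ψ ∈ B, f ψ = ∑ ψ ∈ s, f ψ := by
    intro f
    rw [finsum_mem_eq_finite_toFinset_sum _ (Set.toFinite B)]
    refine Finset.sum_congr ?_ fun _ _ => rfl
    ext ψ
    simp [hs]
  have hφ' : ∀ x, φ x = ∑ ψ ∈ s, (n ψ : ℂ) * (ψ : G → ℂ) x := fun x => hfin _
  have hnc : ∑ ψ ∈ s, (n ψ : ℂ) * (D ψ : ℂ) = (g : ℂ) := by exact_mod_cast hn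
  have hχd : ∀ χ ∈ B, ∀ x, IsPRegular p x → (χ : G → ℂ) x = (d χ : ℂ) * φ x := by
    intro χ hχ x hx
    apply mul_left_cancel₀ hgc
    have h1 : (g : ℂ) * (χ : G → ℂ) x = φ x * (χ : G → ℂ) 1 := by
      rw [← hnc, hφ', Finset.sum_mul, Finset.sum_mul]
      refine Finset.sum_congr rfl fun ψ hψ => ?_
      rw [hDc, mul_assoc, mul_assoc, hcross χ hχ ψ ((hsm _).1 hψ) x hx]
    rw [h1, ← hDc, hDd χ hχ]
    push_cast
    ring
  refine ⟨φ, d, ⟨n, fun x _ => rfl⟩, hχd, ?_⟩
  rw [hfinN]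
  set c := ∑ χ ∈ s, d χ ^ 2 with hc
  set a := (Nat.card G).factorization p with ha
  set Φ : G → ℂ := fun x => ∑ χ ∈ s, (d χ : ℂ) * (χ : G → ℂ) x with hΦ
  have hΦsing : ∀ h, p ∣ orderOf h → Φ h = 0 := by
    intro h hh
    have h1 := block_reg_sing hM hB (g := (1 : G)) hone hh
    rw [← Finset.sum_filter] at h1
    have h2 : (g : ℂ) * conj (Φ h) = 0 := by
      rw [← h1, map_sum, Finset.mul_sum]
      refine Finset.sum_congr rfl fun χ hχ => ?_
      rw [map_mul, Complex.conj_natCast, ← hDc, hDd χ ((hsm _).1 hχ)]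
      push_cast
      ring
    have h3 := (mul_eq_zero.1 h2).resolve_left hgc
    simpa using h3
  have hΦreg : ∀ x, IsPRegular p x → Φ x = (c : ℂ) * φ x := by
    intro x hx
    simp only [hΦ, hc]
    push_cast
    rw [Finset.sum_mul]
    refine Finset.sum_congr rfl fun χ hχ => ?_
    rw [hχd χ ((hsm _).1 hχ) x hx]
    ring
  have hA : ∀ χ : IrrCharacter G, ∃ A : IrrCharacter G → ℤ, χ ∈ B → ∀ x, tl p (χ : G → ℂ) x =
      ∑ ψ : IrrCharacter G, (A ψ : ℂ) * (ψ : G → ℂ) x := by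
    intro χ
    by_cases hχ : χ ∈ B
    · obtain ⟨A, _, hA⟩ := tl_eq_sum_block hM hB hχ
      exact ⟨A, fun _ => hA⟩
    · exact ⟨0, fun h => absurd h hχ⟩
  choose A hA using hA
  set Ac : IrrCharacter G → ℤ := fun ψ => ∑ χ ∈ s, n χ * A χ ψ with hAc
  have hcomb : ∀ x, (c : ℂ) * ∑ ψ : IrrCharacter G, (Ac ψ : ℂ) * (ψ : G → ℂ) x =
      ((p ^ a : ℕ) : ℂ) * Φ x := by
    intro x
    have h1 : ∑ ψ : IrrCharacter G, (Ac ψ : ℂ) * (ψ : G → ℂ) x =
        ∑ χ ∈ s, (n χ : ℂ) * tl p (χ : G → ℂ) x := by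
      simp only [hAc]
      push_cast
      simp only [Finset.sum_mul]
      rw [Finset.sum_comm]
      refine Finset.sum_congr rfl fun χ hχ => ?_
      rw [hA χ ((hsm _).1 hχ), Finset.mul_sum]
      refine Finset.sum_congr rfl fun ψ _ => ?_
      ring
    rw [h1]
    by_cases hx : p ∣ orderOf x
    · rw [hΦsing x hx, mul_zero]
      simp only [tl_of_singular _ hx, mul_zero, Finset.sum_const_zero]
    · rw [hΦreg x hx, hφ']
      simp only [tl_of_regular _ hx]
      simp only [Finset.mul_sum]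
      refine Finset.sum_congr rfl fun χ _ => ?_
      ring
  have hcoef : ∀ ψ ∈ B, (c : ℂ) * (Ac ψ : ℂ) = ((p ^ a : ℕ) : ℂ) * (d ψ : ℂ) := by
    have hli := Fintype.linearIndependent_iff.1 (linearIndependent_irr (G := G))
      (fun ψ => (c : ℂ) * (Ac ψ : ℂ) - ((p ^ a : ℕ) : ℂ) * (if ψ ∈ B then (d ψ : ℂ) else 0)) ?_
    · intro ψ hψ
      have h1 := hli ψ
      simp only [if_pos hψ] at h1
      exact sub_eq_zero.1 h1
    · funext x
      simp only [Finset.sum_apply, Pi.smul_apply, smul_eq_mul, Pi.zero_apply, sub_mul]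
      rw [Finset.sum_sub_distrib, sub_eq_zero]
      have h2 := hcomb x
      rw [Finset.mul_sum] at h2
      simp only [mul_assoc] at h2 ⊢
      rw [h2, ← Finset.mul_sum]
      congr 1
      simp only [hΦ]
      rw [hs, Finset.sum_filter]
      refine Finset.sum_congr rfl fun ψ _ => ?_
      by_cases hψ : ψ ∈ B <;> simp [hψ]
  have hdvd : c ∣ p ^ a := by
    have h1 : (c : ℤ) * ∑ ψ ∈ s, n ψ * Ac ψ = ((p ^ a : ℕ) : ℤ) := by
      have h2 : (c : ℂ) * ∑ ψ ∈ s, (n ψ : ℂ) * (Ac ψ : ℂ) = ((p ^ a : ℕ) : ℂ) := by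
        rw [Finset.mul_sum]
        have h3 : ∑ ψ ∈ s, (n ψ : ℂ) * (d ψ : ℂ) = 1 := by exact_mod_cast hnd
        calc ∑ ψ ∈ s, (c : ℂ) * ((n ψ : ℂ) * (Ac ψ : ℂ))
            = ∑ ψ ∈ s, ((p ^ a : ℕ) : ℂ) * ((n ψ : ℂ) * (d ψ : ℂ)) := by
              refine Finset.sum_congr rfl fun ψ hψ => ?_
              have := hcoef ψ ((hsm _).1 hψ)
              calc (c : ℂ) * ((n ψ : ℂ) * (Ac ψ : ℂ)) = (n ψ : ℂ) * ((c : ℂ) * (Ac ψ : ℂ)) := by ring
                _ = _ := by rw [this]; ring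
          _ = ((p ^ a : ℕ) : ℂ) := by rw [← Finset.mul_sum, h3, mul_one]
      exact_mod_cast h2
    have h2 : (c : ℤ) ∣ ((p ^ a : ℕ) : ℤ) := ⟨_, h1.symm⟩
    exact Int.natCast_dvd_natCast.1 h2
  obtain ⟨k, hk, hck⟩ := (Nat.dvd_prime_pow hp.out).1 hdvd
  have hsumD : ∑ᶠ χ ∈ B, charDegree (χ : G → ℂ) ^ 2 = g ^ 2 * c := by
    rw [hfinN, hc, Finset.mul_sum]
    refine Finset.sum_congr rfl fun χ hχ => ?_
    change D χ ^ 2 = _
    rw [hDd χ ((hsm _).1 hχ)]
    ring
  have hfac := factorization_sum_sq hM hB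
  rw [hsumD] at hfac
  have hc0 : c ≠ 0 := by
    rw [hck]
    exact (pow_pos hp.out.pos _).ne'
  have hg2 : (g ^ 2).factorization p = 2 * g.factorization p := by
    rw [Nat.factorization_pow]
    rfl
  rw [Nat.factorization_mul (pow_ne_zero _ hg0) hc0] at hfac
  have hfac' : (g ^ 2).factorization p + c.factorization p = a + minNu p B := hfac
  rw [hg2] at hfac'
  have hνg : g.factorization p = minNu p B := by
    apply le_antisymm
    · obtain ⟨ζ, hζ, hζν⟩ := exists_minNu_eq (p := p) (B := B) ⟨χ₀, hχ₀⟩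
      rw [← hζν]
      exact (Nat.factorization_le_iff_dvd hg0 (hD0 ζ)).2 (hgd ζ hζ) p
    · refine (hp.out.pow_dvd_iff_le_factorization hg0).1 ?_
      exact Finset.dvd_gcd fun χ hχ => pow_minNu_dvd ((hsm _).1 hχ)
  have hνc : c.factorization p = k := by
    rw [hck, Nat.factorization_pow, Finsupp.smul_apply, Nat.Prime.factorization_self hp.out]
    simp
  rw [hck, blockDefect_eq]
  congr 1
  omega

/-- S4733 in `Fintype` form is `rank_block_main`; S4675 in terms of a defect group. -/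
theorem rank_one_block' (hM : IsPModular p M) {B : Set (IrrCharacter G)} (hB : IsPBlock M B)
    (P : Subgroup G) (hPd : IsDefectGroup p M B P) (hl : blockRank p B = 1) :
    ∃ φ : G → ℂ, ∃ d : IrrCharacter G → ℕ,
      (∃ n : IrrCharacter G → ℤ, ∀ x : G, IsPRegular p x → φ x = ∑ᶠ ψ ∈ B, (n ψ : ℂ) * (ψ : G → ℂ) x) ∧
      (∀ χ ∈ B, ∀ x : G, IsPRegular p x → (χ : G → ℂ) x = (d χ : ℂ) * φ x) ∧
      ∑ᶠ χ ∈ B, d χ ^ 2 = Nat.card P := by
  rw [card_defectGroup hM hB hPd]
  exact rank_one_block hM hB hl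

end CfsgLib.Char
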