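import Mathlib

set_option autoImplicit false
set_option linter.all false

namespace CfsgLib.Char.SD

open Module

universe v

section Basic

variable {F : Type*} [Field F] {V : Type*} [AddCommGroup V] [Module F V] [FiniteDimensional F V]
  (B : LinearMap.BilinForm F V)

/-- Left nondegeneracy on a subspace. -/
def LN (H : Submodule F V) : Prop := ∀ x ∈ H, (∀ y ∈ H, B x y = 0) → x = 0

/-- The right perpendicular. -/
def perp (H : Submodule F V) : Submodule F V where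
  carrier := {y | ∀ x ∈ H, B x y = 0}
  add_mem' := by
    intro a b ha hb x hx
    rw [map_add, ha x hx, hb x hx, add_zero]
  zero_mem' := by
    intro x _
    simp
  smul_mem' := by
    intro c a ha x hx
    rw [map_smul, ha x hx, smul_zero]

theorem mem_perp {H : Submodule F V} {y : V} : y ∈ perp B H ↔ ∀ x ∈ H, B x y = 0 := Iff.rfl

variable {B}

theorem left_surj {H : Submodule F V} (h : LN B H) (f : H →ₗ[F] F) :
    ∃ x ∈ H, ∀ y : H, B x y = f y := by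
  have hinj : Function.Injective (B.restrict H) := by
    rw [injective_iff_map_eq_zero]
    intro x hx
    apply Subtype.ext
    apply h x x.2
    intro y hy
    have := LinearMap.congr_fun hx ⟨y, hy⟩
    exact this
  have hsurj : Function.Surjective (B.restrict H) := by
    have h1 : finrank F H = finrank F (H →ₗ[F] F) := (Subspace.dual_finrank_eq).symm
    exact (LinearMap.injective_iff_surjective_of_finrank_eq_finrank h1).mp hinj
  obtain ⟨x, hx⟩ := hsurj f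
  refine ⟨x, x.2, fun y => ?_⟩
  have := LinearMap.congr_fun hx y
  exact this

theorem rn_of_ln {H : Submodule F V} (h : LN B H) {y : V} (hy : y ∈ H) (h0 : ∀ x ∈ H, B x y = 0) : y = 0 := by
  by_contra hne
  have hy0 : (⟨y, hy⟩ : H) ≠ 0 := fun h1 => hne (congrArg Subtype.val h1)
  obtain ⟨f, hf⟩ : ∃ f : H →ₗ[F] F, f ⟨y, hy⟩ ≠ 0 := by
    by_contra hall
    push Not at hall
    exact hy0 ((Module.forall_dual_apply_eq_zero_iff F _).mp hall)
  obtain ⟨x, hx, hxf⟩ := left_surj h f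
  apply hf
  rw [← hxf ⟨y, hy⟩]
  exact h0 x hx

theorem right_surj {H : Submodule F V} (h : LN B H) (f : H →ₗ[F] F) :
    ∃ y ∈ H, ∀ x : H, B x y = f x := by
  have hinj : Function.Injective ((B.restrict H).flip) := by
    rw [injective_iff_map_eq_zero]
    intro y hy
    apply Subtype.ext
    apply rn_of_ln h y.2
    intro x hx
    have := LinearMap.congr_fun hy ⟨x, hx⟩
    exact this
  have hsurj : Function.Surjective ((B.restrict H).flip) := by
    have h1 : finrank F H = finrank F (H →ₗ[F] F) := (Subspace.dual_finrank_eq).symm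
    exact (LinearMap.injective_iff_surjective_of_finrank_eq_finrank h1).mp hinj
  obtain ⟨y, hy⟩ := hsurj f
  refine ⟨y, y.2, fun x => ?_⟩
  have := LinearMap.congr_fun hy x
  exact this

theorem isCompl_perp {H : Submodule F V} (h : LN B H) : IsCompl H (perp B H) := by
  constructor
  · rw [Submodule.disjoint_def]
    intro x hx hx2
    exact rn_of_ln h hx hx2
  · rw [codisjoint_iff, eq_top_iff]
    intro v _
    let f : H →ₗ[F] F := (B.flip v).comp H.subtype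
    obtain ⟨y, hy, hyf⟩ := right_surj h f
    have : v = y + (v - y) := by abel
    rw [this]
    apply Submodule.add_mem_sup hy
    intro x hx
    rw [map_sub, sub_eq_zero]
    have h2 := hyf ⟨x, hx⟩
    have h3 : f ⟨x, hx⟩ = B x v := rfl
    rw [h3] at h2
    exact h2.symm

end Basic

section Maschke

variable {F : Type*} [Field F] {G : Type*} [Group G] [Finite G]
  {V : Type*} [AddCommGroup V] [Module F V] [FiniteDimensional F V]

theorem exists_inv_compl (ρ : Representation F G V) (hc : (Nat.card G : F) ≠ 0) (T : Submodule F V)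
    (hT : ∀ g, ∀ x ∈ T, ρ g x ∈ T) : ∃ T' : Submodule F V, IsCompl T T' ∧ ∀ g, ∀ x ∈ T', ρ g x ∈ T' := by
  classical
  letI := Fintype.ofFinite G
  obtain ⟨T₀, hT₀⟩ := Submodule.exists_isCompl T
  let π : V →ₗ[F] T := T.projectionOnto T₀ hT₀
  have hπ : ∀ x : T, π x = x := fun x => Submodule.projectionOnto_apply_left hT₀ x
  let f₀ : V →ₗ[F] V := (Nat.card G : F)⁻¹ • ∑ g : G, (ρ g) ∘ₗ T.subtype ∘ₗ π ∘ₗ (ρ g⁻¹)
  have hf₀T : ∀ x, f₀ x ∈ T := by
    intro x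
    simp only [f₀, LinearMap.smul_apply, LinearMap.sum_apply]
    apply T.smul_mem
    apply T.sum_mem
    intro g _
    exact hT g _ (π _).2
  let f : V →ₗ[F] T := LinearMap.codRestrict T f₀ hf₀T
  have hf : ∀ x : T, f x = x := by
    intro x
    apply Subtype.ext
    show f₀ x = x
    simp only [f₀, LinearMap.smul_apply, LinearMap.sum_apply, LinearMap.comp_apply, Submodule.subtype_apply]
    have h1 : ∀ g : G, (ρ g) ((π ((ρ g⁻¹) x) : T) : V) = x := by
      intro g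
      have h2 : π ((ρ g⁻¹) x) = ⟨(ρ g⁻¹) x, hT g⁻¹ _ x.2⟩ := hπ ⟨(ρ g⁻¹) x, hT g⁻¹ _ x.2⟩
      rw [h2]
      show ρ g (ρ g⁻¹ x) = x
      rw [← Module.End.mul_apply, ← map_mul]
      simp
    simp only [h1, Finset.sum_const, Finset.card_univ]
    rw [← Nat.card_eq_fintype_card, ← Nat.cast_smul_eq_nsmul F, smul_smul, inv_mul_cancel₀ hc, one_smul]
  refine ⟨LinearMap.ker f, LinearMap.isCompl_of_proj hf, ?_⟩
  intro g x hx
  rw [LinearMap.mem_ker] at hx ⊢
  apply Subtype.ext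
  have hx' : f₀ x = 0 := congrArg Subtype.val hx
  show f₀ (ρ g x) = 0
  have h3 : f₀ (ρ g x) = ρ g (f₀ x) := by
    simp only [f₀, LinearMap.smul_apply, LinearMap.sum_apply, LinearMap.comp_apply, Submodule.subtype_apply, map_smul,
      map_sum]
    congr 1
    refine (Equiv.sum_comp (Equiv.mulLeft g) _).symm.trans ?_
    refine Finset.sum_congr rfl fun h _ => ?_
    simp only [Equiv.coe_mulLeft, mul_inv_rev]
    have h4 : ρ (h⁻¹ * g⁻¹) (ρ g x) = ρ h⁻¹ x := by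
      rw [← Module.End.mul_apply, ← map_mul]
      simp
    rw [map_mul, Module.End.mul_apply, h4]
  rw [h3, hx', map_zero]

end Maschke

section Main

variable {F : Type*} [Field F] {G : Type*} [Group G] [Finite G]
  {V : Type*} [AddCommGroup V] [Module F V] [FiniteDimensional F V]

theorem exists_inv_compl_rel (ρ : Representation F G V) (hc : (Nat.card G : F) ≠ 0) {T M : Submodule F V}
    (hTM : T ≤ M) (hM : ∀ g, ∀ x ∈ M, ρ g x ∈ M)
    (hT : ∀ g, ∀ x ∈ T, ρ g x ∈ T) : ∃ Y : Submodule F V, Y ≤ M ∧ T ⊔ Y = M ∧ Disjoint T Y ∧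
      ∀ g, ∀ x ∈ Y, ρ g x ∈ Y := by
  obtain ⟨T', hT', hinv⟩ := exists_inv_compl ρ hc T hT
  refine ⟨T' ⊓ M, inf_le_right, ?_, ?_, ?_⟩
  · apply le_antisymm (sup_le hTM inf_le_right)
    intro x hx
    have hv : x ∈ T ⊔ T' := by
      rw [hT'.sup_eq_top]; trivial
    obtain ⟨a, ha, b, hb, rfl⟩ := Submodule.mem_sup.mp hv
    apply Submodule.add_mem_sup ha
    refine ⟨hb, ?_⟩
    have : b = (a + b) - a := by abel
    rw [this]
    exact Submodule.sub_mem _ hx (hTM ha)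
  · exact hT'.disjoint.mono_right inf_le_left
  · intro g x hx
    exact ⟨hinv g x hx.1, hM g x hx.2⟩

theorem exists_proj (H K : Submodule F V) (h : Disjoint H K) :
    ∃ π : V →ₗ[F] V, (∀ x ∈ H, π x = x) ∧ (∀ x ∈ K, π x = 0) := by
  obtain ⟨C, hC⟩ := Submodule.exists_isCompl (H ⊔ K)
  have h1 : IsCompl H (K ⊔ C) := by
    constructor
    · rw [Submodule.disjoint_def]
      intro x hx hx2
      obtain ⟨m, hm, c, hc, rfl⟩ := Submodule.mem_sup.mp hx2
      have hc0 : c = 0 := by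
        apply Submodule.disjoint_def.mp hC.disjoint c _ hc
        have : c = (m + c) - m := by abel
        rw [this]
        exact Submodule.sub_mem _ (Submodule.mem_sup_left hx) (Submodule.mem_sup_right hm)
      subst hc0
      rw [add_zero] at hx ⊢
      exact Submodule.disjoint_def.mp h m hx hm
    · rw [codisjoint_iff, ← sup_assoc]
      exact hC.sup_eq_top
  refine ⟨H.subtype ∘ₗ H.projectionOnto (K ⊔ C) h1, ?_, ?_⟩
  · intro x hx
    have h2 := Submodule.projectionOnto_apply_left h1 ⟨x, hx⟩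
    simp only [LinearMap.comp_apply, Submodule.subtype_apply]
    rw [h2]
  · intro x hx
    have h2 := Submodule.projectionOnto_apply_right h1 ⟨x, Submodule.mem_sup_left hx⟩
    simp only [LinearMap.comp_apply, Submodule.subtype_apply]
    rw [h2]
    rfl

/-- The data carried by a decomposition. -/
structure Piece (ρ : Representation F G V) (p : ℕ) (U W : Submodule F V) : Prop where
  invU : ∀ g, ∀ x ∈ U, ρ g x ∈ U
  invW : ∀ g, ∀ x ∈ W, ρ g x ∈ W
  alt : ∃ a : LinearMap.BilinForm F V, (∀ x ∈ U, a x x = 0) ∧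
    (∀ g, ∀ x ∈ U, ∀ y ∈ U, a (ρ g x) (ρ g y) = a x y) ∧ LN a U
  sym : ∃ s : LinearMap.BilinForm F V, (∀ x ∈ W, ∀ y ∈ W, s x y = s y x) ∧
    (∀ g, ∀ x ∈ W, ∀ y ∈ W, s (ρ g x) (ρ g y) = s x y) ∧ LN s W
  triv : p = 2 → ∀ g, ∀ w ∈ W, ρ g w = w

theorem glue_form {H K : Submodule F V} (hd : Disjoint H K) (b₁ b₂ : LinearMap.BilinForm F V) :
    ∃ b : LinearMap.BilinForm F V, ∀ x₁ ∈ H, ∀ x₂ ∈ K, ∀ y₁ ∈ H, ∀ y₂ ∈ K,
      b (x₁ + x₂) (y₁ + y₂) = b₁ x₁ y₁ + b₂ x₂ y₂ := by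
  obtain ⟨π₁, h11, h12⟩ := exists_proj H K hd
  obtain ⟨π₂, h21, h22⟩ := exists_proj K H hd.symm
  refine ⟨b₁.comp π₁ π₁ + b₂.comp π₂ π₂, ?_⟩
  intro x₁ hx₁ x₂ hx₂ y₁ hy₁ y₂ hy₂
  simp only [LinearMap.add_apply, LinearMap.BilinForm.comp_apply, map_add, h11 _ hx₁, h12 _ hx₂, h11 _ hy₁,
    h12 _ hy₂, h21 _ hx₂, h22 _ hx₁, h21 _ hy₂, h22 _ hy₁, add_zero, zero_add, map_zero,
    LinearMap.zero_apply]

theorem glue_ln {H K T₁ T₂ : Submodule F V} {b b₁ b₂ : LinearMap.BilinForm F V}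
    (hT₁ : T₁ ≤ H) (hT₂ : T₂ ≤ K)
    (hb : ∀ x₁ ∈ H, ∀ x₂ ∈ K, ∀ y₁ ∈ H, ∀ y₂ ∈ K, b (x₁ + x₂) (y₁ + y₂) = b₁ x₁ y₁ + b₂ x₂ y₂)
    (h₁ : LN b₁ T₁) (h₂ : LN b₂ T₂) : LN b (T₁ ⊔ T₂) := by
  intro x hx h0
  obtain ⟨t₁, ht₁, t₂, ht₂, rfl⟩ := Submodule.mem_sup.mp hx
  have e1 : t₁ = 0 := by
    apply h₁ t₁ ht₁
    intro y hy
    have h3 := h0 y (Submodule.mem_sup_left hy)
    have h4 := hb t₁ (hT₁ ht₁) t₂ (hT₂ ht₂) y (hT₁ hy) 0 (Submodule.zero_mem _)
    rw [add_zero] at h4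
    rw [h3, map_zero, add_zero] at h4
    exact h4.symm
  have e2 : t₂ = 0 := by
    apply h₂ t₂ ht₂
    intro y hy
    have h3 := h0 y (Submodule.mem_sup_right hy)
    have h4 := hb t₁ (hT₁ ht₁) t₂ (hT₂ ht₂) 0 (Submodule.zero_mem _) y (hT₂ hy)
    rw [zero_add] at h4
    rw [h3, map_zero, zero_add] at h4
    exact h4.symm
  rw [e1, e2, add_zero]

theorem glue_inv {ρ : Representation F G V} {H K T₁ T₂ : Submodule F V} {b b₁ b₂ : LinearMap.BilinForm F V}
    (hT₁ : T₁ ≤ H) (hT₂ : T₂ ≤ K)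
    (hb : ∀ x₁ ∈ H, ∀ x₂ ∈ K, ∀ y₁ ∈ H, ∀ y₂ ∈ K, b (x₁ + x₂) (y₁ + y₂) = b₁ x₁ y₁ + b₂ x₂ y₂)
    (i₁ : ∀ g, ∀ x ∈ T₁, ρ g x ∈ T₁) (i₂ : ∀ g, ∀ x ∈ T₂, ρ g x ∈ T₂)
    (h₁ : ∀ g, ∀ x ∈ T₁, ∀ y ∈ T₁, b₁ (ρ g x) (ρ g y) = b₁ x y)
    (h₂ : ∀ g, ∀ x ∈ T₂, ∀ y ∈ T₂, b₂ (ρ g x) (ρ g y) = b₂ x y) :
    ∀ g, ∀ x ∈ T₁ ⊔ T₂, ∀ y ∈ T₁ ⊔ T₂, b (ρ g x) (ρ g y) = b x y := by
  intro g x hx y hy
  obtain ⟨t₁, ht₁, t₂, ht₂, rfl⟩ := Submodule.mem_sup.mp hx
  obtain ⟨s₁, hs₁, s₂, hs₂, rfl⟩ := Submodule.mem_sup.mp hy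
  rw [map_add (ρ g) t₁ t₂, map_add (ρ g) s₁ s₂, hb _ (hT₁ (i₁ g _ ht₁)) _ (hT₂ (i₂ g _ ht₂)) _ (hT₁ (i₁ g _ hs₁)) _ (hT₂ (i₂ g _ hs₂)),
    hb _ (hT₁ ht₁) _ (hT₂ ht₂) _ (hT₁ hs₁) _ (hT₂ hs₂), h₁ g _ ht₁ _ hs₁, h₂ g _ ht₂ _ hs₂]

theorem Piece.combine {ρ : Representation F G V} {p : ℕ} {H K U₁ W₁ U₂ W₂ : Submodule F V}
    (hd : Disjoint H K) (hU₁ : U₁ ≤ H) (hW₁ : W₁ ≤ H) (hU₂ : U₂ ≤ K) (hW₂ : W₂ ≤ K)
    (P₁ : Piece ρ p U₁ W₁) (P₂ : Piece ρ p U₂ W₂) : Piece ρ p (U₁ ⊔ U₂) (W₁ ⊔ W₂) := by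
  obtain ⟨a₁, ha₁, ha₁', ha₁''⟩ := P₁.alt
  obtain ⟨a₂, ha₂, ha₂', ha₂''⟩ := P₂.alt
  obtain ⟨s₁, hs₁, hs₁', hs₁''⟩ := P₁.sym
  obtain ⟨s₂, hs₂, hs₂', hs₂''⟩ := P₂.sym
  refine ⟨?_, ?_, ?_, ?_, ?_⟩
  · intro g x hx
    obtain ⟨t₁, ht₁, t₂, ht₂, rfl⟩ := Submodule.mem_sup.mp hx
    rw [map_add]
    exact Submodule.add_mem_sup (P₁.invU g _ ht₁) (P₂.invU g _ ht₂)
  · intro g x hx
    obtain ⟨t₁, ht₁, t₂, ht₂, rfl⟩ := Submodule.mem_sup.mp hx
    rw [map_add]
    exact Submodule.add_mem_sup (P₁.invW g _ ht₁) (P₂.invW g _ ht₂)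
  · obtain ⟨a, ha⟩ := glue_form hd a₁ a₂
    refine ⟨a, ?_, glue_inv hU₁ hU₂ ha P₁.invU P₂.invU ha₁' ha₂', glue_ln hU₁ hU₂ ha ha₁'' ha₂''⟩
    intro x hx
    obtain ⟨t₁, ht₁, t₂, ht₂, rfl⟩ := Submodule.mem_sup.mp hx
    rw [ha _ (hU₁ ht₁) _ (hU₂ ht₂) _ (hU₁ ht₁) _ (hU₂ ht₂), ha₁ _ ht₁, ha₂ _ ht₂, add_zero]
  · obtain ⟨s, hs⟩ := glue_form hd s₁ s₂
    refine ⟨s, ?_, glue_inv hW₁ hW₂ hs P₁.invW P₂.invW hs₁' hs₂', glue_ln hW₁ hW₂ hs hs₁'' hs₂''⟩
    intro x hx y hy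
    obtain ⟨t₁, ht₁, t₂, ht₂, rfl⟩ := Submodule.mem_sup.mp hx
    obtain ⟨r₁, hr₁, r₂, hr₂, rfl⟩ := Submodule.mem_sup.mp hy
    rw [hs _ (hW₁ ht₁) _ (hW₂ ht₂) _ (hW₁ hr₁) _ (hW₂ hr₂), hs _ (hW₁ hr₁) _ (hW₂ hr₂) _ (hW₁ ht₁) _ (hW₂ ht₂),
      hs₁ _ ht₁ _ hr₁, hs₂ _ ht₂ _ hr₂]
  · intro hp g w hw
    obtain ⟨t₁, ht₁, t₂, ht₂, rfl⟩ := Submodule.mem_sup.mp hw
    rw [map_add, P₁.triv hp g _ ht₁, P₂.triv hp g _ ht₂]

theorem disjoint_sup_sup {H K U₁ W₁ U₂ W₂ : Submodule F V}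
    (hd : Disjoint H K) (hU₁ : U₁ ≤ H) (hW₁ : W₁ ≤ H) (hU₂ : U₂ ≤ K) (hW₂ : W₂ ≤ K)
    (d₁ : Disjoint U₁ W₁) (d₂ : Disjoint U₂ W₂) : Disjoint (U₁ ⊔ U₂) (W₁ ⊔ W₂) := by
  rw [Submodule.disjoint_def]
  intro x hx hx2
  obtain ⟨u₁, hu₁, u₂, hu₂, rfl⟩ := Submodule.mem_sup.mp hx
  obtain ⟨w₁, hw₁, w₂, hw₂, he⟩ := Submodule.mem_sup.mp hx2
  have h1 : u₁ - w₁ = w₂ - u₂ := by
    have : u₁ - w₁ + (w₁ + w₂) = w₂ - u₂ + (u₁ + u₂) := by abel
    rw [he] at this
    exact add_right_cancel this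
  have h2 : u₁ - w₁ = 0 := by
    apply Submodule.disjoint_def.mp hd _ (Submodule.sub_mem _ (hU₁ hu₁) (hW₁ hw₁))
    rw [h1]
    exact Submodule.sub_mem _ (hW₂ hw₂) (hU₂ hu₂)
  have h3 : w₂ - u₂ = 0 := by rw [← h1, h2]
  have e1 : u₁ = 0 := Submodule.disjoint_def.mp d₁ u₁ hu₁ (sub_eq_zero.mp h2 ▸ hw₁)
  have e2 : u₂ = 0 := Submodule.disjoint_def.mp d₂ u₂ hu₂ ((sub_eq_zero.mp h3) ▸ hw₂)
  rw [e1, e2, add_zero]

theorem piece_left {ρ : Representation F G V} {p : ℕ} {U : Submodule F V} {a : LinearMap.BilinForm F V}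
    (hU : ∀ g, ∀ x ∈ U, ρ g x ∈ U) (h0 : ∀ x ∈ U, a x x = 0)
    (h1 : ∀ g, ∀ x ∈ U, ∀ y ∈ U, a (ρ g x) (ρ g y) = a x y) (h2 : LN a U) : Piece ρ p U ⊥ := by
  refine ⟨hU, ?_, ⟨a, h0, h1, h2⟩, ⟨0, ?_, ?_, ?_⟩, ?_⟩
  · intro g x hx
    rw [Submodule.mem_bot] at hx ⊢
    rw [hx, map_zero]
  · intro x _ y _
    simp
  · intro g x hx y hy
    simp
  · intro x hx _
    exact hx
  · intro _ g w hw
    rw [Submodule.mem_bot] at hw
    rw [hw, map_zero]

theorem piece_right {ρ : Representation F G V} {p : ℕ} (hp : p ≠ 2) {W : Submodule F V}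
    {s : LinearMap.BilinForm F V}
    (hW : ∀ g, ∀ x ∈ W, ρ g x ∈ W) (h0 : ∀ x ∈ W, ∀ y ∈ W, s x y = s y x)
    (h1 : ∀ g, ∀ x ∈ W, ∀ y ∈ W, s (ρ g x) (ρ g y) = s x y) (h2 : LN s W) : Piece ρ p ⊥ W := by
  refine ⟨?_, hW, ⟨0, ?_, ?_, ?_⟩, ⟨s, h0, h1, h2⟩, fun h => absurd h hp⟩
  · intro g x hx
    rw [Submodule.mem_bot] at hx ⊢
    rw [hx, map_zero]
  · intro x _
    simp
  · intro g x hx y hy
    simp
  · intro x hx _
    exact hx

/-- Case with a symmetric nondegenerate part in characteristic two. -/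
theorem sym_two (ρ : Representation F G V) (p : ℕ) (hc : (Nat.card G : F) ≠ 0) (h2 : (2 : F) = 0)
    {R : Submodule F V} {B : LinearMap.BilinForm F V} (hR : ∀ g, ∀ x ∈ R, ρ g x ∈ R)
    (hsym : ∀ x ∈ R, ∀ y ∈ R, B x y = B y x)
    (hinv : ∀ g, ∀ x ∈ R, ∀ y ∈ R, B (ρ g x) (ρ g y) = B x y) (hLN : LN B R) :
    ∃ U₁ W₁ : Submodule F V, U₁ ⊔ W₁ = R ∧ Disjoint U₁ W₁ ∧ Piece ρ p U₁ W₁ := by
  classical
  letI := Fintype.ofFinite G
  have hc' : ((Fintype.card G : ℕ) : F) ≠ 0 := by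
    rwa [← Nat.card_eq_fintype_card]
  let e : V →ₗ[F] V := ((Fintype.card G : ℕ) : F)⁻¹ • ∑ g : G, ρ g
  have he : ∀ x, e x = ((Fintype.card G : ℕ) : F)⁻¹ • ∑ g : G, ρ g x := by
    intro x
    simp only [e, LinearMap.smul_apply, LinearMap.sum_apply]
  have he_fixed : ∀ x, (∀ g, ρ g x = x) → e x = x := by
    intro x hx
    rw [he]
    simp only [hx, Finset.sum_const, Finset.card_univ]
    rw [← Nat.cast_smul_eq_nsmul F, smul_smul, inv_mul_cancel₀ hc', one_smul]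
  have he_mem : ∀ x h, ρ h (e x) = e x := by
    intro x h
    rw [he, map_smul, map_sum]
    congr 1
    refine Eq.trans ?_ (Equiv.sum_comp (Equiv.mulLeft h) (fun g => ρ g x))
    refine Finset.sum_congr rfl fun g _ => ?_
    simp only [Equiv.coe_mulLeft, map_mul, Module.End.mul_apply]
  have heR : ∀ x ∈ R, e x ∈ R := by
    intro x hx
    rw [he]
    apply R.smul_mem
    apply R.sum_mem
    intro g _
    exact hR g x hx
  have hee : ∀ x, e (e x) = e x := fun x => he_fixed _ (fun g => he_mem x g)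
  let Fx : Submodule F V :=
    { carrier := {x | ∀ g, ρ g x = x}
      add_mem' := by
        intro a b ha hb g
        rw [map_add, ha g, hb g]
      zero_mem' := by
        intro g
        rw [map_zero]
      smul_mem' := by
        intro c a ha g
        rw [map_smul, ha g] }
  have hFx : ∀ x, x ∈ Fx ↔ ∀ g, ρ g x = x := fun x => Iff.rfl
  let U₁ : Submodule F V := R ⊓ LinearMap.ker e
  let W₁ : Submodule F V := R ⊓ Fx
  have hU₁ : ∀ x, x ∈ U₁ ↔ x ∈ R ∧ e x = 0 := fun x => by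
    simp only [U₁, Submodule.mem_inf, LinearMap.mem_ker]
  have hW₁ : ∀ x, x ∈ W₁ ↔ x ∈ R ∧ ∀ g, ρ g x = x := fun x => by
    simp only [W₁, Submodule.mem_inf, hFx]
  have hsup : U₁ ⊔ W₁ = R := by
    apply le_antisymm (sup_le inf_le_left inf_le_left)
    intro x hx
    have hx1 : x = (x - e x) + e x := by abel
    rw [hx1]
    apply Submodule.add_mem_sup
    · rw [hU₁]
      refine ⟨Submodule.sub_mem _ hx (heR x hx), ?_⟩
      rw [map_sub, hee, sub_self]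
    · rw [hW₁]
      exact ⟨heR x hx, fun g => he_mem x g⟩
  have hdisj : Disjoint U₁ W₁ := by
    rw [Submodule.disjoint_def]
    intro x hx hx2
    rw [hU₁] at hx
    rw [hW₁] at hx2
    rw [← he_fixed x hx2.2]
    exact hx.2
  have horth : ∀ w ∈ W₁, ∀ u ∈ U₁, B w u = 0 := by
    intro w hw u hu
    rw [hW₁] at hw
    rw [hU₁] at hu
    have h3 : B w (e u) = B w u := by
      rw [he, map_smul, map_sum]
      have h4 : ∀ g : G, B w (ρ g u) = B w u := by
        intro g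
        have h5 := hinv g w hw.1 u hu.1
        rw [hw.2 g] at h5
        exact h5
      simp only [h4, Finset.sum_const, Finset.card_univ]
      rw [smul_eq_mul, nsmul_eq_mul, ← mul_assoc, inv_mul_cancel₀ hc', one_mul]
    rw [← h3, hu.2, map_zero]
  have hadd : ∀ x ∈ R, ∀ y ∈ R, B (x + y) (x + y) = B x x + B y y := by
    intro x hx y hy
    have e0 : B (x + y) (x + y) = B x x + B x y + (B y x + B y y) := by
      simp only [map_add, LinearMap.add_apply]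
      ring
    rw [e0, hsym y hy x hx]
    have h4 : B x y + B x y = 2 * B x y := by ring
    have h5 : B x x + (B x y + (B x y + B y y)) = B x x + B y y + (B x y + B x y) := by ring
    calc B x x + B x y + (B x y + B y y) = B x x + (B x y + (B x y + B y y)) := by ring
      _ = B x x + B y y + (B x y + B x y) := h5
      _ = B x x + B y y := by rw [h4, h2, zero_mul, add_zero]
  have hsum : ∀ (s : Finset G) (f : G → V), (∀ g ∈ s, f g ∈ R) → (∀ g ∈ s, B (f g) (f g) = 0) →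
      B (∑ g ∈ s, f g) (∑ g ∈ s, f g) = 0 := by
    intro s f
    induction s using Finset.induction_on with
    | empty =>
      intro _ _
      simp
    | insert g s hg ih =>
      intro h3 h4
      rw [Finset.sum_insert hg, hadd _ (h3 g (Finset.mem_insert_self g s)) _
        (R.sum_mem fun i hi => h3 i (Finset.mem_insert_of_mem hi)), h4 g (Finset.mem_insert_self g s),
        ih (fun i hi => h3 i (Finset.mem_insert_of_mem hi)) (fun i hi => h4 i (Finset.mem_insert_of_mem hi)),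
        add_zero]
  have halt : ∀ u ∈ U₁, B u u = 0 := by
    intro u hu
    rw [hU₁] at hu
    have h3 : ∑ g : G, (u - ρ g u) = ((Fintype.card G : ℕ) : F) • u := by
      rw [Finset.sum_sub_distrib]
      have h4 : ∑ g : G, ρ g u = 0 := by
        have h5 := hu.2
        rw [he] at h5
        have h6 := (smul_eq_zero.mp h5).resolve_left (inv_ne_zero hc')
        exact h6
      rw [h4, sub_zero]
      simp only [Finset.sum_const, Finset.card_univ]
      rw [Nat.cast_smul_eq_nsmul]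
    have h7 : B (∑ g : G, (u - ρ g u)) (∑ g : G, (u - ρ g u)) = 0 := by
      apply hsum
      · intro g _
        exact Submodule.sub_mem _ hu.1 (hR g u hu.1)
      · intro g _
        have h8 : u - ρ g u = u + (-1 : F) • ρ g u := by
          rw [neg_one_smul, sub_eq_add_neg]
        rw [h8, hadd _ hu.1 _ (R.smul_mem _ (hR g u hu.1)), map_smul, map_smul, LinearMap.smul_apply, hinv g u hu.1 u hu.1]
        simp only [smul_eq_mul]
        have h9 : B u u + -1 * (-1 * B u u) = 2 * B u u := by ring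
        rw [h9, h2, zero_mul]
    rw [h3, map_smul, map_smul, LinearMap.smul_apply] at h7
    simp only [smul_eq_mul] at h7
    rcases mul_eq_zero.mp h7 with h | h
    · exact absurd h hc'
    · rcases mul_eq_zero.mp h with h | h
      · exact absurd h hc'
      · exact h
  refine ⟨U₁, W₁, hsup, hdisj, ?_, ?_, ⟨B, halt, ?_, ?_⟩, ⟨B, ?_, ?_, ?_⟩, ?_⟩
  · intro g x hx
    rw [hU₁] at hx ⊢
    refine ⟨hR g x hx.1, ?_⟩
    -- e (ρ g x) = e x
    have h3 : e (ρ g x) = e x := by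
      rw [he, he]
      congr 1
      refine Eq.trans (Finset.sum_congr rfl fun h _ => ?_) (Equiv.sum_comp (Equiv.mulRight g) (fun h => ρ h x))
      simp only [Equiv.coe_mulRight, map_mul, Module.End.mul_apply]
    rw [h3, hx.2]
  · intro g x hx
    rw [hW₁] at hx ⊢
    refine ⟨hR g x hx.1, fun h => ?_⟩
    rw [hx.2 g, hx.2 h]
  · intro g x hx y hy
    exact hinv g x ((hU₁ x).mp hx).1 y ((hU₁ y).mp hy).1
  · intro x hx h0
    have hxR := ((hU₁ x).mp hx).1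
    apply hLN x hxR
    intro y hy
    rw [← hsup] at hy
    obtain ⟨u, hu, w, hw, rfl⟩ := Submodule.mem_sup.mp hy
    rw [map_add, h0 u hu, hsym x hxR w ((hW₁ w).mp hw).1, horth w hw x hx, add_zero]
  · intro x hx y hy
    exact hsym x ((hW₁ x).mp hx).1 y ((hW₁ y).mp hy).1
  · intro g x hx y hy
    exact hinv g x ((hW₁ x).mp hx).1 y ((hW₁ y).mp hy).1
  · intro x hx h0
    have hxR := ((hW₁ x).mp hx).1
    apply hLN x hxR
    intro y hy
    rw [← hsup] at hy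
    obtain ⟨u, hu, w, hw, rfl⟩ := Submodule.mem_sup.mp hy
    rw [map_add, h0 w hw, horth x hx u hu, add_zero]
  · intro _ g w hw
    exact ((hW₁ w).mp hw).2 g

/-- Isotropic radical part: hyperbolic construction. -/
theorem case_iso (ρ : Representation F G V) (p : ℕ) (hc : (Nat.card G : F) ≠ 0)
    {M S : Submodule F V} {B : LinearMap.BilinForm F V} (hM : ∀ g, ∀ x ∈ M, ρ g x ∈ M)
    (hBinv : ∀ g, ∀ x ∈ M, ∀ y ∈ M, B (ρ g x) (ρ g y) = B x y) (hLN : LN B M)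
    (hSM : S ≤ M) (hS0 : S ≠ ⊥) (hS : ∀ g, ∀ x ∈ S, ρ g x ∈ S)
    (hSsym : ∀ x ∈ S, ∀ y ∈ M, B x y = B y x) (hSiso : ∀ x ∈ S, ∀ y ∈ S, B x y = 0) :
    ∃ H : Submodule F V, H ≤ M ∧ H ≠ ⊥ ∧ LN B H ∧ (∀ g, ∀ x ∈ H, ρ g x ∈ H) ∧
      ∃ U₁ W₁ : Submodule F V, U₁ ⊔ W₁ = H ∧ Disjoint U₁ W₁ ∧ Piece ρ p U₁ W₁ := by
  let K : Submodule F V := M ⊓ perp B S
  have hK : ∀ x, x ∈ K ↔ x ∈ M ∧ ∀ r ∈ S, B r x = 0 := fun x => Iff.rfl
  have hKinv : ∀ g, ∀ x ∈ K, ρ g x ∈ K := by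
    intro g x hx
    rw [hK] at hx ⊢
    refine ⟨hM g x hx.1, fun r hr => ?_⟩
    have h3 := hBinv g (ρ g⁻¹ r) (hM _ _ (hSM hr)) x hx.1
    have h4 : ρ g (ρ g⁻¹ r) = r := by
      rw [← Module.End.mul_apply, ← map_mul]
      simp
    rw [h4] at h3
    rw [h3]
    exact hx.2 _ (hS _ _ hr)
  obtain ⟨Y, hYM, hsup, hd, hYinv⟩ := exists_inv_compl_rel ρ hc (inf_le_left : K ≤ M) hM hKinv
  have hSK : S ≤ K := by
    intro x hx
    rw [hK]
    exact ⟨hSM hx, fun r hr => hSiso r hr x hx⟩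
  have hdSY : Disjoint S Y := hd.mono_left hSK
  have hrM : ∀ r ∈ S, (∀ y ∈ Y, B r y = 0) → r = 0 := by
    intro r hr h0
    apply hLN r (hSM hr)
    intro v hv
    rw [← hsup] at hv
    obtain ⟨k, hk, y, hy, rfl⟩ := Submodule.mem_sup.mp hv
    rw [map_add, h0 y hy, ((hK k).mp hk).2 r hr, add_zero]
  have hyK : ∀ y ∈ Y, (∀ r ∈ S, B r y = 0) → y = 0 := by
    intro y hy h0
    exact Submodule.disjoint_def.mp hd y ((hK y).mpr ⟨hYM hy, h0⟩) hy
  refine ⟨S ⊔ Y, sup_le hSM hYM, ?_, ?_, ?_, ?_⟩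
  · intro h
    apply hS0
    rw [eq_bot_iff, ← h]
    exact le_sup_left
  · intro x hx h0
    obtain ⟨r, hr, y, hy, rfl⟩ := Submodule.mem_sup.mp hx
    have e1 : y = 0 := by
      apply hyK y hy
      intro r' hr'
      have h3 := h0 r' (Submodule.mem_sup_left hr')
      rw [map_add, LinearMap.add_apply, hSiso r hr r' hr', zero_add, ← hSsym r' hr' y (hYM hy)] at h3
      exact h3
    subst e1
    have e2 : r = 0 := by
      apply hrM r hr
      intro y' hy'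
      have h3 := h0 y' (Submodule.mem_sup_right hy')
      rw [add_zero] at h3
      exact h3
    rw [e2, add_zero]
  · intro g x hx
    obtain ⟨r, hr, y, hy, rfl⟩ := Submodule.mem_sup.mp hx
    rw [map_add]
    exact Submodule.add_mem_sup (hS g _ hr) (hYinv g _ hy)
  · refine ⟨S ⊔ Y, ⊥, sup_bot_eq _, disjoint_bot_right, ?_⟩
    obtain ⟨f, hf1, hf2⟩ := exists_proj Y S hdSY.symm
    obtain ⟨k, hk1, hk2⟩ := exists_proj S Y hdSY
    let a : LinearMap.BilinForm F V := B.comp k f - (B.comp k f).flip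
    have ha : ∀ x y, a x y = B (k x) (f y) - B (k y) (f x) := fun x y => rfl
    have ha2 : ∀ r ∈ S, ∀ y ∈ Y, ∀ r' ∈ S, ∀ y' ∈ Y, a (r + y) (r' + y') = B r y' - B r' y := by
      intro r hr y hy r' hr' y' hy'
      have e1 : k (r + y) = r := by rw [map_add, hk1 r hr, hk2 y hy, add_zero]
      have e2 : k (r' + y') = r' := by rw [map_add, hk1 r' hr', hk2 y' hy', add_zero]
      have e3 : f (r + y) = y := by rw [map_add, hf1 y hy, hf2 r hr, zero_add]
      have e4 : f (r' + y') = y' := by rw [map_add, hf1 y' hy', hf2 r' hr', zero_add]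
      rw [ha, e1, e2, e3, e4]
    refine piece_left (a := a) ?_ ?_ ?_ ?_
    · intro g x hx
      obtain ⟨r, hr, y, hy, rfl⟩ := Submodule.mem_sup.mp hx
      rw [map_add]
      exact Submodule.add_mem_sup (hS g _ hr) (hYinv g _ hy)
    · intro x _
      rw [ha, sub_self]
    · intro g x hx z hz
      obtain ⟨r, hr, y, hy, rfl⟩ := Submodule.mem_sup.mp hx
      obtain ⟨r', hr', y', hy', rfl⟩ := Submodule.mem_sup.mp hz
      rw [map_add (ρ g) r y, map_add (ρ g) r' y', ha2 _ (hS g _ hr) _ (hYinv g _ hy) _ (hS g _ hr') _ (hYinv g _ hy'), ha2 r hr y hy r' hr' y' hy',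
        hBinv g _ (hSM hr) _ (hYM hy'), hBinv g _ (hSM hr') _ (hYM hy)]
    · intro x hx h0
      obtain ⟨r, hr, y, hy, rfl⟩ := Submodule.mem_sup.mp hx
      have e1 : y = 0 := by
        apply hyK y hy
        intro r' hr'
        have h3 := h0 (r' + 0) (Submodule.add_mem_sup hr' (Submodule.zero_mem _))
        rw [ha2 r hr y hy r' hr' 0 (Submodule.zero_mem _), map_zero, zero_sub, neg_eq_zero] at h3
        exact h3
      subst e1
      have e2 : r = 0 := by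
        apply hrM r hr
        intro y' hy'
        have h3 := h0 (0 + y') (Submodule.add_mem_sup (Submodule.zero_mem _) hy')
        rw [ha2 r hr 0 (Submodule.zero_mem _) 0 (Submodule.zero_mem _) y' hy', map_zero, sub_zero] at h3
        exact h3
      rw [e2, add_zero]

/-- One step: either the space splits off directly, or a nondegenerate invariant piece can be split off. -/
theorem exists_piece (ρ : Representation F G V) (p : ℕ) (hc : (Nat.card G : F) ≠ 0) (h2 : p = 2 → (2 : F) = 0)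
    {M : Submodule F V} {B : LinearMap.BilinForm F V} (hM : ∀ g, ∀ x ∈ M, ρ g x ∈ M)
    (hBinv : ∀ g, ∀ x ∈ M, ∀ y ∈ M, B (ρ g x) (ρ g y) = B x y) (hLN : LN B M) :
    (∃ U W : Submodule F V, U ⊔ W = M ∧ Disjoint U W ∧ Piece ρ p U W) ∨
    ∃ H : Submodule F V, H ≤ M ∧ H ≠ ⊥ ∧ LN B H ∧ (∀ g, ∀ x ∈ H, ρ g x ∈ H) ∧
      ∃ U₁ W₁ : Submodule F V, U₁ ⊔ W₁ = H ∧ Disjoint U₁ W₁ ∧ Piece ρ p U₁ W₁ := by
  let R : Submodule F V :=
    { carrier := {x | x ∈ M ∧ ∀ y ∈ M, B x y = B y x}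
      add_mem' := by
        intro a b ha hb
        refine ⟨M.add_mem ha.1 hb.1, fun y hy => ?_⟩
        rw [map_add, LinearMap.add_apply, map_add, ha.2 y hy, hb.2 y hy]
      zero_mem' := by
        refine ⟨M.zero_mem, fun y hy => ?_⟩
        simp
      smul_mem' := by
        intro c a ha
        refine ⟨M.smul_mem c ha.1, fun y hy => ?_⟩
        rw [map_smul, LinearMap.smul_apply, map_smul, ha.2 y hy] }
  have hRm : ∀ x, x ∈ R ↔ x ∈ M ∧ ∀ y ∈ M, B x y = B y x := fun x => Iff.rfl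
  have hRM : R ≤ M := fun x hx => hx.1
  have hRinv : ∀ g, ∀ x ∈ R, ρ g x ∈ R := by
    intro g x hx
    rw [hRm] at hx ⊢
    refine ⟨hM g x hx.1, fun y hy => ?_⟩
    have h4 : ρ g (ρ g⁻¹ y) = y := by
      rw [← Module.End.mul_apply, ← map_mul]
      simp
    have h5 := hBinv g x hx.1 (ρ g⁻¹ y) (hM _ _ hy)
    have h6 := hBinv g (ρ g⁻¹ y) (hM _ _ hy) x hx.1
    rw [h4] at h5 h6
    rw [h5, h6]
    exact hx.2 _ (hM _ _ hy)
  by_cases hR0 : R = ⊥
  · left
    refine ⟨M, ⊥, sup_bot_eq _, disjoint_bot_right, ?_⟩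
    refine piece_left (a := B - B.flip) hM ?_ ?_ ?_
    · intro x _
      simp
    · intro g x hx y hy
      show B (ρ g x) (ρ g y) - B (ρ g y) (ρ g x) = B x y - B y x
      rw [hBinv g x hx y hy, hBinv g y hy x hx]
    · intro x hx h0
      have : x ∈ R := by
        rw [hRm]
        refine ⟨hx, fun y hy => ?_⟩
        have h3 : B x y - B y x = 0 := h0 y hy
        exact sub_eq_zero.mp h3
      rw [hR0] at this
      exact (Submodule.mem_bot F).mp this
  · right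
    have hBinvR : ∀ g, ∀ x ∈ R, ∀ y ∈ R, B (ρ g x) (ρ g y) = B x y :=
      fun g x hx y hy => hBinv g x hx.1 y hy.1
    have hsymR : ∀ x ∈ R, ∀ y ∈ R, B x y = B y x := fun x hx y hy => hx.2 y hy.1
    by_cases hR1 : R ⊓ perp B R = ⊥
    · have hLNR : LN B R := by
        intro x hx h0
        have hx2 : x ∈ R ⊓ perp B R := by
          refine ⟨hx, fun r hr => ?_⟩
          rw [hsymR r hr x hx]
          exact h0 r hr
        rw [hR1] at hx2
        exact (Submodule.mem_bot F).mp hx2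
      refine ⟨R, hRM, hR0, hLNR, hRinv, ?_⟩
      by_cases hp : p = 2
      · exact sym_two ρ p hc (h2 hp) hRinv hsymR hBinvR hLNR
      · exact ⟨⊥, R, bot_sup_eq _, disjoint_bot_left, piece_right hp hRinv hsymR hBinvR hLNR⟩
    · refine case_iso ρ p hc hM hBinv hLN (S := R ⊓ perp B R) (inf_le_left.trans hRM) hR1 ?_ ?_ ?_
      · intro g x hx
        refine ⟨hRinv g x hx.1, fun r hr => ?_⟩
        have h4 : ρ g (ρ g⁻¹ r) = r := by
          rw [← Module.End.mul_apply, ← map_mul]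
          simp
        have h3 := hBinvR g _ (hRinv g⁻¹ r hr) x hx.1
        rw [h4] at h3
        rw [h3]
        exact hx.2 _ (hRinv g⁻¹ r hr)
      · intro x hx y hy
        exact hx.1.2 y hy
      · intro x hx y hy
        exact hy.2 x hx.1

theorem main_rec (ρ : Representation F G V) (p : ℕ) (hc : (Nat.card G : F) ≠ 0) (h2 : p = 2 → (2 : F) = 0) :
    ∀ (n : ℕ) (M : Submodule F V) (B : LinearMap.BilinForm F V), finrank F M = n → (∀ g, ∀ x ∈ M, ρ g x ∈ M) →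
      (∀ g, ∀ x ∈ M, ∀ y ∈ M, B (ρ g x) (ρ g y) = B x y) → LN B M →
      ∃ U W : Submodule F V, U ⊔ W = M ∧ Disjoint U W ∧ Piece ρ p U W := by
  intro n
  induction n using Nat.strong_induction_on with
  | _ n ih =>
    intro M B hn hM hBinv hLN
    rcases exists_piece ρ p hc h2 hM hBinv hLN with h | ⟨H, hHM, hH0, hHLN, hHinv, U₁, W₁, hsup₁, hd₁, P₁⟩
    · exact h
    · let K : Submodule F V := M ⊓ perp B H
      have hKm : ∀ x, x ∈ K ↔ x ∈ M ∧ ∀ r ∈ H, B r x = 0 := fun x => Iff.rfl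
      have hcompl := isCompl_perp hHLN
      have hdHK : Disjoint H K := hcompl.disjoint.mono_right inf_le_right
      have hsupHK : H ⊔ K = M := by
        apply le_antisymm (sup_le hHM inf_le_left)
        intro x hx
        have hv : x ∈ H ⊔ perp B H := by
          rw [hcompl.sup_eq_top]; trivial
        obtain ⟨a, ha, b, hb, rfl⟩ := Submodule.mem_sup.mp hv
        apply Submodule.add_mem_sup ha
        refine ⟨?_, hb⟩
        have : b = (a + b) - a := by abel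
        rw [this]
        exact Submodule.sub_mem _ hx (hHM ha)
      have hKinv : ∀ g, ∀ x ∈ K, ρ g x ∈ K := by
        intro g x hx
        rw [hKm] at hx ⊢
        refine ⟨hM g x hx.1, fun r hr => ?_⟩
        have h4 : ρ g (ρ g⁻¹ r) = r := by
          rw [← Module.End.mul_apply, ← map_mul]
          simp
        have h3 := hBinv g (ρ g⁻¹ r) (hM _ _ (hHM hr)) x hx.1
        rw [h4] at h3
        rw [h3]
        exact hx.2 _ (hHinv _ _ hr)
      have hKLN : LN B K := by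
        intro y hy h0
        let f : H →ₗ[F] F := (B y).comp H.subtype
        obtain ⟨h₀, hh₀, hh₀f⟩ := left_surj hHLN f
        have h1 : y - h₀ = 0 := by
          apply hLN _ (Submodule.sub_mem _ ((hKm y).mp hy).1 (hHM hh₀))
          intro v hv
          rw [← hsupHK] at hv
          obtain ⟨a, ha, b, hb, rfl⟩ := Submodule.mem_sup.mp hv
          have h3 := hh₀f ⟨a, ha⟩
          have h4 : f ⟨a, ha⟩ = B y a := rfl
          rw [h4] at h3
          have h5 : (B y) b = 0 := h0 b hb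
          have h6 : (B h₀) b = 0 := ((hKm b).mp hb).2 h₀ hh₀
          rw [map_sub, LinearMap.sub_apply, map_add, map_add, h3, h5, h6]
          ring
        have h7 : y = h₀ := sub_eq_zero.mp h1
        have h8 : y ∈ H := by
          rw [h7]; exact hh₀
        exact Submodule.disjoint_def.mp hdHK y h8 hy
      have hlt : K < M := by
        refine lt_of_le_of_ne inf_le_left fun he => hH0 ?_
        rw [eq_bot_iff]
        intro x hx
        rw [Submodule.mem_bot]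
        have hx2 : x ∈ K := by
          rw [he]; exact hHM hx
        exact Submodule.disjoint_def.mp hdHK x hx hx2
      have hfin : finrank F K < n := by
        rw [← hn]
        exact Submodule.finrank_lt_finrank_of_lt hlt
      obtain ⟨U₂, W₂, hsup₂, hd₂, P₂⟩ := ih _ hfin K B rfl hKinv
        (fun g x hx y hy => hBinv g x hx.1 y hy.1) hKLN
      have hU₁ : U₁ ≤ H := by rw [← hsup₁]; exact le_sup_left
      have hW₁ : W₁ ≤ H := by rw [← hsup₁]; exact le_sup_right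
      have hU₂ : U₂ ≤ K := by rw [← hsup₂]; exact le_sup_left
      have hW₂ : W₂ ≤ K := by rw [← hsup₂]; exact le_sup_right
      refine ⟨U₁ ⊔ U₂, W₁ ⊔ W₂, ?_, disjoint_sup_sup hdHK hU₁ hW₁ hU₂ hW₂ hd₁ hd₂,
        Piece.combine hdHK hU₁ hW₁ hU₂ hW₂ P₁ P₂⟩
      rw [← hsupHK, ← hsup₁, ← hsup₂]
      exact sup_sup_sup_comm _ _ _ _

end Main

theorem s4966_main {F : Type*} [Field F] (p : ℕ) [Fact p.Prime] [CharP F p] {G : Type*} [Group G] [Finite G]
    (hcop : ¬ p ∣ Nat.card G) {V : Type*} [AddCommGroup V] [Module F V] [FiniteDimensional F V]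
    (ρ : Representation F G V) (B : LinearMap.BilinForm F V) (hB : B.Nondegenerate)
    (hBinv : ∀ g : G, ∀ x y : V, B (ρ g x) (ρ g y) = B x y) :
    ∃ U W : Submodule F V, IsCompl U W ∧ (∀ g : G, ∀ u ∈ U, ρ g u ∈ U) ∧ (∀ g : G, ∀ w ∈ W, ρ g w ∈ W) ∧
      (∃ A : LinearMap.BilinForm F V, (∀ x : V, A x x = 0) ∧
        (∀ g : G, ∀ x ∈ U, ∀ y ∈ U, A (ρ g x) (ρ g y) = A x y) ∧ (∀ x ∈ U, (∀ y ∈ U, A x y = 0) → x = 0)) ∧
      (∃ S : LinearMap.BilinForm F V, (∀ x y : V, S x y = S y x) ∧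
        (∀ g : G, ∀ x ∈ W, ∀ y ∈ W, S (ρ g x) (ρ g y) = S x y) ∧ (∀ x ∈ W, (∀ y ∈ W, S x y = 0) → x = 0)) ∧
      (p = 2 → ∀ g : G, ∀ w ∈ W, ρ g w = w) := by
  have hc : (Nat.card G : F) ≠ 0 := by
    intro h
    exact hcop ((CharP.cast_eq_zero_iff F p _).mp h)
  have h2 : p = 2 → (2 : F) = 0 := by
    intro hp
    subst hp
    exact_mod_cast CharP.cast_eq_zero F 2
  have hLN : LN B (⊤ : Submodule F V) := by
    intro x _ h0
    exact hB.1 x (fun y => h0 y trivial)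
  obtain ⟨U, W, hsup, hd, P⟩ := main_rec ρ p hc h2 _ ⊤ B rfl (fun _ _ _ => trivial)
    (fun g x _ y _ => hBinv g x y) hLN
  have hcompl : IsCompl U W := ⟨hd, by rw [codisjoint_iff, hsup]⟩
  obtain ⟨a, ha, ha', ha''⟩ := P.alt
  obtain ⟨s, hs, hs', hs''⟩ := P.sym
  obtain ⟨π₁, h11, h12⟩ := exists_proj U W hd
  obtain ⟨π₂, h21, h22⟩ := exists_proj W U hd.symm
  have hπ₁ : ∀ x, π₁ x ∈ U := by
    intro x
    have hv : x ∈ U ⊔ W := by rw [hsup]; trivial
    obtain ⟨u, hu, w, hw, rfl⟩ := Submodule.mem_sup.mp hv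
    rw [map_add, h11 u hu, h12 w hw, add_zero]
    exact hu
  have hπ₂ : ∀ x, π₂ x ∈ W := by
    intro x
    have hv : x ∈ U ⊔ W := by rw [hsup]; trivial
    obtain ⟨u, hu, w, hw, rfl⟩ := Submodule.mem_sup.mp hv
    rw [map_add, h21 w hw, h22 u hu, zero_add]
    exact hw
  refine ⟨U, W, hcompl, P.invU, P.invW, ⟨a.comp π₁ π₁, ?_, ?_, ?_⟩, ⟨s.comp π₂ π₂, ?_, ?_, ?_⟩, P.triv⟩
  · intro x
    exact ha _ (hπ₁ x)
  · intro g x hx y hy
    simp only [LinearMap.BilinForm.comp_apply]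
    rw [h11 _ (P.invU g x hx), h11 _ (P.invU g y hy), h11 x hx, h11 y hy]
    exact ha' g x hx y hy
  · intro x hx h0
    apply ha'' x hx
    intro y hy
    have := h0 y hy
    simp only [LinearMap.BilinForm.comp_apply] at this
    rwa [h11 x hx, h11 y hy] at this
  · intro x y
    exact hs _ (hπ₂ x) _ (hπ₂ y)
  · intro g x hx y hy
    simp only [LinearMap.BilinForm.comp_apply]
    rw [h21 _ (P.invW g x hx), h21 _ (P.invW g y hy), h21 x hx, h21 y hy]
    exact hs' g x hx y hy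
  · intro x hx h0
    apply hs'' x hx
    intro y hy
    have := h0 y hy
    simp only [LinearMap.BilinForm.comp_apply] at this
    rwa [h21 x hx, h21 y hy] at this

end CfsgLib.Char.SD
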