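import Mathlib
import Cfsg.Agent.Lib.Char.FpfCyclic
import Cfsg.Agent.Lib.Char.LocalIdeal
import Cfsg.Agent.Lib.Char.Brauer2
import Cfsg.Agent.Lib.H3.PSolv
import Cfsg.Agent.Lib.Solv.CoprimeSylow
import Cfsg.Agent.Lib.Solv.Fit

/-!
# Faithful characters of small degree of `p`-solvable groups
-/

set_option linter.unusedSectionVars false
set_option linter.style.haveILetI false
set_option linter.unusedSimpArgs false
set_option linter.unusedVariables false

namespace CfsgLib.Char.SD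

open Cfsg CfsgLib.Char CfsgLib.Block
open scoped ComplexConjugate Pointwise

universe u

theorem constituent_deg_le {H : Type u} [Group H] [Fintype H] {f : H → ℂ} (hf : IsCharacter H f) {t : ℕ} (ht : f 1 = t)
    (η : IrrCharacter H) (hη : classInner f (η : H → ℂ) ≠ 0) {b : ℕ} (hb : (η : H → ℂ) 1 = b) : b ≤ t := by
  classical
  obtain ⟨c, hc⟩ := hf.exists_coeff
  have hcη : c η ≠ 0 := by
    intro h0
    apply hη
    rw [hc, classInner_sum_coeff_nat, h0]
    simp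
  choose deg hdeg0 hdeg using fun ψ : IrrCharacter H => ψ.2.map_one
  have hsum : t = ∑ ψ, c ψ * deg ψ := by
    have h1 := congrFun hc 1
    rw [Finset.sum_apply, ht] at h1
    have : ((t : ℕ) : ℂ) = ((∑ ψ, c ψ * deg ψ : ℕ) : ℂ) := by
      rw [h1]
      push_cast
      refine Finset.sum_congr rfl fun ψ _ => ?_
      rw [Pi.smul_apply, nsmul_eq_mul, hdeg ψ]
    exact_mod_cast this
  have h2 : c η * deg η ≤ t := by
    rw [hsum]
    exact Finset.single_le_sum (f := fun ψ => c ψ * deg ψ) (fun _ _ => Nat.zero_le _) (Finset.mem_univ η)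
  have h3 : b = deg η := by
    have := hb.symm.trans (hdeg η)
    exact_mod_cast this
  rw [h3]
  calc deg η = 1 * deg η := (one_mul _).symm
    _ ≤ c η * deg η := Nat.mul_le_mul_right _ (Nat.pos_of_ne_zero hcη)
    _ ≤ t := h2

theorem local_main {Γ : Type u} [Group Γ] [Fintype Γ] (p q : ℕ) [hp : Fact p.Prime] [hq : Fact q.Prime] (hqp : q ≠ p)
    (Q : Subgroup Γ) [hQ : Q.Normal] [Fintype Q] (hQq : IsPGroup q Q) (x : Γ) (a : ℕ) (hxp : orderOf x = p ^ a)
    (htop : Q ⊔ Subgroup.zpowers x = ⊤) {τ : Γ → ℂ} (hτ : IsCharacter Γ τ) (n : ℕ) (hτ1 : τ 1 = n) (hn : n + 1 ≤ p)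
    (hfaith : ∀ g, τ g = τ 1 → g = 1) (y : Γ) (hy : y ∈ Q) (hyx : y * x * y⁻¹ * x⁻¹ ≠ 1) :
    n + 1 = p ∧ (∃ k, n = 2 ^ k) ∧ IsIrrCharacter Γ τ := by
  classical
  set g := y * x * y⁻¹ * x⁻¹ with hg
  have hgQ : g ∈ Q := by
    have h1 : x * y⁻¹ * x⁻¹ ∈ Q := hQ.conj_mem _ (Q.inv_mem hy) x
    have h2 := Q.mul_mem hy h1
    rw [hg]
    convert h2 using 1
    group
  obtain ⟨A, hA⟩ := hτ.exists_coeff
  have hτv : ∀ z, τ z = ∑ ψ, (A ψ : ℂ) * (ψ : Γ → ℂ) z := by
    intro z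
    have h1 := congrFun hA z
    rw [Finset.sum_apply] at h1
    rw [h1]
    refine Finset.sum_congr rfl fun ψ _ => ?_
    rw [Pi.smul_apply, nsmul_eq_mul]
  obtain ⟨ξ, hξa, hξg⟩ : ∃ ξ, A ξ ≠ 0 ∧ (ξ : Γ → ℂ) g ≠ (ξ : Γ → ℂ) 1 := by
    by_contra hcon
    push Not at hcon
    apply hyx
    apply hfaith
    rw [hτv, hτv]
    refine Finset.sum_congr rfl fun ψ _ => ?_
    by_cases h : A ψ = 0
    · simp [h]
    · rw [hcon ψ h]
  choose deg hdeg0 hdeg using fun ψ : IrrCharacter Γ => ψ.2.map_one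
  have hnsum : n = ∑ ψ, A ψ * deg ψ := by
    have h1 := hτv 1
    rw [hτ1] at h1
    have : ((n : ℕ) : ℂ) = ((∑ ψ, A ψ * deg ψ : ℕ) : ℂ) := by
      rw [h1]
      push_cast
      refine Finset.sum_congr rfl fun ψ _ => ?_
      rw [hdeg ψ]
    exact_mod_cast this
  have hξA : A ξ * deg ξ ≤ n := by
    rw [hnsum]
    exact Finset.single_le_sum (f := fun ψ => A ψ * deg ψ) (fun _ _ => Nat.zero_le _) (Finset.mem_univ ξ)
  have hξle : deg ξ ≤ n := by
    calc deg ξ = 1 * deg ξ := (one_mul _).symm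
      _ ≤ A ξ * deg ξ := Nat.mul_le_mul_right _ (Nat.pos_of_ne_zero hξa)
      _ ≤ n := hξA
  have hξlt : deg ξ < p := by omega
  have hξpos : 0 < deg ξ := hdeg0 ξ
  have hchar : charDegree (ξ : Γ → ℂ) = deg ξ := by
    simp [charDegree, hdeg ξ]
  have hξnd : ¬ p ∣ charDegree (ξ : Γ → ℂ) := by
    rw [hchar]
    exact Nat.not_dvd_of_pos_of_lt hξpos hξlt
  let S : Subgroup Γ := Subgroup.zpowers x
  have hScard : Nat.card S = p ^ a := by
    rw [Nat.card_zpowers, hxp]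
  obtain ⟨m, hm⟩ := IsPGroup.iff_card.1 hQq
  have hQS : (q ^ m).Coprime (p ^ a) := Nat.Coprime.pow _ _ ((Nat.coprime_primes hq.out hp.out).2 hqp)
  have hQcop : (Nat.card Q).Coprime (Nat.card S) := by
    rw [hm, hScard]
    exact hQS
  have hdisj : Q ⊓ S = ⊥ := (Subgroup.disjoint_of_coprime_natCard hQcop).eq_bot
  have hindex : Q.index = Nat.card S := (frob_isComplement Q S hdisj htop).symm.index_eq_card
  obtain ⟨θ, hθ⟩ := GF.restrict_irr_of_coprime (p := p) Q a (hindex.trans hScard) hξnd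
  have hθinv : ∀ (g : Γ) (n : Q), (θ : Q → ℂ) ⟨g * n * g⁻¹, hQ.conj_mem (n : Γ) n.2 g⟩ = (θ : Q → ℂ) n := by
    intro g n
    rw [← hθ, ← hθ]
    exact ξ.2.isClassFunction _ _
  have hd : (θ : Q → ℂ) 1 = deg ξ := by
    rw [← hθ 1]
    exact hdeg ξ
  have hdetO : detOrder (θ : Q → ℂ) ∣ Nat.card Q := detOrder_dvd_card θ.2.isCharacter
  have hddvd : deg ξ ∣ Nat.card Q := degree_dvd_card θ.2 hd
  have hcopX : Nat.Coprime Q.index (detOrder (θ : Q → ℂ) * deg ξ) := by
    rw [hindex]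
    apply Nat.Coprime.mul_right
    · exact Nat.Coprime.coprime_dvd_right hdetO hQcop.symm
    · exact Nat.Coprime.coprime_dvd_right hddvd hQcop.symm
  obtain ⟨ξ₀, ⟨hξ₀, hξ₀res, hξ₀det⟩, -⟩ := exists_unique_extension_of_coprime Q (θ : Q → ℂ) θ.2 hθinv (deg ξ) hd hcopX
  have hξ₀det' : (detOrder ξ₀).Coprime (Nat.card S) := by
    rw [hξ₀det]
    exact Nat.Coprime.coprime_dvd_left hdetO hQcop
  have hres₀ : IsIrrCharacter Q (fun n : Q => ξ₀ n) := by
    have : (fun n : Q => ξ₀ n) = (θ : Q → ℂ) := funext hξ₀res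
    rw [this]
    exact θ.2
  let C : Subgroup Γ := Q ⊓ Subgroup.centralizer ({x} : Set Γ)
  letI : Fintype C := Fintype.ofFinite _
  have hd' : CorrData Q S C x := ⟨hQcop, rfl, htop, inf_le_left, fun y => by
    show y ∈ Q ⊓ _ ↔ _
    rw [Subgroup.mem_inf, Subgroup.mem_centralizer_singleton_iff]⟩
  obtain ⟨β, ε, hε, hβv, hβc⟩ := hd'.exists_corr hξ₀ hres₀ hξ₀det'
  obtain ⟨b, hb0, hb⟩ := β.2.map_one
  have hx0 : ξ₀ x = (ε : ℂ) * b := by
    have h1 := hβv 1 x rfl
    rw [hb] at h1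
    simpa using h1
  have hξ₀1 : ξ₀ 1 = deg ξ := by
    have h1 := hξ₀res 1
    rw [hd] at h1
    exact h1
  obtain ⟨M, hM⟩ := exists_isPModular p hp.out
  have hP := hM.isPrime
  have hpdvd : (p : ℤ) ∣ ε * b - deg ξ := by
    rw [← intCast_mem_locI_iff hM]
    obtain ⟨m₀, ρ, hρ, hρe⟩ := hξ₀
    obtain ⟨w, hwM, hw⟩ := character_sub_regular_mem hM ρ x 1 (Commute.one_right x) a hxp
      (by rw [orderOf_one]; exact fun h => hp.out.one_lt.ne' (Nat.dvd_one.mp h))
    have h1 := locI_of_mem hP hwM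
    have h2 : (((ε * b - deg ξ : ℤ)) : ℂ) = (w : ℂ) := by
      rw [hw, mul_one, hρe, hx0, hξ₀1]
      push_cast
      ring
    rw [h2]
    exact h1
  have hbd : b ≤ deg ξ := constituent_deg_le (hξ₀.isCharacter.restrict C) (t := deg ξ) hξ₀1 β hβc hb
  by_cases hbeq : b = deg ξ
  · exfalso
    apply hξg
    have hn1 : ‖ξ₀ x‖ = ‖ξ₀ 1‖ := by
      rw [hx0, hξ₀1, hbeq]
      rcases hε with rfl | rfl <;> simp
    have hn2 : ξ₀ (y * x * y⁻¹) = ξ₀ x := hξ₀.isClassFunction x y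
    have h3 := char_mul_of_norm hξ₀.isCharacter (y * x * y⁻¹) (by rw [hn2]; exact hn1) x⁻¹
    have hinv : ξ₀ x⁻¹ = conj (ξ₀ x) := hξ₀.map_inv x
    rw [hn2, hinv, hx0, hξ₀1, hbeq] at h3
    have h4 : ξ₀ g = ξ₀ 1 := by
      rw [hξ₀1]
      have h5 : (deg ξ : ℂ) ≠ 0 := by exact_mod_cast hξpos.ne'
      apply mul_right_cancel₀ h5
      rw [hg, h3]
      have hεε : (ε : ℂ) * ε = 1 := by
        rcases hε with rfl | rfl <;> simp
      simp only [map_mul, Complex.conj_natCast, map_intCast]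
      linear_combination ((deg ξ : ℂ) * (deg ξ : ℂ)) * hεε
    have h6 : (ξ : Γ → ℂ) g = ξ₀ g := by
      have h7 := hθ ⟨g, hgQ⟩
      have h8 := hξ₀res ⟨g, hgQ⟩
      exact h7.trans h8.symm
    rw [h6, h4, hξ₀1, hdeg ξ]
  · have hblt : b < deg ξ := by omega
    have hbd1 : (b : ℤ) < deg ξ := by exact_mod_cast hblt
    have hdp1 : (deg ξ : ℤ) < p := by exact_mod_cast hξlt
    have hb1 : (0 : ℤ) < b := by exact_mod_cast hb0
    have hε' : ε = -1 := by
      rcases hε with rfl | rfl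
      · exfalso
        obtain ⟨r, hr⟩ := hpdvd
        have hr' : (p : ℤ) * r = (b : ℤ) - deg ξ := by rw [← hr]; ring
        have hp0 : (0 : ℤ) < p := by exact_mod_cast hp.out.pos
        have h1 : r < 0 := by
          by_contra hc
          push Not at hc
          nlinarith
        have h2 : -1 < r := by
          by_contra hc
          push Not at hc
          nlinarith
        omega
      · rfl
    have hsum : b + deg ξ = p := by
      rw [hε'] at hpdvd
      obtain ⟨r, hr⟩ := hpdvd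
      have hr' : (p : ℤ) * (-r) = (b : ℤ) + deg ξ := by linarith
      have hp0 : (0 : ℤ) < p := by exact_mod_cast hp.out.pos
      have h1 : 0 < -r := by
        by_contra hc
        push Not at hc
        nlinarith
      have h2 : -r < 2 := by
        by_contra hc
        push Not at hc
        nlinarith
      have h3 : -r = 1 := by omega
      rw [h3, mul_one] at hr'
      exact_mod_cast hr'.symm
    -- prime powers
    have hbdvd : b ∣ q ^ m := by
      have h1 : b ∣ Nat.card C := degree_dvd_card β.2 hb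
      have h2 : Nat.card C ∣ Nat.card Q := Subgroup.card_dvd_of_le inf_le_left
      rw [← hm]
      exact h1.trans h2
    have hddvd' : deg ξ ∣ q ^ m := by rw [← hm]; exact hddvd
    obtain ⟨i, -, hi⟩ := (Nat.dvd_prime_pow hq.out).1 hbdvd
    obtain ⟨j, -, hj⟩ := (Nat.dvd_prime_pow hq.out).1 hddvd'
    have hb_one : b = 1 := by
      rcases i with _ | i
      · simpa using hi
      · exfalso
        have h1 : q ∣ b := by rw [hi]; exact dvd_pow_self _ (by omega)
        have h2 : q ∣ deg ξ := by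
          rw [hj]
          apply dvd_pow_self
          rintro rfl
          have := hq.out.one_lt
          rw [pow_zero] at hj
          rw [hj] at hblt
          have h3 := hq.out.two_le
          have h4 : 2 ≤ b := h3.trans (Nat.le_of_dvd hb0 h1)
          omega
        have h3 : q ∣ p := by rw [← hsum]; exact dvd_add h1 h2
        exact hqp ((Nat.prime_dvd_prime_iff_eq hq.out hp.out).1 h3)
    have hdeq : deg ξ + 1 = p := by omega
    have hneq : n = deg ξ := by omega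
    have hA1 : A ξ = 1 := by
      have h1 : A ξ * deg ξ ≤ 1 * deg ξ := by rw [one_mul]; omega
      have h2 := Nat.le_of_mul_le_mul_right h1 hξpos
      omega
    have hzero : ∀ ψ, ψ ≠ ξ → A ψ = 0 := by
      intro ψ hψ
      have h3 := Finset.add_sum_erase Finset.univ (fun ψ => A ψ * deg ψ) (Finset.mem_univ ξ)
      rw [← hnsum, hA1, one_mul] at h3
      have h4 : ∑ x ∈ Finset.univ.erase ξ, A x * deg x = 0 := by omega
      have h5 := (Finset.sum_eq_zero_iff.mp h4) ψ (Finset.mem_erase.mpr ⟨hψ, Finset.mem_univ _⟩)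
      rcases Nat.mul_eq_zero.mp h5 with h6 | h6
      · exact h6
      · have := hdeg0 ψ
        omega
    refine ⟨by omega, ?_, ?_⟩
    · -- `p` is odd
      have hp2 : p ≠ 2 := by
        intro h
        omega
      have hodd : Odd p := hp.out.odd_of_ne_two hp2
      obtain ⟨t, ht⟩ := hodd
      have h2d : 2 ∣ deg ξ := ⟨t, by omega⟩
      rw [hj] at h2d
      have h3 : 2 ∣ q := Nat.prime_two.dvd_of_dvd_pow h2d
      have h4 : q = 2 := ((Nat.prime_dvd_prime_iff_eq Nat.prime_two hq.out).1 h3).symm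
      refine ⟨j, ?_⟩
      rw [hneq, hj, h4]
    · have hτξ : τ = (ξ : Γ → ℂ) := by
        rw [hA, Finset.sum_eq_single ξ]
        · rw [hA1, one_smul]
        · intro ψ _ hψ
          rw [hzero ψ hψ, zero_smul]
        · intro h
          exact absurd (Finset.mem_univ _) h
      rw [hτξ]
      exact ξ.2

section Global

variable {G : Type u} [Group G] [Fintype G]

theorem isIrr_of_restrict_isIrr (H : Subgroup G) [Fintype H] {χ : G → ℂ} (hχ : IsCharacter G χ)
    (hH : IsIrrCharacter H (fun h : H => χ h)) : IsIrrCharacter G χ := by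
  classical
  obtain ⟨a, ha⟩ := hχ.exists_coeff
  set θ : H → ℂ := fun h : H => χ h with hθ
  -- restrictions
  let R : IrrCharacter G → H → ℂ := fun ψ h => (ψ : G → ℂ) h
  have hR : ∀ ψ, IsCharacter H (R ψ) := fun ψ => ψ.2.isCharacter.restrict H
  have hθsum : θ = ∑ ψ, a ψ • R ψ := by
    funext h
    simp only [hθ]
    have h1 := congrFun ha (h : G)
    rw [Finset.sum_apply] at h1
    rw [h1, Finset.sum_apply]
    rfl
  -- inner products are naturals
  have hN : ∀ ψ ψ', ∃ k : ℕ, classInner (R ψ) (R ψ') = k := fun ψ ψ' => (hR ψ).classInner_nat_of_char (hR ψ')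
  choose N hN' using hN
  have hself : ∀ ψ, N ψ ψ ≠ 0 := by
    intro ψ h0
    have h1 := hN' ψ ψ
    rw [h0, Nat.cast_zero] at h1
    refine classInner_self_ne_zero _ 1 ?_ h1
    exact ψ.2.map_one_ne_zero
  -- `θ` has norm one
  have hnorm : classInner θ θ = 1 := classInner_irr_self hH
  have hsum1 : ∑ ψ, ∑ ψ', a ψ * a ψ' * N ψ ψ' = 1 := by
    have h1 := hnorm
    rw [hθsum, classInner_nsum] at h1
    have h2 : ((∑ ψ, ∑ ψ', a ψ * a ψ' * N ψ ψ' : ℕ) : ℂ) = ((1 : ℕ) : ℂ) := by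
      push_cast
      rw [← h1]
      refine Finset.sum_congr rfl fun ψ _ => Finset.sum_congr rfl fun ψ' _ => ?_
      rw [hN' ψ ψ']
    exact_mod_cast h2
  have hne : ∃ ψ, a ψ ≠ 0 := by
    by_contra hcon
    push Not at hcon
    rw [Finset.sum_eq_zero (fun ψ _ => Finset.sum_eq_zero (fun ψ' _ => by rw [hcon ψ]; simp))] at hsum1
    omega
  obtain ⟨ψ₀, hψ₀⟩ := hne
  have hle : ∀ ψ, a ψ * a ψ * N ψ ψ ≤ 1 := by
    intro ψ
    rw [← hsum1]
    calc a ψ * a ψ * N ψ ψ ≤ ∑ ψ', a ψ * a ψ' * N ψ ψ' :=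
          Finset.single_le_sum (f := fun ψ' => a ψ * a ψ' * N ψ ψ') (fun _ _ => Nat.zero_le _) (Finset.mem_univ ψ)
      _ ≤ _ := Finset.single_le_sum (f := fun ψ => ∑ ψ', a ψ * a ψ' * N ψ ψ') (fun _ _ => Nat.zero_le _) (Finset.mem_univ ψ)
  have hone : a ψ₀ = 1 := by
    have h1 := hle ψ₀
    by_contra h2
    have h3 : 2 ≤ a ψ₀ := by omega
    have h4 : 1 ≤ N ψ₀ ψ₀ := Nat.pos_of_ne_zero (hself ψ₀)
    have h5 : 2 * 2 * 1 ≤ a ψ₀ * a ψ₀ * N ψ₀ ψ₀ := Nat.mul_le_mul (Nat.mul_le_mul h3 h3) h4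
    omega
  have hzero : ∀ ψ, ψ ≠ ψ₀ → a ψ = 0 := by
    intro ψ hψ
    by_contra h
    have h1 : 1 ≤ a ψ₀ * a ψ₀ * N ψ₀ ψ₀ := by
      rw [hone, one_mul, one_mul]
      exact Nat.pos_of_ne_zero (hself ψ₀)
    have h2 : 1 ≤ a ψ * a ψ * N ψ ψ := by
      have h3 : 1 ≤ a ψ := Nat.pos_of_ne_zero h
      have h4 : 1 ≤ N ψ ψ := Nat.pos_of_ne_zero (hself ψ)
      exact Nat.mul_le_mul (Nat.mul_le_mul h3 h3) h4 |>.trans' (by simp)
    have h3 : ∑ φ, a φ * a φ * N φ φ ≤ 1 := by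
      rw [← hsum1]
      refine Finset.sum_le_sum fun φ _ => ?_
      exact Finset.single_le_sum (f := fun ψ' => a φ * a ψ' * N φ ψ') (fun _ _ => Nat.zero_le _) (Finset.mem_univ φ)
    have h4 := Finset.add_sum_erase Finset.univ (fun φ => a φ * a φ * N φ φ) (Finset.mem_univ ψ₀)
    have h5 : a ψ * a ψ * N ψ ψ ≤ ∑ x ∈ Finset.univ.erase ψ₀, a x * a x * N x x :=
      Finset.single_le_sum (f := fun φ => a φ * a φ * N φ φ) (fun _ _ => Nat.zero_le _)
        (Finset.mem_erase.mpr ⟨hψ, Finset.mem_univ _⟩)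
    omega
  have hχψ : χ = (ψ₀ : G → ℂ) := by
    rw [ha, Finset.sum_eq_single ψ₀]
    · rw [hone, one_smul]
    · intro ψ _ hψ
      rw [hzero ψ hψ, zero_smul]
    · intro h
      exact absurd (Finset.mem_univ _) h
  rw [hχψ]
  exact ψ₀.2

/-- A faithful character of degree below `p` has abelian Sylow `p`-subgroups. -/
theorem abelian_of_small (p : ℕ) [hp : Fact p.Prime] {χ : G → ℂ} (hχ : IsCharacter G χ) (n : ℕ) (hχ1 : χ 1 = n)
    (hn : n + 1 ≤ p) (hfaith : ∀ g, χ g = χ 1 → g = 1) (H : Subgroup G) (hH : IsPGroup p H) :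
    ∀ x ∈ H, ∀ y ∈ H, x * y = y * x := by
  classical
  letI : Fintype H := Fintype.ofFinite _
  obtain ⟨a, ha⟩ := (hχ.restrict H).exists_coeff
  have hval : ∀ h : H, χ h = ∑ ψ, (a ψ : ℂ) * (ψ : H → ℂ) h := by
    intro h
    have h1 := congrFun ha h
    rw [Finset.sum_apply] at h1
    rw [h1]
    refine Finset.sum_congr rfl fun ψ _ => ?_
    rw [Pi.smul_apply, nsmul_eq_mul]
  choose deg hdeg0 hdeg using fun ψ : IrrCharacter H => ψ.2.map_one
  have hsum : n = ∑ ψ, a ψ * deg ψ := by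
    have h1 := hval 1
    have h2 : χ ((1 : H) : G) = n := hχ1
    rw [h2] at h1
    have : ((n : ℕ) : ℂ) = ((∑ ψ, a ψ * deg ψ : ℕ) : ℂ) := by
      rw [h1]
      push_cast
      refine Finset.sum_congr rfl fun ψ _ => ?_
      rw [hdeg ψ]
    exact_mod_cast this
  have hlin : ∀ ψ, a ψ ≠ 0 → deg ψ = 1 := by
    intro ψ hψ
    have h1 : a ψ * deg ψ ≤ n := by
      rw [hsum]
      exact Finset.single_le_sum (f := fun ψ => a ψ * deg ψ) (fun _ _ => Nat.zero_le _) (Finset.mem_univ ψ)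
    have h2 : deg ψ ≤ n := by
      calc deg ψ = 1 * deg ψ := (one_mul _).symm
        _ ≤ a ψ * deg ψ := Nat.mul_le_mul_right _ (Nat.pos_of_ne_zero hψ)
        _ ≤ n := h1
    have h3 : deg ψ ∣ Nat.card H := degree_dvd_card ψ.2 (hdeg ψ)
    obtain ⟨m, hm⟩ := IsPGroup.iff_card.1 hH
    rw [hm] at h3
    obtain ⟨j, -, hj⟩ := (Nat.dvd_prime_pow hp.out).1 h3
    rcases j with _ | j
    · simpa using hj
    · exfalso
      have h4 : p ∣ deg ψ := by rw [hj]; exact dvd_pow_self _ (by omega)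
      have h5 := Nat.le_of_dvd (hdeg0 ψ) h4
      omega
  intro x hx y hy
  have hcom : x * y * x⁻¹ * y⁻¹ = 1 := by
    apply hfaith
    let c : H := ⟨x, hx⟩ * ⟨y, hy⟩ * (⟨x, hx⟩ : H)⁻¹ * (⟨y, hy⟩ : H)⁻¹
    have hc : (c : G) = x * y * x⁻¹ * y⁻¹ := rfl
    rw [← hc, hval c]
    have h1 : χ 1 = χ ((1 : H) : G) := rfl
    rw [h1, hval 1]
    refine Finset.sum_congr rfl fun ψ _ => ?_
    by_cases h0 : a ψ = 0
    · simp [h0]
    · have h2 : (ψ : H → ℂ) 1 = 1 := by
        rw [hdeg ψ, hlin ψ h0]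
        simp
      obtain ⟨l, hl⟩ := exists_hom_of_degree_one ψ.2.isCharacter h2
      rw [hl]
      simp only [c, map_mul, map_inv, Units.val_mul, map_one, Units.val_one]
      have h3 : ((l ⟨x, hx⟩ : ℂˣ) : ℂ) * ((l ⟨y, hy⟩ : ℂˣ) : ℂ) * ((l ⟨x, hx⟩)⁻¹ : ℂˣ) * ((l ⟨y, hy⟩)⁻¹ : ℂˣ) = 1 := by
        rw [← Units.val_mul, ← Units.val_mul, ← Units.val_mul, mul_comm (l ⟨x, hx⟩) (l ⟨y, hy⟩)]
        simp
      rw [h3]
  rw [mul_inv_eq_one, mul_inv_eq_iff_eq_mul] at hcom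
  exact hcom

theorem exists_noncomm (p : ℕ) [hp : Fact p.Prime] (hsolv : IsPSolvable p G) (P : Sylow p G) (hP : ¬ (P : Subgroup G).Normal)
    (hab : ∀ x ∈ (P : Subgroup G), ∀ y ∈ (P : Subgroup G), x * y = y * x) :
    ∃ x ∈ (P : Subgroup G), ∃ k ∈ pPrimeCore p G, x * k ≠ k * x := by
  classical
  by_contra hcon
  push Not at hcon
  apply hP
  set K := pPrimeCore p G with hK
  haveI hKn : K.Normal := CfsgLib.Solv.pPrimeCore_normal' p
  let f := QuotientGroup.mk' K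
  have hf : Function.Surjective f := QuotientGroup.mk'_surjective K
  have hO : pPrimeCore p (G ⧸ K) = ⊥ := CfsgLib.Solv.pPrimeCore_quotient_eq_bot p
  have hsep : IsPSolvable p (G ⧸ K) := CfsgLib.PSolv.quotient hp.out hsolv K
  have hC := CfsgLib.PSolv.centralizer_pCore_le hsep hO
  let Pb : Sylow p (G ⧸ K) := P.mapSurjective hf
  have hPb : (Pb : Subgroup (G ⧸ K)) = (P : Subgroup G).map f := rfl
  have hcoreP : pCore p (G ⧸ K) ≤ (Pb : Subgroup (G ⧸ K)) := CfsgLib.Solv.pCore_le_of_isPGroup_normal Pb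
  have hPbcore : (Pb : Subgroup (G ⧸ K)) ≤ pCore p (G ⧸ K) := by
    intro z hz
    apply hC
    rw [Subgroup.mem_centralizer_iff]
    intro w hw
    have hw' := hcoreP hw
    rw [hPb] at hz hw'
    obtain ⟨u, hu, rfl⟩ := hz
    obtain ⟨v, hv, rfl⟩ := hw'
    rw [← map_mul, ← map_mul, hab v hv u hu]
  constructor
  intro x hx g
  -- conjugate modulo `K`
  have h1 : f (g * x * g⁻¹) ∈ (Pb : Subgroup (G ⧸ K)) := by
    apply hcoreP
    have h2 : f x ∈ pCore p (G ⧸ K) := by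
      apply hPbcore
      rw [hPb]
      exact ⟨x, hx, rfl⟩
    have h3 := (CfsgLib.Solv.pCore_normal' p (G := G ⧸ K)).conj_mem _ h2 (f g)
    simpa using h3
  rw [hPb] at h1
  obtain ⟨y, hy, hyeq⟩ := h1
  have hk : y⁻¹ * (g * x * g⁻¹) ∈ K := by
    have h4 : f (y⁻¹ * (g * x * g⁻¹)) = 1 := by
      rw [map_mul, map_inv, hyeq, inv_mul_cancel]
    exact (QuotientGroup.eq_one_iff _).mp h4
  set k := y⁻¹ * (g * x * g⁻¹) with hkdef
  have hwk : g * x * g⁻¹ = y * k := by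
    rw [hkdef]
    group
  have hyk : Commute y k := hcon y hy k hk
  obtain ⟨e, he⟩ := IsPGroup.iff_card.1 P.isPGroup'
  have hxe : x ^ (p ^ e) = 1 := by
    rw [← he]
    have := pow_card_eq_one' (x := (⟨x, hx⟩ : (P : Subgroup G)))
    exact congrArg Subtype.val this
  have hye : y ^ (p ^ e) = 1 := by
    rw [← he]
    have := pow_card_eq_one' (x := (⟨y, hy⟩ : (P : Subgroup G)))
    exact congrArg Subtype.val this
  have hke : k ^ (p ^ e) = 1 := by
    have h5 : (g * x * g⁻¹) ^ (p ^ e) = 1 := by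
      rw [conj_pow, hxe]
      simp
    rw [hwk, hyk.mul_pow, hye, one_mul] at h5
    exact h5
  have hk1 : k = 1 := by
    have h6 : orderOf k ∣ p ^ e := orderOf_dvd_of_pow_eq_one hke
    have h7 : orderOf k ∣ Nat.card K := Subgroup.orderOf_dvd_natCard _ hk
    have h8 : (Nat.card K).Coprime (p ^ e) := Nat.Coprime.pow_right _ (CfsgLib.Solv.pPrimeCore_coprime p)
    have h9 := Nat.Coprime.eq_one_of_dvd (Nat.Coprime.coprime_dvd_left h7 h8) h6
    exact orderOf_eq_one_iff.mp h9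
  rw [hwk, hk1, mul_one]
  exact hy

theorem s4468_main (p : ℕ) [hp : Fact p.Prime] {χ : G → ℂ} (hχ : IsCharacter G χ) (hfaith : ∀ g, χ g = χ 1 → g = 1)
    (n : ℕ) (hn : charDegree χ = n) (hsolv : IsPSolvable p G) (hnp : n + 1 ≤ p) (P : Sylow p G)
    (hP : ¬ (P : Subgroup G).Normal) : n + 1 = p ∧ (∃ k : ℕ, n = 2 ^ k) ∧ IsIrrCharacter G χ := by
  classical
  obtain ⟨d, hd⟩ := hχ.map_one
  have hdn : d = n := by
    rw [← hn]
    simp [charDegree, hd]
  rw [hdn] at hd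
  have hab := abelian_of_small p hχ n hd hnp hfaith (P : Subgroup G) P.isPGroup'
  obtain ⟨x, hx, k, hk, hxk⟩ := exists_noncomm p hsolv P hP hab
  obtain ⟨a, hxp⟩ : ∃ a, orderOf x = p ^ a := by
    obtain ⟨e, he⟩ := IsPGroup.iff_orderOf.1 P.isPGroup' ⟨x, hx⟩
    rw [Subgroup.orderOf_mk] at he
    exact ⟨e, he⟩
  set K := pPrimeCore p G with hK
  haveI hKn : K.Normal := CfsgLib.Solv.pPrimeCore_normal' p
  have hKcop : (Nat.card K).Coprime p := CfsgLib.Solv.pPrimeCore_coprime p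
  let A : Subgroup G := Subgroup.zpowers x
  have hAK : A ≤ Subgroup.normalizer (K : Set G) := by
    intro u _
    rw [Subgroup.mem_normalizer_iff]
    intro w
    constructor
    · exact fun h => hKn.conj_mem w h u
    · intro h
      have := hKn.conj_mem _ h u⁻¹
      simpa [mul_assoc] using this
  have hAcard : Nat.card A = p ^ a := by
    show Nat.card (Subgroup.zpowers x) = _
    rw [Nat.card_zpowers, hxp]
  have hAcop : (Nat.card A).Coprime (Nat.card K) := by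
    rw [hAcard]
    exact Nat.Coprime.pow_left _ hKcop.symm
  have hAsolv : Group.IsSolvable A := by
    haveI : IsMulCommutative A := ⟨⟨fun u v => by
      obtain ⟨u, hu⟩ := u
      obtain ⟨v, hv⟩ := v
      obtain ⟨i, rfl⟩ := Subgroup.mem_zpowers_iff.mp hu
      obtain ⟨j, rfl⟩ := Subgroup.mem_zpowers_iff.mp hv
      exact Subtype.ext (Commute.zpow_zpow_self x i j).eq⟩⟩
    infer_instance
  -- an invariant Sylow subgroup not centralized
  obtain ⟨q, hq, Q, hQK, hQq, hQn, t, htQ, hxt⟩ : ∃ q : ℕ, q.Prime ∧ ∃ Q : Subgroup G, Q ≤ K ∧ IsPGroup q Q ∧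
      A ≤ Subgroup.normalizer (Q : Set G) ∧ ∃ t ∈ Q, x * t ≠ t * x := by
    by_contra hcon
    push Not at hcon
    let C' : Subgroup G := K ⊓ Subgroup.centralizer ({x} : Set G)
    have hidx : C'.relIndex K = 1 := by
      by_contra hne
      obtain ⟨r, hr, hrd⟩ := Nat.exists_prime_and_dvd hne
      haveI : Fact r.Prime := ⟨hr⟩
      obtain ⟨Q, ⟨hQK, hQr, hQi⟩, hQA⟩ := CfsgLib.Solv.exists_invariant_sylow (p := r) A K hAK hAcop (Or.inl hAsolv)
      have hQC : Q ≤ C' := by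
        intro t ht
        refine ⟨hQK ht, ?_⟩
        show t ∈ Subgroup.centralizer ({x} : Set G)
        rw [Subgroup.mem_centralizer_singleton_iff]
        exact (hcon r hr Q hQK hQr hQA t ht).symm
      exact hQi (hrd.trans (Subgroup.relIndex_dvd_of_le_left K hQC))
    have hKC : K ≤ C' := Subgroup.relIndex_eq_one.mp hidx
    apply hxk
    have : k ∈ Subgroup.centralizer ({x} : Set G) := (hKC hk).2
    rw [Subgroup.mem_centralizer_singleton_iff] at this
    exact this.symm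
  haveI : Fact q.Prime := ⟨hq⟩
  have hqp : q ≠ p := by
    rintro rfl
    -- a `p`-subgroup of a `p'`-group is trivial
    have h1 : Nat.card Q ∣ Nat.card K := Subgroup.card_dvd_of_le hQK
    obtain ⟨m, hm⟩ := IsPGroup.iff_card.1 hQq
    have h2 : Nat.card Q = 1 := Nat.Coprime.eq_one_of_dvd (by
      rw [hm]
      exact (Nat.Coprime.pow_left m hKcop.symm)) (by rw [hm] at h1 ⊢; exact h1)
    have h3 : Q = ⊥ := Subgroup.eq_bot_of_card_eq Q h2
    rw [h3] at htQ
    rw [Subgroup.mem_bot.mp htQ] at hxt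
    simp at hxt
  -- the subgroup
  let Γ : Subgroup G := Q ⊔ Subgroup.zpowers x
  letI : Fintype Γ := Fintype.ofFinite _
  have hQΓ : Q ≤ Γ := le_sup_left
  have hxΓ : x ∈ Γ := (le_sup_right : Subgroup.zpowers x ≤ Γ) (Subgroup.mem_zpowers x)
  have hΓN : Γ ≤ Subgroup.normalizer (Q : Set G) := sup_le Subgroup.le_normalizer hQn
  haveI hQ'n : (Q.subgroupOf Γ).Normal := Subgroup.normal_subgroupOf_of_le_normalizer hΓN
  letI : Fintype (Q.subgroupOf Γ) := Fintype.ofFinite _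
  have hQ'q : IsPGroup q (Q.subgroupOf Γ) := by
    intro u
    obtain ⟨j, hj⟩ := hQq ⟨((u : Γ) : G), u.2⟩
    refine ⟨j, ?_⟩
    apply Subtype.ext
    apply Subtype.ext
    have := congrArg Subtype.val hj
    simpa using this
  let x' : Γ := ⟨x, hxΓ⟩
  have hx'o : orderOf x' = p ^ a := by
    rw [Subgroup.orderOf_mk, hxp]
  have htop : Q.subgroupOf Γ ⊔ Subgroup.zpowers x' = ⊤ := by
    apply Subgroup.map_injective Γ.subtype_injective
    rw [Subgroup.map_sup, Subgroup.map_subgroupOf_eq_of_le hQΓ, MonoidHom.map_zpowers]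
    rw [← MonoidHom.range_eq_map, Subgroup.range_subtype]
    rfl
  let τ : Γ → ℂ := fun u => χ u
  have hτ : IsCharacter Γ τ := hχ.restrict Γ
  have hτ1 : τ 1 = n := hd
  have hτf : ∀ g, τ g = τ 1 → g = 1 := by
    intro g hg
    exact Subtype.ext (hfaith g hg)
  let y : Γ := ⟨t, hQΓ htQ⟩
  have hyQ : y ∈ Q.subgroupOf Γ := htQ
  have hyx : y * x' * y⁻¹ * x'⁻¹ ≠ 1 := by
    intro h
    have h1 : t * x * t⁻¹ * x⁻¹ = 1 := congrArg Subtype.val h
    apply hxt
    rw [mul_inv_eq_one, mul_inv_eq_iff_eq_mul] at h1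
    exact h1.symm
  obtain ⟨h1, h2, h3⟩ := local_main p q hqp (Q.subgroupOf Γ) hQ'q x' a hx'o htop hτ n hτ1 hnp hτf y hyQ hyx
  exact ⟨h1, h2, isIrr_of_restrict_isIrr Γ hχ h3⟩

end Global

end CfsgLib.Char.SD
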