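import Cfsg.Agent.Lib.Char.Brauer3
import Cfsg.Agent.Lib.Char.EquivChar

set_option autoImplicit false
set_option linter.all false

open Cfsg Module
open scoped ComplexConjugate

namespace CfsgLib.Char

universe u

section Forms

variable {G : Type u} [Group G] {F : Type} [Field F] [Algebra F ℂ]

/-- The complex character of a representation over `F`. -/
noncomputable def cC {V : Type u} [AddCommGroup V] [Module F V] (σ : Representation F G V) : G → ℂ :=
  fun g => algebraMap F ℂ (LinearMap.trace F V (σ g))

/-- Complexify a representation over `F` using a basis. -/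
noncomputable def mapRep {V : Type u} [AddCommGroup V] [Module F V] (σ : Representation F G V) {n : ℕ}
    (b : Basis (Fin n) F V) : Representation ℂ G (Fin n → ℂ) where
  toFun g := Matrix.toLin' ((LinearMap.toMatrix b b (σ g)).map (algebraMap F ℂ))
  map_one' := by
    rw [map_one, Module.End.one_eq_id, LinearMap.toMatrix_id, Matrix.map_one _ (map_zero _) (map_one _), Matrix.toLin'_one]
    rfl
  map_mul' := by
    intro x y
    rw [map_mul, Module.End.mul_eq_comp, LinearMap.toMatrix_comp b b b, Matrix.map_mul, Matrix.toLin'_mul]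
    rfl

theorem mapRep_character {V : Type u} [AddCommGroup V] [Module F V] (σ : Representation F G V) {n : ℕ}
    (b : Basis (Fin n) F V) (g : G) : (mapRep σ b).character g = cC σ g := by
  show LinearMap.trace ℂ _ (Matrix.toLin' ((LinearMap.toMatrix b b (σ g)).map (algebraMap F ℂ))) = _
  rw [Matrix.trace_toLin'_eq, cC, LinearMap.trace_eq_matrix_trace F b (σ g)]
  simp [Matrix.trace, map_sum]

theorem isCharacter_cC {V : Type u} [AddCommGroup V] [Module F V] [FiniteDimensional F V] (σ : Representation F G V) :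
    IsCharacter G (cC σ) :=
  ⟨_, mapRep σ (finBasis F V), funext fun g => mapRep_character σ _ g⟩

/-- Simple representations over `F`. -/
def IsSimpleF {V : Type u} [AddCommGroup V] [Module F V] (σ : Representation F G V) : Prop :=
  Nontrivial V ∧ ∀ U : Submodule F V, (∀ g, ∀ v ∈ U, σ g v ∈ U) → U = ⊥ ∨ U = ⊤

variable (F G) in
/-- The set of characters of simple representations over `F`. -/
def FSimp : Set (G → ℂ) :=
  {ψ | ∃ (V : Type u) (_ : AddCommGroup V) (_ : Module F V) (_ : FiniteDimensional F V) (σ : Representation F G V),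
    IsSimpleF σ ∧ ψ = cC σ}

theorem trace_add_of_isComplF {V : Type u} [AddCommGroup V] [Module F V] [FiniteDimensional F V]
    (A B : Submodule F V) (h : IsCompl A B) (T : V →ₗ[F] V)
    (hA : ∀ v ∈ A, T v ∈ A) (hB : ∀ v ∈ B, T v ∈ B) :
    LinearMap.trace F V T = LinearMap.trace F A (T.restrict hA) + LinearMap.trace F B (T.restrict hB) := by
  let e := Submodule.prodEquivOfIsCompl A B h
  have hconj : T = e.conj (LinearMap.prodMap (T.restrict hA) (T.restrict hB)) := by
    ext v
    obtain ⟨⟨a, b⟩, rfl⟩ := e.surjective v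
    simp [LinearEquiv.conj_apply, e, Submodule.coe_prodEquivOfIsCompl']
  have h1 := LinearMap.trace_conj' (LinearMap.prodMap (T.restrict hA) (T.restrict hB)) e
  rw [← hconj, LinearMap.trace_prodMap'] at h1
  exact h1

theorem isCompl_toSubmoduleF {V : Type u} [AddCommGroup V] [Module F V]
    {ρ : Representation F G V} {W W' : Subrepresentation ρ} (h : IsCompl W W') :
    IsCompl W.toSubmodule W'.toSubmodule := by
  constructor
  · rw [Submodule.disjoint_def]
    intro x hx hx'
    have h1 : (W ⊓ W').toSubmodule = (⊥ : Subrepresentation ρ).toSubmodule := by rw [h.inf_eq_bot]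
    have h2 : x ∈ (W ⊓ W').toSubmodule := ⟨hx, hx'⟩
    rw [h1] at h2
    exact h2
  · rw [codisjoint_iff]
    have h1 : (W ⊔ W').toSubmodule = (⊤ : Subrepresentation ρ).toSubmodule := by rw [h.sup_eq_top]
    exact h1

variable [Finite G]

theorem neZero_card_F : NeZero (Nat.card G : F) := by
  constructor
  intro h0
  have h1 : ((Nat.card G : F) : F) = 0 := h0
  have h2 := congrArg (algebraMap F ℂ) h1
  rw [map_natCast, map_zero] at h2
  have h3 : Nat.card G = 0 := by exact_mod_cast h2
  exact Nat.card_pos.ne' h3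

/-- Every character realized over `F` is in the span of simple ones. -/
theorem cC_mem_closure : ∀ (n : ℕ) (V : Type u) [AddCommGroup V] [Module F V] [FiniteDimensional F V]
    (σ : Representation F G V), finrank F V = n → cC σ ∈ AddSubgroup.closure (FSimp G F) := by
  intro n
  induction n using Nat.strong_induction_on with
  | _ n IH =>
  intro V _ _ _ σ hn
  by_cases hV : Nontrivial V
  · by_cases hS : IsSimpleF σ
    · exact AddSubgroup.subset_closure ⟨V, inferInstance, inferInstance, inferInstance, σ, hS, rfl⟩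
    · have h1 : ¬ ∀ U : Submodule F V, (∀ g, ∀ v ∈ U, σ g v ∈ U) → U = ⊥ ∨ U = ⊤ := fun h => hS ⟨hV, h⟩
      push Not at h1
      obtain ⟨U, hU, hU1, hU2⟩ := h1
      haveI : NeZero (Nat.card G : F) := neZero_card_F (F := F) (G := G)
      let W : Subrepresentation σ := ⟨U, fun g v hv => hU g v hv⟩
      obtain ⟨W', hW'⟩ := exists_isCompl W
      have hc := isCompl_toSubmoduleF hW'
      have hadd : cC σ = cC W.toRepresentation + cC W'.toRepresentation := by
        funext g
        show algebraMap F ℂ _ = algebraMap F ℂ _ + algebraMap F ℂ _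
        rw [← map_add]
        congr 1
        exact trace_add_of_isComplF W.toSubmodule W'.toSubmodule hc (σ g)
          (fun _ hv => W.apply_mem_toSubmodule g hv) (fun _ hv => W'.apply_mem_toSubmodule g hv)
      have hdim := Submodule.finrank_add_eq_of_isCompl hc
      have hpos1 : 0 < finrank F W.toSubmodule := by
        rw [Module.finrank_pos_iff]
        have : Nontrivial W.toSubmodule := Submodule.nontrivial_iff_ne_bot.2 hU1
        infer_instance
      have hpos2 : 0 < finrank F W'.toSubmodule := by
        rw [Module.finrank_pos_iff]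
        have h3 : W'.toSubmodule ≠ ⊥ := by
          intro h0
          apply hU2
          have h4 := hc.sup_eq_top
          rw [h0, sup_bot_eq] at h4
          exact h4
        have : Nontrivial W'.toSubmodule := Submodule.nontrivial_iff_ne_bot.2 h3
        infer_instance
      rw [hadd]
      exact AddSubgroup.add_mem _ (IH _ (by omega) _ W.toRepresentation rfl) (IH _ (by omega) _ W'.toRepresentation rfl)
  · rw [not_nontrivial_iff_subsingleton] at hV
    have h0 : cC σ = 0 := by
      funext g
      show algebraMap F ℂ (LinearMap.trace F V (σ g)) = 0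
      have h1 : σ g = 0 := by
        ext v
        exact Subsingleton.elim _ _
      rw [h1, map_zero, map_zero]
    rw [h0]
    exact AddSubgroup.zero_mem _

/-- Two simple representations with non-orthogonal characters have the same character. -/
theorem simple_orth {V W : Type u} [AddCommGroup V] [Module F V] [FiniteDimensional F V] [AddCommGroup W] [Module F W]
    [FiniteDimensional F W] [Fintype G] (σ : Representation F G V) (τ : Representation F G W) (hσ : IsSimpleF σ) (hτ : IsSimpleF τ)
    (hne : classInner (cC σ) (cC τ) ≠ 0) : cC σ = cC τ := by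
  classical
  let P : (V →ₗ[F] W) → (V →ₗ[F] W) := fun A => ∑ g : G, (τ g⁻¹) ∘ₗ A ∘ₗ (σ g)
  have hP : ∀ (A : V →ₗ[F] W) (x : G) (v : V), P A (σ x v) = τ x (P A v) := by
    intro A x v
    simp only [P, LinearMap.sum_apply, LinearMap.comp_apply, map_sum]
    rw [← Equiv.sum_comp (Equiv.mulRight x⁻¹)]
    apply Finset.sum_congr rfl
    intro g _
    simp only [Equiv.coe_mulRight]
    have h1 : σ (g * x⁻¹) (σ x v) = σ g v := by
      rw [← Module.End.mul_apply, ← map_mul]
      simp
    have h2 : τ (g * x⁻¹)⁻¹ = τ x * τ g⁻¹ := by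
      rw [← map_mul]
      congr 1
      group
    rw [h1, h2]
    rfl
  have hex : ∃ A, P A ≠ 0 := by
    by_contra hcon
    push Not at hcon
    apply hne
    let bV := finBasis F V
    let bW := finBasis F W
    have h1 : ∀ (i : Fin (finrank F V)) (j : Fin (finrank F W)),
        ∑ g : G, LinearMap.toMatrix bW bW (τ g⁻¹) j j * LinearMap.toMatrix bV bV (σ g) i i = 0 := by
      intro i j
      have h2 := hcon ((bV.coord i).smulRight (bW j))
      have h3 := LinearMap.congr_fun h2 (bV i)
      have h4 := congrArg (fun w => bW.repr w j) h3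
      simp only [P, LinearMap.sum_apply, LinearMap.comp_apply, LinearMap.smulRight_apply, map_smul, map_sum,
        LinearMap.zero_apply, map_zero, Finsupp.coe_finset_sum, Finset.sum_apply, Finsupp.coe_smul, Pi.smul_apply,
        Finsupp.coe_zero, Pi.zero_apply, smul_eq_mul] at h4
      rw [← h4]
      apply Finset.sum_congr rfl
      intro g _
      rw [LinearMap.toMatrix_apply, LinearMap.toMatrix_apply, mul_comm]
      rfl
    have h5 : ∑ g : G, LinearMap.trace F W (τ g⁻¹) * LinearMap.trace F V (σ g) = 0 := by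
      simp only [LinearMap.trace_eq_matrix_trace F bW, LinearMap.trace_eq_matrix_trace F bV, Matrix.trace, Matrix.diag,
        Finset.sum_mul_sum]
      rw [Finset.sum_comm]
      apply Finset.sum_eq_zero
      intro j _
      rw [Finset.sum_comm]
      apply Finset.sum_eq_zero
      intro i _
      exact h1 i j
    have h6 : ∀ g : G, cC τ g⁻¹ = conj (cC τ g) := fun g => (isCharacter_cC τ).map_inv g
    rw [classInner_def]
    have h7 : ∑ g : G, cC σ g * conj (cC τ g) = 0 := by
      have h8 := congrArg (algebraMap F ℂ) h5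
      rw [map_sum, map_zero] at h8
      rw [← h8]
      apply Finset.sum_congr rfl
      intro g _
      rw [map_mul, ← h6, mul_comm]
      rfl
    rw [h7, mul_zero]
  obtain ⟨A, hA⟩ := hex
  set T := P A with hT
  have hker : LinearMap.ker T = ⊥ := by
    rcases hσ.2 (LinearMap.ker T) (fun g v hv => by
      rw [LinearMap.mem_ker] at hv ⊢
      rw [hP, hv, map_zero]) with h | h
    · exact h
    · exact absurd (LinearMap.ker_eq_top.1 h) hA
  have hrange : LinearMap.range T = ⊤ := by
    rcases hτ.2 (LinearMap.range T) (fun g v hv => by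
      obtain ⟨u, rfl⟩ := hv
      exact ⟨σ g u, hP A g u⟩) with h | h
    · exact absurd (LinearMap.range_eq_bot.1 h) hA
    · exact h
  let e : V ≃ₗ[F] W := LinearEquiv.ofBijective T ⟨LinearMap.ker_eq_bot.1 hker, LinearMap.range_eq_top.1 hrange⟩
  funext g
  show algebraMap F ℂ _ = algebraMap F ℂ _
  congr 1
  have h1 : τ g = e.conj (σ g) := by
    ext w
    obtain ⟨v, rfl⟩ := e.surjective w
    simp only [LinearEquiv.conj_apply, LinearMap.comp_apply, LinearEquiv.coe_coe, LinearEquiv.symm_apply_apply]
    exact (hP A g v).symm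
  rw [h1]
  exact (LinearMap.trace_conj' (σ g) e).symm

end Forms

section Mono

variable {G : Type u} [Group G] [Fintype G] {F : Type} [Field F] [Algebra F ℂ]

open Classical in
/-- Extension by zero over `F`. -/
noncomputable def extF (H : Subgroup G) (lF : H →* F) (x : G) : F := if h : x ∈ H then lF ⟨x, h⟩ else 0

theorem extF_mul (H : Subgroup G) (lF : H →* F) (x y : G) (hy : y ∈ H) :
    extF H lF (x * y) = extF H lF x * lF ⟨y, hy⟩ := by
  by_cases hx : x ∈ H
  · rw [extF, dif_pos (H.mul_mem hx hy), extF, dif_pos hx, ← map_mul]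
    rfl
  · have : x * y ∉ H := fun h => hx (by simpa using H.mul_mem h (H.inv_mem hy))
    rw [extF, dif_neg this, extF, dif_neg hx, zero_mul]

/-- The monomial matrices. -/
noncomputable def monoMat (H : Subgroup G) (lF : H →* F) (g : G) : Matrix (G ⧸ H) (G ⧸ H) F :=
  fun j i => extF H lF ((Quotient.out j)⁻¹ * g * Quotient.out i)

theorem monoMat_one (H : Subgroup G) (lF : H →* F) [Fintype (G ⧸ H)] [DecidableEq (G ⧸ H)] : monoMat H lF 1 = 1 := by
  ext j i
  show extF H lF ((Quotient.out j)⁻¹ * 1 * Quotient.out i) = _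
  rw [mul_one]
  by_cases hji : j = i
  · subst hji
    rw [Matrix.one_apply_eq, inv_mul_cancel, extF, dif_pos H.one_mem]
    exact map_one lF
  · rw [Matrix.one_apply_ne hji, extF, dif_neg]
    intro h
    apply hji
    have h1 : (QuotientGroup.mk (Quotient.out j) : G ⧸ H) = QuotientGroup.mk (Quotient.out i) := QuotientGroup.eq.2 h
    rwa [QuotientGroup.out_eq', QuotientGroup.out_eq'] at h1

theorem monoMat_mul (H : Subgroup G) (lF : H →* F) [Fintype (G ⧸ H)] [DecidableEq (G ⧸ H)] (g g' : G) :
    monoMat H lF (g * g') = monoMat H lF g * monoMat H lF g' := by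
  ext j i
  rw [Matrix.mul_apply]
  show extF H lF ((Quotient.out j)⁻¹ * (g * g') * Quotient.out i) =
    ∑ k, extF H lF ((Quotient.out j)⁻¹ * g * Quotient.out k) * extF H lF ((Quotient.out k)⁻¹ * g' * Quotient.out i)
  let k₀ : G ⧸ H := QuotientGroup.mk (g' * Quotient.out i)
  have hk₀ : (Quotient.out k₀)⁻¹ * g' * Quotient.out i ∈ H := by
    have h1 : (QuotientGroup.mk (Quotient.out k₀) : G ⧸ H) = QuotientGroup.mk (g' * Quotient.out i) :=
      QuotientGroup.out_eq' k₀
    have h2 := QuotientGroup.eq.1 h1
    rwa [← mul_assoc] at h2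
  refine Eq.trans ?_ (Finset.sum_eq_single k₀ ?_ ?_).symm
  · have h1 : extF H lF ((Quotient.out k₀)⁻¹ * g' * Quotient.out i) = lF ⟨_, hk₀⟩ := by
      rw [extF, dif_pos hk₀]
    rw [h1, ← extF_mul]
    congr 1
    group
  · intro k _ hk
    have h1 : (Quotient.out k)⁻¹ * g' * Quotient.out i ∉ H := by
      intro h
      apply hk
      have h2 : (QuotientGroup.mk (Quotient.out k) : G ⧸ H) = QuotientGroup.mk (g' * Quotient.out i) :=
        QuotientGroup.eq.2 (by rwa [← mul_assoc])
      rwa [QuotientGroup.out_eq'] at h2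
    have h5 : extF H lF ((Quotient.out k)⁻¹ * g' * Quotient.out i) = 0 := by rw [extF, dif_neg h1]
    rw [h5, mul_zero]
  · intro h
    exact absurd (Finset.mem_univ k₀) h

/-- The monomial representation over `F`. -/
noncomputable def monoRep (H : Subgroup G) (lF : H →* F) [Fintype (G ⧸ H)] [DecidableEq (G ⧸ H)] :
    Representation F G (G ⧸ H → F) where
  toFun g := Matrix.toLin' (monoMat H lF g)
  map_one' := by
    rw [monoMat_one, Matrix.toLin'_one]
    rfl
  map_mul' := by
    intro x y
    rw [monoMat_mul, Matrix.toLin'_mul]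
    rfl

theorem sum_cosets (H : Subgroup G) [Fintype H] [Fintype (G ⧸ H)] (f : G → ℂ) :
    ∑ x, f x = ∑ i : G ⧸ H, ∑ h : H, f (Quotient.out i * h) := by
  rw [← Fintype.sum_prod_type']
  have hbij : Function.Bijective (fun p : (G ⧸ H) × H => Quotient.out p.1 * (p.2 : G)) := by
    constructor
    · rintro ⟨i, h⟩ ⟨i', h'⟩ hh
      simp only at hh
      have h1 : (QuotientGroup.mk (Quotient.out i * (h : G)) : G ⧸ H) = QuotientGroup.mk (Quotient.out i' * (h' : G)) := by
        rw [hh]
      rw [QuotientGroup.mk_mul_of_mem _ h.2, QuotientGroup.mk_mul_of_mem _ h'.2, QuotientGroup.out_eq', QuotientGroup.out_eq'] at h1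
      subst h1
      have h2 := mul_left_cancel hh
      rw [Subtype.ext h2]
    · intro x
      let i : G ⧸ H := QuotientGroup.mk x
      have h1 : (QuotientGroup.mk (Quotient.out i) : G ⧸ H) = QuotientGroup.mk x := QuotientGroup.out_eq' i
      refine ⟨(i, ⟨(Quotient.out i)⁻¹ * x, QuotientGroup.eq.1 h1⟩), ?_⟩
      simp
  exact (hbij.sum_comp f).symm

theorem cC_monoRep (H : Subgroup G) (lF : H →* F) [Fintype (G ⧸ H)] [DecidableEq (G ⧸ H)] :
    cC (monoRep H lF) = indFun H (fun h => algebraMap F ℂ (lF h)) := by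
  classical
  letI : Fintype H := Fintype.ofFinite _
  funext g
  set θ : H → ℂ := fun h => algebraMap F ℂ (lF h) with hθ
  have hE : ∀ y, extendByZero H θ y = algebraMap F ℂ (extF H lF y) := by
    intro y
    by_cases hy : y ∈ H
    · rw [extendByZero_of_mem H θ hy, extF, dif_pos hy]
    · rw [extendByZero_of_not_mem H θ hy, extF, dif_neg hy, map_zero]
  have hconj : ∀ (y : G) (h : H), extendByZero H θ ((h : G)⁻¹ * y * h) = extendByZero H θ y := by
    intro y h
    by_cases hy : y ∈ H
    · have h1 : (h : G)⁻¹ * y * h ∈ H := H.mul_mem (H.mul_mem (H.inv_mem h.2) hy) h.2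
      rw [extendByZero_of_mem H θ h1, extendByZero_of_mem H θ hy]
      have h2 : (⟨(h : G)⁻¹ * y * h, h1⟩ : H) = h⁻¹ * ⟨y, hy⟩ * h := rfl
      simp only [hθ]
      rw [h2]
      congr 1
      calc lF (h⁻¹ * ⟨y, hy⟩ * h) = lF ⟨y, hy⟩ * (lF h⁻¹ * lF h) := by
            rw [map_mul, map_mul]
            ring
        _ = lF ⟨y, hy⟩ := by rw [← map_mul, inv_mul_cancel, map_one, mul_one]
    · have h1 : (h : G)⁻¹ * y * h ∉ H := by
        intro h2
        apply hy
        have := H.mul_mem (H.mul_mem h.2 h2) (H.inv_mem h.2)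
        simpa [mul_assoc] using this
      rw [extendByZero_of_not_mem H θ hy, extendByZero_of_not_mem H θ h1]
  have h1 : cC (monoRep H lF) g = ∑ i : G ⧸ H, extendByZero H θ ((Quotient.out i)⁻¹ * g * Quotient.out i) := by
    show algebraMap F ℂ (LinearMap.trace F _ (Matrix.toLin' (monoMat H lF g))) = _
    rw [Matrix.trace_toLin'_eq, Matrix.trace, map_sum]
    apply Finset.sum_congr rfl
    intro i _
    rw [hE]
    rfl
  rw [h1, indFun_def, sum_cosets H]
  have h2 : ∀ (i : G ⧸ H), ∑ h : H, extendByZero H θ ((Quotient.out i * (h : G))⁻¹ * g * (Quotient.out i * h)) =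
      (Nat.card H : ℂ) * extendByZero H θ ((Quotient.out i)⁻¹ * g * Quotient.out i) := by
    intro i
    have h3 : ∀ h : H, extendByZero H θ ((Quotient.out i * (h : G))⁻¹ * g * (Quotient.out i * h)) =
        extendByZero H θ ((Quotient.out i)⁻¹ * g * Quotient.out i) := by
      intro h
      have h4 : (Quotient.out i * (h : G))⁻¹ * g * (Quotient.out i * h) =
          (h : G)⁻¹ * ((Quotient.out i)⁻¹ * g * Quotient.out i) * h := by group
      rw [h4, hconj]
    simp only [h3]
    rw [Finset.sum_const, Finset.card_univ, nsmul_eq_mul, Nat.card_eq_fintype_card]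
  simp only [h2]
  rw [← Finset.mul_sum, ← mul_assoc, inv_mul_cancel₀ (card_subgroup_ne_zero H), one_mul]

end Mono

section Split

variable {G : Type u} [Group G] [Fintype G] {F : Type} [Field F] [Algebra F ℂ]

/-- Every irreducible character is the character of a simple representation over `F`. -/
theorem irr_mem_FSimp (hF : ∀ z : ℂ, z ^ Monoid.exponent G = 1 → ∃ f : F, algebraMap F ℂ f = z)
    (χ : G → ℂ) (hχ : IsIrrCharacter G χ) : χ ∈ FSimp G F := by
  classical
  have hmem : χ ∈ AddSubgroup.closure (FSimp G F) := by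
    have h1 : linSpan (G := G) IsElemSub ≤ AddSubgroup.closure (FSimp G F) := by
      rw [linSpan, AddSubgroup.closure_le]
      rintro _ ⟨E, l, -, rfl⟩
      -- a homomorphism into `F`
      have hroot : ∀ e : E, ∃ f : F, algebraMap F ℂ f = ((l e : ℂˣ) : ℂ) := by
        intro e
        apply hF
        have h2 : e ^ Monoid.exponent G = 1 := by
          apply Subtype.ext
          simpa using Monoid.pow_exponent_eq_one (e : G)
        rw [← Units.val_pow_eq_pow_val, ← map_pow, h2, map_one, Units.val_one]
      choose lf hlf using hroot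
      have hinj : Function.Injective (algebraMap F ℂ) := (algebraMap F ℂ).injective
      let lF : E →* F :=
        { toFun := lf
          map_one' := by
            apply hinj
            rw [hlf, map_one, map_one, Units.val_one]
          map_mul' := by
            intro a b
            apply hinj
            rw [map_mul, hlf, hlf, hlf, map_mul, Units.val_mul] }
      letI : Fintype (G ⧸ E) := Fintype.ofFinite _
      have h3 := cC_monoRep E lF
      have h4 : (fun e : E => algebraMap F ℂ (lF e)) = fun e => ((l e : ℂˣ) : ℂ) := funext fun e => hlf e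
      rw [h4] at h3
      show indFun E _ ∈ _
      rw [← h3]
      exact cC_mem_closure _ _ _ rfl
    exact h1 (char_mem_linSpan hχ.isCharacter)
  have hFchar : ∀ c ∈ FSimp G F, IsCharacter G c := by
    rintro c ⟨V, _, _, _, σ, -, rfl⟩
    exact isCharacter_cC σ
  have hForth : ∀ c ∈ FSimp G F, ∀ c' ∈ FSimp G F, classInner c c' ≠ 0 → c = c' := by
    rintro c ⟨V, _, _, _, σ, hσ, rfl⟩ c' ⟨W, _, _, _, τ, hτ, rfl⟩ hne
    exact simple_orth σ τ hσ hτ hne
  -- a constituent in `FSimp`
  have hex : ∃ c₀ ∈ FSimp G F, classInner c₀ χ ≠ 0 := by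
    by_contra hcon
    push Not at hcon
    have h1 : ∀ f ∈ AddSubgroup.closure (FSimp G F), classInner f χ = 0 := by
      intro f hf
      induction hf using AddSubgroup.closure_induction with
      | mem x hx => exact hcon x hx
      | zero => exact classInner_zero_left _
      | add x y _ _ hx hy => rw [classInner_add_left, hx, hy, add_zero]
      | neg x _ hx => rw [classInner_neg_left, hx, neg_zero]
    have h2 := h1 χ hmem
    rw [classInner_irr_self hχ] at h2
    exact one_ne_zero h2
  obtain ⟨c₀, hc₀, hc₀χ⟩ := hex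
  have hP : ∀ f ∈ AddSubgroup.closure (FSimp G F), ∃ z : ℤ, ∀ χ' : G → ℂ, IsIrrCharacter G χ' → classInner c₀ χ' ≠ 0 →
      classInner f χ' = z * classInner c₀ χ' := by
    intro f hf
    induction hf using AddSubgroup.closure_induction with
    | mem x hx =>
      by_cases hxc : x = c₀
      · subst hxc
        exact ⟨1, fun χ' _ _ => by simp⟩
      · refine ⟨0, fun χ' hχ' hne => ?_⟩
        by_contra hcon
        have h1 : classInner x χ' ≠ 0 := by simpa using hcon
        exact hxc (hForth x hx c₀ hc₀ (classInner_ne_zero_of_common (hFchar x hx) (hFchar c₀ hc₀) hχ' h1 hne))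
    | zero => exact ⟨0, fun χ' _ _ => by simp [classInner_zero_left]⟩
    | add x y _ _ hx hy =>
      obtain ⟨a, ha⟩ := hx
      obtain ⟨b, hb⟩ := hy
      refine ⟨a + b, fun χ' h1 h2 => ?_⟩
      rw [classInner_add_left, ha χ' h1 h2, hb χ' h1 h2]
      push_cast
      ring
    | neg x _ hx =>
      obtain ⟨a, ha⟩ := hx
      refine ⟨-a, fun χ' h1 h2 => ?_⟩
      rw [classInner_neg_left, ha χ' h1 h2]
      push_cast
      ring
  obtain ⟨z, hz⟩ := hP χ hmem
  obtain ⟨n₀, hn₀⟩ := (hFchar c₀ hc₀).classInner_nat hχ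
  have h1 := hz χ hχ hc₀χ
  rw [classInner_irr_self hχ, hn₀] at h1
  have h2 : z * (n₀ : ℤ) = 1 := by exact_mod_cast h1.symm
  have hn₀pos : 0 < n₀ := by
    rcases Nat.eq_zero_or_pos n₀ with h | h
    · subst h
      simp at h2
    · exact h
  have hn₀1 : n₀ = 1 := by
    have h3 : (n₀ : ℤ) ∣ 1 := ⟨z, by rw [← h2]; ring⟩
    have h4 : n₀ ∣ 1 := by exact_mod_cast h3
    exact Nat.dvd_one.1 h4
  have hz1 : z = 1 := by
    rw [hn₀1] at h2
    simpa using h2
  have h3 : c₀ = χ := by
    have h4 := (hFchar c₀ hc₀).eq_sum_classInner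
    rw [h4, Finset.sum_eq_single (⟨χ, hχ⟩ : IrrCharacter G)]
    · have : classInner c₀ χ = 1 := by rw [hn₀, hn₀1]; simp
      show classInner c₀ χ • χ = χ
      rw [this, one_smul]
    · intro ψ _ hψ
      by_cases hne : classInner c₀ (ψ : G → ℂ) = 0
      · rw [hne, zero_smul]
      · exfalso
        have h5 := hz ψ ψ.2 hne
        have h6 : χ ≠ (ψ : G → ℂ) := fun h => hψ (Subtype.ext h.symm)
        rw [classInner_irr hχ ψ.2, if_neg h6, hz1] at h5
        apply hne
        simpa using h5.symm
    · intro h
      exact absurd (Finset.mem_univ _) h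
  rw [← h3]
  exact hc₀

/-- A representation over `F` with a given character. -/
theorem exists_form (hF : ∀ z : ℂ, z ^ Monoid.exponent G = 1 → ∃ f : F, algebraMap F ℂ f = z)
    (χ : G → ℂ) (hχ : IsCharacter G χ) :
    ∃ (V : Type u) (_ : AddCommGroup V) (_ : Module F V) (_ : FiniteDimensional F V) (σ : Representation F G V),
      cC σ = χ := by
  obtain ⟨l, hl, rfl⟩ := hχ.exists_list
  clear hχ
  induction l with
  | nil =>
    refine ⟨PUnit.{u+1}, inferInstance, inferInstance, inferInstance, 1, ?_⟩
    funext g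
    simp [cC]
    exact Module.finrank_zero_of_subsingleton
  | cons a t ih =>
    obtain ⟨V, _, _, _, σ, hσ⟩ := ih (fun χ hχ => hl χ (List.mem_cons_of_mem _ hχ))
    obtain ⟨W, _, _, _, τ, -, hτ⟩ := irr_mem_FSimp hF a (hl a List.mem_cons_self)
    refine ⟨W × V, inferInstance, inferInstance, inferInstance,
      { toFun := fun g => LinearMap.prodMap (τ g) (σ g)
        map_one' := by
          ext <;> simp
        map_mul' := by
          intro x y
          ext <;> simp }, ?_⟩
    funext g
    rw [List.sum_cons, hτ, ← hσ]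
    show algebraMap F ℂ (LinearMap.trace F _ (LinearMap.prodMap (τ g) (σ g))) = algebraMap F ℂ _ + algebraMap F ℂ _
    rw [LinearMap.trace_prodMap', map_add]

/-- S0166 -/
theorem brauer_splitting (n : ℕ) (ρ : Representation ℂ G (Fin n → ℂ)) :
    ∃ σ : Representation ℂ G (Fin n → ℂ), Nonempty (ρ.Equiv σ) ∧ ∀ g : G, ∀ i j : Fin n,
      LinearMap.toMatrix' (σ g) i j ∈ Algebra.adjoin ℚ
        ({Complex.exp (2 * Real.pi * Complex.I / (Monoid.exponent G : ℂ))} : Set ℂ) := by
  classical
  set m := Monoid.exponent G with hm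
  have hm0 : m ≠ 0 := Monoid.exponent_ne_zero_of_finite
  set ζ := Complex.exp (2 * Real.pi * Complex.I / (m : ℂ)) with hζ
  have hprim : IsPrimitiveRoot ζ m := Complex.isPrimitiveRoot_exp m hm0
  let F₀ : IntermediateField ℚ ℂ := IntermediateField.adjoin ℚ {ζ}
  have hζmem : ζ ∈ F₀ := IntermediateField.mem_adjoin_simple_self ℚ ζ
  have hF : ∀ z : ℂ, z ^ Monoid.exponent G = 1 → ∃ f : F₀, algebraMap F₀ ℂ f = z := by
    intro z hz
    haveI : NeZero m := ⟨hm0⟩
    obtain ⟨i, -, rfl⟩ := hprim.eq_pow_of_pow_eq_one hz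
    exact ⟨⟨ζ ^ i, F₀.pow_mem hζmem i⟩, rfl⟩
  obtain ⟨V, _, _, _, τ, hτ⟩ := exists_form hF ρ.character (isCharacter_character ρ)
  have hdim : finrank F₀ V = n := by
    have h1 := congrFun hτ 1
    have h2 : cC τ 1 = (finrank F₀ V : ℂ) := by
      show algebraMap F₀ ℂ (LinearMap.trace F₀ V (τ 1)) = _
      rw [map_one, Module.End.one_eq_id, LinearMap.trace_id, map_natCast]
    rw [h2, Representation.char_one, Module.finrank_fin_fun] at h1
    exact_mod_cast h1
  let b : Basis (Fin n) F₀ V := finBasisOfFinrankEq F₀ V hdim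
  refine ⟨mapRep τ b, ?_, ?_⟩
  · apply equiv_of_character_eq _ _ _ ρ (mapRep τ b) rfl
    funext g
    rw [mapRep_character, hτ]
  · intro g i j
    have h1 : LinearMap.toMatrix' (mapRep τ b g) = (LinearMap.toMatrix b b (τ g)).map (algebraMap F₀ ℂ) :=
      LinearMap.toMatrix'_toLin' _
    rw [h1, Matrix.map_apply]
    have h2 : F₀.toSubalgebra = Algebra.adjoin ℚ {ζ} := by
      apply IntermediateField.adjoin_simple_toSubalgebra_of_isAlgebraic
      have hpos : 0 < m := Nat.pos_of_ne_zero hm0
      exact ((hprim.isIntegral hpos).tower_top (R := ℤ) (A := ℚ) (B := ℂ)).isAlgebraic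
    rw [← h2]
    exact (LinearMap.toMatrix b b (τ g) i j).2

end Split

end CfsgLib.Char
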