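import Cfsg.Agent.Lib.Char.StarP4

/-! # The key lemma on the trivial constituent of the restriction to the centralizer -/

set_option autoImplicit false
set_option linter.unusedSectionVars false
set_option linter.unusedVariables false
set_option linter.style.haveILetI false

namespace CfsgLib.Char

open Cfsg
open scoped ComplexConjugate

universe u

section Key

variable {G : Type u} [Group G] [Fintype G] {p : ℕ} [hp : Fact p.Prime] {P : Sylow p G}
variable [Fintype (CentS P)] [Fintype (NormS P)] {r : CentS P →* (P : Subgroup G)}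

attribute [local instance] irrFintype

theorem isBase_one : IsBase (oneI (CentS P)) := fun _ _ => rfl

theorem mulN_oneG_one (C : Subgroup G) [Fintype C] : mulN (oneI G) (oneI C) = 1 := by
  have h := mulN_spec (oneI G) (oneI C)
  have h2 : classInner (fun n : C => ((oneI G : IrrCharacter G) : G → ℂ) n) ((oneI C : IrrCharacter C) : C → ℂ) = 1 :=
    classInner_irr_self (oneI C).2
  rw [h2] at h
  exact_mod_cast h.symm

theorem mulN_oneG_ne {C : Subgroup G} [Fintype C] {κ : IrrCharacter C} (hκ : κ ≠ oneI C) : mulN (oneI G) κ = 0 := by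
  classical
  have h := mulN_spec (oneI G) κ
  have h2 : classInner (fun n : C => ((oneI G : IrrCharacter G) : G → ℂ) n) (κ : C → ℂ) = 0 := by
    refine classInner_irr_ne (oneI C).2 κ.2 ?_
    intro h3
    exact hκ (Subtype.ext h3.symm)
  rw [h2] at h
  exact_mod_cast h.symm

theorem exists_nonbase (h : StarSylow P) (hno : ∀ K : Subgroup G, K.Normal → (P : Subgroup G) ≤ K → K = ⊤)
    (ψ : IrrCharacter G) (hψ1 : (ψ : G → ℂ) ≠ fun _ => 1) :
    ∃ κ : IrrCharacter (CentS P), mulN ψ κ ≠ 0 ∧ ¬ IsBase κ := by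
  classical
  by_contra hcon
  push Not at hcon
  obtain ⟨K, hKn, hK⟩ := exists_kerS ψ.2
  have hle : (P : Subgroup G) ≤ K := by
    intro y hy
    rw [hK]
    have h1 := restrict_eq_sum_mulN ψ (⟨y, h.le_cent hy⟩ : CentS P)
    have h2 := restrict_eq_sum_mulN ψ (1 : CentS P)
    have h3 : ((1 : CentS P) : G) = 1 := rfl
    rw [h3] at h2
    change (ψ : G → ℂ) y = _ at h1
    rw [h1, h2]
    refine Finset.sum_congr rfl fun κ _ => ?_
    by_cases hm : mulN ψ κ = 0
    · simp [hm]
    · rw [hcon κ hm ⟨y, h.le_cent hy⟩ hy]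
  have htop := hno K hKn hle
  have hall : ∀ g, (ψ : G → ℂ) g = (ψ : G → ℂ) 1 := fun g => (hK g).1 (by rw [htop]; exact Subgroup.mem_top g)
  have h11 := degree_one_of_abelian_quot ⊤ ψ.2 (fun n _ => hall n) (fun _ _ => trivial)
  apply hψ1
  funext g
  rw [hall, h11]

/-- The index set of non-trivial linear characters. -/
noncomputable def lamS (P : Sylow p G) [Fintype ((P : Subgroup G) →* ℂˣ)] : Finset ((P : Subgroup G) →* ℂˣ) := by
  classical exact Finset.univ.filter (· ≠ 1)

theorem mem_lamS [Fintype ((P : Subgroup G) →* ℂˣ)] {l : (P : Subgroup G) →* ℂˣ} : l ∈ lamS P ↔ l ≠ 1 := by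
  classical
  simp [lamS]

theorem card_lamS (h : StarSylow P) [Fintype ((P : Subgroup G) →* ℂˣ)] : (lamS P).card = Nat.card (P : Subgroup G) - 1 := by
  classical
  have h1 : lamS P = Finset.univ.erase (1 : (P : Subgroup G) →* ℂˣ) := by
    ext l
    simp [mem_lamS]
  rw [h1, Finset.card_erase_of_mem (Finset.mem_univ _), Finset.card_univ, ← Nat.card_eq_fintype_card,
    card_hom_of_comm (fun a b => Subtype.ext (h.comm a.2 b.2))]

theorem sum_mulN_twist_le (hr : ∀ (c : CentS P) (hc : (c : G) ∈ (P : Subgroup G)), r c = ⟨c, hc⟩)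
    (h : StarSylow P) {κ₀ : IrrCharacter (CentS P)} (hb : IsBase κ₀) (ψ : IrrCharacter G)
    (Λ : Finset ((P : Subgroup G) →* ℂˣ)) :
    ∑ l ∈ Λ, mulN ψ (twI r κ₀ l) ≤ charDegree (ψ : G → ℂ) := by
  classical
  rw [degree_eq_sum_mulN (C := CentS P) ψ]
  have h1 : ∑ l ∈ Λ, mulN ψ (twI r κ₀ l) = ∑ κ ∈ Λ.image (fun l => twI r κ₀ l), mulN ψ κ := by
    rw [Finset.sum_image]
    intro a _ b _ hab
    exact twI_injective hr h hb hab
  rw [h1]
  calc ∑ κ ∈ Λ.image (fun l => twI r κ₀ l), mulN ψ κ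
      ≤ ∑ κ ∈ Λ.image (fun l => twI r κ₀ l), mulN ψ κ * charDegree (κ : CentS P → ℂ) := by
        refine Finset.sum_le_sum fun κ _ => ?_
        exact Nat.le_mul_of_pos_right _ (charDegree_pos κ)
    _ ≤ _ := Finset.sum_le_sum_of_subset_of_nonneg (Finset.subset_univ _) fun _ _ _ => Nat.zero_le _

theorem exists_zero_twist (hr : ∀ (c : CentS P) (hc : (c : G) ∈ (P : Subgroup G)), r c = ⟨c, hc⟩)
    (h : StarSylow P) {κ₀ : IrrCharacter (CentS P)} (hb : IsBase κ₀) (ψ : IrrCharacter G)
    (hdeg : charDegree (ψ : G → ℂ) + 1 < Nat.card (P : Subgroup G)) [Fintype ((P : Subgroup G) →* ℂˣ)] :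
    ∃ l : (P : Subgroup G) →* ℂˣ, l ≠ 1 ∧ mulN ψ (twI r κ₀ l) = 0 := by
  classical
  by_contra hcon
  push Not at hcon
  have h1 := sum_mulN_twist_le hr h hb ψ (lamS P)
  have h2 : (lamS P).card ≤ ∑ l ∈ lamS P, mulN ψ (twI r κ₀ l) := by
    rw [Finset.card_eq_sum_ones]
    refine Finset.sum_le_sum fun l hl => ?_
    exact Nat.one_le_iff_ne_zero.2 (hcon l (mem_lamS.1 hl))
  rw [card_lamS h] at h2
  omega

theorem r_ker_regular (hr : ∀ (c : CentS P) (hc : (c : G) ∈ (P : Subgroup G)), r c = ⟨c, hc⟩)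
    (h : StarSylow P) {o : CentS P} (ho : r o = 1) : ¬ p ∣ orderOf (o : G) := by
  intro hd
  obtain ⟨m, hm, hmem⟩ := h.exists_pow_mem o.2 hd
  have h1 : r (o ^ m) = ⟨(o : G) ^ m, hmem⟩ := hr (o ^ m) hmem
  rw [map_pow, ho, one_pow] at h1
  have h2 : (o : G) ^ m = 1 := (congrArg Subtype.val h1).symm
  rw [h2, orderOf_one] at hm
  exact hp.out.one_lt.ne hm

theorem twI_oneI_one (r : CentS P →* (P : Subgroup G)) : twI r (oneI (CentS P)) 1 = oneI (CentS P) := by
  apply Subtype.ext
  funext c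
  rw [twI_apply]
  simp [oneI]

/-- If a twist of a base character is conjugate to a linear character trivial on regular elements,
the base character is trivial. -/
theorem base_eq_one_of_conj (hr : ∀ (c : CentS P) (hc : (c : G) ∈ (P : Subgroup G)), r c = ⟨c, hc⟩)
    (h : StarSylow P) {κ₀ : IrrCharacter (CentS P)} (hb : IsBase κ₀) (l l' : (P : Subgroup G) →* ℂˣ) (x : NormS P)
    (hx : cjI (hnS P) x (twI r (oneI (CentS P)) l') = twI r κ₀ l) : κ₀ = oneI (CentS P) := by
  classical
  have hE : ∀ c : CentS P, ((l' (r (cjC (hnS P) x c)) : ℂˣ) : ℂ) * 1 = ((l (r c) : ℂˣ) : ℂ) * (κ₀ : CentS P → ℂ) c := by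
    intro c
    have h1 := congrFun (congrArg Subtype.val hx) c
    exact h1
  have h11 : (κ₀ : CentS P → ℂ) 1 = 1 := by
    have h1 := hE 1
    rw [map_one] at h1
    simpa using h1.symm
  have hreg : ∀ c : CentS P, ¬ p ∣ orderOf (c : G) → (κ₀ : CentS P → ℂ) c = 1 := by
    intro c hc
    have h1 := hE c
    have hc' : ¬ p ∣ orderOf ((cjC (hnS P) x c : CentS P) : G) := by
      rw [cjC_apply]
      have h5 := orderOf_conj_star (x : G)⁻¹ (c : G)
      rw [inv_inv] at h5
      rw [h5]
      exact hc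
    rw [r_of_regular r _ hc', r_of_regular r c hc] at h1
    simpa using h1.symm
  apply Subtype.ext
  funext c
  let y : CentS P := ⟨((r c : (P : Subgroup G)) : G), h.le_cent (r c).2⟩
  have hy : y ∈ Subgroup.center (CentS P) := by
    rw [Subgroup.mem_center_iff]
    intro d
    apply Subtype.ext
    exact ((Subgroup.mem_centralizer_iff.1 d.2) _ (r c).2).symm
  have hry : r y = r c := by
    rw [hr y (r c).2]
  have ho : r (y⁻¹ * c) = 1 := by
    rw [map_mul, map_inv, hry, inv_mul_cancel]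
  have h1 := central_mul κ₀.2 hy (y⁻¹ * c)
  rw [mul_inv_cancel_left, h11, mul_one, hb y (r c).2, h11, one_mul, hreg _ (r_ker_regular hr h ho)] at h1
  exact h1

/-- The trivial character of `G` does not occur in an exceptional family. -/
theorem one_notMem_family {n : ℕ} {i₀ : Fin n} {R : Fin n → IrrCharacter (CentS P)} (hR : ∀ i, R i ≠ oneI (CentS P))
    {ε : ℂ} (hε : ε = 1 ∨ ε = -1) {X : Fin n → (G → ℂ)} (hX : ∀ i, IsIrrCharacter G (X i))
    (hXi : Function.Injective X)
    (hf : ∀ i, indFun (CentS P) (R i : CentS P → ℂ) - indFun (CentS P) (R i₀ : CentS P → ℂ) = ε • (X i - X i₀))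
    {j : Fin n} (hj : j ≠ i₀) (k : Fin n) : X k ≠ ((oneI G : IrrCharacter G) : G → ℂ) := by
  classical
  intro hk
  have hε0 : ε ≠ 0 := by
    rcases hε with rfl | rfl <;> norm_num
  have hv : ∀ i, conj ε * (classInner (X k) (X i) - classInner (X k) (X i₀)) = 0 := by
    intro i
    have h1 := classInner_ind_sub (oneI G) (R i) (R i₀)
    rw [hf i, mulN_oneG_ne (hR i), mulN_oneG_ne (hR i₀), classInner_smul_right, classInner_sub_right, ← hk] at h1
    simpa using h1
  have hconj : conj ε ≠ 0 := by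
    simpa using hε0
  have hv' : ∀ i, classInner (X k) (X i) = classInner (X k) (X i₀) := fun i =>
    sub_eq_zero.1 ((mul_eq_zero.1 (hv i)).resolve_left hconj)
  have hd : ∀ i, classInner (X k) (X i) = if k = i then 1 else 0 := by
    intro i
    rw [classInner_irr (hX k) (hX i)]
    by_cases hki : k = i
    · simp [hki]
    · rw [if_neg hki, if_neg (fun h2 => hki (hXi h2))]
  by_cases hk0 : k = i₀
  · have h1 := hv' j
    rw [hd j, hd i₀, if_pos hk0, if_neg (fun h2 => hj (h2.symm.trans hk0))] at h1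
    exact zero_ne_one h1
  · have h1 := hv' k
    rw [hd k, hd i₀, if_pos rfl, if_neg hk0] at h1
    exact one_ne_zero h1

variable [Fintype ((P : Subgroup G) →* ℂˣ)]

/-- The characters `R i` of a family are never trivial. -/
theorem twI_ne_one (hr : ∀ (c : CentS P) (hc : (c : G) ∈ (P : Subgroup G)), r c = ⟨c, hc⟩)
    (h : StarSylow P) {κ₀ : IrrCharacter (CentS P)} (hb : IsBase κ₀) {l : (P : Subgroup G) →* ℂˣ} (hl : l ≠ 1) :
    twI r κ₀ l ≠ oneI (CentS P) := by
  intro he
  have hκ : κ₀ = oneI (CentS P) := by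
    refine base_eq_one_of_conj hr h hb l 1 1 ?_
    rw [cjI_one, twI_oneI_one, he]
  apply hl
  subst hκ
  exact twI_injective hr h isBase_one (he.trans (twI_oneI_one r).symm)

theorem cjI_oneI (x : NormS P) : cjI (hnS P) x (oneI (CentS P)) = oneI (CentS P) := rfl

theorem cjI_ne_one_of_ne {κ : IrrCharacter (CentS P)} (hκ : κ ≠ oneI (CentS P)) (x : NormS P) :
    cjI (hnS P) x κ ≠ oneI (CentS P) := by
  intro he
  apply hκ
  have h1 := congrArg (cjI (hnS P) x⁻¹) he
  rw [cjI_mul, inv_mul_cancel, cjI_one, cjI_oneI] at h1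
  exact h1

/-- Case of a non-trivial base. -/
theorem case_A (hr : ∀ (c : CentS P) (hc : (c : G) ∈ (P : Subgroup G)), r c = ⟨c, hc⟩)
    (h : StarSylow P) (ψ : IrrCharacter G) (hm : mulN ψ (oneI (CentS P)) ≠ 0)
    (hdeg : charDegree (ψ : G → ℂ) + 1 < Nat.card (P : Subgroup G))
    {κ₀ : IrrCharacter (CentS P)} (hb : IsBase κ₀) (hne : κ₀ ≠ oneI (CentS P)) {n : ℕ} {i₀ : Fin n}
    (ℓ : Fin n → ((P : Subgroup G) →* ℂˣ)) (hℓ : ∀ i, ℓ i ≠ 1)
    {ε : ℂ} (hε : ε = 1 ∨ ε = -1) {X : Fin n → (G → ℂ)} (hX : ∀ i, IsIrrCharacter G (X i))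
    (hXi : Function.Injective X)
    (hf : ∀ i, indFun (CentS P) (twI r κ₀ (ℓ i) : CentS P → ℂ) - indFun (CentS P) (twI r κ₀ (ℓ i₀) : CentS P → ℂ) =
      ε • (X i - X i₀))
    {k : Fin n} (hk : X k = (ψ : G → ℂ)) (hn : (CentS P).relIndex (NormS P) < n) : False := by
  classical
  obtain ⟨l'', hl'', hz⟩ := exists_zero_twist hr h (isBase_one (P := P)) ψ hdeg
  set b := twI r (oneI (CentS P)) l'' with hbdef
  set S : G → Prop := fun c => p ∣ orderOf c with hS
  have hε0 : ε ≠ 0 := by
    rcases hε with rfl | rfl <;> norm_num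
  have hR : ∀ i, twI r κ₀ (ℓ i) ≠ oneI (CentS P) := fun i => twI_ne_one hr h hb (hℓ i)
  have hb1 : b ≠ oneI (CentS P) := twI_ne_one hr h isBase_one hl''
  have hv34 : ∀ c : CentS P, ¬ S c → (b : CentS P → ℂ) c = ((oneI (CentS P) : IrrCharacter _) : CentS P → ℂ) c := by
    intro c hc
    exact twI_regular r _ _ c hc
  have hvi : ∀ i, ∀ c : CentS P, ¬ S c → (twI r κ₀ (ℓ i) : CentS P → ℂ) c = (twI r κ₀ (ℓ i₀) : CentS P → ℂ) c := by
    intro i c hc
    rw [twI_regular r κ₀ _ c hc, twI_regular r κ₀ _ c hc]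
  set I : G → ℂ := indFun (CentS P) (b : CentS P → ℂ) - indFun (CentS P) ((oneI (CentS P) : IrrCharacter _) : CentS P → ℂ) with hI
  have hnotconj : ∀ (i : Fin n) (l' : (P : Subgroup G) →* ℂˣ) (x : NormS P),
      cjI (hnS P) x (twI r (oneI (CentS P)) l') ≠ twI r κ₀ (ℓ i) := fun i l' x hx =>
    hne (base_eq_one_of_conj hr h hb (ℓ i) l' x hx)
  have hg : ∀ i, classInner (indFun (CentS P) (twI r κ₀ (ℓ i) : CentS P → ℂ) - indFun (CentS P) (twI r κ₀ (ℓ i₀) : CentS P → ℂ)) I = 0 := by
    intro i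
    rw [hI, gram_four (hnS P) S (S_hyp h) (hvi i) hv34]
    rw [Mc_zero (hnS P) (fun x => hnotconj i l'' x), Mc_zero (hnS P) (fun x => hnotconj i₀ l'' x)]
    have h1 : ∀ j, ∀ x : NormS P, cjI (hnS P) x (oneI (CentS P)) ≠ twI r κ₀ (ℓ j) := by
      intro j x hx
      apply hnotconj j 1 x
      rw [twI_oneI_one]
      exact hx
    rw [Mc_zero (hnS P) (h1 i), Mc_zero (hnS P) (h1 i₀)]
    ring
  have hall : ∀ i, classInner (X i) I = classInner (X k) I := by
    have h1 : ∀ i, classInner (X i) I = classInner (X i₀) I := by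
      intro i
      have h2 := hg i
      rw [hf i, classInner_smul_left, classInner_sub_left] at h2
      exact sub_eq_zero.1 ((mul_eq_zero.1 h2).resolve_left hε0)
    intro i
    rw [h1 i, h1 k]
  have hψI : classInner (ψ : G → ℂ) I = ((mulN ψ b : ℂ) - (mulN ψ (oneI (CentS P)) : ℂ)) := classInner_ind_sub ψ _ _
  have h1I : classInner ((oneI G : IrrCharacter G) : G → ℂ) I = -1 := by
    have := classInner_ind_sub (oneI G) b (oneI (CentS P))
    rw [mulN_oneG_ne hb1, mulN_oneG_one] at this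
    simpa [hI] using this
  have hII : classInner I I = (((1 + (CentS P).relIndex (NormS P) : ℕ) : ℤ) : ℂ) := by
    rw [hI, gram_four (hnS P) S (S_hyp h) hv34 hv34]
    rw [Mc_self (hnS P) (cent_le h) (fun x hx => twI_stab hr h isBase_one hl'' x hx),
      Mc_zero (hnS P) (fun x => cjI_ne_one_of_ne hb1 x ∘ id) ,
      Mc_zero (hnS P) (fun x hx => hb1 (by rw [cjI_oneI] at hx; exact hx.symm)), Mc_one (hnS P) (cent_le h)]
    push_cast
    ring
  have hidx : 1 ≤ (CentS P).relIndex (NormS P) := Nat.one_le_iff_ne_zero.2 (Subgroup.index_ne_zero_of_finite (H := (CentS P).subgroupOf (NormS P)))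
  haveI : Nontrivial (Fin n) := Fin.nontrivial_iff_two_le.2 (by omega)
  obtain ⟨j, hj⟩ := exists_ne i₀
  have hne1 : ∀ i, X i ≠ ((oneI G : IrrCharacter G) : G → ℂ) := one_notMem_family hR hε hX hXi hf hj
  let X' : Fin n → IrrCharacter G := fun i => ⟨X i, hX i⟩
  have hX'inj : Function.Injective X' := fun a b hab => hXi (congrArg Subtype.val hab)
  have hX'ne : ∀ i, X' i ≠ oneI G := fun i he => hne1 i (congrArg Subtype.val he)
  set m : ℤ := (mulN ψ (oneI (CentS P)) : ℤ) with hmdef
  let a : IrrCharacter G → ℤ := fun ζ => if ζ = oneI G then -1 else -m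
  have hτ : IsGeneralizedCharacter G I := (isCharacter_indFun (CentS P) b.2.isCharacter).isGeneralized.sub
    (isCharacter_indFun (CentS P) (oneI (CentS P)).2.isCharacter).isGeneralized
  have hbes := (gen_bessel hτ (insert (oneI G) (Finset.univ.image X')) a ?_ _ hII).1
  · rw [Finset.sum_insert (by
      intro hmem
      obtain ⟨i, _, hi⟩ := Finset.mem_image.1 hmem
      exact hX'ne i hi)] at hbes
    rw [Finset.sum_image (fun x _ y _ hxy => hX'inj hxy)] at hbes
    have h2 : ∀ i, a (X' i) = -m := fun i => if_neg (hX'ne i)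
    have h3 : a (oneI G) = -1 := if_pos rfl
    simp only [h2, h3, Finset.sum_const, Finset.card_univ, Fintype.card_fin, nsmul_eq_mul] at hbes
    have hm1 : 1 ≤ m := by
      rw [hmdef]
      exact_mod_cast Nat.one_le_iff_ne_zero.2 hm
    have hm2 : 1 ≤ m ^ 2 := by nlinarith
    have hn' : ((CentS P).relIndex (NormS P) : ℤ) < n := by exact_mod_cast hn
    have hn0 : (0 : ℤ) ≤ n := by positivity
    push_cast at hbes
    nlinarith
  · intro ζ hζ
    rcases Finset.mem_insert.1 hζ with rfl | hζ'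
    · rw [h1I]
      simp [a]
    · obtain ⟨i, _, rfl⟩ := Finset.mem_image.1 hζ'
      have h2 : a (X' i) = -m := if_neg (hX'ne i)
      rw [h2]
      show classInner (X i) I = _
      rw [hall i, hk, hψI, hz]
      simp [hmdef]

/-- Case of the trivial base. -/
theorem case_B (hr : ∀ (c : CentS P) (hc : (c : G) ∈ (P : Subgroup G)), r c = ⟨c, hc⟩)
    (h : StarSylow P) (ψ : IrrCharacter G) (hm : mulN ψ (oneI (CentS P)) ≠ 0)
    (hdeg : charDegree (ψ : G → ℂ) + 1 < Nat.card (P : Subgroup G))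
    (hnt : ∑ l ∈ lamS P, mulN ψ (twI r (oneI (CentS P)) l) + (CentS P).relIndex (NormS P) + 1 < Nat.card (P : Subgroup G))
    {n : ℕ} {i₀ : Fin n}
    (ℓ : Fin n → ((P : Subgroup G) →* ℂˣ)) (hℓ : ∀ i, ℓ i ≠ 1)
    (hnc : ∀ i j (x : NormS P), i ≠ j → cjI (hnS P) x (twI r (oneI (CentS P)) (ℓ i)) ≠ twI r (oneI (CentS P)) (ℓ j))
    (hcov : ∀ l, l ≠ 1 → ∃ i, ∃ x : NormS P, cjI (hnS P) x (twI r (oneI (CentS P)) (ℓ i)) = twI r (oneI (CentS P)) l)
    {ε : ℂ} (hε : ε = 1 ∨ ε = -1) {X : Fin n → (G → ℂ)} (hX : ∀ i, IsIrrCharacter G (X i))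
    (hXi : Function.Injective X)
    (hf : ∀ i, indFun (CentS P) (twI r (oneI (CentS P)) (ℓ i) : CentS P → ℂ) -
      indFun (CentS P) (twI r (oneI (CentS P)) (ℓ i₀) : CentS P → ℂ) = ε • (X i - X i₀))
    {k : Fin n} (hk : X k = (ψ : G → ℂ)) (hn : (CentS P).relIndex (NormS P) < n) : False := by
  classical
  set S : G → Prop := fun c => p ∣ orderOf c with hS
  set e := (CentS P).relIndex (NormS P) with he
  set R : Fin n → IrrCharacter (CentS P) := fun i => twI r (oneI (CentS P)) (ℓ i) with hRdef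
  have hε0 : ε ≠ 0 := by
    rcases hε with rfl | rfl <;> norm_num
  have hεr : conj ε = ε := by
    rcases hε with rfl | rfl <;> simp
  have hε2 : ε * ε = 1 := by
    rcases hε with rfl | rfl <;> norm_num
  have hR : ∀ i, R i ≠ oneI (CentS P) := fun i => twI_ne_one hr h isBase_one (hℓ i)
  have hv1 : ∀ i, ∀ c : CentS P, ¬ S c → (R i : CentS P → ℂ) c = ((oneI (CentS P) : IrrCharacter _) : CentS P → ℂ) c := by
    intro i c hc
    exact twI_regular r _ _ c hc
  let J : Fin n → (G → ℂ) := fun j => indFun (CentS P) (R j : CentS P → ℂ) -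
    indFun (CentS P) ((oneI (CentS P) : IrrCharacter _) : CentS P → ℂ)
  have hJJ : ∀ j j', J j - J j' = ε • (X j - X j') := by
    intro j j'
    have h1 := hf j
    have h2 := hf j'
    have h3 : J j - J j' = (indFun (CentS P) (R j : CentS P → ℂ) - indFun (CentS P) (R i₀ : CentS P → ℂ)) -
        (indFun (CentS P) (R j' : CentS P → ℂ) - indFun (CentS P) (R i₀ : CentS P → ℂ)) := by
      simp only [J]
      abel
    rw [h3, h1, h2, ← smul_sub]
    congr 1
    abel
  have hgram : ∀ j j', classInner (J j) (J j') = (if j = j' then 1 else 0) + (e : ℂ) := by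
    intro j j'
    simp only [J]
    rw [gram_four (hnS P) S (S_hyp h) (hv1 j) (hv1 j')]
    rw [Mc_zero (hnS P) (κ := R j) (κ' := oneI (CentS P)) (fun x hx => hR j (by rw [cjI_oneI] at hx; exact hx.symm)),
      Mc_zero (hnS P) (κ := oneI (CentS P)) (κ' := R j') (fun x => cjI_ne_one_of_ne (hR j') x),
      Mc_one (hnS P) (cent_le h)]
    by_cases hjj : j = j'
    · subst hjj
      rw [Mc_self (hnS P) (cent_le h) (fun x hx => twI_stab hr h isBase_one (hℓ j) x hx), if_pos rfl]
      ring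
    · rw [Mc_zero (hnS P) (fun x => hnc j' j x (Ne.symm hjj)), if_neg hjj]
      ring
  have hXX : ∀ i j, classInner (X i) (X j) = if i = j then 1 else 0 := by
    intro i j
    rw [classInner_irr (hX i) (hX j)]
    by_cases hij : i = j
    · simp [hij]
    · rw [if_neg hij, if_neg (fun h2 => hij (hXi h2))]
  -- the inner products with `J`
  have hJgen : ∀ j, IsGeneralizedCharacter G (J j) := fun j =>
    (isCharacter_indFun (CentS P) (R j).2.isCharacter).isGeneralized.sub
      (isCharacter_indFun (CentS P) (oneI (CentS P)).2.isCharacter).isGeneralized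
  have hA : ∀ i j, ∃ z : ℤ, classInner (X i) (J j) = z := fun i j =>
    (hX i).isGeneralized.classInner_int (hJgen j)
  choose A hA using hA
  have hAdiff : ∀ i j j', (A i j : ℂ) - A i j' = ε * ((if i = j then 1 else 0) - (if i = j' then 1 else 0)) := by
    intro i j j'
    rw [← hA, ← hA, ← classInner_sub_right, hJJ, classInner_smul_right, hεr, classInner_sub_right, hXX, hXX]
  have hJX : ∀ i j, classInner (J j) (X i) = A i j := by
    intro i j
    rw [← conj_classInner, hA, map_intCast]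
  have hsymm : ∀ i j, i ≠ j → A i j = A j i := by
    intro i j hij
    have h1 : classInner (J i) (J j) = classInner (J i) (J i) - ε * (classInner (J i) (X i) - classInner (J i) (X j)) := by
      have h2 : J j = J i - ε • (X i - X j) := by
        rw [← hJJ]
        abel
      conv_lhs => rw [h2]
      rw [classInner_sub_right (J i) (J i), classInner_smul_right, hεr, classInner_sub_right (J i) (X i) (X j)]
    rw [hgram, hgram, hJX, hJX, if_pos rfl, if_neg hij] at h1
    have h3 := hAdiff i i j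
    rw [if_pos rfl, if_neg hij] at h3
    have h4 : (A i i : ℂ) = A i j + ε := by
      linear_combination h3
    rw [h4] at h1
    have h5 : ε * ((A i j : ℂ) - A j i) = 0 := by
      linear_combination h1 - hε2
    have h7 : (A i j : ℂ) = A j i := sub_eq_zero.1 ((mul_eq_zero.1 h5).resolve_left hε0)
    exact_mod_cast h7
  have hidx : 1 ≤ e := Nat.one_le_iff_ne_zero.2 (Subgroup.index_ne_zero_of_finite (H := (CentS P).subgroupOf (NormS P)))
  haveI : Nontrivial (Fin n) := Fin.nontrivial_iff_two_le.2 (by omega)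
  obtain ⟨j₀, hj₀⟩ := exists_ne i₀
  have hne1 : ∀ i, X i ≠ ((oneI G : IrrCharacter G) : G → ℂ) :=
    one_notMem_family (R := R) hR hε hX hXi hf hj₀
  let X' : Fin n → IrrCharacter G := fun i => ⟨X i, hX i⟩
  have hX'inj : Function.Injective X' := fun a b hab => hXi (congrArg Subtype.val hab)
  have hX'ne : ∀ i, X' i ≠ oneI G := fun i he => hne1 i (congrArg Subtype.val he)
  set m : ℤ := (mulN ψ (oneI (CentS P)) : ℤ) with hmdef
  have hm1 : 1 ≤ m := by
    rw [hmdef]
    exact_mod_cast Nat.one_le_iff_ne_zero.2 hm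
  have hz : ∀ j, A k j = (mulN ψ (R j) : ℤ) - m := by
    intro j
    have h1 := hA k j
    rw [hk] at h1
    have h2 := classInner_ind_sub ψ (R j) (oneI (CentS P))
    change classInner (ψ : G → ℂ) (J j) = _ at h2
    rw [h2] at h1
    rw [hmdef]
    exact_mod_cast h1.symm
  obtain ⟨j₁, hj₁⟩ : ∃ j₁, mulN ψ (R j₁) = 0 := by
    obtain ⟨l', hl', hz'⟩ := exists_zero_twist hr h (isBase_one (P := P)) ψ hdeg
    obtain ⟨i, x, hx⟩ := hcov l' hl'
    refine ⟨i, ?_⟩
    rw [← mulN_cjI (hnS P) ψ x, hx, hz']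
  obtain ⟨j₂, hj₂⟩ := exists_ne k
  have hJone : J k 1 = 0 := by
    simp only [J, Pi.sub_apply]
    rw [indFun_one, indFun_one, hv1 k 1 (by simpa [hS] using (S_one (p := p) (G := G))), sub_self]
  have hJ1 : classInner ((oneI G : IrrCharacter G) : G → ℂ) (J k) = -1 := by
    have := classInner_ind_sub (oneI G) (R k) (oneI (CentS P))
    rw [mulN_oneG_ne (hR k), mulN_oneG_one] at this
    simpa [J] using this
  have hN : classInner (J k) (J k) = (((1 + e : ℕ) : ℤ) : ℂ) := by
    rw [hgram, if_pos rfl]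
    push_cast
    ring
  rcases hε with rfl | rfl
  · -- the sign `+1`
    have hAk : ∀ j, j ≠ k → A k k = A k j + 1 := by
      intro j hjk
      have h1 := hAdiff k k j
      rw [if_pos rfl, if_neg (Ne.symm hjk)] at h1
      have h2 : ((A k k - A k j : ℤ) : ℂ) = ((1 : ℤ) : ℂ) := by
        push_cast
        linear_combination h1
      have h3 : A k k - A k j = 1 := by exact_mod_cast h2
      omega
    have hj₁k : j₁ ≠ k := by
      rintro rfl
      have h1 := hAk j₂ hj₂
      rw [hz j₁, hz j₂, hj₁] at h1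
      have : (0 : ℤ) ≤ (mulN ψ (R j₂) : ℤ) := by positivity
      push_cast at h1
      omega
    have hAoff : ∀ j, j ≠ k → A k j = -m := by
      intro j hjk
      have h1 := hAk j hjk
      have h2 := hAk j₁ hj₁k
      rw [hz j₁, hj₁] at h2
      push_cast at h2
      omega
    have hAkk : A k k = 1 - m := by
      have h2 := hAk j₁ hj₁k
      rw [hAoff j₁ hj₁k] at h2
      omega
    let a : IrrCharacter G → ℤ := fun ζ => if ζ = oneI G then -1 else if ζ = X' k then 1 - m else -m
    have ha1 : a (oneI G) = -1 := if_pos rfl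
    have hak : a (X' k) = 1 - m := by
      simp [a, hX'ne k]
    have hai : ∀ i, i ≠ k → a (X' i) = -m := by
      intro i hi
      simp only [a]
      rw [if_neg (hX'ne i), if_neg (fun h3 => hi (hX'inj h3))]
    have hgen := hJgen k
    have hTa : ∀ ζ ∈ insert (oneI G) (Finset.univ.image X'), classInner (ζ : G → ℂ) (J k) = (a ζ : ℂ) := by
      intro ζ hζ
      rcases Finset.mem_insert.1 hζ with rfl | hζ'
      · rw [hJ1, ha1]
        simp
      · obtain ⟨i, _, rfl⟩ := Finset.mem_image.1 hζ'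
        by_cases hik : i = k
        · subst hik
          rw [hak]
          show classInner (X i) (J i) = _
          rw [hA, hAkk]
        · rw [hai i hik]
          show classInner (X i) (J k) = _
          rw [hA, hsymm i k hik, hAoff i hik]
    have hb := gen_bessel hgen _ a hTa _ hN
    have hnotin : oneI G ∉ Finset.univ.image X' := by
      intro hmem
      obtain ⟨i, _, hi⟩ := Finset.mem_image.1 hmem
      exact hX'ne i hi
    have hsum : ∑ ζ ∈ insert (oneI G) (Finset.univ.image X'), a ζ ^ 2 = 1 + ((1 - m) ^ 2 + ((n : ℤ) - 1) * m ^ 2) := by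
      rw [Finset.sum_insert hnotin, Finset.sum_image (fun x _ y _ hxy => hX'inj hxy), ha1,
        ← Finset.add_sum_erase _ _ (Finset.mem_univ k), hak]
      have h1 : ∑ i ∈ Finset.univ.erase k, a (X' i) ^ 2 = ((n : ℤ) - 1) * m ^ 2 := by
        rw [Finset.sum_congr rfl (g := fun _ => m ^ 2) (fun i hi => by
          rw [hai i (Finset.ne_of_mem_erase hi)]
          ring)]
        rw [Finset.sum_const, Finset.card_erase_of_mem (Finset.mem_univ _), Finset.card_univ, Fintype.card_fin,
          nsmul_eq_mul, Nat.cast_sub (by omega)]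
        simp
      rw [h1]
      ring
    have hn' : (e : ℤ) + 1 ≤ n := by exact_mod_cast hn
    have he1 : (1 : ℤ) ≤ e := by exact_mod_cast hidx
    obtain ⟨hb1, hb2⟩ := hb
    rw [hsum] at hb1
    push_cast at hb1
    have hm1' : m = 1 := by
      by_contra hne
      have hm2 : 2 ≤ m := by omega
      have h4 : 4 ≤ m ^ 2 := by nlinarith
      have h5 : 0 ≤ (1 - m) ^ 2 := sq_nonneg _
      nlinarith
    have heq : ∑ ζ ∈ insert (oneI G) (Finset.univ.image X'), a ζ ^ 2 = ((1 + e : ℕ) : ℤ) := by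
      rw [hsum, hm1']
      push_cast
      rw [hm1'] at hb1
      nlinarith
    have h1 := hb2 heq
    rw [hJone, Finset.sum_insert hnotin, Finset.sum_image (fun x _ y _ hxy => hX'inj hxy), ha1,
      ← Finset.add_sum_erase _ _ (Finset.mem_univ k), hak, hm1'] at h1
    have h2 : ∑ i ∈ Finset.univ.erase k, ((a (X' i) : ℤ) : ℂ) * ((X' i : IrrCharacter G) : G → ℂ) 1 =
        -((∑ i ∈ Finset.univ.erase k, charDegree ((X' i : IrrCharacter G) : G → ℂ) : ℕ) : ℂ) := by
      push_cast
      rw [← Finset.sum_neg_distrib]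
      refine Finset.sum_congr rfl fun i hi => ?_
      rw [hai i (Finset.ne_of_mem_erase hi), hm1', irr_one_eq_charDegree]
      push_cast
      ring
    rw [h2] at h1
    have h3 : (((oneI G : IrrCharacter G) : G → ℂ) 1) = 1 := rfl
    rw [h3] at h1
    have h4 : ((1 + ∑ i ∈ Finset.univ.erase k, charDegree ((X' i : IrrCharacter G) : G → ℂ) : ℕ) : ℂ) = 0 := by
      push_cast
      push_cast at h1
      linear_combination h1
    have h5 : 1 + ∑ i ∈ Finset.univ.erase k, charDegree ((X' i : IrrCharacter G) : G → ℂ) = 0 := by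
      exact_mod_cast h4
    omega
  · -- the sign `-1`
    have hAk : ∀ j, j ≠ k → A k k = A k j - 1 := by
      intro j hjk
      have h1 := hAdiff k k j
      rw [if_pos rfl, if_neg (Ne.symm hjk)] at h1
      have h2 : ((A k k - A k j : ℤ) : ℂ) = ((-1 : ℤ) : ℂ) := by
        push_cast
        linear_combination h1
      have h3 : A k k - A k j = -1 := by exact_mod_cast h2
      omega
    have hj₁k : j₁ = k := by
      by_contra hne
      have h1 := hAk j₁ hne
      rw [hz k, hz j₁, hj₁] at h1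
      have : (0 : ℤ) ≤ (mulN ψ (R k) : ℤ) := by positivity
      push_cast at h1
      omega
    subst hj₁k
    have hz1 : ∀ j, j ≠ j₁ → mulN ψ (R j) = 1 := by
      intro j hj
      have h1 := hAk j hj
      rw [hz j₁, hz j, hj₁] at h1
      push_cast at h1
      omega
    -- the count
    have hB : ((lamS P).filter (fun l => ∃ x : NormS P, cjI (hnS P) x (R j₁) = twI r (oneI (CentS P)) l)).card ≤ e := by
      rw [he, ← card_orbit hr h isBase_one (hℓ j₁), ← Set.ncard_coe_finset]
      refine Set.ncard_le_ncard_of_injOn (fun l => twI r (oneI (CentS P)) l) ?_ ?_ (Set.toFinite _)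
      · intro l hl
        exact (Finset.mem_filter.1 (Finset.mem_coe.1 hl)).2
      · intro a _ b _ hab
        exact twI_injective hr h isBase_one hab
    have hC : ((lamS P).filter (fun l => ¬ ∃ x : NormS P, cjI (hnS P) x (R j₁) = twI r (oneI (CentS P)) l)).card ≤
        ∑ l ∈ lamS P, mulN ψ (twI r (oneI (CentS P)) l) := by
      rw [Finset.card_eq_sum_ones]
      calc _ ≤ ∑ l ∈ (lamS P).filter (fun l => ¬ ∃ x : NormS P, cjI (hnS P) x (R j₁) = twI r (oneI (CentS P)) l),
            mulN ψ (twI r (oneI (CentS P)) l) := by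
            refine Finset.sum_le_sum fun l hl => ?_
            obtain ⟨hl1, hl2⟩ := Finset.mem_filter.1 hl
            obtain ⟨i, x, hx⟩ := hcov l (mem_lamS.1 hl1)
            have hi : i ≠ j₁ := by
              rintro rfl
              exact hl2 ⟨x, hx⟩
            have h1 := mulN_cjI (hnS P) ψ x (R i)
            change mulN ψ (cjI (hnS P) x (R i)) = _ at h1
            rw [hx, hz1 i hi] at h1
            rw [h1]
        _ ≤ _ := Finset.sum_le_sum_of_subset_of_nonneg (Finset.filter_subset _ _) fun _ _ _ => Nat.zero_le _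
    have hsplit := Finset.card_filter_add_card_filter_not (s := lamS P)
      (fun l => ∃ x : NormS P, cjI (hnS P) x (R j₁) = twI r (oneI (CentS P)) l)
    rw [card_lamS h] at hsplit
    omega

/-- **The key lemma.** -/
theorem key_lemma (hr : ∀ (c : CentS P) (hc : (c : G) ∈ (P : Subgroup G)), r c = ⟨c, hc⟩)
    (h : StarSylow P) (hno : ∀ K : Subgroup G, K.Normal → (P : Subgroup G) ≤ K → K = ⊤)
    (hsmall : (CentS P).relIndex (NormS P) * (CentS P).relIndex (NormS P) + 1 < Nat.card (P : Subgroup G))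
    (ψ : IrrCharacter G) (hψ1 : (ψ : G → ℂ) ≠ fun _ => 1)
    (hdeg : charDegree (ψ : G → ℂ) + 1 < Nat.card (P : Subgroup G))
    (hnt : ∑ l ∈ lamS P, mulN ψ (twI r (oneI (CentS P)) l) + (CentS P).relIndex (NormS P) + 1 < Nat.card (P : Subgroup G)) :
    mulN ψ (oneI (CentS P)) = 0 := by
  classical
  by_contra hm
  obtain ⟨κ, hκ, hnb⟩ := exists_nonbase h hno ψ hψ1
  obtain ⟨κ₀, hb, l, rfl, hl⟩ := exists_base hr h κ
  have hl' := hl hnb
  obtain ⟨l', hl'1, hz⟩ := exists_zero_twist hr h hb ψ hdeg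
  obtain ⟨n, ℓ, hℓ, hnc, hcov, hcount⟩ := exists_reps hr h hb
  have hn : (CentS P).relIndex (NormS P) < n := by
    by_contra hle
    push Not at hle
    have h1 : n * (CentS P).relIndex (NormS P) ≤ (CentS P).relIndex (NormS P) * (CentS P).relIndex (NormS P) :=
      Nat.mul_le_mul_right _ hle
    omega
  obtain ⟨i₁, x₁, hx₁⟩ := hcov l hl'
  obtain ⟨i₂, x₂, hx₂⟩ := hcov l' hl'1
  have hz₁ : mulN ψ (twI r κ₀ (ℓ i₁)) ≠ 0 := by
    rw [← mulN_cjI (hnS P) ψ x₁, hx₁]
    exact hκ
  have hz₂ : mulN ψ (twI r κ₀ (ℓ i₂)) = 0 := by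
    rw [← mulN_cjI (hnS P) ψ x₂, hx₂]
    exact hz
  obtain ⟨ε, hε, X, hX, hXi, hf⟩ := family_of_base hr h hb i₁ ℓ hℓ hnc
  have hk : ∃ k, X k = (ψ : G → ℂ) := by
    by_contra hcon
    push Not at hcon
    have h1 := classInner_ind_sub ψ (twI r κ₀ (ℓ i₂)) (twI r κ₀ (ℓ i₁))
    rw [hf i₂, classInner_smul_right, classInner_sub_right, hz₂,
      classInner_irr ψ.2 (hX i₂), classInner_irr ψ.2 (hX i₁), if_neg (fun h2 => hcon i₂ h2.symm),
      if_neg (fun h2 => hcon i₁ h2.symm)] at h1
    simp only [sub_self, mul_zero, Nat.cast_zero, zero_sub] at h1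
    have h2 : (mulN ψ (twI r κ₀ (ℓ i₁)) : ℂ) = 0 := by
      linear_combination h1
    exact hz₁ (by exact_mod_cast h2)
  obtain ⟨k, hk⟩ := hk
  by_cases hne : κ₀ = oneI (CentS P)
  · subst hne
    exact case_B hr h ψ hm hdeg hnt ℓ hℓ hnc hcov hε hX hXi hf hk hn
  · exact case_A hr h ψ hm hdeg hb hne ℓ hℓ hε hX hXi hf hk hn

end Key

end CfsgLib.Char
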