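import Cfsg.Agent.Lib.Char.StarP5
import Cfsg.Agent.Lib.Char.Extraspecial

/-! # Brauer's bound: small irreducible characters and Sylow subgroups with the star property -/

set_option autoImplicit false
set_option linter.unusedSectionVars false
set_option linter.unusedVariables false
set_option linter.style.haveILetI false

namespace CfsgLib.Char

open Cfsg
open scoped ComplexConjugate

universe u

section Top

variable {G : Type u} [Group G] [Fintype G] {p : ℕ} [hp : Fact p.Prime] {P : Sylow p G}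

attribute [local instance] irrFintype

/-- The centre of a character as a subgroup. -/
theorem exists_centerS {χ : G → ℂ} (hχ : IsIrrCharacter G χ) :
    ∃ Z : Subgroup G, Z.Normal ∧ ∀ g, g ∈ Z ↔ ‖χ g‖ = ‖χ 1‖ := by
  obtain ⟨n, ρ, hρ, rfl⟩ := hχ
  have hfr : ‖ρ.character 1‖ = (Module.finrank ℂ (Fin n → ℂ) : ℝ) := by
    rw [Representation.char_one]
    simp
  have hone : ∃ ω : ℂ, ρ 1 = ω • (1 : Module.End ℂ (Fin n → ℂ)) := ⟨1, by simp⟩
  have hmul : ∀ a b : G, (∃ ω : ℂ, ρ a = ω • (1 : Module.End ℂ (Fin n → ℂ))) →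
      (∃ ω : ℂ, ρ b = ω • (1 : Module.End ℂ (Fin n → ℂ))) → ∃ ω : ℂ, ρ (a * b) = ω • (1 : Module.End ℂ (Fin n → ℂ)) := by
    rintro a b ⟨u, hu⟩ ⟨v, hv⟩
    refine ⟨u * v, ?_⟩
    rw [map_mul, hu, hv, smul_mul_smul_comm, mul_one]
  have hpow : ∀ (a : G) (k : ℕ), (∃ ω : ℂ, ρ a = ω • (1 : Module.End ℂ (Fin n → ℂ))) →
      ∃ ω : ℂ, ρ (a ^ k) = ω • (1 : Module.End ℂ (Fin n → ℂ)) := by
    intro a k ha
    induction k with
    | zero => simpa using hone
    | succ k ih =>
      rw [pow_succ]
      exact hmul _ _ ih ha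
  let Z : Subgroup G :=
    { carrier := {g | ∃ ω : ℂ, ρ g = ω • (1 : Module.End ℂ (Fin n → ℂ))}
      one_mem' := hone
      mul_mem' := fun {a b} ha hb => hmul a b ha hb
      inv_mem' := by
        intro a ha
        have h1 : a⁻¹ = a ^ (orderOf a - 1) := by
          rw [inv_eq_iff_mul_eq_one, ← pow_succ', Nat.sub_add_cancel (orderOf_pos a), pow_orderOf_eq_one]
        show ∃ ω : ℂ, ρ a⁻¹ = _
        rw [h1]
        exact hpow a _ ha }
  refine ⟨Z, ?_, fun g => ?_⟩
  · refine ⟨fun g hg c => ?_⟩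
    obtain ⟨u, hu⟩ := hg
    refine ⟨u, ?_⟩
    rw [map_mul, map_mul, hu, mul_smul_comm, mul_one, smul_mul_assoc, ← map_mul, mul_inv_cancel, map_one]
  · rw [hfr, norm_character_eq_iff ρ g]
    show (∃ ω : ℂ, ρ g = ω • (1 : Module.End ℂ (Fin n → ℂ))) ↔ _
    rfl

section Main

variable [Fintype (CentS P)] [Fintype (NormS P)] [Fintype ↥(P : Subgroup G)] [Fintype (↥(P : Subgroup G) →* ℂˣ)]
variable {r : CentS P →* (P : Subgroup G)}

/-- The inclusion of the Sylow subgroup in its centralizer. -/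
def incS (h : StarSylow P) : (P : Subgroup G) →* CentS P where
  toFun y := ⟨y, h.le_cent y.2⟩
  map_one' := rfl
  map_mul' _ _ := rfl

theorem e_le_degree (hr : ∀ (c : CentS P) (hc : (c : G) ∈ (P : Subgroup G)), r c = ⟨c, hc⟩)
    (h : StarSylow P) {κ₀ : IrrCharacter (CentS P)} (hb : IsBase κ₀) {l : (P : Subgroup G) →* ℂˣ} (hl : l ≠ 1)
    (ψ : IrrCharacter G) (hm : mulN ψ (twI r κ₀ l) ≠ 0) :
    (CentS P).relIndex (NormS P) ≤ charDegree (ψ : G → ℂ) := by
  classical
  rw [degree_eq_sum_mulN (C := CentS P) ψ, ← card_orbit hr h hb hl]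
  set O := {κ' : IrrCharacter (CentS P) | ∃ x : NormS P, cjI (hnS P) x (twI r κ₀ l) = κ'} with hO
  have hfin : O.Finite := Set.toFinite _
  rw [Set.ncard_eq_toFinset_card O hfin]
  have h1 : hfin.toFinset.card = ∑ κ ∈ hfin.toFinset, 1 := by simp
  rw [h1]
  refine le_trans (Finset.sum_le_sum fun κ hκ => ?_)
    (Finset.sum_le_sum_of_subset (Finset.subset_univ hfin.toFinset))
  have hκ' : κ ∈ O := (Set.Finite.mem_toFinset hfin).1 hκ
  obtain ⟨x, rfl⟩ := hκ'
  rw [mulN_cjI]
  have h2 := charDegree_pos (cjI (hnS P) x (twI r κ₀ l))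
  exact Nat.mul_pos (Nat.pos_of_ne_zero hm) h2

/-- The multiplicity of the twist of the trivial character is at most the multiplicity of the linear
character in the restriction to the Sylow subgroup. -/
theorem mulN_tw_le (hr : ∀ (c : CentS P) (hc : (c : G) ∈ (P : Subgroup G)), r c = ⟨c, hc⟩)
    (h : StarSylow P) (ψ : IrrCharacter G) (l : (P : Subgroup G) →* ℂˣ) :
    ∃ n : ℕ, classInner (fun y : (P : Subgroup G) => (ψ : G → ℂ) y) (fun y => ((l y : ℂˣ) : ℂ)) = n ∧
      mulN ψ (twI r (oneI (CentS P)) l) ≤ n := by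
  classical
  have hl : IsIrrCharacter (P : Subgroup G) (fun y => ((l y : ℂˣ) : ℂ)) := isIrr_of_hom l
  have hex : ∀ κ : IrrCharacter (CentS P), ∃ n : ℕ,
      classInner (fun y : (P : Subgroup G) => (κ : CentS P → ℂ) (incS h y)) (fun y => ((l y : ℂˣ) : ℂ)) = n :=
    fun κ => (κ.2.isCharacter.comp (incS h)).classInner_nat hl
  choose n hn using hex
  have hb : n (twI r (oneI (CentS P)) l) = 1 := by
    have h1 := hn (twI r (oneI (CentS P)) l)
    have h2 : (fun y : (P : Subgroup G) => ((twI r (oneI (CentS P)) l : IrrCharacter (CentS P)) : CentS P → ℂ) (incS h y)) =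
        fun y => ((l y : ℂˣ) : ℂ) := by
      funext y
      rw [twI_apply]
      have h3 : r (incS h y) = y := by
        rw [hr (incS h y) y.2]
        rfl
      rw [h3]
      simp [oneI]
    rw [h2, classInner_irr_self hl] at h1
    exact_mod_cast h1.symm
  refine ⟨∑ κ : IrrCharacter (CentS P), mulN ψ κ * n κ, ?_, ?_⟩
  · have h1 : (fun y : (P : Subgroup G) => (ψ : G → ℂ) y) =
        ∑ κ : IrrCharacter (CentS P), (mulN ψ κ : ℂ) • (fun y : (P : Subgroup G) => (κ : CentS P → ℂ) (incS h y)) := by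
      funext y
      rw [Finset.sum_apply]
      have h2 := restrict_eq_sum_mulN (C := CentS P) ψ (incS h y)
      simpa [incS] using h2
    rw [h1, classInner_sum_left]
    push_cast
    refine Finset.sum_congr rfl fun κ _ => ?_
    rw [classInner_smul_left, hn κ]
  · have h1 := Finset.single_le_sum (f := fun κ : IrrCharacter (CentS P) => mulN ψ κ * n κ)
      (fun κ _ => Nat.zero_le _) (Finset.mem_univ (twI r (oneI (CentS P)) l))
    simp only [hb, mul_one] at h1
    exact h1

/-- The function `χ · conj χ`. -/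
noncomputable def phiS (χ : IrrCharacter G) : G → ℂ := (χ : G → ℂ) * fun g => conj ((χ : G → ℂ) g)

omit [Fintype (CentS P)] [Fintype (NormS P)] [Fintype ↥(P : Subgroup G)] [Fintype (↥(P : Subgroup G) →* ℂˣ)] in
theorem phiS_char (χ : IrrCharacter G) : IsCharacter G (phiS χ) :=
  χ.2.isCharacter.mul χ.2.isCharacter.conj

omit [Fintype (CentS P)] [Fintype (NormS P)] [Fintype ↥(P : Subgroup G)] [Fintype (↥(P : Subgroup G) →* ℂˣ)] in
theorem phiS_one (χ : IrrCharacter G) : phiS χ 1 = ((charDegree (χ : G → ℂ) ^ 2 : ℕ) : ℂ) := by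
  show (χ : G → ℂ) 1 * conj ((χ : G → ℂ) 1) = _
  rw [irr_one_eq_charDegree, Complex.conj_natCast]
  push_cast
  ring

theorem sum_inner_le (h : StarSylow P) (χ : IrrCharacter G) :
    ∃ m : ((P : Subgroup G) →* ℂˣ) → ℕ,
      (∀ l, classInner (fun y : (P : Subgroup G) => phiS χ y) (fun y => ((l y : ℂˣ) : ℂ)) = m l) ∧
      ∑ l ∈ lamS P, m l + charDegree (χ : G → ℂ) ≤ charDegree (χ : G → ℂ) ^ 2 := by
  classical
  have hQ : ∀ a b : (P : Subgroup G), a * b = b * a := fun a b => Subtype.ext (h.comm a.2 b.2)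
  have hex : ∀ l : (P : Subgroup G) →* ℂˣ, ∃ n : ℕ,
      classInner (fun y : (P : Subgroup G) => phiS χ y) (fun y => ((l y : ℂˣ) : ℂ)) = n :=
    fun l => ((phiS_char χ).restrict (P : Subgroup G)).classInner_nat (isIrr_of_hom l)
  choose m hm using hex
  refine ⟨m, hm, ?_⟩
  have h1 := sum_hom_classInner hQ ((phiS_char χ).restrict (P : Subgroup G))
  simp only [hm] at h1
  have h2 : ∑ l, m l = charDegree (χ : G → ℂ) ^ 2 := by
    have h3 := phiS_one χ
    have h4 : phiS χ ((1 : (P : Subgroup G)) : G) = phiS χ 1 := rfl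
    rw [h4, h3] at h1
    exact_mod_cast h1
  have h5 : charDegree (χ : G → ℂ) ≤ m 1 := by
    obtain ⟨d, n, hd, hn, hdn⟩ := degree_le_norm hQ (χ.2.isCharacter.restrict (P : Subgroup G))
    have h6 : d = charDegree (χ : G → ℂ) := by
      have h7 : (χ : G → ℂ) ((1 : (P : Subgroup G)) : G) = (χ : G → ℂ) 1 := rfl
      rw [h7, irr_one_eq_charDegree] at hd
      exact_mod_cast hd.symm
    have h8 : classInner (fun y : (P : Subgroup G) => phiS χ y) (fun y => (((1 : (P : Subgroup G) →* ℂˣ) y : ℂˣ) : ℂ)) =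
        classInner (fun y : (P : Subgroup G) => (χ : G → ℂ) y) (fun y : (P : Subgroup G) => (χ : G → ℂ) y) := by
      rw [classInner_def, classInner_def]
      congr 1
      refine Finset.sum_congr rfl fun y _ => ?_
      simp [phiS]
    rw [hm 1, hn] at h8
    have h9 : m 1 = n := by exact_mod_cast h8
    omega
  have h10 : lamS P = Finset.univ.erase (1 : (P : Subgroup G) →* ℂˣ) := by
    ext l
    simp [mem_lamS]
  rw [h10]
  have h11 := Finset.add_sum_erase Finset.univ m (Finset.mem_univ (1 : (P : Subgroup G) →* ℂˣ))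
  omega

theorem bound_constituent (hr : ∀ (c : CentS P) (hc : (c : G) ∈ (P : Subgroup G)), r c = ⟨c, hc⟩)
    (h : StarSylow P) (χ ψ : IrrCharacter G) (hc : classInner (phiS χ) (ψ : G → ℂ) ≠ 0)
    {m : ((P : Subgroup G) →* ℂˣ) → ℕ}
    (hm : ∀ l, classInner (fun y : (P : Subgroup G) => phiS χ y) (fun y => ((l y : ℂˣ) : ℂ)) = m l) :
    charDegree (ψ : G → ℂ) ≤ charDegree (χ : G → ℂ) ^ 2 ∧
      ∑ l ∈ lamS P, mulN ψ (twI r (oneI (CentS P)) l) ≤ ∑ l ∈ lamS P, m l := by
  classical
  constructor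
  · have h1 := degree_le_of_classInner_ne_zero (phiS_char χ) ψ.2 hc
    rw [phiS_one, irr_one_eq_charDegree, Complex.norm_natCast, Complex.norm_natCast] at h1
    exact_mod_cast h1
  · refine Finset.sum_le_sum fun l _ => ?_
    obtain ⟨n, hn, hle⟩ := mulN_tw_le hr h ψ l
    refine le_trans hle ?_
    have h2 := sub_isCharacter_of_classInner_ne_zero (phiS_char χ) ψ.2 hc
    obtain ⟨n', hn'⟩ := (h2.restrict (P : Subgroup G)).classInner_nat (isIrr_of_hom l)
    have h3 : (fun x : (P : Subgroup G) => (phiS χ - (ψ : G → ℂ)) x) =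
        (fun y : (P : Subgroup G) => phiS χ y) - (fun y : (P : Subgroup G) => (ψ : G → ℂ) y) := rfl
    rw [h3, classInner_sub_left, hm l, hn] at hn'
    have h4 : (m l : ℂ) = (n : ℂ) + n' := by
      rw [← hn']
      ring
    have h5 : m l = n + n' := by exact_mod_cast h4
    omega

theorem constituent_mulN (hr : ∀ (c : CentS P) (hc : (c : G) ∈ (P : Subgroup G)), r c = ⟨c, hc⟩)
    (h : StarSylow P) (hno : ∀ K : Subgroup G, K.Normal → (P : Subgroup G) ≤ K → K = ⊤)
    (χ : IrrCharacter G) (he : (CentS P).relIndex (NormS P) ≤ charDegree (χ : G → ℂ))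
    (hdeg : charDegree (χ : G → ℂ) ^ 2 + 1 < Nat.card (P : Subgroup G))
    (ψ : IrrCharacter G) (hψ1 : (ψ : G → ℂ) ≠ fun _ => 1) (hc : classInner (phiS χ) (ψ : G → ℂ) ≠ 0) :
    mulN ψ (oneI (CentS P)) = 0 := by
  classical
  obtain ⟨m, hm, hsum⟩ := sum_inner_le h χ
  obtain ⟨h1, h2⟩ := bound_constituent hr h χ ψ hc hm
  have hee : (CentS P).relIndex (NormS P) * (CentS P).relIndex (NormS P) ≤ charDegree (χ : G → ℂ) ^ 2 := by
    rw [sq]
    exact Nat.mul_le_mul he he
  refine key_lemma hr h hno ?_ ψ hψ1 ?_ ?_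
  · omega
  · omega
  · omega

theorem norm_restrict_eq_one (hr : ∀ (c : CentS P) (hc : (c : G) ∈ (P : Subgroup G)), r c = ⟨c, hc⟩)
    (h : StarSylow P) (hno : ∀ K : Subgroup G, K.Normal → (P : Subgroup G) ≤ K → K = ⊤)
    (χ : IrrCharacter G) (he : (CentS P).relIndex (NormS P) ≤ charDegree (χ : G → ℂ))
    (hdeg : charDegree (χ : G → ℂ) ^ 2 + 1 < Nat.card (P : Subgroup G)) :
    classInner (fun c : CentS P => (χ : G → ℂ) c) (fun c : CentS P => (χ : G → ℂ) c) = 1 := by
  classical
  have h1 : classInner (fun c : CentS P => (χ : G → ℂ) c) (fun c : CentS P => (χ : G → ℂ) c) =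
      classInner (fun c : CentS P => phiS χ c) ((oneI (CentS P) : IrrCharacter (CentS P)) : CentS P → ℂ) := by
    rw [classInner_def, classInner_def]
    congr 1
    refine Finset.sum_congr rfl fun y _ => ?_
    simp [phiS, oneI]
  have h2 : (fun c : CentS P => phiS χ c) =
      ∑ ψ : IrrCharacter G, classInner (phiS χ) (ψ : G → ℂ) • (fun c : CentS P => (ψ : G → ℂ) c) := by
    funext c
    rw [Finset.sum_apply]
    simpa using classFunction_apply (phiS_char χ).isClassFunction (c : G)
  rw [h1, h2, classInner_sum_left, Finset.sum_eq_single (oneI G)]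
  · rw [classInner_smul_left, mulN_spec, mulN_oneG_one]
    have h3 : classInner (phiS χ) ((oneI G : IrrCharacter G) : G → ℂ) =
        classInner (χ : G → ℂ) (χ : G → ℂ) := by
      rw [classInner_def, classInner_def]
      congr 1
      refine Finset.sum_congr rfl fun y _ => ?_
      simp [phiS, oneI]
    rw [h3, classInner_irr_self χ.2]
    simp
  · intro ψ _ hψ
    rw [classInner_smul_left, mulN_spec]
    by_cases hc : classInner (phiS χ) (ψ : G → ℂ) = 0
    · rw [hc, zero_mul]
    · have hψ1 : (ψ : G → ℂ) ≠ fun _ => 1 := fun h0 => hψ (Subtype.ext h0)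
      rw [constituent_mulN hr h hno χ he hdeg ψ hψ1 hc]
      simp
  · intro h0
    exact absurd (Finset.mem_univ _) h0

end Main

/-- Main result on small characters: they are linear, and the normalizer of the Sylow subgroup
is its centralizer. -/
theorem star_linear (h : StarSylow P) (hno : ∀ K : Subgroup G, K.Normal → (P : Subgroup G) ≤ K → K = ⊤)
    (χ : IrrCharacter G) (hχ1 : (χ : G → ℂ) ≠ fun _ => 1)
    (hdeg : charDegree (χ : G → ℂ) ^ 2 + 1 < Nat.card (P : Subgroup G)) :
    charDegree (χ : G → ℂ) = 1 ∧ NormS P ≤ CentS P := by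
  classical
  letI : Fintype (CentS P) := Fintype.ofFinite _
  letI : Fintype (NormS P) := Fintype.ofFinite _
  letI : Fintype ↥(P : Subgroup G) := Fintype.ofFinite _
  letI : Fintype (↥(P : Subgroup G) →* ℂˣ) := Fintype.ofFinite _
  obtain ⟨r, hr0⟩ := h.exists_ret
  have hr : ∀ (c : CentS P) (hc : (c : G) ∈ (P : Subgroup G)), r c = ⟨c, hc⟩ :=
    fun c hc => Subtype.ext (hr0 c hc)
  obtain ⟨κ, hκ, hnb⟩ := exists_nonbase h hno χ hχ1
  obtain ⟨κ₀, hb, l, rfl, hl⟩ := exists_base hr h κ
  have he := e_le_degree hr h hb (hl hnb) χ hκ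
  have hnorm := norm_restrict_eq_one hr h hno χ he hdeg
  have hirr : IsIrrCharacter (CentS P) (fun c : CentS P => (χ : G → ℂ) c) :=
    (χ.2.isCharacter.restrict (CentS P)).isIrr_of_norm hnorm
  obtain ⟨Z, hZn, hZ⟩ := exists_centerS χ.2
  have hQZ : (P : Subgroup G) ≤ Z := by
    intro y hy
    rw [hZ]
    have hcen : (⟨y, h.le_cent hy⟩ : CentS P) ∈ Subgroup.center (CentS P) := by
      rw [Subgroup.mem_center_iff]
      intro c
      apply Subtype.ext
      exact ((Subgroup.mem_centralizer_iff.1 c.2) y hy).symm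
    exact central_norm hirr hcen
  have hZtop := hno Z hZn hQZ
  have hall : ∀ g, ‖(χ : G → ℂ) g‖ = charDegree (χ : G → ℂ) := by
    intro g
    have h1 : g ∈ Z := by
      rw [hZtop]
      trivial
    rw [hZ] at h1
    rw [h1, irr_one_eq_charDegree, Complex.norm_natCast]
  have hx1 : charDegree (χ : G → ℂ) = 1 := by
    have h1 := classInner_self_eq_real (χ : G → ℂ)
    rw [classInner_irr_self χ.2] at h1
    simp only [hall] at h1
    have h2 : ((Nat.card G : ℝ)⁻¹ * ∑ g : G, ((charDegree (χ : G → ℂ) : ℝ)) ^ 2) = (charDegree (χ : G → ℂ) : ℝ) ^ 2 := by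
      rw [Finset.sum_const, Finset.card_univ, ← Nat.card_eq_fintype_card, nsmul_eq_mul, ← mul_assoc,
        inv_mul_cancel₀ (by exact_mod_cast Nat.card_pos.ne'), one_mul]
    rw [h2] at h1
    have h3 : (charDegree (χ : G → ℂ) : ℂ) ^ 2 = 1 := by
      exact_mod_cast h1.symm
    have h4 : charDegree (χ : G → ℂ) ^ 2 = 1 := by exact_mod_cast h3
    exact (pow_eq_one_iff.1 h4).resolve_right (by norm_num)
  refine ⟨hx1, ?_⟩
  intro g hg
  by_contra hgc
  obtain ⟨K, hKn, hK⟩ := exists_kerS χ.2
  have h1 : (χ : G → ℂ) 1 = 1 := by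
    rw [irr_one_eq_charDegree, hx1]
    simp
  obtain ⟨f, hf⟩ := exists_hom_of_degree_one χ.2.isCharacter h1
  have hQK : (P : Subgroup G) ≤ K := by
    intro z hz
    rw [hK, h1]
    obtain ⟨y, hy, rfl⟩ := h.exists_commutator_eq hg hgc hz
    rw [hf]
    simp only [map_mul, map_inv]
    simp [mul_comm, mul_assoc]
  have hKtop := hno K hKn hQK
  apply hχ1
  funext g'
  have h2 : g' ∈ K := by
    rw [hKtop]
    trivial
  rw [hK, h1] at h2
  exact h2

/-- Brauer's dichotomy. -/
theorem star_dichotomy (h : StarSylow P) (χ : IrrCharacter G) (hχ1 : (χ : G → ℂ) ≠ fun _ => 1)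
    (hdeg : charDegree (χ : G → ℂ) ^ 2 + 1 < Nat.card (P : Subgroup G)) :
    (∃ K : Subgroup G, K.Normal ∧ K ≠ ⊤ ∧ (P : Subgroup G) ≤ K) ∨
      ((∃ N : Subgroup G, N.Normal ∧ N.index = Nat.card (P : Subgroup G)) ∧ charDegree (χ : G → ℂ) = 1) := by
  classical
  by_cases hK : ∃ K : Subgroup G, K.Normal ∧ K ≠ ⊤ ∧ (P : Subgroup G) ≤ K
  · exact Or.inl hK
  · right
    have hno : ∀ K : Subgroup G, K.Normal → (P : Subgroup G) ≤ K → K = ⊤ := by
      intro K h1 h2
      by_contra h3
      exact hK ⟨K, h1, h3, h2⟩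
    obtain ⟨h1, h2⟩ := star_linear h hno χ hχ1 hdeg
    refine ⟨⟨(MonoidHom.transferSylow P h2).ker, inferInstance, ?_⟩, h1⟩
    exact (MonoidHom.ker_transferSylow_isComplement' P h2).symm.index_eq_card

end Top

section Faithful

variable {p : ℕ} [hp : Fact p.Prime]

theorem star_normal_aux : ∀ (n : ℕ) (G : Type u) [Group G] [Fintype G] (P : Sylow p G) (h : StarSylow P)
    (χ : G → ℂ) (hχ : IsCharacter G χ) (hfaith : ∀ g : G, χ g = χ 1 → g = 1)
    (hdeg : charDegree χ ^ 2 + 1 < Nat.card (P : Subgroup G)), Nat.card G = n → (P : Subgroup G).Normal := by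
  intro n
  induction n using Nat.strong_induction_on with
  | _ n ih =>
  intro G _ _ P h χ hχ hfaith hdeg hn
  classical
  by_cases hK : ∃ K : Subgroup G, K.Normal ∧ K ≠ ⊤ ∧ (P : Subgroup G) ≤ K
  · obtain ⟨K, hKn, hKt, hPK⟩ := hK
    have hcardK : Nat.card K < n := by
      rw [← hn]
      have h1 := Subgroup.card_mul_index K
      have h2 : K.index ≠ 1 := fun h0 => hKt (Subgroup.index_eq_one.1 h0)
      have h3 : K.index ≠ 0 := Subgroup.index_ne_zero_of_finite
      have h4 : 0 < Nat.card K := Nat.card_pos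
      have h5 : 2 ≤ K.index := by omega
      nlinarith
    letI : Fintype K := Fintype.ofFinite _
    let Q : Sylow p K := P.subtype hPK
    have hQmem : ∀ x : K, x ∈ (Q : Subgroup K) ↔ (x : G) ∈ (P : Subgroup G) := fun x => Iff.rfl
    have hQcard : Nat.card (Q : Subgroup K) = Nat.card (P : Subgroup G) :=
      Nat.card_congr (Subgroup.subgroupOfEquivOfLe hPK).toEquiv
    have hQ : StarSylow Q := by
      refine ⟨?_, ?_⟩
      · intro h0
        apply h.ne
        rw [eq_bot_iff]
        intro x hx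
        have h1 : (⟨x, hPK hx⟩ : K) ∈ (Q : Subgroup K) := hx
        rw [h0, Subgroup.mem_bot] at h1
        have h2 := congrArg Subtype.val h1
        exact (Subgroup.mem_bot).2 h2
      · intro x hx hx1
        have hx1' : (x : G) ≠ 1 := fun h0 => hx1 (Subtype.ext h0)
        have hstar := h.star (x : G) hx hx1'
        ext c
        rw [Subgroup.mem_centralizer_singleton_iff, Subgroup.mem_centralizer_iff]
        constructor
        · intro hc y hy
          have h1 : (c : G) ∈ Subgroup.centralizer ({(x : G)} : Set G) := by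
            rw [Subgroup.mem_centralizer_singleton_iff]
            exact congrArg Subtype.val hc
          rw [hstar, Subgroup.mem_centralizer_iff] at h1
          exact Subtype.ext (h1 y hy)
        · intro hc
          exact (hc x hx).symm
    have hdegK : charDegree (fun k : K => χ k) = charDegree χ := rfl
    have hnorm : (Q : Subgroup K).Normal :=
      ih _ hcardK K Q hQ (fun k : K => χ k) (hχ.restrict K) (fun g hg => Subtype.ext (hfaith g hg))
        (by rw [hdegK, hQcard]; exact hdeg) rfl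
    refine ⟨fun x hx g => ?_⟩
    have hu : g * x * g⁻¹ ∈ K := hKn.conj_mem x (hPK hx) g
    let u : K := ⟨g * x * g⁻¹, hu⟩
    have hpu : IsPGroup p (Subgroup.zpowers u) := by
      rw [IsPGroup.iff_card]
      rw [Nat.card_zpowers]
      obtain ⟨k, hk⟩ := (IsPGroup.iff_orderOf.1 P.isPGroup') ⟨x, hx⟩
      refine ⟨k, ?_⟩
      rw [← Subgroup.orderOf_coe u]
      show orderOf (g * x * g⁻¹) = p ^ k
      rw [orderOf_conj_star]
      rw [← hk, Subgroup.orderOf_mk]
    obtain ⟨S, hS⟩ := hpu.exists_le_sylow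
    haveI := Sylow.unique_of_normal Q hnorm
    have hSQ : S = Q := Subsingleton.elim _ _
    have h1 : u ∈ (S : Subgroup K) := hS (Subgroup.mem_zpowers u)
    rw [hSQ] at h1
    exact h1
  · have hno : ∀ K : Subgroup G, K.Normal → (P : Subgroup G) ≤ K → K = ⊤ := by
      intro K h1 h2
      by_contra h3
      exact hK ⟨K, h1, h3, h2⟩
    letI := irrFintype (G := G)
    have hcomm : ∀ a b : G, a * b = b * a := by
      intro a b
      have h1 : χ (a * b * a⁻¹ * b⁻¹) = χ 1 := by
        rw [classFunction_apply hχ.isClassFunction (a * b * a⁻¹ * b⁻¹), classFunction_apply hχ.isClassFunction 1]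
        refine Finset.sum_congr rfl fun ψ _ => ?_
        by_cases hc : classInner χ (ψ : G → ℂ) = 0
        · rw [hc, zero_mul, zero_mul]
        · congr 1
          by_cases hψ : (ψ : G → ℂ) = fun _ => 1
          · rw [hψ]
          · have hle : charDegree (ψ : G → ℂ) ≤ charDegree χ := by
              have h2 := degree_le_of_classInner_ne_zero hχ ψ.2 hc
              obtain ⟨d, hd⟩ := hχ.map_one
              rw [hd, irr_one_eq_charDegree, Complex.norm_natCast, Complex.norm_natCast] at h2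
              have h3 : charDegree χ = d := charDegree_eq hd
              rw [h3]
              exact_mod_cast h2
            have h2 : charDegree (ψ : G → ℂ) ^ 2 + 1 < Nat.card (P : Subgroup G) := by
              have := Nat.pow_le_pow_left hle 2
              omega
            obtain ⟨h3, -⟩ := star_linear h hno ψ hψ h2
            have h4 : (ψ : G → ℂ) 1 = 1 := by
              rw [irr_one_eq_charDegree, h3]
              simp
            rw [commutator_eq_one_of_degree_one ψ.2.isCharacter h4, h4]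
      have h2 := hfaith _ h1
      have h3 : a * b * a⁻¹ = b := by
        rw [mul_inv_eq_one] at h2
        exact h2
      rw [mul_inv_eq_iff_eq_mul] at h3
      exact h3
    refine ⟨fun x hx g => ?_⟩
    rw [hcomm g x, mul_assoc, mul_inv_cancel, mul_one]
    exact hx

end Faithful

end CfsgLib.Char
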