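import Mathlib
import Cfsg.Agent.Lib.Char.UniqueSing
import Cfsg.Agent.Lib.Char.Misc5

/-!
# Groups with two character degrees (Isaacs, Chapter 12).
-/

set_option linter.unusedSectionVars false
set_option linter.style.haveILetI false
set_option linter.unusedSimpArgs false
set_option linter.unusedVariables false

namespace CfsgLib.Char

open Module Cfsg
open scoped ComplexConjugate commutatorElement

universe u

section Perm

variable {G : Type u} [Group G] [Fintype G]

/-- If all degrees are `1` or `m` and `T` has index `m`, then `G' ≤ T`. -/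
theorem commutator_le_of_index_eq (T : Subgroup G) (m : ℕ) (hm : T.index = m)
    (hcd : ∀ χ : G → ℂ, IsIrrCharacter G χ → χ 1 = 1 ∨ χ 1 = m) : commutator G ≤ T := by
  classical
  letI : Fintype T := Fintype.ofFinite _
  intro x hx
  set τ : G → ℂ := indFun T (fun _ => 1) with hτ
  have hτc : IsCharacter G τ := isCharacter_indFun T isCharacter_one
  have hτ1 : τ 1 = m := by
    rw [hτ, indFun_one, hm]; simp
  have hone : IsIrrCharacter G (fun _ => (1 : ℂ)) := isIrrCharacter_one
  -- every constituent is linear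
  have hlin : ∀ ψ : G → ℂ, IsIrrCharacter G ψ → classInner τ ψ ≠ 0 → ψ 1 = 1 := by
    intro ψ hψ hc
    rcases hcd ψ hψ with h | h
    · exact h
    · by_contra hne
      have hsub := sub_isCharacter_of_classInner_ne_zero hτc hψ hc
      have h0 : (τ - ψ) 1 = 0 := by simp [hτ1, h]
      have h1 := hsub.eq_zero_of_map_one h0
      have h2 : τ = ψ := sub_eq_zero.mp h1
      have h3 : classInner τ (fun _ => (1 : ℂ)) ≠ 0 := by
        rw [hτ, frobenius T _ hone.isClassFunction]
        have := classInner_irr_self (isIrrCharacter_one (G := T))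
        simpa using (by rw [this]; exact one_ne_zero : classInner (fun _ : T => (1 : ℂ)) (fun _ : T => (1 : ℂ)) ≠ 0)
      rw [h2] at h3
      have h4 : ψ = fun _ => (1 : ℂ) := by
        by_contra hn
        exact h3 (classInner_irr_ne hψ hone hn)
      apply hne
      rw [h4]
  have hval : τ x = τ 1 := by
    have hdec := hτc.eq_sum_classInner
    rw [hdec]
    simp only [Finset.sum_apply, Pi.smul_apply, smul_eq_mul]
    refine Finset.sum_congr rfl fun ψ _ => ?_
    by_cases h0 : classInner τ (ψ : G → ℂ) = 0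
    · rw [h0]; simp
    · have h1 := hlin ψ ψ.2 h0
      rw [linear_trivial_on_commutator ψ h1 x hx]
  rw [hτ, indFun_one_eq_perm T x] at hval
  rw [← hτ, hτ1] at hval
  have hcard : Nat.card (MulAction.fixedBy (G ⧸ T) x) = Nat.card (G ⧸ T) := by
    have : ((Nat.card (MulAction.fixedBy (G ⧸ T) x) : ℕ) : ℂ) = (m : ℂ) := hval
    have h2 : Nat.card (MulAction.fixedBy (G ⧸ T) x) = m := by exact_mod_cast this
    rw [h2, ← hm]; rfl
  have hall : MulAction.fixedBy (G ⧸ T) x = Set.univ := by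
    apply Set.eq_of_subset_of_ncard_le (Set.subset_univ _)
    · rw [Set.ncard_univ, ← Nat.card_coe_set_eq, hcard]
  have h1 : ((1 : G) : G ⧸ T) ∈ MulAction.fixedBy (G ⧸ T) x := by rw [hall]; trivial
  have h2 : x • ((1 : G) : G ⧸ T) = ((1 : G) : G ⧸ T) := h1
  have h3 : ((x * 1 : G) : G ⧸ T) = ((1 : G) : G ⧸ T) := h2
  rw [mul_one, eq_comm, QuotientGroup.eq] at h3
  simpa using h3

/-- Monomial case: `G'' = 1` when all degrees are `1` or `m`. -/
theorem derived_abelian_of_monomial (m : ℕ)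
    (hM : ∀ χ : G → ℂ, IsIrrCharacter G χ → ∃ (H : Subgroup G) (lam : H →* ℂˣ), χ = indFun H (fun h => (lam h : ℂ)))
    (hcd : ∀ χ : G → ℂ, IsIrrCharacter G χ → χ 1 = 1 ∨ χ 1 = m) :
    ∀ a ∈ commutator G, ∀ b ∈ commutator G, a * b = b * a := by
  classical
  -- the key: `⁅a,b⁆` is in the kernel of every irreducible character.
  intro a ha b hb
  have hker : ∀ χ : IrrCharacter G, (χ : G → ℂ) (a * b * a⁻¹ * b⁻¹) = (χ : G → ℂ) 1 := by
    intro χ
    have hcom : a * b * a⁻¹ * b⁻¹ ∈ commutator G := by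
      have h1 := (commutator G).mul_mem ((commutator G).mul_mem ((commutator G).mul_mem ha hb) ((commutator G).inv_mem ha)) ((commutator G).inv_mem hb)
      exact h1
    by_cases h1 : (χ : G → ℂ) 1 = 1
    · exact linear_trivial_on_commutator χ h1 _ hcom
    obtain ⟨H, lam, hχ⟩ := hM χ χ.2
    have hidx : H.index = m := by
      have h2 : (χ : G → ℂ) 1 = m := by
        rcases hcd χ χ.2 with h | h
        · exact absurd h h1
        · exact h
      rw [hχ, indFun_one] at h2
      simp only [map_one, Units.val_one, mul_one] at h2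
      exact_mod_cast h2
    have hle : commutator G ≤ H := commutator_le_of_index_eq H m hidx hcd
    -- all conjugates of the commutator of `a b` lie in `ker lam`.
    have hconj : ∀ x : G, x⁻¹ * (a * b * a⁻¹ * b⁻¹) * x ∈ H ∧ True := by
      intro x
      refine ⟨hle ?_, trivial⟩
      exact (inferInstance : (commutator G).Normal).conj_mem' _ hcom x
    have hlam : ∀ (u v : H), (lam ⟨u * v * u⁻¹ * v⁻¹, H.mul_mem (H.mul_mem (H.mul_mem u.2 v.2) (H.inv_mem u.2)) (H.inv_mem v.2)⟩ : ℂˣ) = 1 := by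
      intro u v
      have : (⟨u * v * u⁻¹ * v⁻¹, H.mul_mem (H.mul_mem (H.mul_mem u.2 v.2) (H.inv_mem u.2)) (H.inv_mem v.2)⟩ : H) = u * v * u⁻¹ * v⁻¹ := rfl
      rw [this]
      simp only [map_mul, map_inv]
      rw [mul_comm (lam u) (lam v)]
      group
    rw [hχ, indFun_def, indFun_def]
    congr 1
    refine Finset.sum_congr rfl fun x _ => ?_
    have hx1 : x⁻¹ * (a * b * a⁻¹ * b⁻¹) * x ∈ H := (hconj x).1
    have hax : x⁻¹ * a * x ∈ commutator G := (inferInstance : (commutator G).Normal).conj_mem' _ ha x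
    have hbx : x⁻¹ * b * x ∈ commutator G := (inferInstance : (commutator G).Normal).conj_mem' _ hb x
    have h11 : x⁻¹ * 1 * x ∈ H := by simp [H.one_mem]
    rw [extendByZero_of_mem H _ hx1, extendByZero_of_mem H _ h11]
    have heq : (⟨x⁻¹ * (a * b * a⁻¹ * b⁻¹) * x, hx1⟩ : H) =
        ⟨(x⁻¹ * a * x) * (x⁻¹ * b * x) * (x⁻¹ * a * x)⁻¹ * (x⁻¹ * b * x)⁻¹,
          H.mul_mem (H.mul_mem (H.mul_mem (hle hax) (hle hbx)) (H.inv_mem (hle hax))) (H.inv_mem (hle hbx))⟩ := by
      apply Subtype.ext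
      simp only
      group
    have h5 := hlam ⟨_, hle hax⟩ ⟨_, hle hbx⟩
    have h6 : (⟨x⁻¹ * 1 * x, h11⟩ : H) = 1 := by
      apply Subtype.ext
      simp
    rw [heq, h6]
    simp only [map_one, Units.val_one]
    have h7 : (lam ⟨x⁻¹ * a * x * (x⁻¹ * b * x) * (x⁻¹ * a * x)⁻¹ * (x⁻¹ * b * x)⁻¹,
          H.mul_mem (H.mul_mem (H.mul_mem (hle hax) (hle hbx)) (H.inv_mem (hle hax))) (H.inv_mem (hle hbx))⟩ : ℂˣ) = 1 := h5
    rw [h7]
    simp
  have hc : IsConj (a * b * a⁻¹ * b⁻¹) 1 := (isConj_iff_irr _ _).mpr hker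
  rw [isConj_one_left] at hc
  have : a * b = b * a := by
    have h2 : a * b * a⁻¹ * b⁻¹ * (b * a) = 1 * (b * a) := by rw [hc]
    simpa [mul_assoc] using h2
  exact this

end Perm

section Dual

variable {G : Type u} [Group G] [Fintype G] (L : Subgroup G) [hL : L.Normal]

/-- The action of `G` on the dual of the normal subgroup `L`. -/
noncomputable def dualAct (g : G) : (L →* ℂˣ) →* (L →* ℂˣ) where
  toFun f := f.comp (MulAut.conjNormal g : L ≃* L).toMonoidHom
  map_one' := rfl
  map_mul' f f' := rfl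

theorem dualAct_apply (g : G) (f : L →* ℂˣ) (l : L) :
    dualAct L g f l = f ⟨g * l * g⁻¹, hL.conj_mem l l.2 g⟩ := by
  show f ((MulAut.conjNormal g : L ≃* L) l) = _
  congr 1

theorem dualAct_mul (x y : G) (f : L →* ℂˣ) : dualAct L (x * y) f = dualAct L y (dualAct L x f) := by
  ext l
  rw [dualAct_apply, dualAct_apply, dualAct_apply]
  congr 2
  apply Subtype.ext
  simp only [mul_inv_rev]
  group

theorem dualAct_one (f : L →* ℂˣ) : dualAct L 1 f = f := by
  ext l
  rw [dualAct_apply]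
  congr 2
  apply Subtype.ext
  simp

/-- The inertia group of a linear character, as a subgroup -/
noncomputable def dualStab (f : L →* ℂˣ) : Subgroup G := inertiaGroup L (fun l => ((f l : ℂˣ) : ℂ))

theorem mem_dualStab (f : L →* ℂˣ) (g : G) : g ∈ dualStab L f ↔ dualAct L g f = f := by
  show conjOn L g _ = _ ↔ _
  constructor
  · intro h
    ext l
    have := congrFun h l
    simp only [conjOn_apply] at this
    rw [dualAct_apply]
    exact this
  · intro h
    funext l
    simp only [conjOn_apply]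
    have := congrArg (fun F : L →* ℂˣ => ((F l : ℂˣ) : ℂ)) h
    simp only [dualAct_apply] at this
    exact this

/-- Linear characters of an abelian group separate points. -/
theorem exists_dual_ne (habL : ∀ a ∈ L, ∀ b ∈ L, a * b = b * a) {a b : L} (hab : a ≠ b) :
    ∃ f : L →* ℂˣ, f a ≠ f b := by
  classical
  by_contra hcon
  push Not at hcon
  apply hab
  have hc : IsConj a b := by
    rw [isConj_iff_irr]
    intro χ
    have h1 : (χ : L → ℂ) 1 = 1 := by
      apply isIrr_degree_one_of_comm _ χ.2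
      intro u v
      exact Subtype.ext (habL u u.2 v v.2)
    obtain ⟨l, hl⟩ := exists_hom_of_degree_one χ.2.isCharacter h1
    rw [hl]
    simp only [hcon l]
  obtain ⟨c, hc⟩ := isConj_iff.mp hc
  rw [← hc]
  have : c * a = a * c := Subtype.ext (habL c c.2 a a.2)
  rw [this]
  simp

/-- Elements fixing all the linear characters centralize `L`. -/
theorem mem_centralizer_of_forall_stab (habL : ∀ a ∈ L, ∀ b ∈ L, a * b = b * a) (g : G)
    (hg : ∀ f : L →* ℂˣ, g ∈ dualStab L f) : ∀ l ∈ L, g * l * g⁻¹ = l := by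
  intro l hl
  by_contra hne
  have hne' : (⟨g * l * g⁻¹, hL.conj_mem l hl g⟩ : L) ≠ ⟨l, hl⟩ := fun h => hne (congrArg Subtype.val h)
  obtain ⟨f, hf⟩ := exists_dual_ne L habL hne'
  apply hf
  have h1 := (mem_dualStab L f g).mp (hg f)
  have h2 := congrArg (fun F : L →* ℂˣ => F ⟨l, hl⟩) h1
  simp only [dualAct_apply] at h2
  exact h2

/-- Extension of a linear character of `L` to its inertia group under coprimality. -/
theorem exists_linear_extension (hcop : Nat.Coprime (Nat.card L) L.index) (f : L →* ℂˣ) :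
    ∃ (hle : L ≤ dualStab L f) (F : dualStab L f →* ℂˣ), ∀ n : L, F ⟨n, hle n.2⟩ = f n := by
  classical
  letI : Fintype L := Fintype.ofFinite _
  set T := dualStab L f with hTdef
  letI : Fintype T := Fintype.ofFinite _
  set θ : L → ℂ := fun l => ((f l : ℂˣ) : ℂ) with hθdef
  have hθ : IsIrrCharacter L θ := isIrr_of_hom f
  have hT : ∀ g : G, g ∈ T ↔ conjOn L g θ = θ := fun g => Iff.rfl
  have hle : L ≤ T := le_inertia L T θ hT hθ
  refine ⟨hle, ?_⟩
  let e := subEquiv L T hle
  have hθ₁ : IsIrrCharacter (L.subgroupOf T) (θ ∘ e) := isIrr_comp_equiv e hθ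
  have hinv : ∀ (g : T) (n : L.subgroupOf T),
      (θ ∘ e) ⟨g * n * g⁻¹, (normalSubgroupOf L T).conj_mem (n : T) n.2 g⟩ = (θ ∘ e) n := by
    intro g n
    have h1 := congrFun ((hT g).mp g.2) (e n)
    simp only [conjOn_apply] at h1
    simp only [Function.comp_apply]
    rw [← h1]
    congr 1
  have hc1 : Nat.card (L.subgroupOf T) = Nat.card L := Nat.card_congr e.toEquiv
  have hc2 : (L.subgroupOf T).index ∣ L.index := by
    show L.relIndex T ∣ L.index
    exact Subgroup.relIndex_dvd_index_of_normal L T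
  have hcop' : Nat.Coprime (Nat.card (L.subgroupOf T)) (L.subgroupOf T).index := by
    rw [hc1]
    exact Nat.Coprime.coprime_dvd_right hc2 hcop
  obtain ⟨χ, hχ, hext⟩ := extends_of_coprime_card (L.subgroupOf T) (θ ∘ e) hθ₁ hinv hcop'
  have h1 : χ 1 = 1 := by
    have := hext 1
    simp only [OneMemClass.coe_one, Function.comp_apply, map_one] at this
    rw [this]
    simp [hθdef]
  obtain ⟨F, hF⟩ := exists_hom_of_degree_one hχ.isCharacter h1
  refine ⟨F, fun n => ?_⟩
  apply Units.ext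
  have h2 := hext ⟨⟨n, hle n.2⟩, Subgroup.mem_subgroupOf.mpr n.2⟩
  rw [hF] at h2
  simp only at h2
  rw [h2]
  simp only [Function.comp_apply, hθdef]
  rfl

/-- Degree of the character induced from the inertia group. -/
theorem ind_over_linear (hcop : Nat.Coprime (Nat.card L) L.index) (f : L →* ℂˣ)
    (β : dualStab L f → ℂ) (hβ : IsIrrCharacter (dualStab L f) β)
    (htriv : ∀ t : dualStab L f, (t : G) ∈ L → β t = β 1) :
    ∃ χ : G → ℂ, IsIrrCharacter G χ ∧ χ 1 = ((dualStab L f).index : ℂ) * β 1 := by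
  classical
  letI : Fintype L := Fintype.ofFinite _
  obtain ⟨hle, F, hF⟩ := exists_linear_extension L hcop f
  letI : Fintype (dualStab L f) := Fintype.ofFinite _
  set θ : L → ℂ := fun l => ((f l : ℂˣ) : ℂ) with hθdef
  have hθ : IsIrrCharacter L θ := isIrr_of_hom f
  have hT : ∀ g : G, g ∈ dualStab L f ↔ conjOn L g θ = θ := fun g => Iff.rfl
  set ψ : dualStab L f → ℂ := (fun t => ((F t : ℂˣ) : ℂ)) * β with hψdef
  have hψ : IsIrrCharacter (dualStab L f) ψ := isIrr_hom_mul F hβ
  have hres : resTo L (dualStab L f) hle ψ = (β 1) • θ := by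
    funext n
    simp only [resTo, hψdef, Pi.mul_apply, Pi.smul_apply, smul_eq_mul]
    rw [htriv ⟨n, hle n.2⟩ n.2, hF n, mul_comm]
  have hc : classInner (resTo L (dualStab L f) hle ψ) θ ≠ 0 := by
    rw [hres, classInner_smul_left, classInner_irr_self hθ, mul_one]
    exact hβ.map_one_ne_zero
  refine ⟨_, (isIrr_indFun_of_inertia L (dualStab L f) θ hθ hT hle hψ hc).1, ?_⟩
  rw [indFun_one]
  simp only [hψdef, Pi.mul_apply, map_one, Units.val_one, one_mul]

end Dual

section Main

theorem comm_aux_two {A : Type*} [CommGroup A] {a b c d : A} (h : a * b = c * d) : a * c⁻¹ = d * b⁻¹ :=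
  mul_inv_eq_mul_inv_iff_mul_eq_mul.mpr (h.trans (mul_comm _ _))

theorem pow_eq_one_of_coprime_two {A : Type*} [CommGroup A] (h : A) {a b : ℕ} (hab : Nat.Coprime a b)
    (h1 : h ^ a = 1) (h2 : h ^ b = 1) : h = 1 := by
  have h3 := Nat.dvd_gcd (orderOf_dvd_of_pow_eq_one h1) (orderOf_dvd_of_pow_eq_one h2)
  rwa [hab.gcd_eq_one, Nat.dvd_one, orderOf_eq_one_iff] at h3

theorem pow_aux_two {A : Type*} [CommGroup A] {a b : A} {n : ℕ} (h : a ^ n = b ^ n) : (a * b⁻¹) ^ n = 1 := by
  rw [mul_pow, h, inv_pow, mul_inv_cancel]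

variable {G : Type u} [Group G] [Fintype G] (L : Subgroup G) [hL : L.Normal]

/-- Clifford: degree of a constituent divides. -/
theorem exists_degree_mul_of_constituent [Fintype L] {χ : G → ℂ} {θ : L → ℂ} (hχ : IsIrrCharacter G χ)
    (hθ : IsIrrCharacter L θ) (h : classInner (fun n : L => χ n) θ ≠ 0) :
    ∃ k : ℕ, χ 1 = k * θ 1 := by
  classical
  have h1 := clifford L hχ hθ h
  obtain ⟨e, he⟩ := (hχ.isCharacter.restrict L).classInner_nat hθ
  refine ⟨e * (conjOrbit L θ).card, ?_⟩
  have h2 := congrFun h1 1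
  simp only [Pi.smul_apply, Finset.sum_apply, smul_eq_mul, OneMemClass.coe_one] at h2
  rw [h2]
  have h3 : ∀ ψ ∈ conjOrbit L θ, ψ 1 = θ 1 := by
    intro ψ hψ
    obtain ⟨g, rfl⟩ := (mem_conjOrbit L).mp hψ
    simp only [conjOn_apply]
    congr 1
    apply Subtype.ext
    simp
  rw [Finset.sum_congr rfl h3, Finset.sum_const, nsmul_eq_mul]
  push_cast
  rw [← he]
  ring

/-- `G` acts on the dual through an abelian group: key stabilizer lemma. -/
theorem stab_le_centralizer (m : ℕ) (hm1 : m ≠ 1) (habL : ∀ a ∈ L, ∀ b ∈ L, a * b = b * a)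
    (hcop : Nat.Coprime (Nat.card L) L.index)
    (hG : ∀ x y : G, ∀ l ∈ L, (x * y * x⁻¹ * y⁻¹) * l * (x * y * x⁻¹ * y⁻¹)⁻¹ = l)
    (hsize : ∀ f : L →* ℂˣ, (dualStab L f).index = 1 ∨ (dualStab L f).index = m)
    (f₀ : L →* ℂˣ) (hf₀ : (dualStab L f₀).index = m) :
    ∀ y ∈ dualStab L f₀, ∀ l ∈ L, y * l * y⁻¹ = l := by
  classical
  intro y hy l hl
  by_contra hne
  have hne' : (⟨y * l * y⁻¹, hL.conj_mem l hl y⟩ : L) ≠ ⟨l, hl⟩ := fun h => hne (congrArg Subtype.val h)
  obtain ⟨f₁, hf₁⟩ := exists_dual_ne L habL hne'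
  set n := L.index with hn
  have hyn : y ^ n ∈ L := Subgroup.pow_index_mem L y
  have hcomm : ∀ (x z : G) (f : L →* ℂˣ), dualAct L z (dualAct L x f) = dualAct L x (dualAct L z f) := by
    intro x z f
    rw [← dualAct_mul, ← dualAct_mul]
    ext u
    rw [dualAct_apply, dualAct_apply]
    congr 2
    apply Subtype.ext
    simp only
    have hm : z * x * (u : G) * (z * x)⁻¹ ∈ L := hL.conj_mem u u.2 (z * x)
    have := hG x z _ hm
    rw [← this]
    simp only [mul_inv_rev]
    group
  have htriv : ∀ z ∈ L, ∀ f : L →* ℂˣ, dualAct L z f = f := by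
    intro z hz f
    ext u
    rw [dualAct_apply]
    congr 2
    apply Subtype.ext
    simp only
    rw [habL z hz u u.2]
    simp
  let N : (L →* ℂˣ) →* (L →* ℂˣ) := ∏ i ∈ Finset.range n, dualAct L (y ^ i)
  have hNapp : ∀ f, N f = ∏ i ∈ Finset.range n, dualAct L (y ^ i) f := fun f => by
    simp [N, MonoidHom.finsetProd_apply]
  have hfix : ∀ f, dualAct L y (N f) = N f := by
    intro f
    rw [hNapp, map_prod]
    have h1 : ∀ i ∈ Finset.range n, dualAct L y (dualAct L (y ^ i) f) = dualAct L (y ^ (i + 1)) f := by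
      intro i _
      rw [← dualAct_mul, pow_succ]
    rw [Finset.prod_congr rfl h1]
    have h2 := Finset.prod_range_succ' (fun i => dualAct L (y ^ i) f) n
    have h3 := Finset.prod_range_succ (fun i => dualAct L (y ^ i) f) n
    simp only [pow_zero, dualAct_one] at h2
    rw [htriv _ hyn f] at h3
    rw [h3] at h2
    exact (mul_right_cancel h2).symm
  have hconst : ∀ h, dualAct L y h = h → N h = h ^ n := by
    intro h hh
    have h1 : ∀ i : ℕ, dualAct L (y ^ i) h = h := by
      intro i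
      induction i with
      | zero => simp [dualAct_one]
      | succ i ih => rw [pow_succ, dualAct_mul, ih, hh]
    rw [hNapp, Finset.prod_congr rfl (fun i _ => h1 i), Finset.prod_const, Finset.card_range]
  have hNcomm : ∀ x f, N (dualAct L x f) = dualAct L x (N f) := by
    intro x f
    rw [hNapp, hNapp, map_prod]
    exact Finset.prod_congr rfl fun i _ => hcomm x (y ^ i) f
  set f₂ : L →* ℂˣ := f₁ ^ n * (N f₁)⁻¹ with hf₂
  have hN2 : N f₂ = 1 := by
    have h1 : N ((N f₁)⁻¹) = (N (N f₁))⁻¹ := map_inv N (N f₁)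
    have h2 : N (f₁ ^ n) = (N f₁) ^ n := map_pow N f₁ n
    rw [hf₂, map_mul, h1, h2, hconst _ (hfix f₁)]
    exact @mul_inv_cancel (L →* ℂˣ) _ _
  have hpow : ∀ h : L →* ℂˣ, h ^ n = 1 → h = 1 := by
    intro h hh
    have h1 : h ^ Nat.card L = 1 := by
      ext u
      have : (h ^ Nat.card L) u = h (u ^ Nat.card L) := by
        rw [map_pow]
        rfl
      rw [this, pow_card_eq_one']
      simp
    exact pow_eq_one_of_coprime_two h hcop h1 hh
  have hy2 : dualAct L y f₂ ≠ f₂ := by
    intro heq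
    have ha : dualAct L y ((N f₁)⁻¹) = (dualAct L y (N f₁))⁻¹ := map_inv (dualAct L y) (N f₁)
    have hb : dualAct L y (f₁ ^ n) = (dualAct L y f₁) ^ n := map_pow (dualAct L y) f₁ n
    rw [hf₂, map_mul, ha, hfix, hb] at heq
    have h1 : (dualAct L y f₁) ^ n = f₁ ^ n := mul_right_cancel heq
    have h2 : (dualAct L y f₁ * f₁⁻¹) ^ n = 1 := pow_aux_two (A := L →* ℂˣ) h1
    have h3 := hpow _ h2
    have h4 : dualAct L y f₁ = f₁ := mul_inv_eq_one.mp h3
    apply hf₁
    have h5 := congrArg (fun F : L →* ℂˣ => F ⟨l, hl⟩) h4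
    simp only [dualAct_apply] at h5
    exact h5
  have hyf₀ : dualAct L y f₀ = f₀ := (mem_dualStab L f₀ y).mp hy
  set ψ : L →* ℂˣ := f₀ * f₂ with hψ
  have hle' : dualStab L ψ ≤ dualStab L f₀ := by
    intro x hx
    rw [mem_dualStab] at hx ⊢
    rw [hψ, map_mul] at hx
    set η : L →* ℂˣ := dualAct L x f₀ * f₀⁻¹ with hη
    have h1 : η = f₂ * (dualAct L x f₂)⁻¹ := by
      rw [hη]
      exact comm_aux_two (A := L →* ℂˣ) hx
    have h2 : dualAct L y η = η := by
      have ha : dualAct L y (f₀⁻¹) = (dualAct L y f₀)⁻¹ := map_inv (dualAct L y) f₀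
      rw [hη, map_mul, ha, hcomm, hyf₀]
    have h3 := hconst η h2
    have h4 : N η = 1 := by
      have ha : N ((dualAct L x f₂)⁻¹) = (N (dualAct L x f₂))⁻¹ := map_inv N (dualAct L x f₂)
      rw [h1, map_mul, ha, hNcomm, hN2, map_one]
      ext u
      simp
    rw [h4] at h3
    have h5 := hpow η h3.symm
    exact mul_inv_eq_one.mp h5
  have hyψ : y ∉ dualStab L ψ := by
    intro hmem
    rw [mem_dualStab, hψ, map_mul, hyf₀] at hmem
    exact hy2 (mul_left_cancel hmem)
  have hidx := Subgroup.relIndex_mul_index hle'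
  have hm0 : m ≠ 0 := by
    rw [← hf₀]
    exact Subgroup.index_ne_zero_of_finite
  rw [hf₀] at hidx
  rcases hsize ψ with h | h
  · rw [h] at hidx
    exact hm1 (Nat.eq_one_of_mul_eq_one_left hidx)
  · rw [h] at hidx
    have h1 : (dualStab L ψ).relIndex (dualStab L f₀) = 1 := by
      have h2 : (dualStab L ψ).relIndex (dualStab L f₀) * m = 1 * m := by rw [hidx, one_mul]
      exact Nat.eq_of_mul_eq_mul_right (Nat.pos_of_ne_zero hm0) h2
    rw [Subgroup.relIndex_eq_one] at h1
    exact hyψ (h1 hy)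

/-- Abelian subgroups: central coprime subgroup with abelian quotient. -/
theorem comm_of_central_coprime (D : Subgroup G) (hLD : L ≤ D) (hcent : ∀ d ∈ D, ∀ l ∈ L, d * l * d⁻¹ = l)
    (hcop : Nat.Coprime (Nat.card L) L.index) (habL : ∀ a ∈ L, ∀ b ∈ L, a * b = b * a)
    (hc : ∀ x ∈ D, ∀ y ∈ D, x * y * x⁻¹ * y⁻¹ ∈ L) :
    ∀ x ∈ D, ∀ y ∈ D, x * y = y * x := by
  intro x hx y hy
  set c := x * y * x⁻¹ * y⁻¹ with hcdef
  have hcL : c ∈ L := hc x hx y hy
  set k := L.index with hk
  have hyk : y ^ k ∈ L := Subgroup.pow_index_mem L y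
  have h1 : x * y * x⁻¹ = c * y := by rw [hcdef]; group
  have h2 : (x * y * x⁻¹) ^ k = x * y ^ k * x⁻¹ := by
    simp [conj_pow]
  have hcomm : Commute c y := by
    have := hcent y hy c hcL
    show c * y = y * c
    rw [eq_comm, ← mul_inv_eq_iff_eq_mul] 
    exact this
  have h3 : (c * y) ^ k = c ^ k * y ^ k := hcomm.mul_pow k
  have h4 : x * y ^ k * x⁻¹ = y ^ k := hcent x hx _ hyk
  have h5 : c ^ k = 1 := by
    rw [← h1, h2, h4] at h3
    have h6 : c ^ k * y ^ k = 1 * y ^ k := by rw [← h3, one_mul]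
    exact mul_right_cancel h6
  have h6 : c ^ Nat.card L = 1 := by
    have h8 : ((⟨c, hcL⟩ : L) ^ Nat.card L : L) = 1 := pow_card_eq_one'
    have h9 := congrArg Subtype.val h8
    rwa [Subgroup.coe_pow, Subgroup.coe_one] at h9
  have h7 := Nat.dvd_gcd (orderOf_dvd_of_pow_eq_one h6) (orderOf_dvd_of_pow_eq_one h5)
  rw [hcop.gcd_eq_one, Nat.dvd_one, orderOf_eq_one_iff] at h7
  have h8 : x * y * x⁻¹ * y⁻¹ * (y * x) = 1 * (y * x) := by rw [← hcdef, h7]
  simpa [mul_assoc] using h8

/-- The noncentral case. -/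
theorem two_deg_noncentral (m : ℕ) (hm1 : m ≠ 1)
    (hcd : ∀ χ : G → ℂ, IsIrrCharacter G χ → χ 1 = 1 ∨ χ 1 = m)
    (habL : ∀ a ∈ L, ∀ b ∈ L, a * b = b * a)
    (hcop : Nat.Coprime (Nat.card L) L.index) (f₀ : L →* ℂˣ) (hf₀ : dualStab L f₀ ≠ ⊤) :
    ∃ D : Subgroup G, D.Normal ∧ (∀ a ∈ D, ∀ b ∈ D, a * b = b * a) ∧ D.index = m ∧ commutator G ≤ D := by
  classical
  have hsize : ∀ f : L →* ℂˣ, (dualStab L f).index = 1 ∨ (dualStab L f).index = m := by
    intro f
    letI : Fintype (dualStab L f) := Fintype.ofFinite _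
    obtain ⟨χ, hχ, h1⟩ := ind_over_linear L hcop f (fun _ => 1) isIrrCharacter_one (fun _ _ => rfl)
    simp only [mul_one] at h1
    rcases hcd χ hχ with h | h
    · left
      rw [h1] at h
      exact_mod_cast h
    · right
      rw [h1] at h
      exact_mod_cast h
  have hstabcomm : ∀ f : L →* ℂˣ, commutator G ≤ dualStab L f := by
    intro f
    rcases hsize f with h | h
    · rw [Subgroup.index_eq_one] at h
      rw [h]
      exact le_top
    · exact commutator_le_of_index_eq _ m h hcd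
  set D : Subgroup G := Subgroup.centralizer (L : Set G) with hD
  have hmemD : ∀ g : G, g ∈ D ↔ ∀ l ∈ L, g * l * g⁻¹ = l := by
    intro g
    rw [hD, Subgroup.mem_centralizer_iff]
    constructor
    · intro h l hl
      rw [← h l hl]
      simp
    · intro h l hl
      have := h l hl
      rw [mul_inv_eq_iff_eq_mul] at this
      exact this.symm
  have hGD : commutator G ≤ D := by
    intro x hx
    rw [hmemD]
    exact mem_centralizer_of_forall_stab L habL x fun f => hstabcomm f hx
  have hLD : L ≤ D := by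
    intro l hl
    rw [hmemD]
    intro u hu
    rw [habL l hl u hu]
    simp
  have hidx : (dualStab L f₀).index = m := by
    rcases hsize f₀ with h | h
    · rw [Subgroup.index_eq_one] at h
      exact absurd h hf₀
    · exact h
  have hTD : dualStab L f₀ = D := by
    apply le_antisymm
    · intro y hy
      rw [hmemD]
      refine stab_le_centralizer L m hm1 habL hcop ?_ hsize f₀ hidx y hy
      intro x y l hl
      have h1 : x * y * x⁻¹ * y⁻¹ ∈ commutator G := by
        have := Subgroup.commutator_mem_commutator (Subgroup.mem_top x) (Subgroup.mem_top y)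
        rw [_root_.commutator_def]
        simpa [commutatorElement_def] using this
      exact (hmemD _).mp (hGD h1) l hl
    · intro g hg
      rw [mem_dualStab]
      ext u
      rw [dualAct_apply]
      congr 2
      apply Subtype.ext
      exact (hmemD g).mp hg u u.2
  -- `T/L` is abelian
  have hlin : ∀ β : dualStab L f₀ → ℂ, IsIrrCharacter (dualStab L f₀) β →
      (∀ t : dualStab L f₀, (t : G) ∈ L → β t = β 1) → β 1 = 1 := by
    intro β hβ htr
    obtain ⟨χ, hχ, h1⟩ := ind_over_linear L hcop f₀ β hβ htr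
    obtain ⟨d, hd0, hd⟩ := hβ.map_one
    rw [hidx] at h1
    have hm0 : m ≠ 0 := by
      rw [← hidx]
      exact Subgroup.index_ne_zero_of_finite
    rcases hcd χ hχ with h | h
    · rw [h1, hd] at h
      have h2 : m * d = 1 := by exact_mod_cast h
      exact absurd (Nat.eq_one_of_mul_eq_one_right h2) hm1
    · rw [h1, hd] at h
      have h2 : m * d = m * 1 := by
        rw [mul_one]
        exact_mod_cast h
      have h3 := Nat.eq_of_mul_eq_mul_left (Nat.pos_of_ne_zero hm0) h2
      rw [hd, h3]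
      simp
  have hcomL : ∀ x ∈ D, ∀ y ∈ D, x * y * x⁻¹ * y⁻¹ ∈ L := by
    intro x hx y hy
    rw [← hTD] at hx hy
    haveI : (L.subgroupOf (dualStab L f₀)).Normal := Subgroup.Normal.subgroupOf hL _
    have hQ : ∀ a b : dualStab L f₀ ⧸ L.subgroupOf (dualStab L f₀), a * b = b * a := by
      rw [comm_iff_all_linear]
      intro χ
      have h0 := χ.2.comp_surjective (QuotientGroup.mk' (L.subgroupOf (dualStab L f₀))) (QuotientGroup.mk'_surjective _)
      have h1 := hlin _ h0 ?_
      · simpa using h1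
      · intro t ht
        have : QuotientGroup.mk' (L.subgroupOf (dualStab L f₀)) t = 1 := by
          rw [QuotientGroup.mk'_apply, QuotientGroup.eq_one_iff, Subgroup.mem_subgroupOf]
          exact ht
        simp only [Function.comp_apply, this, map_one]
    have h2 := hQ (QuotientGroup.mk ⟨y, hy⟩) (QuotientGroup.mk ⟨x, hx⟩)
    rw [← QuotientGroup.mk_mul, ← QuotientGroup.mk_mul, QuotientGroup.eq, Subgroup.mem_subgroupOf] at h2
    have h3 : (y * x)⁻¹ * (x * y) ∈ L := by
      simpa using h2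
    have h4 := hL.conj_mem _ h3 (y * x)
    convert h4 using 1
    group
  refine ⟨D, inferInstance, ?_, ?_, hGD⟩
  · exact comm_of_central_coprime L D hLD (fun d hd l hl => (hmemD d).mp hd l hl) hcop habL hcomL
  · rw [← hTD]
    exact hidx

/-- The intersection of the normal complements. -/
theorem two_deg_core (m : ℕ) (hm1 : m ≠ 1) (hm0 : m ≠ 0)
    (hcd : ∀ χ : G → ℂ, IsIrrCharacter G χ → χ 1 = 1 ∨ χ 1 = m) :
    ∃ (H : ℕ → Subgroup G) (L : Subgroup G), L.Normal ∧
      (∀ q, q.Prime → q ∣ m → (H q).Normal ∧ ∃ k, (H q).index = q ^ k) ∧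
      (∀ x, x ∈ L ↔ ∀ q, q.Prime → q ∣ m → x ∈ H q) ∧
      (∀ a ∈ L, ∀ b ∈ L, a * b = b * a) ∧ Nat.Coprime (Nat.card L) m ∧
      Nat.Coprime (Nat.card L) L.index := by
  classical
  have hex : ∀ q : ℕ, ∃ H : Subgroup G, q.Prime → q ∣ m →
      H.Normal ∧ Nat.Coprime (Nat.card H) q ∧ ∃ k, H.index = q ^ k := by
    intro q
    by_cases hq : q.Prime ∧ q ∣ m
    · haveI : Fact q.Prime := ⟨hq.1⟩
      obtain ⟨H, h1, h2, h3⟩ := thompson_normal_complement (G := G) q (by
        intro χ hχ
        rcases hcd χ χ.2 with h | h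
        · exact absurd h hχ
        · exact ⟨m, h, hq.2⟩)
      exact ⟨H, fun _ _ => ⟨h1, h2, h3⟩⟩
    · exact ⟨⊤, fun h1 h2 => absurd ⟨h1, h2⟩ hq⟩
  choose H hH using hex
  let L : Subgroup G :=
    { carrier := {x | ∀ q, q.Prime → q ∣ m → x ∈ H q}
      mul_mem' := fun {a b} ha hb q h1 h2 => (H q).mul_mem (ha q h1 h2) (hb q h1 h2)
      one_mem' := fun q h1 h2 => (H q).one_mem
      inv_mem' := fun {a} ha q h1 h2 => (H q).inv_mem (ha q h1 h2) }
  have hmem : ∀ x, x ∈ L ↔ ∀ q, q.Prime → q ∣ m → x ∈ H q := fun x => Iff.rfl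
  haveI hLn : L.Normal := ⟨fun x hx g q h1 h2 => by
    haveI := (hH q h1 h2).1
    exact Subgroup.Normal.conj_mem inferInstance _ (hx q h1 h2) g⟩
  have hLH : ∀ q, q.Prime → q ∣ m → L ≤ H q := fun q h1 h2 x hx => hx q h1 h2
  have hcard : Nat.Coprime (Nat.card L) m := by
    apply Nat.coprime_of_dvd
    intro q hq h1 h2
    have h3 := Subgroup.card_dvd_of_le (hLH q hq h2)
    have h4 := (hH q hq h2).2.1
    exact hq.one_lt.ne' (Nat.eq_one_of_dvd_coprimes h4 (h1.trans h3) (dvd_refl q))
  have hidx : ∀ q, q.Prime → q ∣ L.index → q ∣ m := by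
    intro q hq hqi
    by_contra hqm
    haveI : Fact q.Prime := ⟨hq⟩
    let Q : Sylow q G := default
    have hQL : (Q : Subgroup G) ≤ L := by
      intro x hx q' hq' hq'm
      have hne : q ≠ q' := fun h => hqm (h ▸ hq'm)
      obtain ⟨hn, -, k, hk⟩ := hH q' hq' hq'm
      haveI := hn
      obtain ⟨a, ha⟩ := (IsPGroup.iff_orderOf.mp Q.isPGroup') ⟨x, hx⟩
      have h1 : x ^ (q ^ a) = 1 := by
        have := pow_orderOf_eq_one (⟨x, hx⟩ : (Q : Subgroup G))
        rw [ha] at this
        exact congrArg Subtype.val this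
      have h2 : x ^ (q' ^ k) ∈ H q' := by
        rw [← hk]
        exact Subgroup.pow_index_mem _ x
      have h3 : (QuotientGroup.mk x : G ⧸ H q') ^ (q ^ a) = 1 := by
        rw [← QuotientGroup.mk_pow, h1]
        rfl
      have h4 : (QuotientGroup.mk x : G ⧸ H q') ^ (q' ^ k) = 1 := by
        rw [← QuotientGroup.mk_pow, QuotientGroup.eq_one_iff]
        exact h2
      have h5 := Nat.dvd_gcd (orderOf_dvd_of_pow_eq_one h3) (orderOf_dvd_of_pow_eq_one h4)
      have h6 : Nat.Coprime (q ^ a) (q' ^ k) :=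
        Nat.Coprime.pow _ _ ((Nat.coprime_primes hq hq').mpr hne)
      rw [h6.gcd_eq_one, Nat.dvd_one, orderOf_eq_one_iff, QuotientGroup.eq_one_iff] at h5
      exact h5
    have h7 := Subgroup.index_dvd_of_le hQL
    exact Q.not_dvd_index (hqi.trans h7)
  have hcop : Nat.Coprime (Nat.card L) L.index := by
    apply Nat.coprime_of_dvd
    intro q hq h1 h2
    exact hq.one_lt.ne' (Nat.eq_one_of_dvd_coprimes hcard h1 (hidx q hq h2))
  refine ⟨H, L, hLn, fun q h1 h2 => ⟨(hH q h1 h2).1, (hH q h1 h2).2.2⟩, hmem, ?_, hcard, hcop⟩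
  -- `L` is abelian
  letI : Fintype L := Fintype.ofFinite _
  have hdeg : ∀ θ : IrrCharacter L, (θ : L → ℂ) 1 = 1 := by
    intro θ
    have hind := isCharacter_indFun L θ.2.isCharacter
    have hind1 : indFun L (θ : L → ℂ) 1 ≠ 0 := by
      rw [indFun_one]
      have := θ.2.map_one_ne_zero
      have h2 : ((L.index : ℕ) : ℂ) ≠ 0 := by
        exact_mod_cast Subgroup.index_ne_zero_of_finite
      exact mul_ne_zero h2 this
    obtain ⟨χ, hχ, hc⟩ := exists_constituent hind hind1
    have hc' : classInner (fun n : L => χ n) (θ : L → ℂ) ≠ 0 := by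
      rw [frobenius L _ hχ.isClassFunction] at hc
      intro h0
      apply hc
      rw [← conj_classInner, h0, map_zero]
    obtain ⟨k, hk⟩ := exists_degree_mul_of_constituent L hχ θ.2 hc'
    obtain ⟨d, hd0, hd⟩ := θ.2.map_one
    have hdvd : d ∣ Nat.card L := degree_dvd_card θ.2 hd
    have hdone : d ∣ 1 ∨ d ∣ m := by
      rcases hcd χ hχ with h | h
      · left
        rw [hk, hd] at h
        have h2 : k * d = 1 := by exact_mod_cast h
        exact ⟨k, by rw [← h2, mul_comm]⟩
      · right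
        rw [hk, hd] at h
        have h2 : k * d = m := by exact_mod_cast h
        exact ⟨k, by rw [← h2, mul_comm]⟩
    have hd1 : d = 1 := by
      rcases hdone with h | h
      · exact Nat.dvd_one.mp h
      · exact Nat.eq_one_of_dvd_coprimes hcard hdvd h
    rw [hd, hd1]
    simp
  have hab := (comm_iff_all_linear (G := L)).mpr hdeg
  intro a ha b hb
  have := hab ⟨a, ha⟩ ⟨b, hb⟩
  exact congrArg Subtype.val this

/-- The main structure theorem for two character degrees. -/
theorem two_deg_main (m : ℕ) (hm1 : m ≠ 1)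
    (hcd : ∀ χ : G → ℂ, IsIrrCharacter G χ → χ 1 = 1 ∨ χ 1 = m)
    (hm : ∃ χ : G → ℂ, IsIrrCharacter G χ ∧ χ 1 = m) :
    (∃ D : Subgroup G, D.Normal ∧ (∀ a ∈ D, ∀ b ∈ D, a * b = b * a) ∧ D.index = m ∧ commutator G ≤ D) ∨
    (∃ p e : ℕ, p.Prime ∧ m = p ^ e ∧ ∃ P A : Subgroup G, P.Normal ∧ A.Normal ∧ IsPGroup p P ∧
      (∀ a ∈ A, ∀ b ∈ A, a * b = b * a) ∧ P ⊓ A = ⊥ ∧ P ⊔ A = ⊤ ∧ Group.IsNilpotent G) := by
  classical
  obtain ⟨χ₀, hχ₀, hχ₀1⟩ := hm
  have hm0 : m ≠ 0 := by
    rintro rfl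
    exact hχ₀.map_one_ne_zero (by simpa using hχ₀1)
  obtain ⟨H, L, hLn, hH, hmem, habL, hcard, hcop⟩ := two_deg_core (G := G) m hm1 hm0 hcd
  haveI := hLn
  by_cases hf : ∃ f₀ : L →* ℂˣ, dualStab L f₀ ≠ ⊤
  · obtain ⟨f₀, hf₀⟩ := hf
    exact Or.inl (two_deg_noncentral L m hm1 hcd habL hcop f₀ hf₀)
  push Not at hf
  right
  have hcent : ∀ g : G, ∀ l ∈ L, g * l * g⁻¹ = l := fun g =>
    mem_centralizer_of_forall_stab L habL g fun f => by rw [hf f]; trivial
  have hLc : L ≤ Subgroup.center G := by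
    intro l hl
    refine Subgroup.mem_center_iff.mpr fun g => ?_
    have := hcent g l hl
    rw [mul_inv_eq_iff_eq_mul] at this
    exact this
  by_cases hQ : ∀ q, q.Prime → q ∣ m → ∀ x y : G, x * y * x⁻¹ * y⁻¹ ∈ H q
  · exfalso
    have hc : ∀ x ∈ (⊤ : Subgroup G), ∀ y ∈ (⊤ : Subgroup G), x * y * x⁻¹ * y⁻¹ ∈ L :=
      fun x _ y _ => (hmem _).mpr fun q h1 h2 => hQ q h1 h2 x y
    have hab := comm_of_central_coprime L ⊤ le_top (fun d _ l hl => hcent d l hl) hcop habL hc
    have h1 := isIrr_degree_one_of_comm (fun a b => hab a trivial b trivial) hχ₀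
    rw [hχ₀1] at h1
    exact hm1 (by exact_mod_cast h1)
  push Not at hQ
  obtain ⟨p, hp, hpm, x, y, hxy⟩ := hQ
  obtain ⟨hn, k, hk⟩ := hH p hp hpm
  haveI := hn
  haveI : Fact p.Prime := ⟨hp⟩
  have hnonab : ¬ ∀ a b : G ⧸ H p, a * b = b * a := by
    intro h
    apply hxy
    have h2 := h (QuotientGroup.mk y) (QuotientGroup.mk x)
    rw [← QuotientGroup.mk_mul, ← QuotientGroup.mk_mul, QuotientGroup.eq] at h2
    have h3 := hn.conj_mem _ h2 (y * x)
    convert h3 using 1
    group
  rw [comm_iff_all_linear] at hnonab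
  push Not at hnonab
  obtain ⟨β, hβ⟩ := hnonab
  have hχ := β.2.comp_surjective (QuotientGroup.mk' (H p)) (QuotientGroup.mk'_surjective _)
  have hχ1 : ((β : G ⧸ H p → ℂ) ∘ QuotientGroup.mk' (H p)) 1 = (β : G ⧸ H p → ℂ) 1 := by
    simp
  have hβm : (β : G ⧸ H p → ℂ) 1 = m := by
    rcases hcd _ hχ with h | h
    · rw [hχ1] at h
      exact absurd h hβ
    · rw [hχ1] at h
      exact h
  have hmdvd : m ∣ p ^ k := by
    have := degree_dvd_card β.2 hβm
    rw [Nat.card_congr (Equiv.refl _), ← Subgroup.index_eq_card, hk] at this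
    exact this
  obtain ⟨e, -, he⟩ := (Nat.dvd_prime_pow hp).mp hmdvd
  refine ⟨p, e, hp, he, ?_⟩
  have hLeq : L = H p := by
    ext z
    rw [hmem]
    constructor
    · intro h
      exact h p hp hpm
    · intro h q hq hqm
      have : q = p := by
        rw [he] at hqm
        exact (Nat.prime_dvd_prime_iff_eq hq hp).mp (hq.dvd_of_dvd_pow hqm)
      rw [this]
      exact h
  have hLidx : L.index = p ^ k := by rw [hLeq, hk]
  have hpL : ¬ p ∣ Nat.card L := by
    intro h
    have := Nat.dvd_gcd h hpm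
    rw [hcard.gcd_eq_one] at this
    exact hp.one_lt.ne' (Nat.dvd_one.mp this)
  let P : Sylow p G := default
  have hPcard : Nat.card P = p ^ k := by
    have h1 := P.card_eq_multiplicity
    have h2 : Nat.card G = Nat.card L * p ^ k := by
      rw [← hLidx, Subgroup.card_mul_index]
    have h3 : (Nat.card G).factorization p = k := by
      rw [h2, Nat.factorization_mul (Nat.card_pos.ne') (pow_ne_zero _ hp.ne_zero)]
      rw [Nat.factorization_pow]
      have h0 := Nat.factorization_eq_zero_of_not_dvd hpL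
      simp [-Nat.card_eq_fintype_card, h0, hp.factorization_self]
    rw [h3] at h1
    exact h1
  have hcompl : Subgroup.IsComplement' (P : Subgroup G) L := by
    apply Subgroup.isComplement'_of_coprime
    · show Nat.card P * Nat.card L = Nat.card G
      rw [hPcard, ← hLidx, mul_comm, Subgroup.card_mul_index]
    · show Nat.Coprime (Nat.card P) (Nat.card L)
      rw [hPcard]
      exact Nat.Coprime.symm (Nat.Coprime.pow_right k ((Nat.Prime.coprime_iff_not_dvd hp).mpr hpL).symm)
  have hsup := hcompl.sup_eq_top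
  have hdisj := hcompl.disjoint
  have hPn : (P : Subgroup G).Normal := by
    rw [← Subgroup.normalizer_eq_top_iff, eq_top_iff, ← hsup]
    apply sup_le (Subgroup.le_normalizer)
    intro l hl
    rw [Subgroup.mem_normalizer_iff]
    intro h
    have h1 : l * h * l⁻¹ = h := by
      have := Subgroup.mem_center_iff.mp (hLc hl) h
      rw [← this]
      simp
    rw [h1]
  refine ⟨P, L, hPn, hLn, P.isPGroup', habL, hdisj.eq_bot, hsup, ?_⟩
  haveI : Group.IsNilpotent (G ⧸ L) := by
    have : IsPGroup p (G ⧸ L) := IsPGroup.of_card (n := k) (by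
      rw [← hLidx]
      rfl)
    exact this.isNilpotent
  exact Subgroup.isNilpotent_of_ker_le_center (QuotientGroup.mk' L) (by
    rw [QuotientGroup.ker_mk']
    exact hLc)

end Main

end CfsgLib.Char
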