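import Mathlib
import Cfsg.Agent.Lib.Char.AbelianQuot

/-!
# Characters of a kernel under a cyclic Hall complement with constant centralizer
-/

set_option linter.unusedSectionVars false
set_option linter.style.haveILetI false
set_option linter.unusedSimpArgs false
set_option linter.unusedVariables false

namespace CfsgLib.Char

open Cfsg
open scoped ComplexConjugate Pointwise

universe u

section Conj

variable {L : Type u} [Group L] [Finite L]

/-- Two `x`-fixed elements of `K` conjugate in `K` are conjugate by an `x`-fixed element. -/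
theorem conj_in_centralizer (K : Subgroup L) [hK : K.Normal] (x : L) (hx : Nat.Coprime (orderOf x) (Nat.card K))
    (k₁ k₂ : L) (h₁ : x * k₁ = k₁ * x) (h₂ : x * k₂ = k₂ * x) (z : L) (hz : z ∈ K) (hzk : z * k₁ * z⁻¹ = k₂) :
    ∃ z' ∈ K, x * z' = z' * x ∧ z' * k₁ * z'⁻¹ = k₂ := by
  classical
  let H : Subgroup L := K ⊓ Subgroup.centralizer ({k₁} : Set L)
  have hH : ∀ a, a ∈ H ↔ (a ∈ K ∧ a * k₁ = k₁ * a) := by
    intro a
    rw [Subgroup.mem_inf, Subgroup.mem_centralizer_singleton_iff]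
  have hxc : Commute x k₁ := h₁
  have hxH : x ∈ Subgroup.normalizer (H : Set L) := by
    rw [Subgroup.mem_normalizer_iff]
    intro a
    rw [hH, hH]
    constructor
    · rintro ⟨ha, hb⟩
      refine ⟨hK.conj_mem a ha x, ?_⟩
      have hac : Commute a k₁ := hb
      exact ((hxc.mul_left hac).mul_left hxc.inv_left)
    · rintro ⟨ha, hb⟩
      have hax : a = x⁻¹ * (x * a * x⁻¹) * x := by group
      refine ⟨?_, ?_⟩
      · rw [hax]
        have := hK.conj_mem _ ha x⁻¹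
        simpa using this
      · have hac : Commute (x * a * x⁻¹) k₁ := hb
        rw [hax]
        exact ((hxc.inv_left.mul_left hac).mul_left hxc)
  have hcopH : Nat.Coprime (orderOf x) (Nat.card H) :=
    Nat.Coprime.coprime_dvd_right (Subgroup.card_dvd_of_le (inf_le_left : H ≤ K)) hx
  let Ω : Set L := {y | ∃ w ∈ K, w * k₁ * w⁻¹ = k₂ ∧ y = w⁻¹ * x * w}
  have hΩ : Ω.Nonempty := ⟨_, z, hz, hzk, rfl⟩
  obtain ⟨y, ⟨w, hw, hwk, rfl⟩, hy⟩ := exists_commute_of_coprime H x hxH hcopH Ω hΩ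
    (by
      rintro a ha' _ ⟨w, hw, hwk, rfl⟩
      obtain ⟨ha, hb⟩ := (hH a).mp ha'
      refine ⟨w * a⁻¹, K.mul_mem hw (K.inv_mem ha), ?_, by group⟩
      have h1 : a⁻¹ * k₁ * a = k₁ := by
        calc a⁻¹ * k₁ * a = a⁻¹ * (k₁ * a) := by group
          _ = a⁻¹ * (a * k₁) := by rw [hb]
          _ = k₁ := by group
      calc w * a⁻¹ * k₁ * (w * a⁻¹)⁻¹ = w * (a⁻¹ * k₁ * a) * w⁻¹ := by group
        _ = k₂ := by rw [h1, hwk])
    (by
      rintro _ ⟨w, hw, hwk, rfl⟩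
      refine ⟨x * w * x⁻¹, hK.conj_mem w hw x, ?_, by group⟩
      have h1 : x⁻¹ * k₁ * x = k₁ := by
        rw [mul_assoc, ← h₁]
        group
      calc x * w * x⁻¹ * k₁ * (x * w * x⁻¹)⁻¹ = x * (w * (x⁻¹ * k₁ * x) * w⁻¹) * x⁻¹ := by group
        _ = x * k₂ * x⁻¹ := by rw [h1, hwk]
        _ = k₂ := by rw [h₂]; group)
    (by
      rintro _ ⟨w, hw, hwk, rfl⟩ _ ⟨v, hv, hvk, rfl⟩
      refine ⟨v⁻¹ * w, (hH _).mpr ⟨K.mul_mem (K.inv_mem hv) hw, ?_⟩, by group⟩
      have h1 : w * k₁ * w⁻¹ = v * k₁ * v⁻¹ := by rw [hwk, hvk]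
      calc v⁻¹ * w * k₁ = v⁻¹ * (w * k₁ * w⁻¹) * w := by group
        _ = v⁻¹ * (v * k₁ * v⁻¹) * w := by rw [h1]
        _ = k₁ * (v⁻¹ * w) := by group)
  -- now `x` commutes with `w⁻¹ x w`, hence `w` commutes with `x`
  have hc : x * (w⁻¹ * x * w) = (w⁻¹ * x * w) * x := hy
  set a : L := x⁻¹ * (w⁻¹ * x * w) with ha
  have haK : a ∈ K := by
    have h1 : x⁻¹ * (w⁻¹ * x * w) = (x⁻¹ * w⁻¹ * x) * w := by group
    rw [ha, h1]
    apply K.mul_mem _ hw
    have := hK.conj_mem w⁻¹ (K.inv_mem hw) x⁻¹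
    simpa using this
  have hcomm : Commute x⁻¹ (w⁻¹ * x * w) := by
    have h1 : Commute x (w⁻¹ * x * w) := hc
    exact h1.inv_left
  have h1 : a ^ orderOf x = 1 := by
    rw [ha, hcomm.mul_pow, inv_pow, pow_orderOf_eq_one, inv_one, one_mul]
    have : (w⁻¹ * x * w) ^ orderOf x = w⁻¹ * x ^ orderOf x * w := by
      have := conj_pow (a := w⁻¹) (b := x) (i := orderOf x)
      rwa [inv_inv] at this
    rw [this, pow_orderOf_eq_one]
    group
  have h2 : a ^ Nat.card K = 1 := by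
    have h3 : (⟨a, haK⟩ : K) ^ Nat.card K = 1 := pow_card_eq_one'
    have h4 := congrArg Subtype.val h3
    rw [Subgroup.coe_pow] at h4
    exact h4
  have h3 : a ^ (Nat.gcd (orderOf x) (Nat.card K)) = 1 := pow_gcd_eq_one.mpr ⟨h1, h2⟩
  rw [hx.gcd_eq_one, pow_one] at h3
  have h4 : w⁻¹ * x * w = x := by
    have : x⁻¹ * (w⁻¹ * x * w) = 1 := h3
    exact (inv_mul_eq_one.mp this).symm
  refine ⟨w, hw, ?_, hwk⟩
  calc x * w = w * (w⁻¹ * x * w) := by group
    _ = w * x := by rw [h4]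

end Conj

section Main

variable {L : Type u} [Group L] [Fintype L] (K W₁ W₂ : Subgroup L) [hK : K.Normal]

theorem card_fixed_classes_eq (hW₂c : ∀ a ∈ W₂, ∀ b ∈ W₂, a * b = b * a) (x : L) (hx1 : x ≠ 1)
    (hx : Nat.Coprime (orderOf x) (Nat.card K))
    (hC : ∀ y ∈ Subgroup.zpowers x, y ≠ 1 → K ⊓ Subgroup.centralizer ({y} : Set L) = W₂) :
    Nat.card {C : ConjClasses K // ConjClasses.map (MulEquiv.toMonoidHom ((MulAut.conjNormal x : MulAut K))) C = C} =
      Nat.card W₂ := by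
  classical
  apply le_antisymm (card_fixed_classes_le K W₂ x hx1 hx hC)
  have hW : W₂ = K ⊓ Subgroup.centralizer ({x} : Set L) := (hC x (Subgroup.mem_zpowers x) hx1).symm
  have hmemW : ∀ w : W₂, (w : L) ∈ K ⊓ Subgroup.centralizer ({x} : Set L) := fun w => by
    rw [← hW]
    exact w.2
  have hmemK : ∀ w : W₂, (w : L) ∈ K := fun w => (hmemW w).1
  have hcomm : ∀ w : W₂, x * (w : L) = w * x := fun w =>
    (Subgroup.mem_centralizer_singleton_iff.mp (hmemW w).2).symm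
  let F : W₂ → {C : ConjClasses K // ConjClasses.map (MulEquiv.toMonoidHom ((MulAut.conjNormal x : MulAut K))) C = C} :=
    fun w => ⟨ConjClasses.mk ⟨w, hmemK w⟩, by
      rw [conjNormal_mk]
      congr 1
      apply Subtype.ext
      show x * (w : L) * x⁻¹ = w
      rw [hcomm w]
      group⟩
  apply Nat.card_le_card_of_injective F
  intro a b hab
  have h1 : ConjClasses.mk (⟨a, hmemK a⟩ : K) = ConjClasses.mk ⟨b, hmemK b⟩ := congrArg Subtype.val hab
  have h2 : IsConj (⟨a, hmemK a⟩ : K) ⟨b, hmemK b⟩ := ConjClasses.mk_eq_mk_iff_isConj.mp h1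
  obtain ⟨z, hz⟩ := isConj_iff.mp h2
  have h3 : (z : L) * a * (z : L)⁻¹ = b := congrArg Subtype.val hz
  obtain ⟨z', hz'K, hz'x, hz'⟩ := conj_in_centralizer K x hx a b (hcomm a) (hcomm b) z z.2 h3
  have hz'W : z' ∈ W₂ := by
    rw [hW]
    exact ⟨hz'K, Subgroup.mem_centralizer_singleton_iff.mpr hz'x.symm⟩
  apply Subtype.ext
  rw [← hz', hW₂c z' hz'W a a.2]
  group

theorem fixed_irr_card (hW₂c : ∀ a ∈ W₂, ∀ b ∈ W₂, a * b = b * a) (x : L) (hx1 : x ≠ 1)
    (hx : Nat.Coprime (orderOf x) (Nat.card K))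
    (hC : ∀ y ∈ Subgroup.zpowers x, y ≠ 1 → K ⊓ Subgroup.centralizer ({y} : Set L) = W₂) :
    Nat.card {θ : IrrCharacter K // conjOn K x (θ : K → ℂ) = θ} = Nat.card W₂ := by
  classical
  rw [← card_fixed_classes_eq K W₂ hW₂c x hx1 hx hC]
  have h1 := card_fixed_classes_eq_card_fixed_irr (MulAut.conjNormal x : MulAut K)
  rw [h1]
  apply Nat.card_congr
  apply Equiv.subtypeEquivRight
  intro θ
  have h2 : (θ : K → ℂ) ∘ (MulAut.conjNormal x : MulAut K) = conjOn K x (θ : K → ℂ) := (conjOn_eq_comp K x _).symm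
  rw [h2]

/-- S1513 -/
theorem kernel_characters (hKW₁ : K ⊓ W₁ = ⊥) (hKW₁' : K ⊔ W₁ = ⊤) (hW₁ : W₁ ≠ ⊥) (hW₁c : IsCyclic W₁)
    (hHall : Nat.Coprime (Nat.card W₁) W₁.index) (hW₂ : W₂ ≠ ⊥) (hW₂c : IsCyclic W₂) (hW₂K : W₂ ≤ K)
    (hC : ∀ x ∈ W₁, x ≠ 1 → K ⊓ Subgroup.centralizer ({x} : Set L) = W₂) :
    (∀ θ : K → ℂ, IsIrrCharacter K θ → (∃ x ∈ W₁, (fun k : K => θ ⟨x * k * x⁻¹, hK.conj_mem (k : L) k.2 x⟩) ≠ θ) →
      IsIrrCharacter L (indFun K θ)) ∧
    Nat.card {θ : IrrCharacter K // ∀ x ∈ W₁, (fun k : K => (θ : K → ℂ) ⟨x * k * x⁻¹, hK.conj_mem (k : L) k.2 x⟩) = θ} =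
      Nat.card W₂ ∧
    (∀ θ : K → ℂ, IsIrrCharacter K θ → (∀ x ∈ W₁, (fun k : K => θ ⟨x * k * x⁻¹, hK.conj_mem (k : L) k.2 x⟩) = θ) →
      ∃ C : Finset (L → ℂ), C.card = Nat.card W₁ ∧ (∀ μ ∈ C, IsIrrCharacter L μ) ∧ indFun K θ = ∑ μ ∈ C, μ) := by
  classical
  letI : Fintype K := Fintype.ofFinite _
  letI : Fintype (IrrCharacter K) := Fintype.ofFinite _
  have hcompl : Subgroup.IsComplement' K W₁ := by
    apply Subgroup.isComplement'_of_disjoint_and_mul_eq_univ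
    · rw [disjoint_iff]; exact hKW₁
    · rw [← Subgroup.normal_mul, hKW₁']; rfl
  have hcardK : W₁.index = Nat.card K := hcompl.index_eq_card
  have hindexK : K.index = Nat.card W₁ := hcompl.symm.index_eq_card
  have hW₂comm : ∀ a ∈ W₂, ∀ b ∈ W₂, a * b = b * a := by
    intro a ha b hb
    letI := IsCyclic.commGroup (α := W₂)
    exact congrArg Subtype.val (mul_comm (⟨a, ha⟩ : W₂) ⟨b, hb⟩)
  have hord : ∀ x ∈ W₁, Nat.Coprime (orderOf x) (Nat.card K) := by
    intro x hx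
    rw [← hcardK]
    apply Nat.Coprime.coprime_dvd_left _ hHall
    have := orderOf_dvd_natCard (⟨x, hx⟩ : W₁)
    rwa [Subgroup.orderOf_mk] at this
  have hCz : ∀ x ∈ W₁, ∀ y ∈ Subgroup.zpowers x, y ≠ 1 → K ⊓ Subgroup.centralizer ({y} : Set L) = W₂ := by
    intro x hx y hy hy1
    exact hC y ((Subgroup.zpowers_le.mpr hx) hy) hy1
  obtain ⟨x₀', hx₀'⟩ := IsCyclic.exists_generator (α := W₁)
  have hx₀1 : (x₀' : L) ≠ 1 := by
    intro h
    apply hW₁
    rw [eq_bot_iff]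
    intro y hy
    obtain ⟨i, hi⟩ := Subgroup.mem_zpowers_iff.mp (hx₀' ⟨y, hy⟩)
    have h1 : x₀' = 1 := Subtype.ext h
    rw [h1, one_zpow] at hi
    have := congrArg Subtype.val hi
    exact this.symm
  set x₀ : L := (x₀' : L) with hx₀
  have hx₀W : x₀ ∈ W₁ := x₀'.2
  let T := fun θ : K → ℂ => inertiaGroup K θ
  have hfixall : ∀ θ : K → ℂ, conjOn K x₀ θ = θ → ∀ y ∈ W₁, conjOn K y θ = θ := by
    intro θ hθ y hy
    have hmem : x₀ ∈ T θ := (mem_inertiaGroup K θ x₀).mpr hθ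
    obtain ⟨i, hi⟩ := Subgroup.mem_zpowers_iff.mp (hx₀' ⟨y, hy⟩)
    have hy' : y = x₀ ^ i := by
      have := congrArg Subtype.val hi
      simpa using this.symm
    have : y ∈ T θ := by
      rw [hy']
      exact (T θ).zpow_mem hmem i
    exact (mem_inertiaGroup K θ y).mp this
  -- the key: fixed by a nontrivial element means fixed by all
  have hkey : ∀ x ∈ W₁, x ≠ 1 → ∀ θ : IrrCharacter K, conjOn K x (θ : K → ℂ) = θ → conjOn K x₀ (θ : K → ℂ) = θ := by
    intro x hx hx1 θ hθ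
    let A₀ : Finset (IrrCharacter K) := Finset.univ.filter fun θ => conjOn K x₀ (θ : K → ℂ) = θ
    let A : Finset (IrrCharacter K) := Finset.univ.filter fun θ => conjOn K x (θ : K → ℂ) = θ
    have hsub : A₀ ⊆ A := by
      intro ψ hψ
      rw [Finset.mem_filter] at hψ ⊢
      exact ⟨hψ.1, hfixall _ hψ.2 x hx⟩
    have hcard₀ : A₀.card = Nat.card W₂ := by
      rw [← fixed_irr_card K W₂ hW₂comm x₀ hx₀1 (hord x₀ hx₀W) (hCz x₀ hx₀W), Nat.card_eq_fintype_card,
        Fintype.card_subtype]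
    have hcard : A.card = Nat.card W₂ := by
      rw [← fixed_irr_card K W₂ hW₂comm x hx1 (hord x hx) (hCz x hx), Nat.card_eq_fintype_card,
        Fintype.card_subtype]
    have heq : A₀ = A := Finset.eq_of_subset_of_card_le hsub (by rw [hcard, hcard₀])
    have hmem : θ ∈ A := Finset.mem_filter.mpr ⟨Finset.mem_univ _, hθ⟩
    rw [← heq] at hmem
    exact (Finset.mem_filter.mp hmem).2
  have hsplit : ∀ g : L, ∃ k ∈ K, ∃ w ∈ W₁, k * w = g := by
    intro g
    have hg : g ∈ K ⊔ W₁ := by rw [hKW₁']; trivial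
    exact Subgroup.mem_sup_of_normal_left.mp hg
  have hKfix : ∀ θ : K → ℂ, IsIrrCharacter K θ → ∀ k ∈ K, conjOn K k θ = θ := by
    intro θ hθ k hk
    funext n
    exact hθ.isClassFunction n ⟨k, hk⟩
  refine ⟨?_, ?_, ?_⟩
  · rintro θ hθ ⟨x, hx, hne⟩
    have hnot : ∀ w ∈ W₁, w ≠ 1 → conjOn K w θ ≠ θ := by
      intro w hw hw1 hfix
      apply hne
      have h1 := hkey w hw hw1 ⟨θ, hθ⟩ hfix
      exact hfixall θ h1 x hx
    have hstab : Nat.card {g : L // conjOn K g θ = θ} = Nat.card K := by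
      apply Nat.card_congr
      apply Equiv.subtypeEquivRight
      intro g
      constructor
      · intro hg
        obtain ⟨k, hk, w, hw, rfl⟩ := hsplit g
        by_cases hw1 : w = 1
        · rw [hw1, mul_one]
          exact hk
        · exfalso
          apply hnot w hw hw1
          have h2 : conjOn K (k * w) θ = conjOn K w (conjOn K k θ) := conjOn_mul K k w θ
          rw [hKfix θ hθ k hk] at h2
          rw [← h2]
          exact hg
      · intro hg
        exact hKfix θ hθ g hg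
    have h1 := card_mul_classInner_ind K hθ
    rw [hstab] at h1
    have h2 : classInner (indFun K θ) (indFun K θ) = 1 := by
      have h3 := card_subgroup_ne_zero K
      exact mul_left_cancel₀ h3 (by rw [h1, mul_one])
    exact (isCharacter_indFun K hθ.isCharacter).isIrr_of_norm h2
  · rw [← fixed_irr_card K W₂ hW₂comm x₀ hx₀1 (hord x₀ hx₀W) (hCz x₀ hx₀W)]
    apply Nat.card_congr
    apply Equiv.subtypeEquivRight
    intro θ
    constructor
    · intro h
      exact h x₀ hx₀W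
    · intro h x hx
      exact hfixall _ h x hx
  · intro θ hθ hfix
    have hall : ∀ g : L, conjOn K g θ = θ := by
      intro g
      obtain ⟨k, hk, w, hw, rfl⟩ := hsplit g
      have h2 : conjOn K (k * w) θ = conjOn K w (conjOn K k θ) := conjOn_mul K k w θ
      rw [h2, hKfix θ hθ k hk]
      exact hfix w hw
    have hT : ∀ g : L, g ∈ (⊤ : Subgroup L) ↔ ∀ h : K, θ ⟨g * h * g⁻¹, hK.conj_mem h h.2 g⟩ = θ h := by
      intro g
      constructor
      · intro _ h
        exact congrFun (hall g) h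
      · intro _
        trivial
    have hcyc : IsCyclic (L ⧸ K) := by
      apply isCyclic_of_surjective ((QuotientGroup.mk' K).comp W₁.subtype)
      intro q
      obtain ⟨g, rfl⟩ := QuotientGroup.mk_surjective q
      obtain ⟨k, hk, w, hw, rfl⟩ := hsplit g
      refine ⟨⟨w, hw⟩, ?_⟩
      show ((w : L) : L ⧸ K) = ((k * w : L) : L ⧸ K)
      rw [QuotientGroup.mk_mul, (QuotientGroup.eq_one_iff k).mpr hk, one_mul]
    have hab : ∀ x ∈ (⊤ : Subgroup L), ∀ y ∈ (⊤ : Subgroup L), x * y * x⁻¹ * y⁻¹ ∈ K := by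
      intro x _ y _
      rw [← QuotientGroup.eq_one_iff]
      letI := IsCyclic.commGroup (α := L ⧸ K)
      have h1 : ((x : L) : L ⧸ K) * y = y * x := mul_comm _ _
      simp only [QuotientGroup.mk_mul, QuotientGroup.mk_inv]
      rw [h1]
      group
    have hrel : K.relIndex ⊤ = Nat.card W₁ := by
      rw [Subgroup.relIndex_top_right, hindexK]
    obtain ⟨C, hC₁, hC₂, hC₃, -⟩ := ind_inertia_coprime K ⊤ θ hθ hT hab (by
      rw [hrel, ← hcardK]
      exact hHall.symm)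
    exact ⟨C, by rw [hC₂, hrel], hC₁, hC₃⟩

end Main

end CfsgLib.Char
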