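import Mathlib
import Cfsg.Prelude.Def_LieExceptional
import Cfsg.Prelude.Def_OddOrderLocal

/-!
# Basic facts on Zassenhaus groups
-/

set_option linter.unusedSectionVars false
set_option linter.style.haveILetI false
set_option linter.unusedSimpArgs false
set_option linter.unusedVariables false

namespace CfsgLib.Char

open Cfsg

variable {G Ω : Type*} [Group G] [MulAction G Ω]

theorem zass_two (hZ : IsZassenhausGroup G Ω) {a b c d : Ω} (h : a ≠ b) (h' : c ≠ d) :
    ∃ g : G, g • a = c ∧ g • b = d := by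
  haveI := hZ.2.1
  exact (MulAction.is_two_pretransitive_iff.mp hZ.2.1) h h'

theorem zass_three (hZ : IsZassenhausGroup G Ω) {g : G} {a b c : Ω} (h1 : a ≠ b) (h2 : b ≠ c) (h3 : a ≠ c)
    (ha : g • a = a) (hb : g • b = b) (hc : g • c = c) : g = 1 :=
  hZ.2.2.1 g a b c h1 h2 h3 ha hb hc

theorem zass_exists_nontrivial (hZ : IsZassenhausGroup G Ω) {a b : Ω} (hab : a ≠ b) :
    ∃ x : G, x ≠ 1 ∧ x • a = a ∧ x • b = b := by
  obtain ⟨g, hg, a₀, b₀, h0, ha, hb⟩ := hZ.2.2.2.1
  obtain ⟨t, h1, h2⟩ := zass_two hZ h0 hab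
  refine ⟨t * g * t⁻¹, ?_, ?_, ?_⟩
  · intro h
    exact hg (conj_eq_one_iff.mp h)
  · rw [← h1, mul_smul, mul_smul, inv_smul_smul, ha]
  · rw [← h2, mul_smul, mul_smul, inv_smul_smul, hb]

theorem zass_three_le_card [Fintype Ω] (hZ : IsZassenhausGroup G Ω) : 3 ≤ Fintype.card Ω := by
  classical
  obtain ⟨g, hg, a₀, b₀, h0, ha, hb⟩ := hZ.2.2.2.1
  haveI := hZ.1
  have : ∃ c, c ≠ a₀ ∧ c ≠ b₀ := by
    by_contra hcon
    push Not at hcon
    apply hg
    apply FaithfulSMul.eq_of_smul_eq_smul (α := Ω)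
    intro c
    rw [one_smul]
    by_cases h : c = a₀
    · rw [h, ha]
    · rw [hcon c h, hb]
  obtain ⟨c, h1, h2⟩ := this
  have hs : ({a₀, b₀, c} : Finset Ω).card = 3 := by
    rw [Finset.card_eq_three]
    exact ⟨a₀, b₀, c, h0, h1.symm, h2.symm, rfl⟩
  rw [← hs]
  exact Finset.card_le_univ _

/-- S0878 -/
theorem zass_point_kernel [Finite G] [Fintype Ω] (hZ : IsZassenhausGroup G Ω) (a : Ω) (H : Subgroup G)
    (hHa : H ≤ MulAction.stabilizer G a) (hHcard : Nat.card H + 1 = Fintype.card Ω)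
    (hHfix : ∀ u ∈ H, u ≠ 1 → ∀ c : Ω, u • c = c → c = a) :
    (∀ g : G, g ∉ MulAction.stabilizer G a → ∀ u ∈ H, g * u * g⁻¹ ∈ H → u = 1) ∧
      Subgroup.normalizer (H : Set G) = MulAction.stabilizer G a := by
  classical
  haveI := Fintype.ofFinite G
  have hfirst : ∀ g : G, g ∉ MulAction.stabilizer G a → ∀ u ∈ H, g * u * g⁻¹ ∈ H → u = 1 := by
    intro g hg u hu hgu
    by_contra hu1
    have hne : g * u * g⁻¹ ≠ 1 := fun h => hu1 (conj_eq_one_iff.mp h)
    have hfix : (g * u * g⁻¹) • (g • a) = g • a := by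
      rw [mul_smul, mul_smul, inv_smul_smul]
      congr 1
      exact hHa hu
    exact hg (hHfix _ hgu hne _ hfix)
  refine ⟨hfirst, ?_⟩
  set A : Finset G := Finset.univ.filter fun x => x • a = a with hA
  set T : Finset Ω := Finset.univ.erase a with hT
  have hTcard : T.card = Nat.card H := by
    rw [hT, Finset.card_erase_of_mem (Finset.mem_univ _), Finset.card_univ]
    omega
  set n := Nat.card H with hn
  have hn3 : 2 ≤ n := by
    have := zass_three_le_card hZ
    omega
  -- fibers
  have hfiber : ∀ c ∈ T, n * (A.filter fun x => x • c = c).card = A.card := by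
    intro c hc
    have hca : c ≠ a := (Finset.mem_erase.mp hc).1
    have h1 : A.card = ∑ d ∈ T, (A.filter fun x => x • c = d).card := by
      apply Finset.card_eq_sum_card_fiberwise
      intro x hx
      simp only [hA, Finset.coe_filter, Finset.mem_univ, true_and, Set.mem_ofPred_eq] at hx
      simp only [hT, Finset.coe_erase, Finset.coe_univ, Set.mem_sdiff, Set.mem_univ, Set.mem_singleton_iff,
        true_and]
      intro h
      apply hca
      have : x • c = x • a := by rw [h, hx]
      exact MulAction.injective x this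
    have h2 : ∀ d ∈ T, (A.filter fun x => x • c = d).card = (A.filter fun x => x • c = c).card := by
      intro d hd
      have hda : d ≠ a := (Finset.mem_erase.mp hd).1
      obtain ⟨t, ht1, ht2⟩ := zass_two (G := G) hZ (hca.symm) (hda.symm)
      symm
      apply Finset.card_bij (fun x _ => t * x)
      · intro x hx
        simp only [hA, Finset.mem_filter, Finset.mem_univ, true_and] at hx ⊢
        rw [mul_smul, mul_smul, hx.1, hx.2, ht1, ht2]
        exact ⟨rfl, rfl⟩
      · intro x _ y _ hxy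
        exact mul_left_cancel hxy
      · intro y hy
        simp only [hA, Finset.mem_filter, Finset.mem_univ, true_and] at hy
        refine ⟨t⁻¹ * y, ?_, by simp⟩
        simp only [hA, Finset.mem_filter, Finset.mem_univ, true_and]
        constructor
        · rw [mul_smul, hy.1, inv_smul_eq_iff, ht1]
        · rw [mul_smul, hy.2, inv_smul_eq_iff, ht2]
    rw [h1, Finset.sum_congr rfl h2, Finset.sum_const, hTcard, smul_eq_mul]
  -- fixed point count
  let fix : G → ℕ := fun x => (T.filter fun c => x • c = c).card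
  have hswap : ∑ x ∈ A, fix x = ∑ c ∈ T, (A.filter fun x => x • c = c).card := by
    simp only [fix, Finset.card_filter]
    rw [Finset.sum_comm]
  have hsum : ∑ x ∈ A, fix x = A.card := by
    have h1 : n * ∑ x ∈ A, fix x = n * A.card := by
      rw [hswap, Finset.mul_sum, Finset.sum_congr rfl hfiber, Finset.sum_const, hTcard, smul_eq_mul]
    exact Nat.eq_of_mul_eq_mul_left (by omega) h1
  set H' : Finset G := Finset.univ.filter fun x => x ∈ H with hH'
  have hH'card : H'.card = n := by
    rw [hn, Nat.card_eq_fintype_card (α := H)]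
    rw [hH', Fintype.card_subtype]
  have hH'A : H' ⊆ A := by
    intro x hx
    simp only [hH', Finset.mem_filter, Finset.mem_univ, true_and] at hx
    simp only [hA, Finset.mem_filter, Finset.mem_univ, true_and]
    exact hHa hx
  have hsumH' : ∑ x ∈ H', fix x = n := by
    rw [Finset.sum_eq_single (1 : G)]
    · simp only [fix, one_smul, Finset.filter_true]
      exact hTcard
    · intro x hx hx1
      simp only [hH', Finset.mem_filter, Finset.mem_univ, true_and] at hx
      simp only [fix, Finset.card_eq_zero, Finset.filter_eq_empty_iff]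
      intro c hc hcx
      exact (Finset.mem_erase.mp hc).1 (hHfix x hx hx1 c hcx)
    · intro h
      exact absurd (by simp [hH', H.one_mem]) h
  have hdiff : ∑ x ∈ A \ H', fix x = (A \ H').card := by
    have h1 := Finset.sum_sdiff (f := fix) hH'A
    have h2 := Finset.card_sdiff_add_card_eq_card hH'A
    rw [hsum, hsumH'] at h1
    rw [hH'card] at h2
    omega
  have hle : ∀ x ∈ A \ H', fix x ≤ 1 := by
    intro x hx
    have hxA := (Finset.mem_sdiff.mp hx).1
    have hxH := (Finset.mem_sdiff.mp hx).2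
    have hx1 : x ≠ 1 := by
      rintro rfl
      exact hxH (by simp [hH', H.one_mem])
    simp only [hA, Finset.mem_filter, Finset.mem_univ, true_and] at hxA
    simp only [fix]
    rw [Finset.card_le_one]
    intro c hc d hd
    by_contra hcd
    have hc' := Finset.mem_filter.mp hc
    have hd' := Finset.mem_filter.mp hd
    exact hx1 (zass_three hZ (Finset.mem_erase.mp hc'.1).1.symm hcd (Finset.mem_erase.mp hd'.1).1.symm hxA hc'.2 hd'.2)
  have hone : ∀ x ∈ A \ H', fix x = 1 := by
    by_contra hcon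
    push Not at hcon
    obtain ⟨x, hx, hx1⟩ := hcon
    have : ∑ x ∈ A \ H', fix x < ∑ x ∈ A \ H', 1 := by
      apply Finset.sum_lt_sum hle
      exact ⟨x, hx, by have := hle x hx; omega⟩
    simp only [Finset.sum_const, smul_eq_mul, mul_one] at this
    omega
  -- characterization of `H`
  have hchar : ∀ y : G, y • a = a → (∀ c, c ≠ a → y • c ≠ c) → y ∈ H := by
    intro y hy hyc
    by_contra hyH
    have hmem : y ∈ A \ H' := by
      simp only [Finset.mem_sdiff, hA, hH', Finset.mem_filter, Finset.mem_univ, true_and]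
      exact ⟨hy, hyH⟩
    have h1 := hone y hmem
    have h2 : (T.filter fun c => y • c = c).Nonempty := by
      rw [← Finset.card_pos]
      simp only [fix] at h1
      omega
    obtain ⟨c, hc⟩ := h2
    have hc' := Finset.mem_filter.mp hc
    exact hyc c (Finset.mem_erase.mp hc'.1).1 hc'.2
  have hconj : ∀ x : G, x • a = a → ∀ u ∈ H, x * u * x⁻¹ ∈ H := by
    intro x hx u hu
    by_cases hu1 : u = 1
    · rw [hu1]; simp [H.one_mem]
    apply hchar
    · rw [mul_smul, mul_smul, inv_smul_eq_iff.mpr hx.symm]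
      have : u • a = a := hHa hu
      rw [this, hx]
    · intro c hc hfix
      have h1 : u • (x⁻¹ • c) = x⁻¹ • c := by
        rw [mul_smul, mul_smul] at hfix
        rw [eq_inv_smul_iff]
        exact hfix
      have h2 := hHfix u hu hu1 _ h1
      apply hc
      rw [inv_smul_eq_iff] at h2
      rw [h2, hx]
  apply le_antisymm
  · intro g hg
    by_contra hgs
    obtain ⟨u, hu, hu1⟩ : ∃ u ∈ H, u ≠ 1 := by
      have : 1 < Nat.card H := by omega
      haveI := (Finite.one_lt_card_iff_nontrivial).mp this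
      obtain ⟨u, hu⟩ := exists_ne (1 : H)
      exact ⟨u, u.2, fun h => hu (Subtype.ext h)⟩
    exact hu1 (hfirst g hgs u hu ((Subgroup.mem_normalizer_iff.mp hg u).mp hu))
  · intro x hx
    rw [Subgroup.mem_normalizer_iff]
    intro u
    have hx' : x • a = a := hx
    constructor
    · exact hconj x hx' u
    · intro h
      have := hconj x⁻¹ (inv_smul_eq_iff.mpr hx'.symm) _ h
      simpa [mul_assoc] using this

/-- S0879 -/
theorem zass_two_point [Finite G] [Fintype Ω] (hZ : IsZassenhausGroup G Ω) {a b : Ω} (hab : a ≠ b) :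
    (∀ g : G, g ∉ Subgroup.normalizer ((MulAction.stabilizer G a ⊓ MulAction.stabilizer G b : Subgroup G) : Set G) →
        ∀ x ∈ (MulAction.stabilizer G a ⊓ MulAction.stabilizer G b : Subgroup G),
          g * x * g⁻¹ ∈ (MulAction.stabilizer G a ⊓ MulAction.stabilizer G b : Subgroup G) → x = 1) ∧
      ((MulAction.stabilizer G a ⊓ MulAction.stabilizer G b : Subgroup G).subgroupOf
        (Subgroup.normalizer ((MulAction.stabilizer G a ⊓ MulAction.stabilizer G b : Subgroup G) : Set G))).index = 2 := by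
  classical
  set E : Subgroup G := MulAction.stabilizer G a ⊓ MulAction.stabilizer G b with hE
  have hmemE : ∀ x : G, x ∈ E ↔ x • a = a ∧ x • b = b := by
    intro x
    rw [hE, Subgroup.mem_inf, MulAction.mem_stabilizer_iff, MulAction.mem_stabilizer_iff]
  let P : G → Prop := fun g => (g • a = a ∧ g • b = b) ∨ (g • a = b ∧ g • b = a)
  have hPinv : ∀ g, P g → P g⁻¹ := by
    rintro g (⟨h1, h2⟩ | ⟨h1, h2⟩)
    · exact Or.inl ⟨inv_smul_eq_iff.mpr h1.symm, inv_smul_eq_iff.mpr h2.symm⟩
    · exact Or.inr ⟨inv_smul_eq_iff.mpr h2.symm, inv_smul_eq_iff.mpr h1.symm⟩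
  have hPconj : ∀ g, P g → ∀ x ∈ E, g * x * g⁻¹ ∈ E := by
    intro g hg x hx
    rw [hmemE] at hx ⊢
    have hx' : x • (g⁻¹ • a) = g⁻¹ • a ∧ x • (g⁻¹ • b) = g⁻¹ • b := by
      rcases hPinv g hg with ⟨h1, h2⟩ | ⟨h1, h2⟩ <;> rw [h1, h2, hx.1, hx.2] <;> exact ⟨rfl, rfl⟩
    constructor
    · rw [mul_smul, mul_smul, hx'.1, smul_inv_smul]
    · rw [mul_smul, mul_smul, hx'.2, smul_inv_smul]
  have hPnorm : ∀ g, P g → g ∈ Subgroup.normalizer (E : Set G) := by
    intro g hg
    rw [Subgroup.mem_normalizer_iff]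
    intro x
    constructor
    · exact hPconj g hg x
    · intro h
      have := hPconj g⁻¹ (hPinv g hg) _ h
      simpa [mul_assoc] using this
  have hA : ∀ x ∈ E, x ≠ 1 → ∀ c, x • c = c → c = a ∨ c = b := by
    intro x hx hx1 c hc
    rw [hmemE] at hx
    by_contra hcon
    push Not at hcon
    exact hx1 (zass_three hZ hab hcon.2.symm hcon.1.symm hx.1 hx.2 hc)
  have hD : ∀ g, ∀ x ∈ E, x ≠ 1 → g * x * g⁻¹ ∈ E → P g := by
    intro g x hx hx1 hgx
    have hne : g * x * g⁻¹ ≠ 1 := fun h => hx1 (conj_eq_one_iff.mp h)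
    have hx' := (hmemE x).mp hx
    have h1 : (g * x * g⁻¹) • (g • a) = g • a := by
      rw [mul_smul, mul_smul, inv_smul_smul, hx'.1]
    have h2 : (g * x * g⁻¹) • (g • b) = g • b := by
      rw [mul_smul, mul_smul, inv_smul_smul, hx'.2]
    have hne' : g • a ≠ g • b := fun h => hab (MulAction.injective g h)
    rcases hA _ hgx hne _ h1 with h3 | h3 <;> rcases hA _ hgx hne _ h2 with h4 | h4
    · exact absurd (h3.trans h4.symm) hne'
    · exact Or.inl ⟨h3, h4⟩
    · exact Or.inr ⟨h3, h4⟩
    · exact absurd (h3.trans h4.symm) hne'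
  refine ⟨?_, ?_⟩
  · intro g hg x hx hgx
    by_contra hx1
    exact hg (hPnorm g (hD g x hx hx1 hgx))
  · obtain ⟨t, ht1, ht2⟩ := zass_two (G := G) hZ hab hab.symm
    obtain ⟨x₀, hx₀, hx₀a, hx₀b⟩ := zass_exists_nontrivial (G := G) hZ hab
    have hx₀E : x₀ ∈ E := (hmemE _).mpr ⟨hx₀a, hx₀b⟩
    rw [Subgroup.index_eq_two_iff]
    refine ⟨⟨t, hPnorm t (Or.inr ⟨ht1, ht2⟩)⟩, ?_⟩
    rintro ⟨y, hy⟩
    have hPy : P y := hD y x₀ hx₀E hx₀ ((Subgroup.mem_normalizer_iff.mp hy x₀).mp hx₀E)
    simp only [Subgroup.mem_subgroupOf, Subgroup.coe_mul]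
    rw [hmemE, hmemE]
    simp only [mul_smul, ht1, ht2]
    rcases hPy with ⟨h1, h2⟩ | ⟨h1, h2⟩
    · rw [h1, h2]
      right
      exact ⟨⟨rfl, rfl⟩, fun h => hab h.1.symm⟩
    · rw [h1, h2]
      left
      exact ⟨⟨rfl, rfl⟩, fun h => hab h.1.symm⟩

end CfsgLib.Char
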