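import Mathlib
import Cfsg.Agent.Lib.Char.Zassenhaus
import Cfsg.Agent.Lib.Char.Complete

/-!
# Counting in Zassenhaus groups
-/

set_option linter.unusedSectionVars false
set_option linter.style.haveILetI false
set_option linter.unusedSimpArgs false
set_option linter.unusedVariables false

namespace CfsgLib.Char

open Cfsg MulAction Finset

variable {G Ω : Type*} [Group G] [Finite G] [MulAction G Ω] [Fintype Ω]

theorem mem_EE {a b : Ω} {x : G} : x ∈ (stabilizer G a ⊓ stabilizer G b : Subgroup G) ↔ x • a = a ∧ x • b = b := by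
  rw [Subgroup.mem_inf, mem_stabilizer_iff, mem_stabilizer_iff]

theorem card_EE_eq (hZ : IsZassenhausGroup G Ω) {a b c d : Ω} (hab : a ≠ b) (hcd : c ≠ d) :
    Nat.card (stabilizer G c ⊓ stabilizer G d : Subgroup G) = Nat.card (stabilizer G a ⊓ stabilizer G b : Subgroup G) := by
  obtain ⟨t, h1, h2⟩ := zass_two (G := G) hZ hab hcd
  refine Nat.card_congr ⟨fun x => ⟨t⁻¹ * x * t, ?_⟩, fun x => ⟨t * x * t⁻¹, ?_⟩, fun x => ?_, fun x => ?_⟩
  · have hx := mem_EE.mp x.2
    refine mem_EE.mpr ⟨?_, ?_⟩
    · rw [mul_smul, mul_smul, h1, hx.1, ← h1, inv_smul_smul]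
    · rw [mul_smul, mul_smul, h2, hx.2, ← h2, inv_smul_smul]
  · have hx := mem_EE.mp x.2
    refine mem_EE.mpr ⟨?_, ?_⟩
    · rw [← h1, mul_smul, mul_smul, inv_smul_smul, hx.1]
    · rw [← h2, mul_smul, mul_smul, inv_smul_smul, hx.2]
  · apply Subtype.ext
    simp [mul_assoc]
  · apply Subtype.ext
    simp [mul_assoc]

open Classical in
/-- The number of group elements sending a pair of distinct points to a pair of distinct points. -/
theorem card_fiber [Fintype G] (hZ : IsZassenhausGroup G Ω) {a b c d c' d' : Ω} (hab : a ≠ b) (hcd : c ≠ d) (hcd' : c' ≠ d') :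
    (univ.filter (fun g : G => g • c = c' ∧ g • d = d')).card = Nat.card (stabilizer G a ⊓ stabilizer G b : Subgroup G) := by
  obtain ⟨t, h1, h2⟩ := zass_two (G := G) hZ hcd hcd'
  rw [← card_EE_eq hZ hab hcd, Nat.card_eq_fintype_card, ← Finset.card_univ]
  symm
  apply Finset.card_bij (fun (x : (stabilizer G c ⊓ stabilizer G d : Subgroup G)) _ => t * (x : G))
  · intro x _
    have hx := mem_EE.mp x.2
    simp only [Finset.mem_filter, Finset.mem_univ, true_and]
    rw [mul_smul, mul_smul, hx.1, hx.2, h1, h2]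
    exact ⟨rfl, rfl⟩
  · intro x _ y _ h
    exact Subtype.ext (mul_left_cancel h)
  · intro g hg
    simp only [Finset.mem_filter, Finset.mem_univ, true_and] at hg
    refine ⟨⟨t⁻¹ * g, ?_⟩, Finset.mem_univ _, by simp⟩
    refine mem_EE.mpr ⟨?_, ?_⟩
    · rw [mul_smul, hg.1, ← h1, inv_smul_smul]
    · rw [mul_smul, hg.2, ← h2, inv_smul_smul]

open Classical in
/-- The number of elements fixing a given point. -/
theorem card_stab_point [Fintype G] (hZ : IsZassenhausGroup G Ω) {a b : Ω} (hab : a ≠ b) (c : Ω) :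
    (univ.filter (fun g : G => g • c = c)).card = (Fintype.card Ω - 1) * Nat.card (stabilizer G a ⊓ stabilizer G b : Subgroup G) := by
  obtain ⟨d, hd⟩ : ∃ d : Ω, c ≠ d := by
    by_cases h : c = a
    · exact ⟨b, h ▸ hab⟩
    · exact ⟨a, h⟩
  have h1 : (univ.filter (fun g : G => g • c = c)).card =
      ∑ d' ∈ univ.erase c, ((univ.filter (fun g : G => g • c = c)).filter (fun g => g • d = d')).card := by
    apply Finset.card_eq_sum_card_fiberwise
    intro g hg
    simp only [Finset.coe_filter, Finset.mem_univ, true_and, Set.mem_ofPred_eq] at hg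
    simp only [Finset.coe_erase, Finset.coe_univ, Set.mem_sdiff, Set.mem_univ, Set.mem_singleton_iff, true_and]
    intro h
    apply hd
    have h5 : g • c = g • d := by rw [hg, h]
    exact MulAction.injective g h5
  rw [h1]
  have h2 : ∀ d' ∈ univ.erase c, ((univ.filter (fun g : G => g • c = c)).filter (fun g => g • d = d')).card =
      Nat.card (stabilizer G a ⊓ stabilizer G b : Subgroup G) := by
    intro d' hd'
    rw [Finset.filter_filter]
    exact card_fiber hZ hab hd (Finset.mem_erase.mp hd').1.symm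
  rw [Finset.sum_congr rfl h2, Finset.sum_const, Finset.card_erase_of_mem (Finset.mem_univ _), Finset.card_univ,
    smul_eq_mul]

/-- The order of a Zassenhaus group. -/
theorem zass_card [Fintype G] (hZ : IsZassenhausGroup G Ω) {a b : Ω} (hab : a ≠ b) :
    Nat.card G = Fintype.card Ω * (Fintype.card Ω - 1) * Nat.card (stabilizer G a ⊓ stabilizer G b : Subgroup G) := by
  classical
  have h1 : (univ : Finset G).card = ∑ c : Ω, (univ.filter (fun g : G => g • a = c)).card := by
    apply Finset.card_eq_sum_card_fiberwise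
    intro g _
    exact Finset.mem_coe.mpr (Finset.mem_univ _)
  have h2 : ∀ c : Ω, (univ.filter (fun g : G => g • a = c)).card = (Fintype.card Ω - 1) * Nat.card (stabilizer G a ⊓ stabilizer G b : Subgroup G) := by
    intro c
    have h3 : (univ.filter (fun g : G => g • a = c)).card = ∑ d' ∈ univ.erase c, ((univ.filter (fun g : G => g • a = c)).filter (fun g => g • b = d')).card := by
      apply Finset.card_eq_sum_card_fiberwise
      intro g hg
      simp only [Finset.coe_filter, Finset.mem_univ, true_and, Set.mem_ofPred_eq] at hg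
      simp only [Finset.coe_erase, Finset.coe_univ, Set.mem_sdiff, Set.mem_univ, Set.mem_singleton_iff, true_and]
      intro h
      apply hab
      have h5 : g • a = g • b := by rw [hg, h]
      exact MulAction.injective g h5
    rw [h3]
    have h4 : ∀ d' ∈ univ.erase c, ((univ.filter (fun g : G => g • a = c)).filter (fun g => g • b = d')).card =
        Nat.card (stabilizer G a ⊓ stabilizer G b : Subgroup G) := by
      intro d' hd'
      rw [Finset.filter_filter]
      exact card_fiber hZ hab hab (Finset.mem_erase.mp hd').1.symm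
    rw [Finset.sum_congr rfl h4, Finset.sum_const, Finset.card_erase_of_mem (Finset.mem_univ _), Finset.card_univ,
      smul_eq_mul]
  rw [Finset.sum_congr rfl (fun c _ => h2 c), Finset.sum_const, Finset.card_univ, Finset.card_univ, smul_eq_mul,
    ← Nat.card_eq_fintype_card] at h1
  rw [h1]
  ring

open Classical in
/-- The number of fixed points. -/
noncomputable def fixN (g : G) (Ω : Type*) [MulAction G Ω] [Fintype Ω] : ℕ := (univ.filter (fun c : Ω => g • c = c)).card

theorem fixN_le (hZ : IsZassenhausGroup G Ω) {g : G} (hg : g ≠ 1) : fixN g Ω ≤ 2 := by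
  classical
  by_contra h
  push Not at h
  obtain ⟨x, hx, y, hy, z, hz, h1, h2, h3⟩ := Finset.two_lt_card.mp h
  simp only [Finset.mem_filter, Finset.mem_univ, true_and] at hx hy hz
  exact hg (zass_three hZ h1 h3 h2 hx hy hz)

theorem fixN_one : fixN (1 : G) Ω = Fintype.card Ω := by
  classical
  simp [fixN]

theorem sum_fixN [Fintype G] (hZ : IsZassenhausGroup G Ω) {a b : Ω} (hab : a ≠ b) :
    ∑ g : G, fixN g Ω = Nat.card G := by
  classical
  simp only [fixN, Finset.card_filter]
  rw [Finset.sum_comm]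
  simp only [← Finset.card_filter]
  rw [Finset.sum_congr rfl (fun c _ => card_stab_point hZ hab c), Finset.sum_const, Finset.card_univ, smul_eq_mul,
    zass_card hZ hab]
  ring

theorem sum_fixN_sq [Fintype G] (hZ : IsZassenhausGroup G Ω) {a b : Ω} (hab : a ≠ b) :
    ∑ g : G, (fixN g Ω) ^ 2 = 2 * Nat.card G := by
  classical
  have h1 : ∀ g : G, (fixN g Ω) ^ 2 = ∑ c : Ω, ∑ d : Ω, if g • c = c ∧ g • d = d then 1 else 0 := by
    intro g
    simp only [fixN, Finset.card_filter, pow_two, Finset.sum_mul, Finset.mul_sum]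
    refine Finset.sum_congr rfl fun c _ => Finset.sum_congr rfl fun d _ => ?_
    by_cases h2 : g • c = c <;> by_cases h3 : g • d = d <;> simp [h2, h3]
  simp only [h1]
  rw [Finset.sum_comm]
  have h2 : ∀ c : Ω, ∑ g : G, ∑ d : Ω, (if g • c = c ∧ g • d = d then 1 else 0) =
      2 * ((Fintype.card Ω - 1) * Nat.card (stabilizer G a ⊓ stabilizer G b : Subgroup G)) := by
    intro c
    rw [Finset.sum_comm, ← Finset.add_sum_erase _ _ (Finset.mem_univ c)]
    have h3 : ∑ g : G, (if g • c = c ∧ g • c = c then 1 else 0) = (Fintype.card Ω - 1) * Nat.card (stabilizer G a ⊓ stabilizer G b : Subgroup G) := by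
      rw [← card_stab_point hZ hab c, Finset.card_filter]
      simp
    have h4 : ∀ d ∈ univ.erase c, ∑ g : G, (if g • c = c ∧ g • d = d then 1 else 0) = Nat.card (stabilizer G a ⊓ stabilizer G b : Subgroup G) := by
      intro d hd
      have hd' := (Finset.mem_erase.mp hd).1
      rw [← card_fiber hZ hab hd'.symm hd'.symm, Finset.card_filter]
    rw [h3, Finset.sum_congr rfl h4, Finset.sum_const, Finset.card_erase_of_mem (Finset.mem_univ _), Finset.card_univ,
      smul_eq_mul]
    ring
  rw [Finset.sum_congr rfl (fun c _ => h2 c), Finset.sum_const, Finset.card_univ, smul_eq_mul, zass_card hZ hab]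
  ring

/-- The number of fixed-point-free elements. -/
theorem count_fpf [Fintype G] (hZ : IsZassenhausGroup G Ω) {a b : Ω} (hab : a ≠ b) :
    open Classical in
    2 * ((univ.filter (fun g : G => fixN g Ω = 0)).card : ℤ) + (Fintype.card Ω - 1) * (Fintype.card Ω - 2) = Nat.card G := by
  classical
  have hn := zass_three_le_card hZ
  have h1 : ∀ g : G, (2 : ℤ) - 3 * fixN g Ω + (fixN g Ω) ^ 2 =
      (if g = 1 then ((Fintype.card Ω : ℤ) - 1) * (Fintype.card Ω - 2) else 0) + 2 * (if fixN g Ω = 0 then 1 else 0) := by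
    intro g
    by_cases hg : g = 1
    · subst hg
      rw [fixN_one, if_pos rfl, if_neg (by omega)]
      ring
    · rw [if_neg hg]
      have h2 := fixN_le hZ hg
      interval_cases h : fixN g Ω <;> simp
  have h2 : ∑ g : G, ((2 : ℤ) - 3 * fixN g Ω + (fixN g Ω) ^ 2) = (Nat.card G : ℤ) := by
    rw [Finset.sum_add_distrib, Finset.sum_sub_distrib, ← Finset.mul_sum, Finset.sum_const, Finset.card_univ]
    have h3 : ∑ g : G, ((fixN g Ω : ℤ)) = Nat.card G := by exact_mod_cast sum_fixN hZ hab
    have h4 : ∑ g : G, ((fixN g Ω : ℤ)) ^ 2 = 2 * Nat.card G := by exact_mod_cast sum_fixN_sq hZ hab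
    rw [h3, h4, ← Nat.card_eq_fintype_card]
    simp
    ring
  rw [Finset.sum_congr rfl (fun g _ => h1 g), Finset.sum_add_distrib, ← Finset.mul_sum, Finset.sum_ite_eq' Finset.univ (1 : G)] at h2
  simp only [Finset.mem_univ, if_true, Finset.sum_boole] at h2
  linarith

/-- S0880: there are two non-conjugate fixed-point-free elements. -/
theorem zass_two_fpf_classes (hZ : IsZassenhausGroup G Ω) {a b : Ω} (hab : a ≠ b)
    (hodd : Odd (Nat.card (stabilizer G a ⊓ stabilizer G b : Subgroup G))) :
    ∃ x y : G, (∀ c : Ω, x • c ≠ c) ∧ (∀ c : Ω, y • c ≠ c) ∧ ¬ IsConj x y := by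
  classical
  letI : Fintype G := Fintype.ofFinite G
  have hn := zass_three_le_card hZ
  have hcount := count_fpf hZ hab
  have hcard := zass_card hZ hab
  set e := Nat.card (stabilizer G a ⊓ stabilizer G b : Subgroup G) with he
  set n := Fintype.card Ω with hndef
  have hfpf : ∀ g : G, fixN g Ω = 0 ↔ ∀ c : Ω, g • c ≠ c := by
    intro g
    simp [fixN, Finset.card_eq_zero, Finset.filter_eq_empty_iff]
  have he3 : 3 ≤ e := by
    obtain ⟨x, hx1, hxa, hxb⟩ := zass_exists_nontrivial (G := G) hZ hab
    have : 1 < e := by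
      have h1 : Nontrivial (stabilizer G a ⊓ stabilizer G b : Subgroup G) :=
        ⟨⟨⟨x, mem_EE.mpr ⟨hxa, hxb⟩⟩, 1, fun h => hx1 (congrArg Subtype.val h)⟩⟩
      exact Finite.one_lt_card
    obtain ⟨k, hk⟩ := hodd
    omega
  obtain ⟨k, hk⟩ := hodd
  set T := (univ.filter (fun g : G => fixN g Ω = 0)).card with hT
  rw [hcard] at hcount
  clear_value n
  obtain ⟨h, rfl⟩ : ∃ h, n = h + 1 := ⟨n - 1, by omega⟩
  have hh2 : 2 ≤ h := by omega
  have hTval : T = h * (k * (h + 1) + 1) := by
    have h1 : (2 : ℤ) * T = 2 * ((h : ℤ) * (k * (h + 1) + 1)) := by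
      have hk' : (e : ℤ) = 2 * k + 1 := by exact_mod_cast hk
      push_cast at hcount
      linear_combination hcount + ((h : ℤ) + 1) * h * hk'
    have h3 : (T : ℤ) = (h : ℤ) * (k * (h + 1) + 1) := by linarith
    exact_mod_cast h3
  have hTpos : 0 < T := by
    rw [hTval]
    positivity
  obtain ⟨x, hx⟩ : ∃ x, x ∈ univ.filter (fun g : G => fixN g Ω = 0) := Finset.card_pos.mp hTpos
  have hx0 : fixN x Ω = 0 := (Finset.mem_filter.mp hx).2
  by_contra hcon
  push Not at hcon
  have hclass : Nat.card {y // IsConj x y} = T := by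
    rw [Nat.card_eq_fintype_card, Fintype.card_subtype, hT]
    congr 1
    ext y
    simp only [Finset.mem_filter, Finset.mem_univ, true_and]
    constructor
    · intro hy
      obtain ⟨c, rfl⟩ := isConj_iff.mp hy
      rw [hfpf] at hx0 ⊢
      intro d hd
      apply hx0 (c⁻¹ • d)
      have h7 : c • x • c⁻¹ • d = d := by simpa [mul_smul] using hd
      rw [eq_inv_smul_iff]
      exact h7
    · intro hy
      exact hcon x y ((hfpf x).mp hx0) ((hfpf y).mp hy)
  have h3 := card_class_mul_card_centralizer x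
  rw [hclass, hcard, hTval] at h3
  have h4 : (k * (h + 1) + 1) ∣ (h + 1) * (2 * k + 1) := by
    refine ⟨Nat.card (Subgroup.centralizer ({x} : Set G)), ?_⟩
    have h5 : h * ((h + 1) * (2 * k + 1)) = h * ((k * (h + 1) + 1) * Nat.card (Subgroup.centralizer ({x} : Set G))) := by
      rw [show h + 1 - 1 = h from by omega, hk] at h3
      linarith
    exact Nat.eq_of_mul_eq_mul_left (by omega) h5
  have h5 : (h + 1) * (2 * k + 1) = 2 * (k * (h + 1) + 1) + (h - 1) := by
    obtain ⟨m, rfl⟩ : ∃ m, h = m + 1 := ⟨h - 1, by omega⟩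
    simp
    ring
  rw [h5] at h4
  have h6 : (k * (h + 1) + 1) ∣ (h - 1) := (Nat.dvd_add_right (Dvd.intro_left 2 rfl)).mp h4
  have h7 := Nat.le_of_dvd (by omega) h6
  have hk1 : 1 ≤ k := by omega
  nlinarith

end CfsgLib.Char
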