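import Mathlib
import Cfsg.Agent.Lib.Char.ZS1
import Cfsg.Agent.Lib.H9.Zass2
import Cfsg.Agent.Lib.Char.Linear

/-!
# Induced linear characters of simple Zassenhaus groups
-/

set_option linter.unusedSectionVars false
set_option linter.style.haveILetI false
set_option linter.unusedSimpArgs false
set_option linter.unusedVariables false

namespace CfsgLib.Char

open Cfsg MulAction Finset
open scoped ComplexConjugate

variable {G Ω : Type*} [Group G] [Finite G] [MulAction G Ω] [Fintype Ω]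

/-- In a simple Zassenhaus group of odd two-point stabilizer, swapping elements invert the two-point stabilizer. -/
theorem zass_inverts [IsSimpleGroup G] (hZ : IsZassenhausGroup G Ω) {a b : Ω} (hab : a ≠ b)
    (hodd : Odd (Nat.card (stabilizer G a ⊓ stabilizer G b : Subgroup G))) :
    ∀ s : G, s • a = b → s • b = a → ∀ h ∈ stabilizer G a ⊓ stabilizer G b, s * h * s⁻¹ = h⁻¹ := by
  classical
  letI : Fintype G := Fintype.ofFinite G
  refine (CfsgLib.H9.Zass.main_0739 hZ hab hodd ?_).2.2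
  intro q hq hqd
  rintro ⟨N, hN, hidx⟩
  have hqG : q ∣ Nat.card G := hqd.trans (Subgroup.card_subgroup_dvd_card _)
  have hf : (Nat.card G).factorization q ≠ 0 := by
    have := (hq.dvd_iff_one_le_factorization (Nat.card_pos (α := G)).ne').mp hqG
    omega
  rcases IsSimpleGroup.eq_bot_or_eq_top_of_normal N hN with h | h
  · subst h
    rw [Subgroup.index_bot] at hidx
    have hn := zass_three_le_card hZ
    have hcard := zass_card hZ hab
    have h1 : Fintype.card Ω ∣ q ^ (Nat.card G).factorization q := by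
      rw [← hidx, hcard]
      exact ⟨(Fintype.card Ω - 1) * Nat.card (stabilizer G a ⊓ stabilizer G b : Subgroup G), by ring⟩
    have h2 : Fintype.card Ω - 1 ∣ q ^ (Nat.card G).factorization q := by
      rw [← hidx, hcard]
      exact ⟨Fintype.card Ω * Nat.card (stabilizer G a ⊓ stabilizer G b : Subgroup G), by ring⟩
    obtain ⟨i, -, hi⟩ := (Nat.dvd_prime_pow hq).mp h1
    obtain ⟨j, -, hj⟩ := (Nat.dvd_prime_pow hq).mp h2
    have hi0 : i ≠ 0 := by
      rintro rfl
      rw [pow_zero] at hi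
      omega
    have hj0 : j ≠ 0 := by
      rintro rfl
      rw [pow_zero] at hj
      omega
    have h3 : q ∣ Fintype.card Ω := by
      rw [hi]
      exact dvd_pow_self q hi0
    have h4 : q ∣ Fintype.card Ω - 1 := by
      rw [hj]
      exact dvd_pow_self q hj0
    have h5 : q ∣ 1 := by
      have := Nat.dvd_sub h3 h4
      rwa [show Fintype.card Ω - (Fintype.card Ω - 1) = 1 by omega] at this
    exact hq.one_lt.ne' (Nat.dvd_one.mp h5)
  · subst h
    rw [Subgroup.index_top] at hidx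
    have h1 : 1 < q ^ (Nat.card G).factorization q := Nat.one_lt_pow hf hq.one_lt
    omega

/-- The kernel acts transitively on the other points. -/
theorem zass_H_trans (hZ : IsZassenhausGroup G Ω) {a b : Ω} (hab : a ≠ b) {H : Subgroup G}
    (hHa : H ≤ stabilizer G a) (hHcard : Nat.card H + 1 = Fintype.card Ω)
    (hHfix : ∀ u ∈ H, u ≠ 1 → ∀ c : Ω, u • c = c → c = a) {c : Ω} (hc : c ≠ a) : ∃ u ∈ H, u • b = c := by
  classical
  have hinj : Function.Injective (fun u : H => (⟨(u : G) • b, by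
      intro h
      have h1 : (u : G) • a = a := hHa u.2
      apply hab
      have h2 : (u : G) • a = (u : G) • b := by rw [h1, h]
      exact MulAction.injective _ h2⟩ : {x : Ω // x ≠ a})) := by
    intro u v huv
    have h1 : (u : G) • b = (v : G) • b := congrArg Subtype.val huv
    by_contra hne
    have h2 : ((v : G)⁻¹ * u) • b = b := by
      rw [mul_smul, h1, inv_smul_smul]
    have h3 : (v : G)⁻¹ * u ≠ 1 := by
      intro h
      apply hne
      apply Subtype.ext
      exact (inv_mul_eq_one.mp h).symm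
    exact hab (hHfix _ (H.mul_mem (H.inv_mem v.2) u.2) h3 b h2).symm
  have hcard : Nat.card {x : Ω // x ≠ a} ≤ Nat.card H := by
    rw [Nat.card_eq_fintype_card (α := {x : Ω // x ≠ a}), Fintype.card_subtype_compl, Fintype.card_subtype_eq]
    omega
  obtain ⟨u, hu⟩ := (hinj.bijective_of_nat_card_le hcard).2 ⟨c, hc⟩
  exact ⟨u, u.2, congrArg Subtype.val hu⟩

section linear

variable [Fintype G] {a b : Ω} [Fintype (stabilizer G a)] {l : stabilizer G a →* ℂˣ}

/-- The sum over the point stabilizer vanishes for elements outside. -/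
theorem zass_sum_zero (hZ : IsZassenhausGroup G Ω) (hab : a ≠ b)
    (hinv : ∀ s : G, s • a = b → s • b = a → ∀ h ∈ stabilizer G a ⊓ stabilizer G b, s * h * s⁻¹ = h⁻¹)
    {z : G} (hz : z ∈ stabilizer G a ⊓ stabilizer G b) (hza : z ∈ stabilizer G a) (hz2 : (l ⟨z, hza⟩) ^ 2 ≠ 1)
    {y : G} (hy : y ∉ stabilizer G a) :
    ∑ x : stabilizer G a, ((l x : ℂˣ) : ℂ) * conj (extendByZero (stabilizer G a) (fun n => ((l n : ℂˣ) : ℂ)) (y⁻¹ * x * y)) = 0 := by
  classical
  set θ : (stabilizer G a) → ℂ := fun n => ((l n : ℂˣ) : ℂ) with hθ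
  have hya : y • a ≠ a := fun h => hy (mem_stabilizer_iff.mpr h)
  have hya' : y⁻¹ • a ≠ a := by
    intro h
    apply hya
    rw [inv_smul_eq_iff] at h
    exact h.symm
  obtain ⟨n₁, hn₁a, hn₁b⟩ := zass_two (G := G) hZ hab (Ne.symm hya)
  obtain ⟨n₂, hn₂a, hn₂b⟩ := zass_two (G := G) hZ hab (Ne.symm hya')
  have hn₁ : n₁ ∈ (stabilizer G a) := mem_stabilizer_iff.mpr hn₁a
  have hn₂ : n₂ ∈ (stabilizer G a) := mem_stabilizer_iff.mpr hn₂a
  obtain ⟨hza', hzb⟩ := mem_EE.mp hz
  -- the element `x₀`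
  set x₀ : G := n₁ * z * n₁⁻¹ with hx₀
  have hx₀N : x₀ ∈ (stabilizer G a) := (stabilizer G a).mul_mem ((stabilizer G a).mul_mem hn₁ hza) ((stabilizer G a).inv_mem hn₁)
  have hx₀c : x₀ • (y • a) = y • a := by
    rw [hx₀, mul_smul, mul_smul, ← hn₁b, inv_smul_smul, hzb]
  set x₁ : G := y⁻¹ * x₀ * y with hx₁
  have hx₁N : x₁ ∈ (stabilizer G a) := by
    apply mem_stabilizer_iff.mpr
    rw [hx₁, mul_smul, mul_smul, hx₀c, inv_smul_smul]
  set w : G := n₂⁻¹ * (y⁻¹ * n₁) with hw
  have hwa : w • a = b := by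
    rw [hw, mul_smul, mul_smul, hn₁a, inv_smul_eq_iff, hn₂b]
  have hwb : w • b = a := by
    rw [hw, mul_smul, mul_smul, hn₁b, inv_smul_smul, inv_smul_eq_iff, hn₂a]
  have hx₁eq : x₁ = n₂ * z⁻¹ * n₂⁻¹ := by
    have h1 := hinv w hwa hwb z hz
    have h2 : z⁻¹ = n₂⁻¹ * (y⁻¹ * n₁) * z * (n₂⁻¹ * (y⁻¹ * n₁))⁻¹ := h1.symm
    rw [h2, hx₁, hx₀]
    group
  have hzinvN : z⁻¹ ∈ (stabilizer G a) := (stabilizer G a).inv_mem hza
  have hlx₀ : l ⟨x₀, hx₀N⟩ = l ⟨z, hza⟩ := by
    have h1 : (⟨x₀, hx₀N⟩ : (stabilizer G a)) = ⟨n₁, hn₁⟩ * ⟨z, hza⟩ * ⟨n₁, hn₁⟩⁻¹ := Subtype.ext rfl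
    rw [h1, map_mul, map_mul, map_inv]
    simp [mul_comm]
  have hlx₁ : l ⟨x₁, hx₁N⟩ = (l ⟨z, hza⟩)⁻¹ := by
    have h1 : (⟨x₁, hx₁N⟩ : (stabilizer G a)) = ⟨n₂, hn₂⟩ * ⟨z, hza⟩⁻¹ * ⟨n₂, hn₂⟩⁻¹ := Subtype.ext hx₁eq
    rw [h1, map_mul, map_mul, map_inv, map_inv]
    simp [mul_comm]
  have hnorm : ∀ u : ℂˣ, u ^ Nat.card (stabilizer G a) = 1 → conj ((u⁻¹ : ℂˣ) : ℂ) = (u : ℂ) := by
    intro u hu
    have h0 : ((u : ℂ)) ^ Nat.card (stabilizer G a) = 1 := by
      have := congrArg (Units.val) hu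
      simpa using this
    have h1 : ‖(u : ℂ)‖ = 1 := (Complex.norm_eq_one_of_pow_eq_one h0 (Nat.card_pos (α := (stabilizer G a))).ne')
    have h2 : (u : ℂ) * conj (u : ℂ) = 1 := by
      rw [Complex.mul_conj, Complex.normSq_eq_norm_sq, h1]
      simp
    simp only [Units.val_inv_eq_inv_val, map_inv₀]
    have h3 : conj (u : ℂ) ≠ 0 := by
      intro h
      rw [h, mul_zero] at h2
      exact zero_ne_one h2
    field_simp
    rw [mul_comm]
    exact h2.symm
  have hlpow : ∀ n : (stabilizer G a), (l n) ^ Nat.card (stabilizer G a) = 1 := by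
    intro n
    rw [← map_pow, pow_card_eq_one', map_one]
  set lam : ℂ := ((l ⟨z, hza⟩ : ℂˣ) : ℂ) ^ 2 with hlam
  have hlam1 : lam ≠ 1 := by
    intro h
    apply hz2
    apply Units.ext
    push_cast
    exact h
  set f : (stabilizer G a) → ℂ := fun x => θ x * conj (extendByZero (stabilizer G a) θ (y⁻¹ * x * y)) with hf
  have hshift : ∀ x : (stabilizer G a), f (⟨x₀, hx₀N⟩ * x) = lam * f x := by
    intro x
    have hcoe : y⁻¹ * ((⟨x₀, hx₀N⟩ * x : (stabilizer G a)) : G) * y = x₁ * (y⁻¹ * x * y) := by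
      simp only [Subgroup.coe_mul, hx₁]
      group
    simp only [hf]
    rw [hcoe]
    have hθ₀ : θ (⟨x₀, hx₀N⟩ * x) = ((l ⟨z, hza⟩ : ℂˣ) : ℂ) * θ x := by
      simp only [hθ, map_mul, hlx₀]
      push_cast
      rfl
    rw [hθ₀]
    by_cases hmem : y⁻¹ * x * y ∈ (stabilizer G a)
    · have hmem' : x₁ * (y⁻¹ * x * y) ∈ (stabilizer G a) := (stabilizer G a).mul_mem hx₁N hmem
      rw [extendByZero_of_mem _ _ hmem', extendByZero_of_mem _ _ hmem]
      have h1 : θ ⟨x₁ * (y⁻¹ * x * y), hmem'⟩ = ((l ⟨x₁, hx₁N⟩ : ℂˣ) : ℂ) * θ ⟨y⁻¹ * x * y, hmem⟩ := by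
        have h2 : (⟨x₁ * (y⁻¹ * x * y), hmem'⟩ : (stabilizer G a)) = ⟨x₁, hx₁N⟩ * ⟨y⁻¹ * x * y, hmem⟩ := rfl
        simp only [hθ]
        rw [h2, map_mul]
        rfl
      rw [h1, map_mul, hlx₁, hnorm _ (hlpow _), hlam]
      ring
    · have hmem' : x₁ * (y⁻¹ * x * y) ∉ (stabilizer G a) := fun h => hmem (by
        have := (stabilizer G a).mul_mem ((stabilizer G a).inv_mem hx₁N) h
        simpa using this)
      rw [extendByZero_of_not_mem _ _ hmem', extendByZero_of_not_mem _ _ hmem]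
      simp
  have hsum : ∑ x : (stabilizer G a), f x = lam * ∑ x : (stabilizer G a), f x := by
    rw [Finset.mul_sum]
    rw [← Equiv.sum_comp (Equiv.mulLeft (⟨x₀, hx₀N⟩ : (stabilizer G a))) f]
    exact Finset.sum_congr rfl fun x _ => hshift x
  have h0 : (1 - lam) * ∑ x : (stabilizer G a), f x = 0 := by
    linear_combination hsum
  exact (mul_eq_zero.mp h0).resolve_left (sub_ne_zero.mpr (Ne.symm hlam1))

end linear

/-- S0881 -/
theorem zass_ind_irr [Fintype G] [IsSimpleGroup G] (hZ : IsZassenhausGroup G Ω) {a b : Ω} (hab : a ≠ b)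
    (hodd : Odd (Nat.card (stabilizer G a ⊓ stabilizer G b : Subgroup G)))
    (H : Subgroup G) (hHa : H ≤ stabilizer G a) (hHcard : Nat.card H + 1 = Fintype.card Ω)
    (hHfix : ∀ u ∈ H, u ≠ 1 → ∀ c : Ω, u • c = c → c = a) (μ : stabilizer G a → ℂ)
    (hμ : IsCharacter (stabilizer G a) μ ∧ μ 1 = 1) (hμH : ∀ u : stabilizer G a, (u : G) ∈ H → μ u = 1)
    (hμne : μ ≠ fun _ => 1) :
    IsIrrCharacter G (indFun (stabilizer G a) μ) ∧ ∀ u ∈ H, u ≠ 1 → indFun (stabilizer G a) μ u = 1 := by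
  classical
  letI : Fintype (stabilizer G a) := Fintype.ofFinite _
  obtain ⟨l, rfl⟩ := exists_hom_of_degree_one hμ.1 hμ.2
  set μ' : (stabilizer G a) → ℂ := fun g => ((l g : ℂˣ) : ℂ) with hμ'
  have hinv := zass_inverts hZ hab hodd
  have hle : ∀ z ∈ (stabilizer G a ⊓ stabilizer G b : Subgroup G), z ∈ (stabilizer G a) := fun z hz => (mem_EE.mp hz).1
  -- a witness
  obtain ⟨z, hz, hz2⟩ : ∃ z, ∃ hz : z ∈ (stabilizer G a ⊓ stabilizer G b : Subgroup G), (l ⟨z, hle z hz⟩) ^ 2 ≠ 1 := by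
    by_contra hcon
    push Not at hcon
    apply hμne
    funext x
    have hxb : (x : G) • b ≠ a := by
      intro h
      have h1 : (x : G) • a = a := x.2
      apply hab
      have h2 : (x : G) • a = (x : G) • b := by rw [h1, h]
      exact MulAction.injective _ h2
    obtain ⟨u, hu, hub⟩ := zass_H_trans hZ hab hHa hHcard hHfix hxb
    have huN : u ∈ (stabilizer G a) := hHa hu
    have hv : u⁻¹ * x ∈ (stabilizer G a ⊓ stabilizer G b : Subgroup G) := by
      refine mem_EE.mpr ⟨?_, ?_⟩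
      · have h1 : (x : G) • a = a := x.2
        have h2 : u⁻¹ • a = a := by
          have := (stabilizer G a).inv_mem huN
          exact this
        rw [mul_smul, h1, h2]
      · rw [mul_smul, ← hub, inv_smul_smul]
    have hvN := hle _ hv
    have h3 := hcon _ hv
    -- odd order
    obtain ⟨k, hk⟩ := hodd
    have h4 : (l ⟨u⁻¹ * x, hvN⟩) ^ Nat.card (stabilizer G a ⊓ stabilizer G b : Subgroup G) = 1 := by
      rw [← map_pow]
      have h5 : (⟨u⁻¹ * x, hvN⟩ : (stabilizer G a)) ^ Nat.card (stabilizer G a ⊓ stabilizer G b : Subgroup G) = 1 := by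
        apply Subtype.ext
        have h6 := pow_card_eq_one' (G := (stabilizer G a ⊓ stabilizer G b : Subgroup G)) (x := ⟨u⁻¹ * x, hv⟩)
        have h7 := congrArg Subtype.val h6
        simpa using h7
      rw [h5, map_one]
    have h8 : l ⟨u⁻¹ * x, hvN⟩ = 1 := by
      rw [hk, pow_succ, pow_mul, h3, one_pow, one_mul] at h4
      exact h4
    have h9 : x = ⟨u, huN⟩ * ⟨u⁻¹ * x, hvN⟩ := Subtype.ext (by simp)
    have h11 : l x = l ⟨u, huN⟩ * l ⟨u⁻¹ * x, hvN⟩ := by
      rw [← map_mul]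
      congr 1
    have h10 : μ' x = μ' ⟨u, huN⟩ * μ' ⟨u⁻¹ * x, hvN⟩ := by
      simp only [hμ']
      rw [h11]
      simp
    rw [h10, hμH ⟨u, huN⟩ hu]
    simp [hμ', h8]
  have hzero : ∀ y : G, y ∉ (stabilizer G a) → ∑ x : (stabilizer G a), μ' x * conj (extendByZero (stabilizer G a) μ' (y⁻¹ * x * y)) = 0 :=
    fun y hy => zass_sum_zero hZ hab hinv hz (hle z hz) hz2 hy
  have hcl : IsClassFunction (stabilizer G a) μ' := hμ.1.isClassFunction
  have hnorm : classInner μ' μ' = 1 := classInner_irr_self (isIrr_of_hom l)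
  have hcN : (Nat.card (stabilizer G a) : ℂ) ≠ 0 := card_ne_zero_C (stabilizer G a)
  have hNsum : ∑ x : (stabilizer G a), μ' x * conj (μ' x) = (Nat.card (stabilizer G a) : ℂ) := by
    rw [classInner_def] at hnorm
    field_simp at hnorm
    exact hnorm
  have hself : classInner (indFun (stabilizer G a) μ') (indFun (stabilizer G a) μ') = 1 := by
    rw [frobenius (stabilizer G a) μ' (indFun_isClass (stabilizer G a) μ'), classInner_def]
    have h1 : ∀ x : (stabilizer G a), μ' x * conj (indFun (stabilizer G a) μ' x) =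
        (Nat.card (stabilizer G a) : ℂ)⁻¹ * ∑ y : G, μ' x * conj (extendByZero (stabilizer G a) μ' (y⁻¹ * x * y)) := by
      intro x
      rw [indFun_def, map_mul, map_sum, Finset.mul_sum, Finset.mul_sum, Finset.mul_sum]
      refine Finset.sum_congr rfl fun y _ => ?_
      simp only [map_inv₀, Complex.conj_natCast]
      ring
    rw [Finset.sum_congr rfl (fun x _ => h1 x), ← Finset.mul_sum, Finset.sum_comm]
    have h2 : ∑ y : G, ∑ x : (stabilizer G a), μ' x * conj (extendByZero (stabilizer G a) μ' (y⁻¹ * x * y)) = ∑ y : (stabilizer G a), ∑ x : (stabilizer G a),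
        μ' x * conj (extendByZero (stabilizer G a) μ' ((y : G)⁻¹ * x * y)) := by
      exact sum_eq_sum_subgroup (stabilizer G a) _ (fun y hy => hzero y hy)
    rw [h2]
    have h3 : ∀ y : (stabilizer G a), ∑ x : (stabilizer G a), μ' x * conj (extendByZero (stabilizer G a) μ' ((y : G)⁻¹ * x * y)) = (Nat.card (stabilizer G a) : ℂ) := by
      intro y
      rw [← hNsum]
      refine Finset.sum_congr rfl fun x _ => ?_
      have hmem : (y : G)⁻¹ * x * y ∈ (stabilizer G a) := (stabilizer G a).mul_mem ((stabilizer G a).mul_mem ((stabilizer G a).inv_mem y.2) x.2) y.2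
      rw [extendByZero_of_mem _ _ hmem]
      have h4 : μ' ⟨(y : G)⁻¹ * x * y, hmem⟩ = μ' x := by
        have h5 := hcl x y⁻¹
        have h6 : (⟨(y : G)⁻¹ * x * y, hmem⟩ : (stabilizer G a)) = y⁻¹ * x * y⁻¹⁻¹ := by
          apply Subtype.ext
          simp
        rw [h6, h5]
      rw [h4]
    rw [Finset.sum_congr rfl (fun y _ => h3 y), Finset.sum_const, Finset.card_univ, nsmul_eq_mul,
      ← Nat.card_eq_fintype_card]
    field_simp
  refine ⟨(isCharacter_indFun (stabilizer G a) hμ.1).isIrr_of_norm hself, ?_⟩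
  intro u hu hu1
  have hker := zass_point_kernel hZ a H hHa hHcard hHfix
  have hnormal : ∀ y ∈ (stabilizer G a), y⁻¹ * u * y ∈ H := by
    intro y hy
    have h1 : y⁻¹ ∈ Subgroup.normalizer (H : Set G) := by
      rw [hker.2]
      exact (stabilizer G a).inv_mem hy
    have h2 := (Subgroup.mem_normalizer_iff.mp h1 u).mp hu
    simpa using h2
  rw [indFun_def]
  have h1 : ∑ y : G, extendByZero (stabilizer G a) μ' (y⁻¹ * u * y) = ∑ y : (stabilizer G a), (1 : ℂ) := by
    rw [sum_eq_sum_subgroup (stabilizer G a)]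
    · refine Finset.sum_congr rfl fun y _ => ?_
      have hmem := hnormal y y.2
      rw [extendByZero_of_mem _ _ (hHa hmem)]
      exact hμH ⟨_, hHa hmem⟩ hmem
    · intro y hy
      apply extendByZero_of_not_mem
      intro h
      apply hy
      have h2 : u • (y • a) = y • a := by
        have h3 : (y⁻¹ * u * y) • a = a := h
        rw [mul_smul, mul_smul, inv_smul_eq_iff] at h3
        exact h3
      exact mem_stabilizer_iff.mpr (hHfix u hu hu1 _ h2)
  rw [h1, Finset.sum_const, Finset.card_univ, nsmul_eq_mul, mul_one, ← Nat.card_eq_fintype_card]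
  field_simp

end CfsgLib.Char
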