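import Mathlib
import Cfsg.Agent.Lib.Char.ZS2

/-!
# Involutions in simple Zassenhaus groups
-/

set_option linter.unusedSectionVars false
set_option linter.style.haveILetI false
set_option linter.unusedSimpArgs false
set_option linter.unusedVariables false

namespace CfsgLib.Char

open Cfsg MulAction Finset

variable {G Ω : Type*} [Group G] [Finite G] [MulAction G Ω] [Fintype Ω]

theorem inv_of_order_two {x : G} (hx : orderOf x = 2) : x * x = 1 := by
  rw [← pow_two, ← hx, pow_orderOf_eq_one]

theorem ne_one_of_order_two {x : G} (hx : orderOf x = 2) : x ≠ 1 := by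
  rintro rfl
  rw [orderOf_one] at hx
  omega

theorem order_two_of {x : G} (h : x * x = 1) (h1 : x ≠ 1) : orderOf x = 2 :=
  orderOf_eq_prime (by rw [pow_two, h]) h1

/-- An element of the two-point stabilizer squaring to one is trivial. -/
theorem EE_sq (hZ : IsZassenhausGroup G Ω) {a b c d : Ω} (hab : a ≠ b) (hcd : c ≠ d)
    (hodd : Odd (Nat.card (stabilizer G a ⊓ stabilizer G b : Subgroup G))) {x : G} (hc : x • c = c) (hd : x • d = d)
    (h : x * x = 1) : x = 1 := by
  by_contra hx
  have h1 : orderOf x = 2 := order_two_of h hx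
  have hmem : x ∈ (stabilizer G c ⊓ stabilizer G d : Subgroup G) := mem_EE.mpr ⟨hc, hd⟩
  have h2 : orderOf x ∣ Nat.card (stabilizer G c ⊓ stabilizer G d : Subgroup G) := by
    have h3 := orderOf_dvd_natCard (⟨x, hmem⟩ : (stabilizer G c ⊓ stabilizer G d : Subgroup G))
    rwa [Subgroup.orderOf_mk] at h3
  rw [card_EE_eq hZ hab hcd, h1] at h2
  obtain ⟨k, hk⟩ := hodd
  omega

/-- Involutions are all conjugate. -/
theorem invol_conj (hZ : IsZassenhausGroup G Ω) {a b : Ω} (hab : a ≠ b)
    (hodd : Odd (Nat.card (stabilizer G a ⊓ stabilizer G b : Subgroup G))) {x y : G} (hx : orderOf x = 2)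
    (hy : orderOf y = 2) : IsConj x y := by
  classical
  haveI := hZ.1
  have hmoved : ∀ {t : G}, t ≠ 1 → ∃ c : Ω, t • c ≠ c := by
    intro t ht
    by_contra hcon
    push Not at hcon
    apply ht
    apply FaithfulSMul.eq_of_smul_eq_smul (α := Ω)
    intro c
    rw [hcon c, one_smul]
  obtain ⟨c, hc⟩ := hmoved (ne_one_of_order_two hx)
  obtain ⟨d, hd⟩ := hmoved (ne_one_of_order_two hy)
  obtain ⟨g, hg1, hg2⟩ := zass_two (G := G) hZ (Ne.symm hc) (Ne.symm hd)
  have hxx := inv_of_order_two hx
  have hyy := inv_of_order_two hy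
  set x' := g * x * g⁻¹ with hx'
  have hx'x' : x' * x' = 1 := by
    rw [hx']
    calc g * x * g⁻¹ * (g * x * g⁻¹) = g * (x * x) * g⁻¹ := by group
      _ = 1 := by rw [hxx]; group
  have hx'd : x' • d = y • d := by
    rw [hx', ← hg1, mul_smul, mul_smul, inv_smul_smul, hg2, hg1]
  have hx'yd : x' • (y • d) = d := by
    show (g * x * g⁻¹) • (y • d) = d
    rw [← hg2]
    simp only [mul_smul, inv_smul_smul]
    rw [← mul_smul x x, hxx, one_smul, hg1]
  set z := y * x' with hz
  have hyyd : y • (y • d) = d := by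
    rw [← mul_smul, hyy, one_smul]
  have hzd : z • d = d := by
    rw [hz, mul_smul, hx'd, hyyd]
  have hzyd : z • (y • d) = y • d := by
    rw [hz, mul_smul, hx'yd]
  have hmem : z ∈ (stabilizer G d ⊓ stabilizer G (y • d) : Subgroup G) := mem_EE.mpr ⟨hzd, hzyd⟩
  have hoddz : Odd (orderOf z) := by
    have h3 := orderOf_dvd_natCard (⟨z, hmem⟩ : (stabilizer G d ⊓ stabilizer G (y • d) : Subgroup G))
    rw [Subgroup.orderOf_mk, card_EE_eq hZ hab (Ne.symm hd)] at h3
    exact Odd.of_dvd_nat hodd h3
  obtain ⟨k, hk⟩ := hoddz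
  have hyz : y * z * y = z⁻¹ := by
    have h1 : z * (y * z * y) = 1 := by
      rw [hz]
      calc y * x' * (y * (y * x') * y) = y * x' * ((y * y) * x' * y) := by group
        _ = y * (x' * x') * y := by rw [hyy]; group
        _ = y * y := by rw [hx'x']; group
        _ = 1 := hyy
    exact eq_inv_of_mul_eq_one_right h1
  have hyzk : ∀ n : ℕ, y * z ^ n * y = (z⁻¹) ^ n := by
    intro n
    induction n with
    | zero => simpa using hyy
    | succ n ih =>
      calc y * z ^ (n + 1) * y = (y * z ^ n * y) * (y * z * y) := by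
            rw [pow_succ]
            calc y * (z ^ n * z) * y = y * z ^ n * 1 * z * y := by group
              _ = y * z ^ n * (y * y) * z * y := by rw [hyy]
              _ = _ := by group
        _ = (z⁻¹) ^ (n + 1) := by rw [ih, hyz, pow_succ]
  have h2 : z ^ k * y * z⁻¹ ^ k = x' := by
    have h3 : z ^ (2 * k + 1) = 1 := by rw [← hk, pow_orderOf_eq_one]
    have h4 : z ^ k * y = y * z⁻¹ ^ k := by
      have h5 := hyzk k
      calc z ^ k * y = (y * y) * z ^ k * y := by rw [hyy, one_mul]
        _ = y * (y * z ^ k * y) := by group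
        _ = y * z⁻¹ ^ k := by rw [h5]
    rw [h4, mul_assoc, ← pow_add]
    have h6 : z⁻¹ ^ (k + k) = z := by
      have h7 : z⁻¹ ^ (k + k) * z⁻¹ = 1 := by
        rw [← pow_succ, show k + k + 1 = 2 * k + 1 by ring, inv_pow, h3, inv_one]
      exact (mul_eq_one_iff_eq_inv.mp h7).trans (inv_inv z)
    rw [h6, hz]
    calc y * (y * x') = (y * y) * x' := by group
      _ = x' := by rw [hyy, one_mul]
  have h7 : IsConj y x' := by
    refine isConj_iff.mpr ⟨z ^ k, ?_⟩
    rw [← h2, inv_pow]
  have h8 : IsConj x x' := isConj_iff.mpr ⟨g, rfl⟩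
  exact h8.trans h7.symm

/-- In a simple Zassenhaus group, elements interchanging two points are involutions. -/
theorem swap_sq [IsSimpleGroup G] (hZ : IsZassenhausGroup G Ω) {a b : Ω} (hab : a ≠ b)
    (hodd : Odd (Nat.card (stabilizer G a ⊓ stabilizer G b : Subgroup G))) {s : G} (h1 : s • a = b) (h2 : s • b = a) :
    s * s = 1 := by
  have hinv := zass_inverts hZ hab hodd s h1 h2
  have hmem : s * s ∈ (stabilizer G a ⊓ stabilizer G b : Subgroup G) := by
    refine mem_EE.mpr ⟨?_, ?_⟩
    · rw [mul_smul, h1, h2]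
    · rw [mul_smul, h2, h1]
  have h3 := hinv _ hmem
  have h4 : s * (s * s) * s⁻¹ = s * s := by group
  rw [h4] at h3
  have h5 : (s * s) * (s * s) = 1 := by
    nth_rewrite 1 [h3]
    group
  exact EE_sq hZ hab hab hodd (mem_EE.mp hmem).1 (mem_EE.mp hmem).2 h5

/-- The involutions sending one point to another. -/
theorem card_inv_pair [Fintype G] [IsSimpleGroup G] (hZ : IsZassenhausGroup G Ω) {a b c d : Ω} (hab : a ≠ b) (hcd : c ≠ d)
    (hodd : Odd (Nat.card (stabilizer G a ⊓ stabilizer G b : Subgroup G))) :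
    open Classical in
    (univ.filter (fun t : G => orderOf t = 2 ∧ t • c = d)).card = Nat.card (stabilizer G a ⊓ stabilizer G b : Subgroup G) := by
  classical
  have hodd' : Odd (Nat.card (stabilizer G c ⊓ stabilizer G d : Subgroup G)) := by
    rwa [card_EE_eq hZ hab hcd]
  rw [← card_fiber hZ hab hcd hcd.symm]
  congr 1
  ext t
  simp only [Finset.mem_filter, Finset.mem_univ, true_and]
  constructor
  · rintro ⟨h1, h2⟩
    refine ⟨h2, ?_⟩
    have h3 := inv_of_order_two h1
    rw [← h2, ← mul_smul, h3, one_smul]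
  · rintro ⟨h1, h2⟩
    refine ⟨order_two_of (swap_sq hZ hcd hodd' h1 h2) ?_, h1⟩
    rintro rfl
    rw [one_smul] at h1
    exact hcd h1

/-- An involution has at most one fixed point. -/
theorem fixN_inv_le (hZ : IsZassenhausGroup G Ω) {a b : Ω} (hab : a ≠ b)
    (hodd : Odd (Nat.card (stabilizer G a ⊓ stabilizer G b : Subgroup G))) {t : G} (ht : orderOf t = 2) : fixN t Ω ≤ 1 := by
  classical
  by_contra h
  push Not at h
  obtain ⟨c, hc, d, hd, hcd⟩ := Finset.one_lt_card.mp h
  simp only [Finset.mem_filter, Finset.mem_univ, true_and] at hc hd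
  exact ne_one_of_order_two ht (EE_sq hZ hab hcd hodd hc hd (inv_of_order_two ht))

theorem fixN_parity {t : G} (ht : orderOf t = 2) : Fintype.card Ω ≡ fixN t Ω [MOD 2] := by
  classical
  haveI : Fact (Nat.Prime 2) := ⟨Nat.prime_two⟩
  have h1 := Equiv.Perm.card_fixedPoints_modEq (α := Ω) (f := fun c => t • c) (p := 2) (n := 1) (by
    funext c
    have h3 := inv_of_order_two ht
    show t • t • c = c
    rw [← mul_smul, h3, one_smul])
  convert h1 using 1
  rw [fixN]
  symm
  apply Fintype.card_of_subtype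
  intro x
  simp [Function.fixedPoints, Function.IsFixedPt]

/-- The double count of moved points of involutions. -/
theorem sum_moved [Fintype G] [IsSimpleGroup G] (hZ : IsZassenhausGroup G Ω) {a b : Ω} (hab : a ≠ b)
    (hodd : Odd (Nat.card (stabilizer G a ⊓ stabilizer G b : Subgroup G))) :
    open Classical in
    ∑ t ∈ univ.filter (fun t : G => orderOf t = 2), (Fintype.card Ω - fixN t Ω) =
      Fintype.card Ω * (Fintype.card Ω - 1) * Nat.card (stabilizer G a ⊓ stabilizer G b : Subgroup G) := by
  classical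
  set e := Nat.card (stabilizer G a ⊓ stabilizer G b : Subgroup G) with he
  have h1 : ∀ t : G, Fintype.card Ω - fixN t Ω = ∑ c : Ω, ∑ d ∈ univ.erase c, if t • c = d then 1 else 0 := by
    intro t
    have h2 : ∀ c : Ω, (∑ d ∈ univ.erase c, if t • c = d then 1 else 0) = if t • c = c then 0 else 1 := by
      intro c
      rw [Finset.sum_ite_eq]
      simp only [Finset.mem_erase, Finset.mem_univ, and_true]
      by_cases h : t • c = c <;> simp [h]
    simp only [h2]
    have h3 : fixN t Ω + ∑ c : Ω, (if t • c = c then 0 else 1) = Fintype.card Ω := by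
      rw [fixN, Finset.card_filter, ← Finset.sum_add_distrib, ← Finset.card_univ, Finset.card_eq_sum_ones]
      refine Finset.sum_congr rfl fun c _ => ?_
      by_cases h : t • c = c <;> simp [h]
    omega
  rw [Finset.sum_congr rfl (fun t _ => h1 t), Finset.sum_comm]
  have h2 : ∀ c : Ω, ∑ t ∈ univ.filter (fun t : G => orderOf t = 2), ∑ d ∈ univ.erase c, (if t • c = d then 1 else 0) =
      (Fintype.card Ω - 1) * e := by
    intro c
    rw [Finset.sum_comm]
    have h3 : ∀ d ∈ univ.erase c, ∑ t ∈ univ.filter (fun t : G => orderOf t = 2), (if t • c = d then 1 else 0) = e := by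
      intro d hd
      rw [← Finset.card_filter, Finset.filter_filter]
      exact card_inv_pair hZ hab (Finset.mem_erase.mp hd).1.symm hodd
    rw [Finset.sum_congr rfl h3, Finset.sum_const, Finset.card_erase_of_mem (Finset.mem_univ _), Finset.card_univ,
      smul_eq_mul]
  rw [Finset.sum_congr rfl (fun c _ => h2 c), Finset.sum_const, Finset.card_univ, smul_eq_mul]
  ring

/-- The number of involutions. -/
theorem card_involutions [Fintype G] [IsSimpleGroup G] (hZ : IsZassenhausGroup G Ω) {a b : Ω} (hab : a ≠ b)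
    (h e : ℕ) (hh : Fintype.card Ω = h + 1) (he : Nat.card (stabilizer G a ⊓ stabilizer G b : Subgroup G) = e)
    (hodd : Odd e) : Nat.card {x : G // orderOf x = 2} = if Even h then e * (h + 1) else e * h := by
  classical
  have hodd' : Odd (Nat.card (stabilizer G a ⊓ stabilizer G b : Subgroup G)) := he ▸ hodd
  have h1 := sum_moved hZ hab hodd'
  have hn := zass_three_le_card hZ
  rw [he, hh] at h1
  have hcard : Nat.card {x : G // orderOf x = 2} = (univ.filter (fun t : G => orderOf t = 2)).card := by
    rw [Nat.card_eq_fintype_card, Fintype.card_subtype]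
  rw [hcard]
  have hfix : ∀ t ∈ univ.filter (fun t : G => orderOf t = 2), fixN t Ω ≤ 1 ∧ (Fintype.card Ω) % 2 = (fixN t Ω) % 2 := by
    intro t ht
    have ht' := (Finset.mem_filter.mp ht).2
    exact ⟨fixN_inv_le hZ hab hodd' ht', fixN_parity ht'⟩
  split_ifs with hev
  · have h2 : ∀ t ∈ univ.filter (fun t : G => orderOf t = 2), (h + 1 - fixN t Ω) = h := by
      intro t ht
      obtain ⟨h3, h4⟩ := hfix t ht
      obtain ⟨k, hk⟩ := hev
      rw [hh] at h4
      omega
    rw [Finset.sum_congr rfl h2, Finset.sum_const, smul_eq_mul] at h1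
    have hh0 : 0 < h := by omega
    apply Nat.eq_of_mul_eq_mul_right hh0
    rw [h1]
    simp
    ring
  · have h2 : ∀ t ∈ univ.filter (fun t : G => orderOf t = 2), (h + 1 - fixN t Ω) = h + 1 := by
      intro t ht
      obtain ⟨h3, h4⟩ := hfix t ht
      rw [Nat.not_even_iff_odd] at hev
      obtain ⟨k, hk⟩ := hev
      rw [hh] at h4
      omega
    rw [Finset.sum_congr rfl h2, Finset.sum_const, smul_eq_mul] at h1
    apply Nat.eq_of_mul_eq_mul_right (Nat.succ_pos h)
    rw [h1]
    simp
    ring

end CfsgLib.Char
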