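import Mathlib
import Cfsg.Agent.Lib.Char.ZS3

/-!
# Products of involutions in simple Zassenhaus groups
-/

set_option linter.unusedSectionVars false
set_option linter.style.haveILetI false
set_option linter.unusedSimpArgs false
set_option linter.unusedVariables false

namespace CfsgLib.Char

open Cfsg MulAction Finset

variable {G Ω : Type*} [Group G] [Finite G] [MulAction G Ω] [Fintype Ω]

section

variable {a b : Ω} {H : Subgroup G}

/-- Elements of the point stabilizer outside the kernel fix a second point. -/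
theorem zass_N_fix (hZ : IsZassenhausGroup G Ω) (hab : a ≠ b) (hHa : H ≤ stabilizer G a)
    (hHcard : Nat.card H + 1 = Fintype.card Ω) (hHfix : ∀ u ∈ H, u ≠ 1 → ∀ c : Ω, u • c = c → c = a)
    {g : G} (hg : g • a = a) (hgH : g ∉ H) : ∃ c : Ω, c ≠ a ∧ g • c = c := by
  classical
  have hker := zass_point_kernel hZ a H hHa hHcard hHfix
  have hnormal : ∀ y : G, y • a = a → ∀ u ∈ H, y * u * y⁻¹ ∈ H := by
    intro y hy u hu
    have h1 : y ∈ Subgroup.normalizer (H : Set G) := by
      rw [hker.2]
      exact hy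
    exact (Subgroup.mem_normalizer_iff.mp h1 u).mp hu
  have hgb : g • b ≠ a := by
    intro h
    apply hab
    have h2 : g • a = g • b := by rw [hg, h]
    exact MulAction.injective _ h2
  obtain ⟨v, hv, hvb⟩ := zass_H_trans hZ hab hHa hHcard hHfix hgb
  have hva : v • a = a := hHa hv
  set z := v⁻¹ * g with hz
  have hza : z • a = a := by
    rw [hz, mul_smul, hg, inv_smul_eq_iff, hva]
  have hzb : z • b = b := by
    rw [hz, mul_smul, ← hvb, inv_smul_smul]
  have hz1 : z ≠ 1 := by
    intro h
    apply hgH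
    have : g = v := (inv_mul_eq_one.mp h).symm
    rw [this]
    exact hv
  have hmemΦ : ∀ u : H, (u : G) * (z * (u : G)⁻¹ * z⁻¹) ∈ H := fun u =>
    H.mul_mem u.2 (hnormal z hza _ (H.inv_mem u.2))
  let Φ : H → H := fun u => ⟨(u : G) * (z * (u : G)⁻¹ * z⁻¹), hmemΦ u⟩
  have hinj : Function.Injective Φ := by
    intro u u' h
    have h1 : (u : G) * (z * (u : G)⁻¹ * z⁻¹) = (u' : G) * (z * (u' : G)⁻¹ * z⁻¹) := congrArg Subtype.val h
    set w : G := (u' : G)⁻¹ * u with hw
    have hwH : w ∈ H := H.mul_mem (H.inv_mem u'.2) u.2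
    have h2 : w * z = z * w := by
      have h3 : (u : G) * z * (u : G)⁻¹ = (u' : G) * z * (u' : G)⁻¹ := by
        have h4 : (u : G) * (z * (u : G)⁻¹ * z⁻¹) * z = (u' : G) * (z * (u' : G)⁻¹ * z⁻¹) * z := by rw [h1]
        calc (u : G) * z * (u : G)⁻¹ = (u : G) * (z * (u : G)⁻¹ * z⁻¹) * z := by group
          _ = (u' : G) * (z * (u' : G)⁻¹ * z⁻¹) * z := h4
          _ = _ := by group
      rw [hw]
      calc (u' : G)⁻¹ * u * z = (u' : G)⁻¹ * ((u : G) * z * (u : G)⁻¹) * u := by group
        _ = (u' : G)⁻¹ * ((u' : G) * z * (u' : G)⁻¹) * u := by rw [h3]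
        _ = _ := by group
    by_contra hne
    have hw1 : w ≠ 1 := by
      intro h
      apply hne
      apply Subtype.ext
      exact (inv_mul_eq_one.mp h).symm
    have hwa : w • a = a := hHa hwH
    have hzw : z • (w • b) = w • b := by
      rw [← mul_smul, ← h2, mul_smul, hzb]
    have hwb1 : w • b ≠ a := by
      intro h
      apply hab
      have h3 : w • a = w • b := by rw [hwa, h]
      exact MulAction.injective _ h3
    have hwb2 : w • b ≠ b := fun h => hab (hHfix w hwH hw1 b h).symm
    exact hz1 (zass_three hZ hab (Ne.symm hwb2) (Ne.symm hwb1) hza hzb hzw)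
  obtain ⟨u, hu⟩ := (Finite.injective_iff_surjective.mp hinj) ⟨v, hv⟩
  have h1 : (u : G) * (z * (u : G)⁻¹ * z⁻¹) = v := congrArg Subtype.val hu
  have h2 : (u : G) * z * (u : G)⁻¹ = g := by
    calc (u : G) * z * (u : G)⁻¹ = ((u : G) * (z * (u : G)⁻¹ * z⁻¹)) * z := by group
      _ = v * z := by rw [h1]
      _ = g := by rw [hz]; group
  have hua : (u : G) • a = a := hHa u.2
  refine ⟨(u : G) • b, ?_, ?_⟩
  · intro h
    apply hab
    have h3 : (u : G) • a = (u : G) • b := by rw [hua, h]
    exact MulAction.injective _ h3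
  · rw [← h2, mul_smul, mul_smul, inv_smul_smul, hzb]

/-- Product of two involutions lying in the kernel: the factors fix the point. -/
theorem prod_fix (hHa : H ≤ stabilizer G a) (hHfix : ∀ u ∈ H, u ≠ 1 → ∀ c : Ω, u • c = c → c = a)
    {u x y : G} (hu : u ∈ H) (hu1 : u ≠ 1) (hx : x * x = 1) (hy : y * y = 1) (hxy : x * y = u) :
    x • a = a ∧ y • a = a := by
  have hua : u • a = a := hHa hu
  have h1 : y • a = x • a := by
    have h2 : x • (y • a) = a := by
      rw [← mul_smul, hxy, hua]
    have h3 : x • (x • a) = a := by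
      rw [← mul_smul, hx, one_smul]
    exact MulAction.injective x (h2.trans h3.symm)
  have huinv : u⁻¹ = y * x := by
    rw [← hxy, mul_inv_rev]
    have hx' : x⁻¹ = x := inv_eq_of_mul_eq_one_left hx
    have hy' : y⁻¹ = y := inv_eq_of_mul_eq_one_left hy
    rw [hx', hy']
  have h4 : u⁻¹ • (x • a) = x • a := by
    rw [huinv, mul_smul, ← mul_smul x x, hx, one_smul, h1]
  have h5 : x • a = a := hHfix u⁻¹ (H.inv_mem hu) (inv_ne_one.mpr hu1) _ h4
  exact ⟨h5, h1.trans h5⟩

/-- S0883: involutions in the kernel are central in the kernel and their products are involutions. -/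
theorem zass_inv_central [IsSimpleGroup G] (hZ : IsZassenhausGroup G Ω) (hab : a ≠ b) (h e : ℕ)
    (hh : Fintype.card Ω = h + 1) (he : Nat.card (stabilizer G a ⊓ stabilizer G b : Subgroup G) = e) (hodd : Odd e)
    (hHa : H ≤ stabilizer G a) (hHcard : Nat.card H + 1 = Fintype.card Ω)
    (hHfix : ∀ u ∈ H, u ≠ 1 → ∀ c : Ω, u • c = c → c = a) {x : G} (hx : orderOf x = 2) (hxa : x • a = a) :
    x ∈ H ∧ ∀ y ∈ H, x * y = y * x := by
  classical
  letI : Fintype G := Fintype.ofFinite G
  have hodd' : Odd (Nat.card (stabilizer G a ⊓ stabilizer G b : Subgroup G)) := he ▸ hodd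
  have hxx := inv_of_order_two hx
  have hxH : x ∈ H := by
    by_contra hxH
    obtain ⟨c, hc, hcf⟩ := zass_N_fix hZ hab hHa hHcard hHfix hxa hxH
    exact ne_one_of_order_two hx (EE_sq hZ hab (Ne.symm hc) hodd' hxa hcf hxx)
  refine ⟨hxH, ?_⟩
  have hHh : Nat.card H = h := by omega
  have hx1 := ne_one_of_order_two hx
  have heven : Even h := by
    have h1 := orderOf_dvd_natCard (⟨x, hxH⟩ : H)
    rw [Subgroup.orderOf_mk, hx, hHh] at h1
    exact even_iff_two_dvd.mpr h1
  have hcount := card_involutions hZ hab h e hh he hodd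
  rw [if_pos heven] at hcount
  have hclass : Nat.card {y // IsConj x y} = e * (h + 1) := by
    rw [← hcount]
    apply Nat.card_congr
    refine Equiv.subtypeEquivRight fun y => ?_
    constructor
    · intro hy
      obtain ⟨c, rfl⟩ := isConj_iff.mp hy
      rw [← hx]
      have h3 := MulEquiv.orderOf_eq (MulAut.conj c) x
      simpa using h3
    · intro hy
      exact invol_conj hZ hab hodd' hx hy
  have hcent := card_class_mul_card_centralizer x
  have hcard := zass_card hZ hab
  rw [hclass, hcard, hh, he] at hcent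
  have hepos : 0 < e := hodd.pos
  have hc : Nat.card (Subgroup.centralizer ({x} : Set G)) = h := by
    have h5 : e * (h + 1) * Nat.card (Subgroup.centralizer ({x} : Set G)) = e * (h + 1) * h := by
      rw [hcent]
      simp
      ring
    exact Nat.eq_of_mul_eq_mul_left (by positivity) h5
  have hle : Subgroup.centralizer ({x} : Set G) ≤ H := by
    intro g hg
    have hgx : g * x = x * g := Subgroup.mem_centralizer_singleton_iff.mp hg
    have hga : g • a = a := by
      apply hHfix x hxH hx1
      rw [← mul_smul, ← hgx, mul_smul, hxa]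
    by_contra hgH
    obtain ⟨c, hc, hcf⟩ := zass_N_fix hZ hab hHa hHcard hHfix hga hgH
    have hg1 : g ≠ 1 := by
      rintro rfl
      exact hgH H.one_mem
    have hgxc : g • (x • c) = x • c := by
      rw [← mul_smul, hgx, mul_smul, hcf]
    have hxc1 : x • c ≠ a := by
      intro h7
      apply hc
      have h8 : x • c = x • a := by rw [h7, hxa]
      exact MulAction.injective _ h8
    have hxc2 : x • c = c := by
      by_contra h8
      exact hg1 (zass_three hZ (Ne.symm hc) (Ne.symm h8) (Ne.symm hxc1) hga hcf hgxc)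
    exact hc (hHfix x hxH hx1 c hxc2)
  have heq : Subgroup.centralizer ({x} : Set G) = H :=
    Subgroup.eq_of_le_of_card_ge hle (by rw [hHh, hc])
  intro y hy
  rw [← heq] at hy
  exact (Subgroup.mem_centralizer_singleton_iff.mp hy).symm

/-- S0883 -/
theorem zass_prod_inv [IsSimpleGroup G] (hZ : IsZassenhausGroup G Ω) (hab : a ≠ b) (h e : ℕ)
    (hh : Fintype.card Ω = h + 1) (he : Nat.card (stabilizer G a ⊓ stabilizer G b : Subgroup G) = e) (hodd : Odd e)
    (hHa : H ≤ stabilizer G a) (hHcard : Nat.card H + 1 = Fintype.card Ω)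
    (hHfix : ∀ u ∈ H, u ≠ 1 → ∀ c : Ω, u • c = c → c = a) {u x y : G} (hu : u ∈ H) (hu1 : u ≠ 1)
    (hx : orderOf x = 2) (hy : orderOf y = 2) (hxy : x * y = u) : orderOf u = 2 := by
  have hxx := inv_of_order_two hx
  have hyy := inv_of_order_two hy
  obtain ⟨h1, h2⟩ := prod_fix hHa hHfix hu hu1 hxx hyy hxy
  obtain ⟨h3, h4⟩ := zass_inv_central hZ hab h e hh he hodd hHa hHcard hHfix hx h1
  obtain ⟨h5, -⟩ := zass_inv_central hZ hab h e hh he hodd hHa hHcard hHfix hy h2
  have h6 := h4 y h5
  refine order_two_of ?_ hu1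
  rw [← hxy]
  calc x * y * (x * y) = x * (y * x) * y := by group
    _ = x * (x * y) * y := by rw [h6]
    _ = (x * x) * (y * y) := by group
    _ = 1 := by rw [hxx, hyy, one_mul]

end

end CfsgLib.Char
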