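import Mathlib
import Cfsg.Agent.Lib.Char.ZS4

/-!
# Classes avoiding the kernel in simple Zassenhaus groups
-/

set_option linter.unusedSectionVars false
set_option linter.style.haveILetI false
set_option linter.unusedSimpArgs false
set_option linter.unusedVariables false

namespace CfsgLib.Char

open Cfsg MulAction Finset

variable {G Ω : Type*} [Group G] [Finite G] [MulAction G Ω] [Fintype Ω]

open Classical in
/-- The number of involutions fixing a given point. -/
theorem card_inv_fix [Fintype G] [IsSimpleGroup G] (hZ : IsZassenhausGroup G Ω) {a b : Ω} (hab : a ≠ b) (h e : ℕ)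
    (hh : Fintype.card Ω = h + 1) (he : Nat.card (stabilizer G a ⊓ stabilizer G b : Subgroup G) = e) (hodd : Odd e)
    (hev : Even h) (p : Ω) : (univ.filter (fun t : G => orderOf t = 2 ∧ t • p = p)).card = e := by
  have hodd' : Odd (Nat.card (stabilizer G a ⊓ stabilizer G b : Subgroup G)) := he ▸ hodd
  have hn := zass_three_le_card hZ
  have heq : ∀ q : Ω, (univ.filter (fun t : G => orderOf t = 2 ∧ t • q = q)).card =
      (univ.filter (fun t : G => orderOf t = 2 ∧ t • p = p)).card := by
    intro q
    by_cases hpq : q = p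
    · rw [hpq]
    obtain ⟨t, ht1, -⟩ := zass_two (G := G) hZ (a := q) (b := p) (c := p) (d := q) hpq (Ne.symm hpq)
    apply Finset.card_bij (fun y _ => t * y * t⁻¹)
    · intro y hy
      simp only [Finset.mem_filter, Finset.mem_univ, true_and] at hy ⊢
      refine ⟨?_, ?_⟩
      · have h3 := MulEquiv.orderOf_eq (MulAut.conj t) y
        rw [← hy.1]
        simpa using h3
      · rw [← ht1, mul_smul, mul_smul, inv_smul_smul, hy.2]
    · intro y _ y' _ hyy
      exact mul_left_cancel (mul_right_cancel hyy)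
    · intro y hy
      simp only [Finset.mem_filter, Finset.mem_univ, true_and] at hy
      refine ⟨t⁻¹ * y * t, ?_, by group⟩
      simp only [Finset.mem_filter, Finset.mem_univ, true_and]
      refine ⟨?_, ?_⟩
      · have h3 := MulEquiv.orderOf_eq (MulAut.conj t⁻¹) y
        rw [← hy.1]
        simpa using h3
      · rw [mul_smul, mul_smul, ht1, hy.2, ← ht1, inv_smul_smul]
  have hsum : ∑ q : Ω, (univ.filter (fun t : G => orderOf t = 2 ∧ t • q = q)).card =
      (univ.filter (fun t : G => orderOf t = 2)).card := by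
    have h1 : ∀ q : Ω, (univ.filter (fun t : G => orderOf t = 2 ∧ t • q = q)).card =
        ∑ t ∈ univ.filter (fun t : G => orderOf t = 2), if t • q = q then 1 else 0 := by
      intro q
      rw [← Finset.card_filter, Finset.filter_filter]
    rw [Finset.sum_congr rfl (fun q _ => h1 q), Finset.sum_comm, Finset.card_eq_sum_ones]
    refine Finset.sum_congr rfl fun t ht => ?_
    have ht' := (Finset.mem_filter.mp ht).2
    have h2 := fixN_inv_le hZ hab hodd' ht'
    have h3 := fixN_parity (Ω := Ω) ht'
    rw [← Finset.card_filter]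
    have h4 : fixN t Ω = 1 := by
      obtain ⟨k, hk⟩ := hev
      have h5 : Fintype.card Ω % 2 = fixN t Ω % 2 := h3
      rw [hh] at h5
      omega
    exact h4
  have hcount := card_involutions hZ hab h e hh he hodd
  rw [if_pos hev, Nat.card_eq_fintype_card, Fintype.card_subtype] at hcount
  rw [Finset.sum_congr rfl (fun q _ => heq q), Finset.sum_const, Finset.card_univ, smul_eq_mul, hh, hcount] at hsum
  have h6 : (h + 1) * (univ.filter (fun t : G => orderOf t = 2 ∧ t • p = p)).card = (h + 1) * e := by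
    rw [hsum]
    ring
  exact Nat.eq_of_mul_eq_mul_left (Nat.succ_pos h) h6

open Classical in
/-- The involutions whose product with a given involution is conjugate into the kernel. -/
theorem card_bad [Fintype G] [IsSimpleGroup G] (hZ : IsZassenhausGroup G Ω) {a b : Ω} (hab : a ≠ b) (h e : ℕ)
    (hh : Fintype.card Ω = h + 1) (he : Nat.card (stabilizer G a ⊓ stabilizer G b : Subgroup G) = e) (hodd : Odd e)
    {H : Subgroup G} (hHa : H ≤ stabilizer G a) (hHfix : ∀ u ∈ H, u ≠ 1 → ∀ c : Ω, u • c = c → c = a)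
    {x : G} (hx : orderOf x = 2) :
    (univ.filter (fun y : G => orderOf y = 2 ∧ ∃ c : G, c * (x * y) * c⁻¹ ∈ H)).card ≤ if Even h then e else 1 := by
  have hodd' : Odd (Nat.card (stabilizer G a ⊓ stabilizer G b : Subgroup G)) := he ▸ hodd
  have hxx := inv_of_order_two hx
  have hkey : ∀ y : G, orderOf y = 2 → ∀ c : G, c * (x * y) * c⁻¹ ∈ H → y = x ∨ (x • (c⁻¹ • a) = c⁻¹ • a ∧ y • (c⁻¹ • a) = c⁻¹ • a) := by
    intro y hy c hc
    by_cases hu : c * (x * y) * c⁻¹ = 1
    · left
      have h1 : x * y = 1 := conj_eq_one_iff.mp hu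
      have h2 : y = x⁻¹ := eq_inv_of_mul_eq_one_right h1
      rw [h2]
      exact inv_eq_of_mul_eq_one_left hxx
    · right
      have hyy := inv_of_order_two hy
      have hx' : (c * x * c⁻¹) * (c * x * c⁻¹) = 1 := by
        calc (c * x * c⁻¹) * (c * x * c⁻¹) = c * (x * x) * c⁻¹ := by group
          _ = 1 := by rw [hxx]; group
      have hy' : (c * y * c⁻¹) * (c * y * c⁻¹) = 1 := by
        calc (c * y * c⁻¹) * (c * y * c⁻¹) = c * (y * y) * c⁻¹ := by group
          _ = 1 := by rw [hyy]; group
      have hprod : (c * x * c⁻¹) * (c * y * c⁻¹) = c * (x * y) * c⁻¹ := by group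
      obtain ⟨h1, h2⟩ := prod_fix hHa hHfix hc hu hx' hy' hprod
      refine ⟨?_, ?_⟩
      · have h3 : c • x • c⁻¹ • a = a := by simpa [mul_smul] using h1
        exact eq_inv_smul_iff.mpr h3
      · have h3 : c • y • c⁻¹ • a = a := by simpa [mul_smul] using h2
        exact eq_inv_smul_iff.mpr h3
  have hpar : Fintype.card Ω % 2 = fixN x Ω % 2 := fixN_parity hx
  have hle := fixN_inv_le hZ hab hodd' hx
  split_ifs with hev
  · -- `x` has a unique fixed point
    have h1 : fixN x Ω = 1 := by
      obtain ⟨k, hk⟩ := hev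
      rw [hh] at hpar
      omega
    obtain ⟨p, hp⟩ : ∃ p, p ∈ univ.filter (fun c : Ω => x • c = c) := by
      apply Finset.card_pos.mp
      rw [show (univ.filter (fun c : Ω => x • c = c)).card = fixN x Ω from rfl, h1]
      exact Nat.one_pos
    have hpf : x • p = p := (Finset.mem_filter.mp hp).2
    have huniq : ∀ q : Ω, x • q = q → q = p := by
      intro q hq
      have h2 : (univ.filter (fun c : Ω => x • c = c)).card = 1 := h1
      exact Finset.card_le_one.mp h2.le q (by simp [hq]) p hp
    rw [← card_inv_fix hZ hab h e hh he hodd hev p]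
    apply Finset.card_le_card
    intro y hy
    simp only [Finset.mem_filter, Finset.mem_univ, true_and] at hy ⊢
    obtain ⟨hy2, c, hc⟩ := hy
    refine ⟨hy2, ?_⟩
    rcases hkey y hy2 c hc with h3 | ⟨h3, h4⟩
    · rw [h3]
      exact hpf
    · rw [huniq _ h3] at h4
      exact h4
  · -- no involution fixes a point
    have hnofix : ∀ t : G, orderOf t = 2 → ∀ q : Ω, t • q ≠ q := by
      intro t ht q hq
      have h3 := fixN_inv_le hZ hab hodd' ht
      have h4 : Fintype.card Ω % 2 = fixN t Ω % 2 := fixN_parity ht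
      rw [Nat.not_even_iff_odd] at hev
      obtain ⟨k, hk⟩ := hev
      rw [hh] at h4
      have h5 : fixN t Ω = 0 := by omega
      have h6 : q ∈ univ.filter (fun c : Ω => t • c = c) := by simp [hq]
      have h7 : (univ.filter (fun c : Ω => t • c = c)).card = 0 := h5
      rw [Finset.card_eq_zero] at h7
      rw [h7] at h6
      exact absurd h6 (Finset.notMem_empty _)
    have hsub : univ.filter (fun y : G => orderOf y = 2 ∧ ∃ c : G, c * (x * y) * c⁻¹ ∈ H) ⊆ {x} := by
      intro y hy
      simp only [Finset.mem_filter, Finset.mem_univ, true_and] at hy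
      obtain ⟨hy2, c, hc⟩ := hy
      rcases hkey y hy2 c hc with h3 | ⟨h3, -⟩
      · simp [h3]
      · exact absurd h3 (hnofix x hx _)
    calc _ ≤ ({x} : Finset G).card := Finset.card_le_card hsub
      _ = 1 := Finset.card_singleton x

open Classical in
/-- The elements conjugating a fixed element to its inverse. -/
theorem card_R_le [Fintype G] (I : Finset G) (hI : ∀ t ∈ I, t * t = 1) (g : G) :
    (I.filter (fun x => x⁻¹ * g ∈ I)).card ≤ Nat.card (Subgroup.centralizer ({g} : Set G)) := by
  rcases (I.filter (fun x => x⁻¹ * g ∈ I)).eq_empty_or_nonempty with h0 | ⟨x₀, hx₀⟩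
  · rw [h0, Finset.card_empty]
    exact Nat.zero_le _
  have hprop : ∀ x ∈ I.filter (fun x => x⁻¹ * g ∈ I), x * g * x⁻¹ = g⁻¹ := by
    intro x hx
    obtain ⟨h1, h2⟩ := Finset.mem_filter.mp hx
    have hxx := hI x h1
    have hyy := hI _ h2
    have hxinv : x⁻¹ = x := inv_eq_of_mul_eq_one_left hxx
    rw [hxinv] at hyy
    rw [hxinv]
    have h3 : (x * g) * (x * g) = 1 := hyy
    calc x * g * x = (x * g * x * g) * g⁻¹ := by group
      _ = (x * g * (x * g)) * g⁻¹ := by group
      _ = g⁻¹ := by rw [h3, one_mul]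
  have h1 : Nat.card (Subgroup.centralizer ({g} : Set G)) = (univ.filter (fun c : G => c ∈ Subgroup.centralizer ({g} : Set G))).card := by
    rw [Nat.card_eq_fintype_card, Fintype.card_subtype]
  rw [h1]
  apply Finset.card_le_card_of_injOn (fun x => x₀⁻¹ * x)
  · intro x hx
    have hx' : x ∈ I.filter (fun x => x⁻¹ * g ∈ I) := hx
    simp only [Finset.coe_filter, Finset.mem_univ, true_and, Set.mem_ofPred_eq]
    rw [Subgroup.mem_centralizer_singleton_iff]
    have h2 := hprop x hx'
    have h3 := hprop x₀ hx₀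
    have h4 : x₀⁻¹ * g⁻¹ * x₀ = g := by
      rw [← h3]
      group
    have h5 : x₀⁻¹ * x * g = x₀⁻¹ * (x * g * x⁻¹) * x := by group
    rw [h5, h2]
    calc x₀⁻¹ * g⁻¹ * x = (x₀⁻¹ * g⁻¹ * x₀) * (x₀⁻¹ * x) := by group
      _ = g * (x₀⁻¹ * x) := by rw [h4]
  · intro x _ y _ hxy
    exact mul_left_cancel hxy

open Classical in
/-- The sum of centralizer orders over a union of conjugacy classes. -/
theorem sum_cent_classes [Fintype G] (H : Subgroup G) :
    ∑ g ∈ univ.filter (fun g : G => ∀ c : G, c * g * c⁻¹ ∉ H), Nat.card (Subgroup.centralizer ({g} : Set G)) =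
      Nat.card {C : ConjClasses G // ∀ g : G, ConjClasses.mk g = C → g ∉ H} * Nat.card G := by
  set W := univ.filter (fun g : G => ∀ c : G, c * g * c⁻¹ ∉ H) with hW
  set cF := univ.filter (fun C : ConjClasses G => ∀ g : G, ConjClasses.mk g = C → g ∉ H) with hcF
  have hm : Nat.card {C : ConjClasses G // ∀ g : G, ConjClasses.mk g = C → g ∉ H} = cF.card := by
    rw [Nat.card_eq_fintype_card, Fintype.card_subtype]
  have hmk : ∀ g g' : G, ConjClasses.mk g' = ConjClasses.mk g → ∃ c : G, c * g * c⁻¹ = g' := by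
    intro g g' h
    obtain ⟨c, hc⟩ := isConj_iff.mp (ConjClasses.mk_eq_mk_iff_isConj.mp h.symm)
    exact ⟨c, hc⟩
  have hmaps : ∀ g ∈ W, ConjClasses.mk g ∈ cF := by
    intro g hg
    have hg' := (Finset.mem_filter.mp hg).2
    refine Finset.mem_filter.mpr ⟨Finset.mem_univ _, fun g' h => ?_⟩
    obtain ⟨c, rfl⟩ := hmk g g' h
    exact hg' c
  rw [← Finset.sum_fiberwise_of_maps_to hmaps, hm, ← smul_eq_mul, ← Finset.sum_const]
  refine Finset.sum_congr rfl fun C hC => ?_
  have hC' := (Finset.mem_filter.mp hC).2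
  obtain ⟨g₀, rfl⟩ := ConjClasses.mk_surjective C
  set Fb := W.filter (fun g => ConjClasses.mk g = ConjClasses.mk g₀) with hFb
  have hmemFb : ∀ g : G, g ∈ Fb ↔ ConjClasses.mk g = ConjClasses.mk g₀ := by
    intro g
    constructor
    · intro h
      exact (Finset.mem_filter.mp h).2
    · intro h
      refine Finset.mem_filter.mpr ⟨Finset.mem_filter.mpr ⟨Finset.mem_univ _, fun c => ?_⟩, h⟩
      apply hC'
      rw [← h]
      exact ConjClasses.mk_eq_mk_iff_isConj.mpr (isConj_iff.mpr ⟨c⁻¹, by group⟩)
  have hcl : ∀ g ∈ Fb, Fb.card * Nat.card (Subgroup.centralizer ({g} : Set G)) = Nat.card G := by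
    intro g hg
    have h1 := card_class_mul_card_centralizer g
    have h2 : Nat.card {y // IsConj g y} = Fb.card := by
      rw [Nat.card_eq_fintype_card, Fintype.card_subtype]
      congr 1
      ext y
      simp only [Finset.mem_filter, Finset.mem_univ, true_and]
      rw [hmemFb, ← (hmemFb g).mp hg]
      constructor
      · intro h
        exact (ConjClasses.mk_eq_mk_iff_isConj.mpr h).symm
      · intro h
        exact ConjClasses.mk_eq_mk_iff_isConj.mp h.symm
    rw [h2] at h1
    exact h1
  have hpos : 0 < Fb.card := Finset.card_pos.mpr ⟨g₀, (hmemFb g₀).mpr rfl⟩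
  apply Nat.eq_of_mul_eq_mul_left hpos
  rw [Finset.mul_sum, Finset.sum_congr rfl hcl, Finset.sum_const, smul_eq_mul]

/-- S0884 -/
theorem zass_classes [IsSimpleGroup G] (hZ : IsZassenhausGroup G Ω) {a b : Ω} (hab : a ≠ b) (h e : ℕ)
    (hh : Fintype.card Ω = h + 1) (he : Nat.card (stabilizer G a ⊓ stabilizer G b : Subgroup G) = e) (hodd : Odd e)
    (hlt : 2 * e < h - 1) {H : Subgroup G} (hHa : H ≤ stabilizer G a) 
    (hHfix : ∀ u ∈ H, u ≠ 1 → ∀ c : Ω, u • c = c → c = a) :
    e ≤ Nat.card {C : ConjClasses G // ∀ g : G, ConjClasses.mk g = C → g ∉ H} := by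
  classical
  letI : Fintype G := Fintype.ofFinite G
  set I := univ.filter (fun t : G => orderOf t = 2) with hIdef
  set W := univ.filter (fun g : G => ∀ c : G, c * g * c⁻¹ ∉ H) with hW
  set m := Nat.card {C : ConjClasses G // ∀ g : G, ConjClasses.mk g = C → g ∉ H} with hm
  have hIinv : ∀ t ∈ I, t * t = 1 := fun t ht => inv_of_order_two (Finset.mem_filter.mp ht).2
  have hupper : ∑ x ∈ I, (I.filter (fun y => ∀ c : G, c * (x * y) * c⁻¹ ∉ H)).card ≤ m * Nat.card G := by
    rw [hm, ← sum_cent_classes H]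
    have h1 : ∀ x ∈ I, (I.filter (fun y => ∀ c : G, c * (x * y) * c⁻¹ ∉ H)).card =
        ∑ g ∈ W, if x⁻¹ * g ∈ I then 1 else 0 := by
      intro x _
      rw [← Finset.card_filter]
      apply Finset.card_bij (fun y _ => x * y)
      · intro y hy
        obtain ⟨h2, h3⟩ := Finset.mem_filter.mp hy
        refine Finset.mem_filter.mpr ⟨Finset.mem_filter.mpr ⟨Finset.mem_univ _, h3⟩, ?_⟩
        simpa using h2
      · intro y _ y' _ hyy
        exact mul_left_cancel hyy
      · intro g hg
        obtain ⟨h2, h3⟩ := Finset.mem_filter.mp hg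
        refine ⟨x⁻¹ * g, Finset.mem_filter.mpr ⟨h3, ?_⟩, by group⟩
        have h4 := (Finset.mem_filter.mp h2).2
        intro c
        have h5 : x * (x⁻¹ * g) = g := by group
        rw [h5]
        exact h4 c
    rw [Finset.sum_congr rfl h1, Finset.sum_comm]
    refine Finset.sum_le_sum fun g _ => ?_
    rw [← Finset.card_filter]
    exact card_R_le I hIinv g
  have hcount := card_involutions hZ hab h e hh he hodd
  rw [Nat.card_eq_fintype_card, Fintype.card_subtype, ← hIdef] at hcount
  have hlower : I.card * I.card ≤ ∑ x ∈ I, (I.filter (fun y => ∀ c : G, c * (x * y) * c⁻¹ ∉ H)).card +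
      I.card * (if Even h then e else 1) := by
    have h1 : ∀ x ∈ I, I.card ≤ (I.filter (fun y => ∀ c : G, c * (x * y) * c⁻¹ ∉ H)).card + (if Even h then e else 1) := by
      intro x hx
      have h2 := card_bad hZ hab h e hh he hodd hHa hHfix (Finset.mem_filter.mp hx).2
      have h3 : (I.filter (fun y => ¬ ∀ c : G, c * (x * y) * c⁻¹ ∉ H)).card ≤ if Even h then e else 1 := by
        refine le_trans (Finset.card_le_card ?_) h2
        intro y hy
        obtain ⟨h4, h5⟩ := Finset.mem_filter.mp hy
        push Not at h5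
        exact Finset.mem_filter.mpr ⟨Finset.mem_univ _, (Finset.mem_filter.mp h4).2, h5⟩
      have h6 := Finset.card_filter_add_card_filter_not (s := I) (fun y => ∀ c : G, c * (x * y) * c⁻¹ ∉ H)
      omega
    calc I.card * I.card = ∑ x ∈ I, I.card := by rw [Finset.sum_const, smul_eq_mul]
      _ ≤ ∑ x ∈ I, ((I.filter (fun y => ∀ c : G, c * (x * y) * c⁻¹ ∉ H)).card + (if Even h then e else 1)) :=
          Finset.sum_le_sum h1
      _ = _ := by rw [Finset.sum_add_distrib, Finset.sum_const, smul_eq_mul]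
  have hcard := zass_card hZ hab
  rw [hh, he] at hcard
  simp only [Nat.add_sub_cancel] at hcard
  have hepos : 0 < e := hodd.pos
  have hh3 : 2 ≤ h := by omega
  split_ifs at hlower hcount with hev
  · rw [hcount] at hlower
    rw [hcard] at hupper
    by_contra hlt'
    push Not at hlt'
    have h1 : m + 1 ≤ e := hlt'
    have h2 : (e * (h + 1)) * (e * (h + 1)) ≤ m * ((h + 1) * h * e) + (e * (h + 1)) * e := le_trans hlower (Nat.add_le_add_right hupper _)
    have h3 : (m + 1) * ((h + 1) * h * e) ≤ e * ((h + 1) * h * e) := Nat.mul_le_mul_right _ h1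
    have h4 : 0 < (h + 1) * h * e := by positivity
    nlinarith
  · rw [hcount] at hlower
    rw [hcard] at hupper
    by_contra hlt'
    push Not at hlt'
    have h1 : m + 1 ≤ e := hlt'
    have h2 : (e * h) * (e * h) ≤ m * ((h + 1) * h * e) + (e * h) * 1 := le_trans hlower (Nat.add_le_add_right hupper _)
    have h5 : (e * h) * (e * h) ≤ (e * h) * (m * (h + 1) + 1) := by
      calc _ ≤ _ := h2
        _ = _ := by ring
    have h6 : e * h ≤ m * (h + 1) + 1 := Nat.le_of_mul_le_mul_left h5 (by positivity)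
    have h7 : m * (h + 1) + (h + 1) ≤ e * (h + 1) := by
      calc m * (h + 1) + (h + 1) = (m + 1) * (h + 1) := by ring
        _ ≤ _ := Nat.mul_le_mul_right _ h1
    have h8 : 2 * e + 2 ≤ h := by omega
    nlinarith

end CfsgLib.Char
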